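/-
Cyclic subspaces; `SU₄(q)` is the union of the conjugates of two proper subgroups.
-/
import Cfsg.Agent.Known.Cov1
import Cfsg.Agent.Cls.UniMaxDec
import Cfsg.Agent.Known.UniClass2

set_option autoImplicit false

open Polynomial Module

namespace CL.Cov

open CL.Uni

section Cyc

variable {F V : Type*} [Field F] [AddCommGroup V] [Module F V]

/-- Evaluation of a polynomial in `g` at `u`. -/
noncomputable def evAt (g : End F V) (u : V) : F[X] →ₗ[F] V := LinearMap.applyₗ u ∘ₗ (aeval g).toLinearMap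

theorem evAt_apply (g : End F V) (u : V) (r : F[X]) : evAt g u r = aeval g r u := rfl

/-- The cyclic subspace generated by `u`. -/
noncomputable def cyc (g : End F V) (u : V) : Submodule F V := LinearMap.range (evAt g u)

theorem mem_cyc {g : End F V} {u x : V} : x ∈ cyc g u ↔ ∃ r : F[X], aeval g r u = x := Iff.rfl

theorem self_mem_cyc (g : End F V) (u : V) : u ∈ cyc g u := ⟨1, by simp [evAt_apply]⟩

theorem aeval_mul_apply (g : End F V) (r s : F[X]) (u : V) : aeval g (r * s) u = aeval g r (aeval g s u) := by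
  rw [map_mul, Module.End.mul_apply]

theorem aeval_comm_apply (g : End F V) (r s : F[X]) (u : V) :
    aeval g r (aeval g s u) = aeval g s (aeval g r u) := by
  rw [← aeval_mul_apply, mul_comm, aeval_mul_apply]

theorem aeval_mem_cyc {g : End F V} {u x : V} (hx : x ∈ cyc g u) (r : F[X]) : aeval g r x ∈ cyc g u := by
  obtain ⟨s, rfl⟩ := mem_cyc.1 hx
  exact ⟨r * s, aeval_mul_apply g r s u⟩

theorem apply_mem_cyc {g : End F V} {u x : V} (hx : x ∈ cyc g u) : g x ∈ cyc g u := by
  simpa using aeval_mem_cyc hx X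

theorem aeval_mem {g : End F V} {W : Submodule F V} (hW : ∀ w ∈ W, g w ∈ W) {x : V} (hx : x ∈ W) (r : F[X]) :
    aeval g r x ∈ W := aeval_apply_smul_mem_of_le_comap hx r g hW

theorem cyc_le {g : End F V} {W : Submodule F V} (hW : ∀ w ∈ W, g w ∈ W) {u : V} (hu : u ∈ W) : cyc g u ≤ W := by
  rintro _ ⟨r, rfl⟩
  exact aeval_mem hW hu r

theorem exists_psi {g : End F V} {u : V} {P : F[X]} (hu : aeval g P u = 0) :
    ∃ ψ : AdjoinRoot P →ₗ[F] V, ∀ r, ψ (AdjoinRoot.mk P r) = aeval g r u :=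
  ⟨((Ideal.span {P}).restrictScalars F).liftQ (evAt g u) (fun a ha => by
    obtain ⟨b, rfl⟩ := Ideal.mem_span_singleton'.1 ha
    rw [LinearMap.mem_ker, evAt_apply, aeval_mul_apply, hu, map_zero]) ∘ₗ
    (Submodule.Quotient.restrictScalarsEquiv F (Ideal.span {P})).symm.toLinearMap, fun _ => rfl⟩

theorem finrank_cyc_of {g : End F V} {u : V} {P : F[X]} (h : ∀ r, aeval g r u = 0 ↔ P ∣ r) :
    finrank F (cyc g u) = P.natDegree := by
  obtain ⟨ψ, hψ⟩ := exists_psi ((h P).2 dvd_rfl)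
  have h1 : LinearMap.range ψ = cyc g u := by
    ext x
    constructor
    · rintro ⟨k, rfl⟩
      obtain ⟨r, rfl⟩ := AdjoinRoot.mk_surjective k
      exact ⟨r, (hψ r).symm⟩
    · rintro ⟨r, rfl⟩
      exact ⟨_, hψ r⟩
  have h2 : Function.Injective ψ := (injective_iff_map_eq_zero ψ).2 fun k hk => by
    obtain ⟨r, rfl⟩ := AdjoinRoot.mk_surjective k
    exact AdjoinRoot.mk_eq_zero.2 ((h r).1 ((hψ r).symm.trans hk))
  rw [← h1, LinearMap.finrank_range_of_inj h2, CL.GLn.finrank_adjoinRoot]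

theorem eq_zero_of_isCoprime {g : End F V} {u : V} {P Q : F[X]} (h : IsCoprime P Q) (hP : aeval g P u = 0)
    (hQ : aeval g Q u = 0) : u = 0 := by
  obtain ⟨a, b, e⟩ := h
  have := congrArg (fun r => aeval g r u) e
  simpa only [map_add, LinearMap.add_apply, aeval_mul_apply, hP, hQ, map_zero, add_zero, map_one,
    Module.End.one_apply, eq_comm] using this

theorem finrank_cyc {g : End F V} {u : V} {P : F[X]} (hP : Irreducible P) (h0 : u ≠ 0) (hu : aeval g P u = 0) :
    finrank F (cyc g u) = P.natDegree :=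
  finrank_cyc_of fun r => ⟨fun hr => by
    by_contra h
    exact h0 (eq_zero_of_isCoprime (hP.coprime_iff_not_dvd.2 h) hu hr), fun ⟨s, e⟩ => by
    rw [e, mul_comm, aeval_mul_apply, hu, map_zero]⟩

/-- An irreducible section of a pair of invariant subspaces. -/
theorem exists_irreducible_mod {g : End F V} {A C : Submodule F V} (hC : ∀ w ∈ C, g w ∈ C) {χ : F[X]}
    (h0 : χ ≠ 0) : ∀ w ∈ C, w ∉ A → aeval g χ w ∈ A →
      ∃ P : F[X], Irreducible P ∧ P ∣ χ ∧ ∃ u ∈ C, u ∉ A ∧ aeval g P u ∈ A := by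
  induction χ using WfDvdMonoid.induction_on_irreducible with
  | zero => exact (h0 rfl).elim
  | unit c hc =>
    intro w _ hw h
    obtain ⟨a, ha, rfl⟩ := Polynomial.isUnit_iff.1 hc
    rw [aeval_C, Module.algebraMap_end_apply, A.smul_mem_iff ha.ne_zero] at h
    exact (hw h).elim
  | mul a i ha hi ih =>
    intro w hwC hw h
    by_cases h1 : aeval g a w ∈ A
    · obtain ⟨P, hP, hPa, hu⟩ := ih ha w hwC hw h1
      exact ⟨P, hP, hPa.mul_left i, hu⟩
    · exact ⟨i, hi, dvd_mul_right i a, _, aeval_mem hC hwC a, h1, by rwa [← aeval_mul_apply]⟩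

theorem exists_eq_of_natDegree_one {g : End F V} {P : F[X]} (hP : P.natDegree = 1) :
    ∃ a c : F, a ≠ 0 ∧ P.IsRoot c ∧ ∀ u, aeval g P u = a • (g u - c • u) := by
  obtain ⟨a, ha, b, rfl⟩ := natDegree_eq_one.1 hP
  refine ⟨a, -b / a, ha, by simp; field_simp; ring, fun u => ?_⟩
  simp only [map_add, map_mul, aeval_C, aeval_X, LinearMap.add_apply, Module.End.mul_apply,
    Module.algebraMap_end_apply, smul_sub, smul_smul]
  rw [mul_div_cancel₀ _ ha, neg_smul, sub_neg_eq_add]

theorem aeval_of_eigen {g : End F V} {v : V} {c : F} (h : g v = c • v) (P : F[X]) :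
    aeval g P v = P.eval c • v := by
  rcases eq_or_ne v 0 with rfl | hv
  · simp
  · exact Module.End.aeval_apply_of_hasEigenvector ⟨Module.End.mem_eigenspace_iff.2 h, hv⟩

end Cyc

section Odd

variable {F : Type*} [Field F] {q : ℕ} {σ : F →+* F} {V : Type*} [AddCommGroup V] [Module F V]
  {B : V →ₛₗ[σ] V →ₗ[F] F}

theorem UG_aeval {g : V ≃ₗ[F] V} (hg : g ∈ UG B) (s : F[X]) (u v : V) :
    B (aeval (g : End F V) s u) v = B u (aeval ((g⁻¹ : V ≃ₗ[F] V) : End F V) (s.map σ) v) := by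
  induction s using Polynomial.induction_on generalizing u v with
  | C a => simp [Module.algebraMap_end_apply]
  | add p r hp hr => simp only [map_add, Polynomial.map_add, LinearMap.add_apply, hp, hr]
  | monomial n a h =>
    rw [pow_succ, ← mul_assoc, aeval_mul_apply, h, aeval_X, Polynomial.map_mul σ (p := C a * X ^ n), mul_comm _ (map σ X),
      aeval_mul_apply, Polynomial.map_X, aeval_X]
    exact UG_apply_left hg _ _

theorem odd_of_root (h : IsBar σ q) {P : F[X]} [hP' : Fact (Irreducible P)]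
    (h1 : aeval (AdjoinRoot.root P)⁻¹ (P.map σ) = 0) : Odd P.natDegree := by
  haveI := h.finite
  letI := Fintype.ofFinite F
  have hP := hP'.out
  haveI : Module.Finite F (AdjoinRoot P) := CL.GLn.finite_adjoinRoot hP.ne_zero
  haveI : Finite (AdjoinRoot P) := Module.finite_of_finite F
  obtain ⟨p, f, hp, hc, -, rfl⟩ := h.exists_prime_pow
  haveI : Fact p.Prime := ⟨hp⟩
  haveI : CharP (AdjoinRoot P) p := charP_of_injective_algebraMap (algebraMap F _).injective p
  have h2 : aeval ((AdjoinRoot.root P)⁻¹ ^ p ^ f) P = 0 := by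
    have := map_aeval_eq_aeval_map (φ := σ) (ψ := iterateFrobenius (AdjoinRoot P) p f)
      (RingHom.ext fun a => by simp [h.apply, iterateFrobenius_def]) (P.map σ) (AdjoinRoot.root P)⁻¹
    rw [h1, map_zero, Polynomial.map_map, show σ.comp σ = RingHom.id F from RingHom.ext h.bar_bar,
      Polynomial.map_id] at this
    exact this.symm
  let τ : AdjoinRoot P →ₐ[F] AdjoinRoot P := AdjoinRoot.liftAlgHom P (Algebra.ofId F _) _ h2
  have hτ : τ (AdjoinRoot.root P) = (AdjoinRoot.root P)⁻¹ ^ p ^ f := AdjoinRoot.liftAlgHom_root _ _ _ _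
  let τ' : AdjoinRoot P ≃ₐ[F] AdjoinRoot P := AlgEquiv.ofBijective τ τ.bijective
  have h3 : τ' ^ 2 = FiniteField.frobeniusAlgEquivOfAlgebraic F (AdjoinRoot P) := by
    apply AlgEquiv.coe_toAlgHom_injective
    apply AdjoinRoot.algHom_ext
    change τ (τ (AdjoinRoot.root P)) = AdjoinRoot.root P ^ Fintype.card F
    rw [hτ, map_pow, map_inv₀, hτ, h.fintype_card, inv_pow (AdjoinRoot.root P), inv_inv, ← pow_mul, sq]
  have h4 := FiniteField.orderOf_frobeniusAlgEquivOfAlgebraic F (AdjoinRoot P)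
  have h5 : τ' ^ P.natDegree = 1 := by
    rw [← CL.GLn.finrank_adjoinRoot, ← IsGalois.card_aut_eq_finrank]
    exact pow_card_eq_one'
  rw [CL.GLn.finrank_adjoinRoot, ← h3] at h4
  by_contra he
  obtain ⟨e, he⟩ := Nat.not_odd_iff_even.1 he
  have h6 : P.natDegree ∣ e := by
    rw [← h4, orderOf_dvd_iff_pow_eq_one, ← pow_mul, two_mul, ← he, h5]
  have h7 := hP.natDegree_pos
  have := Nat.le_of_dvd (by omega) h6
  omega

/-- An irreducible invariant subspace of even dimension is totally isotropic. -/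
theorem ti_of_even (h : IsBar σ q) {g : V ≃ₗ[F] V} (hg : g ∈ UG B) {P : F[X]} (hP : Irreducible P)
    (he : Even P.natDegree) {u : V} (hu : aeval (g : End F V) P u = 0) : cyc (g : End F V) u ≤ perp B (cyc g u) := by
  haveI : Fact (Irreducible P) := ⟨hP⟩
  obtain ⟨ψ, hψ⟩ := exists_psi hu
  have hx : AdjoinRoot.root P ≠ 0 := fun e => by
    have h1 := natDegree_le_of_dvd (AdjoinRoot.mk_eq_zero.1 (show AdjoinRoot.mk P X = 0 from e)) X_ne_zero
    have h2 := hP.natDegree_pos
    rw [natDegree_X] at h1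
    obtain ⟨e, he⟩ := he
    omega
  have h1 : ∀ k, g (ψ k) = ψ (AdjoinRoot.root P * k) := fun k => by
    obtain ⟨r, rfl⟩ := AdjoinRoot.mk_surjective k
    rw [← AdjoinRoot.mk_X, ← map_mul, hψ, hψ, aeval_mul_apply, aeval_X]
    rfl
  have h2 : ∀ k, g⁻¹ (ψ k) = ψ ((AdjoinRoot.root P)⁻¹ * k) := fun k => g.injective (by
    rw [h1, mul_inv_cancel_left₀ hx, CL.Sp.apply_inv_apply])
  have h3 : ∀ (s : F[X]) k, aeval ((g⁻¹ : V ≃ₗ[F] V) : End F V) s (ψ k) = ψ (aeval (AdjoinRoot.root P)⁻¹ s * k) := by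
    intro s
    induction s using Polynomial.induction_on with
    | C a => intro k; rw [aeval_C, aeval_C, Module.algebraMap_end_apply, ← Algebra.smul_def, map_smul]
    | add p r hp hr => intro k; simp only [map_add, LinearMap.add_apply, hp, hr, add_mul]
    | monomial n a ih =>
      intro k
      rw [pow_succ, ← mul_assoc, aeval_mul_apply, aeval_X, map_mul (aeval _) _ X, aeval_X, mul_assoc, ← ih]
      exact congrArg _ (h2 k)
  have h4 : ∀ k, B u (ψ k) = 0 := fun k => by
    have h5 : aeval (AdjoinRoot.root P)⁻¹ (P.map σ) ≠ 0 := fun e =>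
      Nat.not_odd_iff_even.2 he (odd_of_root h e)
    rw [← mul_inv_cancel_left₀ h5 k, ← h3, ← UG_aeval hg, hu, map_zero, LinearMap.zero_apply]
  rintro _ ⟨r, rfl⟩
  refine mem_perp.2 ?_
  rintro _ ⟨s, rfl⟩
  rw [evAt_apply, evAt_apply, UG_aeval hg, ← hψ, h3, h4]

end Odd

section SU

variable {F : Type*} [Field F] {q : ℕ} {σ : F →+* F} {V : Type*} [AddCommGroup V] [Module F V]
  {B : V →ₛₗ[σ] V →ₗ[F] F} [FiniteDimensional F V]

theorem SUG_cen (h : IsHerm B q) (hn : 2 ≤ finrank F V) {z : V ≃ₗ[F] V} (hz : z ∈ SUG B)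
    (hc : ∀ m ∈ SUG B, m * z = z * m) : ∃ a : F, ∀ v, z v = a • v :=
  (h.mem_center_SUG hn ⟨z, hz⟩).1 (Subgroup.mem_center_iff.2 fun m => Subtype.ext (hc m m.2))

theorem good_noniso (h : IsHerm B q) (hn : 3 ≤ finrank F V) :
    Good (SUG B) {H | ∃ v : V, B v v ≠ 0 ∧ H = stabSet F ((F ∙ v : Submodule F V) : Set V)} where
  proper := by
    rintro _ ⟨u, hu, rfl⟩ hle
    have hu0 : u ≠ 0 := fun e => hu (by simp [e])
    obtain ⟨g, hg, hg'⟩ := h.exists_SUG_notMem_stabSet (by omega) (W := F ∙ u) (by simpa using hu0) fun e => by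
      have := finrank_span_singleton (K := F) hu0
      rw [e, finrank_top] at this
      omega
    exact hg' (hle hg)
  cen := by
    rintro _ ⟨u, hu, rfl⟩ z hz hc
    obtain ⟨a, ha⟩ := SUG_cen h (by omega) hz hc
    exact smul_mem_stabSet ha
  conj := by
    rintro _ ⟨u, hu, rfl⟩ _ ⟨v, hv, rfl⟩
    obtain ⟨c, hc⟩ := h.exists_smul_self_eq hu (h.self_fixed v)
    have hcu : c • u ≠ 0 := fun e => hv (by rw [← hc, e]; simp)
    obtain ⟨k, hk, e⟩ := h.exists_mem_SUG_vec hn hcu (fun e => hv (by simp [e])) hc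
    refine ⟨k, hk, fun g hg => conj_mem_stabSet (map_span_singleton e) ?_⟩
    rwa [Submodule.span_singleton_smul_eq (IsUnit.mk0 _ (left_ne_zero_of_smul hcu)) u]

theorem good_ti (h : IsHerm B q) (hn : 3 ≤ finrank F V) :
    Good (SUG B) {H | ∃ W : Submodule F V, (finrank F W = 2 ∧ W ≤ perp B W) ∧ H = stabSet F (W : Set V)} where
  proper := by
    rintro _ ⟨W, ⟨hW, -⟩, rfl⟩ hle
    obtain ⟨g, hg, hg'⟩ := h.exists_SUG_notMem_stabSet (by omega) (W := W)
      (fun e => by rw [e, finrank_bot] at hW; omega) fun e => by rw [e, finrank_top] at hW; omega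
    exact hg' (hle hg)
  cen := by
    rintro _ ⟨W, -, rfl⟩ z hz hc
    obtain ⟨a, ha⟩ := SUG_cen h (by omega) hz hc
    exact smul_mem_stabSet ha
  conj := by
    rintro _ ⟨X, ⟨hX, hX'⟩, rfl⟩ _ ⟨Y, ⟨hY, hY'⟩, rfl⟩
    haveI : Nontrivial V := nontrivial_of_finrank_pos (R := F) (by omega)
    obtain ⟨k, hk, -, e⟩ := h.witt.exists_isometry_map_of_singular X Y
      (fun x hx => by simpa using hX' hx x hx) (fun x hx => by simpa using hY' hx x hx)
      (fun x hx y hy => hX' hy x hx) (fun x hx y hy => hY' hy x hx) (hX.trans hY.symm)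
    obtain ⟨l, ⟨hl, hl'⟩, e'⟩ := h.exists_stab_dt_eq hY' (a := (dt k)⁻¹)
      (by rw [map_inv₀, ← mul_inv, h.dt_norm hk, inv_one])
    refine ⟨l * k, mem_SUG.2 ⟨(UG B).mul_mem hl' hk, by rw [map_mul, e', inv_mul_cancel₀ (dt_ne_zero k)]⟩,
      fun g hg => conj_mem_stabSet ?_ hg⟩
    rw [← mem_stabSet_iff_map.1 hl, ← e, ← Submodule.map_comp]
    rfl

theorem inv_perp {g : V ≃ₗ[F] V} (hg : g ∈ UG B) {W : Submodule F V} (hW : ∀ w ∈ W, g w ∈ W) :
    ∀ w ∈ perp B W, g w ∈ perp B W := CL.Known.orthogonal_invariant B g hg W hW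

omit [FiniteDimensional F V] in
theorem inv_span {g : End F V} {v : V} {c : F} (h : g v = c • v) : ∀ w ∈ F ∙ v, g w ∈ F ∙ v := fun w hw => by
  obtain ⟨a, rfl⟩ := Submodule.mem_span_singleton.1 hw
  rw [map_smul, h]
  exact Submodule.smul_mem _ _ (Submodule.smul_mem _ _ (Submodule.mem_span_singleton_self v))

theorem exists_notMem_of_lt {A C : Submodule F V} (h : finrank F A < finrank F C) : ∃ w ∈ C, w ∉ A := by
  by_contra! h1
  exact absurd (Submodule.finrank_mono (show C ≤ A from h1)) (by omega)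

/-- An eigenvector of `g` on `C / A`, when the characteristic polynomial splits. -/
theorem exists_eigen_mod {g : End F V} (hs : ∀ P : F[X], Irreducible P → P ∣ g.charpoly → P.natDegree = 1)
    {A C : Submodule F V} (hC : ∀ w ∈ C, g w ∈ C) (h : finrank F A < finrank F C) :
    ∃ u ∈ C, u ∉ A ∧ ∃ c : F, g u - c • u ∈ A := by
  obtain ⟨w, hw, hw'⟩ := exists_notMem_of_lt h
  obtain ⟨P, hP, hd, u, hu, hu', e⟩ := exists_irreducible_mod hC g.charpoly_monic.ne_zero w hw hw'
    (by rw [g.aeval_self_charpoly]; exact A.zero_mem)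
  obtain ⟨a, c, ha, -, hc⟩ := exists_eq_of_natDegree_one (g := g) (hs P hP hd)
  rw [hc, A.smul_mem_iff ha] at e
  exact ⟨u, hu, hu', c, e⟩

theorem exists_killed {g : End F V} {P : F[X]} (hP : Irreducible P) (hd : P ∣ g.charpoly) :
    ∃ u, u ≠ 0 ∧ aeval g P u = 0 := by
  by_contra! h
  have h1 : IsUnit (aeval g P) := (LinearMap.isUnit_iff_ker_eq_bot _).2
    (LinearMap.ker_eq_bot'.2 fun u hu => by_contra fun h0 => h u h0 hu)
  have h2 : IsCoprime P (minpoly F g) := hP.coprime_iff_not_dvd.2 fun ⟨r, e⟩ => by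
    have h3 : aeval g r = 0 := by
      have := minpoly.aeval F g
      rw [e, map_mul] at this
      exact h1.mul_right_eq_zero.1 this
    have h4 : minpoly F g ≠ 0 := minpoly.ne_zero (IsIntegral.of_finite F g)
    have h5 := natDegree_le_of_dvd (minpoly.dvd F g h3) (right_ne_zero_of_mul (e ▸ h4))
    rw [e, natDegree_mul hP.ne_zero (right_ne_zero_of_mul (e ▸ h4))] at h5
    have := hP.natDegree_pos
    omega
  obtain ⟨s, hs⟩ := CL.GLn.exists_hasED g
  rw [hs.charpoly_eq] at hd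
  obtain ⟨Q, hQ, hPQ⟩ := hP.prime.exists_mem_multiset_dvd hd
  exact hP.not_isUnit (h2.isUnit_of_dvd' dvd_rfl
    (hPQ.trans ((hs.aeval_eq_zero_iff _).1 (minpoly.aeval F g) Q hQ)))

/-- The step of the flag argument for a unitary map all of whose eigenvectors are isotropic. -/
theorem step_eigen (h : IsHerm B q) {g : V ≃ₗ[F] V}
    (hs : ∀ P : F[X], Irreducible P → P ∣ (g : End F V).charpoly → P.natDegree = 1)
    (hi : ∀ v (c : F), g v = c • v → B v v = 0) {v : V} (hv : v ≠ 0) {α : F} (hα : g v = α • v)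
    {C : Submodule F V} (hC : ∀ w ∈ C, g w ∈ C) (hCv : ∀ w ∈ C, B v w = 0) (h2 : 2 ≤ finrank F C) :
    ∃ u ∈ C, u ∉ F ∙ v ∧ ∃ c a : F, g u = c • u + a • v ∧ (B u u = 0 ∨ c = α) := by
  obtain ⟨u, hu, hu', c, e⟩ := exists_eigen_mod hs (A := F ∙ v) hC (by rw [finrank_span_singleton hv]; omega)
  obtain ⟨a, ha⟩ := Submodule.mem_span_singleton.1 e
  have e1 : g u = c • u + a • v := by rw [ha]; simp
  refine ⟨u, hu, hu', c, a, e1, ?_⟩
  by_cases hc : c = α
  · exact Or.inr hc
  · left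
    have h3 := hi (u + (a / (c - α)) • v) c (by
      have : c - α ≠ 0 := sub_ne_zero.2 hc
      rw [map_add, map_smul, e1, hα]
      match_scalars
      · ring
      · field_simp
        ring)
    simpa [hCv u hu, h.flip_zero (hCv u hu), hi v α hα] using h3

omit [FiniteDimensional F V] in
theorem ti_pair (h : IsHerm B q) {u v : V} (hv : v ≠ 0) (hu : u ∉ F ∙ v) (h1 : B v v = 0) (h2 : B v u = 0)
    (h3 : B u u = 0) : finrank F (Submodule.span F {v, u}) = 2 ∧
      Submodule.span F {v, u} ≤ perp B (Submodule.span F {v, u}) := by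
  constructor
  · have hl : LinearIndependent F ![v, u] := by
      rw [LinearIndependent.pair_iff' hv]
      exact fun a e => hu (Submodule.mem_span_singleton.2 ⟨a, e⟩)
    have := finrank_span_eq_card hl
    rwa [Matrix.range_cons, Matrix.range_cons, Matrix.range_empty, Set.union_empty, Set.singleton_union,
      Fintype.card_fin] at this
  · rw [Submodule.span_le]
    rintro x (rfl | rfl) <;> refine mem_perp_span.2 ?_ <;> rintro y (rfl | rfl)
    exacts [h1, h.flip_zero h2, h2, h3]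

omit [FiniteDimensional F V] in
theorem inv_pair {g : V ≃ₗ[F] V} {u v : V} {α c a : F} (hv : g v = α • v) (hu : g u = c • u + a • v) :
    ∀ w ∈ Submodule.span F {v, u}, g w ∈ Submodule.span F {v, u} := fun w hw => by
  obtain ⟨x, y, rfl⟩ := Submodule.mem_span_pair.1 hw
  exact Submodule.mem_span_pair.2 ⟨x * α + y * a, y * c, by rw [map_add, map_smul, map_smul, hv, hu]; module⟩

/-- If the characteristic polynomial has an irreducible factor of degree `n - 1 ≥ 2`, there is a non-isotropic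
eigenvector. -/
theorem exists_noniso_of_factor (h : IsHerm B q) {g : V ≃ₗ[F] V} (hg : g ∈ UG B) {P : F[X]} (hP : Irreducible P)
    (hd : P ∣ (g : End F V).charpoly) (h1 : P.natDegree + 1 = finrank F V) (h2 : 2 ≤ P.natDegree) :
    ∃ v, ∃ c : F, g v = c • v ∧ B v v ≠ 0 := by
  obtain ⟨w, hw, hw'⟩ := exists_killed hP hd
  have h3 := finrank_cyc hP hw hw'
  have h4 := h.finrank_add_finrank_perp (cyc (g : End F V) w)
  obtain ⟨v, hv, hv'⟩ := finrank_eq_one_iff'.1 (show finrank F (perp B (cyc (g : End F V) w)) = 1 by omega)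
  obtain ⟨c, hc⟩ := hv' ⟨g v, inv_perp hg (fun x hx => apply_mem_cyc hx) _ v.2⟩
  have hc' : g v = c • (v : V) := (congrArg Subtype.val hc).symm
  refine ⟨v, c, hc', fun h0 => ?_⟩
  have h5 : (v : V) ∈ cyc (g : End F V) w := by
    refine (h.perp_perp (cyc (g : End F V) w)).le (mem_perp.2 fun x hx => ?_)
    obtain ⟨a, ha⟩ := hv' ⟨x, hx⟩
    rw [← show a • (v : V) = x from congrArg Subtype.val ha]
    simp [h0]
  obtain ⟨r, hr⟩ := mem_cyc.1 h5
  have h6 : aeval (g : End F V) P v = 0 := by rw [← hr, aeval_comm_apply, hw', map_zero]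
  rw [aeval_of_eigen hc', smul_eq_zero] at h6
  exact h6.elim (not_isRoot_of_irreducible hP h2 c) fun e => hv (Subtype.ext e)

theorem cover_SU4 (h : IsHerm B q) (hn : finrank F V = 4) {g : V ≃ₗ[F] V} (hg : g ∈ UG B) :
    (∃ H ∈ {H | ∃ v : V, B v v ≠ 0 ∧ H = stabSet F ((F ∙ v : Submodule F V) : Set V)}, g ∈ H) ∨
      ∃ H ∈ {H | ∃ W : Submodule F V, (finrank F W = 2 ∧ W ≤ perp B W) ∧ H = stabSet F (W : Set V)}, g ∈ H := by
  by_cases hi : ∃ v, ∃ c : F, g v = c • v ∧ B v v ≠ 0
  · obtain ⟨v, c, h1, h2⟩ := hi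
    exact Or.inl ⟨_, ⟨v, h2, rfl⟩, mem_stabSet_span h1⟩
  right
  by_cases he : ∃ P : F[X], Irreducible P ∧ P ∣ (g : End F V).charpoly ∧ Even P.natDegree
  · obtain ⟨P, hP, hd, he⟩ := he
    obtain ⟨w, hw, hw'⟩ := exists_killed hP hd
    have h1 := ti_of_even h.bar hg hP he hw'
    have h2 := finrank_cyc hP hw hw'
    have h3 := h.finrank_add_finrank_perp (cyc (g : End F V) w)
    have h4 := Submodule.finrank_mono h1
    have h5 := hP.natDegree_pos
    obtain ⟨e, he⟩ := he
    exact ⟨_, ⟨_, ⟨by omega, h1⟩, rfl⟩, mem_stabSet_of_forall fun x hx => apply_mem_cyc hx⟩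
  have hs : ∀ P : F[X], Irreducible P → P ∣ (g : End F V).charpoly → P.natDegree = 1 := fun P hP hd => by
    have h1 := natDegree_le_of_dvd hd (g : End F V).charpoly_monic.ne_zero
    rw [LinearMap.charpoly_natDegree, hn] at h1
    obtain ⟨e, h2⟩ : Odd P.natDegree := Nat.not_even_iff_odd.1 fun e => he ⟨P, hP, hd, e⟩
    by_contra h3
    exact hi (exists_noniso_of_factor h hg hP hd (by omega) (by omega))
  push Not at hi
  obtain ⟨v, -, hv, α, hα⟩ := exists_eigen_mod hs (A := ⊥) (C := ⊤) (fun _ _ => trivial) (by simp [hn])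
  rw [Submodule.mem_bot] at hv hα
  replace hα : g v = α • v := sub_eq_zero.1 hα
  have hvv := hi v α hα
  have fin : ∀ u (c a : F), u ∉ F ∙ v → B v u = 0 → B u u = 0 → g u = c • u + a • v →
      ∃ H ∈ {H | ∃ W : Submodule F V, (finrank F W = 2 ∧ W ≤ perp B W) ∧ H = stabSet F (W : Set V)}, g ∈ H :=
    fun u c a h1 h2 h3 h4 => ⟨_, ⟨_, ti_pair h hv h1 hvv h2 h3, rfl⟩, mem_stabSet_of_forall (inv_pair hα h4)⟩
  have h1 := h.finrank_perp_singleton hv
  obtain ⟨u, hu, hu', c, a, e, hc⟩ := step_eigen h hs hi hv hα (inv_perp hg (inv_span (g := (g : End F V)) hα))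
    (fun w hw => mem_perp_singleton.1 hw) (by omega)
  replace hu := mem_perp_singleton.1 hu
  by_cases huu : B u u = 0
  · exact fin u c a hu' hu huu e
  obtain rfl := hc.resolve_left huu
  have h2 := h.finrank_add_finrank_perp (Submodule.span F {v, u})
  have h3 : finrank F (Submodule.span F {v, u}) ≤ 2 := by
    classical
    refine (finrank_span_le_card _).trans ?_
    rw [Set.toFinset_insert, Set.toFinset_singleton]
    exact Finset.card_le_two
  obtain ⟨w, hw, hw', d, b, e', hd⟩ := step_eigen h hs hi hv hα (inv_perp hg (inv_pair hα e))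
    (fun w hw => mem_perp_span.1 hw v (by simp)) (by omega)
  have hvw : B v w = 0 := mem_perp_span.1 hw v (by simp)
  have huw : B u w = 0 := mem_perp_span.1 hw u (by simp)
  by_cases hww : B w w = 0
  · exact fin w d b hw' hvw hww e'
  obtain rfl := hd.resolve_left hww
  obtain ⟨x, hx⟩ := h.exists_smul_self_eq huu (a := -B w w) (by rw [map_neg, h.self_fixed])
  refine fin (w + x • u) d (b + x * a) (fun hm => hww ?_) (by simp [hu, hvw]) ?_ ?_
  · obtain ⟨y, hy⟩ := Submodule.mem_span_singleton.1 hm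
    have := congrArg (B w) hy
    simpa [h.flip_zero hvw, h.flip_zero huw] using this.symm
  · have h4 : B w (x • u) = 0 := by simp [h.flip_zero huw]
    rw [map_add, map_add, LinearMap.add_apply, LinearMap.add_apply, hx, h4, h.flip_zero h4]
    ring
  · rw [map_add, map_smul, e, e']
    module

theorem isCov_PSU4 (F : Type*) [Field F] [Fintype F] {q : ℕ} (hF : Fintype.card F = q ^ 2) :
    IsCov (Cfsg.PSU 4 F q) :=
  have h := isHerm_stdB (isBar_bar hF) (Fin 4)
  cov_quot_of_good (suEquiv (isBar_bar hF) 4) (good_noniso h (by simp)) (good_ti h (by simp))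
    fun _ hg => cover_SU4 h (by simp) (SUG_le_UG hg)

end SU

end CL.Cov
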