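/-
`SU₃(q)`, `q` a power of `3`, is the union of the conjugates of two proper subgroups.
-/
import Cfsg.Agent.Known.Cov3

set_option autoImplicit false

open Polynomial Module

namespace CL.Cov

open CL.Uni

section AS

variable {F V : Type*} [Field F] [AddCommGroup V] [Module F V]

/-- The Artin–Schreier polynomial. -/
noncomputable def asP (c : F) : F[X] := X ^ 3 - X - C c

theorem natDegree_asP (c : F) : (asP c).natDegree = 3 := by
  unfold asP
  compute_degree!

theorem not_isRoot_asP {c : F} (hc : ∀ t : F, t ^ 3 - t ≠ c) (t : F) : ¬ (asP c).IsRoot t := fun h =>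
  hc t (by simpa [asP, sub_eq_zero] using h)

theorem irreducible_asP {c : F} (hc : ∀ t : F, t ^ 3 - t ≠ c) : Irreducible (asP c) :=
  irreducible_of_degree_le_three_of_not_isRoot (by rw [natDegree_asP]; decide) (not_isRoot_asP hc)

theorem aeval_asP (c : F) (J : End F V) (v : V) : aeval J (asP c) v = J (J (J v)) - J v - c • v := by
  simp [asP, pow_succ, Module.algebraMap_end_apply]

theorem aeval_asP_eq_zero {c : F} {J : End F V} : aeval J (asP c) = 0 ↔ ∀ v, J (J (J v)) = J v + c • v := by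
  simp only [LinearMap.ext_iff, aeval_asP, LinearMap.zero_apply, sub_sub, sub_eq_zero]

theorem exists_not_as (F : Type*) [Field F] [Finite F] : ∃ c : F, ∀ t : F, t ^ 3 - t ≠ c := by
  by_contra! h
  have := Finite.injective_iff_surjective.2 (show Function.Surjective fun t : F => t ^ 3 - t from h)
    (a₁ := 0) (a₂ := 1) (by simp)
  exact zero_ne_one this

theorem exists_pow_sub (h3 : (3 : F) = 0) (d : F) (n : ℕ) : ∃ t : F, d ^ 3 ^ n - d = t ^ 3 - t := by
  induction n with
  | zero => exact ⟨0, by simp⟩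
  | succ n ih =>
    obtain ⟨t, ht⟩ := ih
    refine ⟨t + d ^ 3 ^ n, ?_⟩
    rw [pow_succ 3, pow_mul]
    linear_combination ht - (t ^ 2 * d ^ 3 ^ n + t * (d ^ 3 ^ n) ^ 2) * h3

theorem cube_inj (h3 : (3 : F) = 0) {a b : F} (h : a ^ 3 = b ^ 3) : a = b :=
  sub_eq_zero.1 (pow_eq_zero_iff three_ne_zero |>.1 (by linear_combination h - (a ^ 2 * b - a * b ^ 2) * h3))

theorem exists_cube [Finite F] (h3 : (3 : F) = 0) (c : F) : ∃ a : F, a ^ 3 = c :=
  Finite.injective_iff_surjective.1 (show Function.Injective fun a : F => a ^ 3 from fun _ _ => cube_inj h3) c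

theorem two_ne_zero_of_three (h3 : (3 : F) = 0) : (2 : F) ≠ 0 := fun h2 =>
  one_ne_zero (by linear_combination h3 - h2 : (1 : F) = 0)

/-- An endomorphism commuting with an irreducible one is zero or injective. -/
theorem eq_zero_or_injective [FiniteDimensional F V] {g t : End F V} (hg : Irreducible g.charpoly)
    (h : ∀ v, t (g v) = g (t v)) : t = 0 ∨ ∀ v, t v = 0 → v = 0 := by
  by_contra! h1
  obtain ⟨h1, v, hv, hv0⟩ := h1
  have h2 := finrank_cyc hg hv0 (by rw [g.aeval_self_charpoly]; rfl)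
  rw [LinearMap.charpoly_natDegree] at h2
  have h3 : cyc g v ≤ LinearMap.ker t := cyc_le (fun w hw => by
    rw [LinearMap.mem_ker] at hw ⊢
    rw [h, hw, map_zero]) hv
  rw [Submodule.eq_top_of_finrank_eq h2, top_le_iff, LinearMap.ker_eq_top] at h3
  exact h1 h3

end AS

section SU3

variable {F : Type*} [Field F] {q : ℕ} {σ : F →+* F} {V : Type*} [AddCommGroup V] [Module F V]
  {B : V →ₛₗ[σ] V →ₗ[F] F} [FiniteDimensional F V]

theorem exists_cayley {J : End F V} (hJ : ∀ v (c : F), J v = c • v → v = 0)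
    (hs : ∀ u v, B (J u) v = B u (J v)) {θ : F} (hθ : σ θ = -θ) :
    ∃ A u : V ≃ₗ[F] V, (∀ v, A v = J v - θ • v) ∧ u ∈ UG B ∧ ∀ v, u (A v) = J v + θ • v := by
  have h1 : ∀ a : F, ∃ A : V ≃ₗ[F] V, ∀ v, A v = J v - a • v := fun a =>
    ⟨LinearEquiv.ofInjectiveEndo (J - a • 1) ((injective_iff_map_eq_zero _).2 fun v hv =>
      hJ v a (sub_eq_zero.1 hv)), fun _ => rfl⟩
  obtain ⟨A, hA⟩ := h1 θ
  obtain ⟨P, hP⟩ := h1 (-θ)
  have h2 : ∀ v, (P * A⁻¹) (A v) = J v + θ • v := fun v => by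
    rw [LinearEquiv.mul_apply, CL.Sp.inv_apply_apply, hP, neg_smul, sub_neg_eq_add]
  refine ⟨A, P * A⁻¹, hA, fun a b => ?_, h2⟩
  obtain ⟨a, rfl⟩ := A.surjective a
  obtain ⟨b, rfl⟩ := A.surjective b
  rw [h2, h2, hA, hA]
  simp only [map_add, map_sub, LinearMap.add_apply, LinearMap.sub_apply, LinearMap.map_smulₛₗ, map_smul,
    LinearMap.smul_apply, smul_eq_mul, hθ, RingHom.id_apply, hs a b]
  ring

theorem exists_SUG_intertwine (h : IsHerm B q) (h3 : (3 : F) = 0) (hn : finrank F V = 3) {f : F[X]}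
    (hf : Irreducible f) (hd : 2 ≤ f.natDegree) {J J' : End F V} (hJ : aeval J f = 0) (hJ' : aeval J' f = 0)
    (hs : ∀ u v, B (J u) v = B u (J v)) (hs' : ∀ u v, B (J' u) v = B u (J' v)) :
    ∃ k ∈ SUG B, ∀ v, k (J v) = J' (k v) := by
  haveI := h.bar.finite
  haveI : Nontrivial V := nontrivial_of_finrank_pos (R := F) (by omega)
  obtain ⟨θ, hθ0, hθ⟩ := h.bar.exists_trace_zero
  obtain ⟨A, u, hA, hu, hu'⟩ := exists_cayley (no_eigen (not_isRoot_of_irreducible hf hd) hJ) hs hθ
  obtain ⟨A', w, hA', hw, hw'⟩ := exists_cayley (no_eigen (not_isRoot_of_irreducible hf hd) hJ') hs' hθ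
  obtain ⟨k, -, hk⟩ := exists_intertwine hf hJ hJ' one_ne_zero
  obtain ⟨y, hy, hy'⟩ := CL.Known.herm_conj h h hu hw ⟨k, fun v => by
    obtain ⟨v, rfl⟩ := A.surjective v
    change k (u (A v)) = w (k (A v))
    rw [hu', hA, map_sub, map_add, map_smul, hk, ← hA', hw']⟩
  have h1 : ∀ v, y (J v) = J' (y v) := fun v => by
    obtain ⟨v', hv'⟩ := A'.surjective (y (A v))
    have h2 := hy (A v)
    rw [hu', ← hv', hw', map_add, map_smul] at h2
    rw [hA', hA, map_sub, map_smul] at hv'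
    have h4 : (2 * θ) • y v = (2 * θ) • v' := by linear_combination (norm := module) h2 + hv'
    obtain rfl := smul_right_injective V (mul_ne_zero (two_ne_zero_of_three h3) hθ0) h4
    exact add_right_cancel h2
  obtain ⟨l, hl⟩ := exists_cube h3 (dt y)⁻¹
  have hl0 : l ≠ 0 := fun e => by
    rw [e, zero_pow three_ne_zero] at hl
    exact inv_ne_zero (dt_ne_zero y) hl.symm
  have hl1 : l * σ l = 1 := cube_inj h3 (by
    rw [mul_pow, ← map_pow, hl, map_inv₀, ← mul_inv, h.dt_norm hy', inv_one, one_pow])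
  refine ⟨LinearEquiv.smulOfNeZero F V l hl0 * y, mem_SUG.2 ⟨fun a b => ?_, ?_⟩, fun v => ?_⟩
  · simp only [LinearEquiv.mul_apply, LinearEquiv.smulOfNeZero_apply, LinearMap.map_smulₛₗ, map_smul,
      LinearMap.smul_apply, smul_eq_mul, hy', RingHom.id_apply]
    linear_combination B a b * hl1
  · rw [map_mul, dt_apply, show (LinearEquiv.smulOfNeZero F V l hl0 : V →ₗ[F] V) = l • LinearMap.id from rfl,
      LinearMap.det_smul, LinearMap.det_id, hn, hl, mul_one, inv_mul_cancel₀ (dt_ne_zero y)]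
  · simp only [LinearEquiv.mul_apply, LinearEquiv.smulOfNeZero_apply, h1, map_smul]

theorem good_as_SU (h : IsHerm B q) (h3 : (3 : F) = 0) (hn : finrank F V = 3) {c : F} (hc : ∀ t : F, t ^ 3 - t ≠ c) :
    Good (SUG B) {H | ∃ J : End F V, (aeval J (asP c) = 0 ∧ ∀ u v, B (J u) v = B u (J v)) ∧ H = NJ ⊤ J} where
  proper := by
    rintro _ ⟨J, ⟨hJ, -⟩, rfl⟩ hle
    obtain ⟨v, hv0, hv⟩ := h.exists_isotropic (by omega)
    obtain ⟨θ, hθ0, hθ⟩ := h.bar.exists_trace_zero
    obtain ⟨t, ht, ht'⟩ := h.exists_tv hv hθ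
    obtain ⟨w, hw⟩ := h.exists_ne_zero hv0
    exact tv_notMem_NJ (no_eigen (not_isRoot_asP hc) hJ) (Or.inr hn.ge) (φ := θ • B v) hv0
      (fun e => mul_ne_zero hθ0 hw (congrArg (fun f : V →ₗ[F] F => f w) e)) ht' (hle ht)
  cen := by
    rintro _ ⟨J, -, rfl⟩ z hz hc
    obtain ⟨a, ha⟩ := SUG_cen h (by omega) hz hc
    exact smul_mem_NJ ha
  conj := by
    rintro _ ⟨J, ⟨hJ, hs⟩, rfl⟩ _ ⟨J', ⟨hJ', hs'⟩, rfl⟩
    obtain ⟨k, hk, hk'⟩ := exists_SUG_intertwine h h3 hn (irreducible_asP hc) (by rw [natDegree_asP]; omega)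
      hJ hJ' hs hs'
    exact ⟨k, hk, fun g hg => conj_mem_NJ hk' hg⟩

theorem irr_SU3 (h : IsHerm B q) (h3 : (3 : F) = 0) (hn : finrank F V = 3) {c : F} (hc : ∀ t : F, t ^ 3 - t ≠ c)
    (hσ : σ c = c) {g : V ≃ₗ[F] V} (hg : g ∈ UG B) (hi : Irreducible (g : End F V).charpoly) :
    ∃ J : End F V, (aeval J (asP c) = 0 ∧ ∀ u v, B (J u) v = B u (J v)) ∧ g ∈ NJ ⊤ J := by
  haveI := h.bar.finite
  obtain ⟨r, hr⟩ := exists_aeval_root (g : End F V).charpoly_monic (irreducible_asP hc) (fun p hp hd => by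
    rw [natDegree_asP, natDegree_eq_of_degree_eq (degree_eq_degree_of_associated (hp.associated_of_dvd hi hd)),
      LinearMap.charpoly_natDegree, hn]) (g : End F V).aeval_self_charpoly
  refine ⟨_, ⟨hr, ?_⟩, mem_NJ_aeval g r⟩
  set J := aeval (g : End F V) r with hJ
  set K := aeval ((g⁻¹ : V ≃ₗ[F] V) : End F V) (r.map σ) with hK
  have h1 : ∀ u v, B (J u) v = B u (K v) := UG_aeval hg r
  have h2 : ∀ v, K (g v) = g (K v) := fun v => by
    have h2 : ∀ v, g⁻¹ (K v) = K (g⁻¹ v) :=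
      CL.GLn.aeval_intertwine ((g⁻¹ : V ≃ₗ[F] V) : End F V) (fun _ => rfl) (r.map σ)
    exact g⁻¹.injective (by rw [h2, CL.Sp.inv_apply_apply, CL.Sp.inv_apply_apply])
  have h4 : ∀ v, K (J v) = J (K v) := CL.GLn.aeval_intertwine K h2 r
  have h5 : ∀ v, J (g v) = g (J v) := fun v =>
    (CL.GLn.aeval_intertwine (g : End F V) (fun _ => rfl) r v).symm
  have h6 := aeval_asP_eq_zero.1 hr
  have h7 : ∀ v, K (K (K v)) = K v + c • v := fun v => h.ext_right fun u => by
    rw [← h1, ← h1, ← h1, h6, map_add, LinearMap.add_apply, h1, LinearMap.map_smulₛₗ, hσ, map_add, map_smul]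
    rfl
  have h8 : ∀ u v, B (K u) v = B u (J v) := fun u v => by rw [← h.symm, ← h1, h.symm]
  have h9 : ∀ a : F, K - J - a • 1 = 0 ∨ ∀ v, (K - J - a • 1 : End F V) v = 0 → v = 0 := fun a =>
    eq_zero_or_injective hi fun v => by
      simp only [LinearMap.sub_apply, LinearMap.smul_apply, Module.End.one_apply, LinearEquiv.coe_coe, h2, h5,
        map_sub, map_smul]
  have h10 : ∀ a : F, σ a = a → a ≠ 0 → ∀ v, (K - J - a • 1 : End F V) v = 0 → v = 0 := fun a ha ha0 =>
    (h9 a).resolve_left fun e => by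
      haveI : Nontrivial V := nontrivial_of_finrank_pos (R := F) (by omega)
      obtain ⟨u, hu⟩ := h.exists_self_ne_zero
      have e1 : K u = J u + a • u := by
        have := congrArg (fun f : End F V => f u) e
        simp only [LinearMap.sub_apply, LinearMap.smul_apply, Module.End.one_apply, LinearMap.zero_apply] at this
        linear_combination (norm := module) this
      have e2 := h1 u u
      have e3 := h8 u u
      rw [e1, map_add, map_smul] at e2
      rw [e1, map_add, LinearMap.add_apply, LinearMap.map_smulₛₗ, ha, LinearMap.smul_apply] at e3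
      rw [smul_eq_mul] at e2 e3
      exact mul_ne_zero (two_ne_zero_of_three h3) (mul_ne_zero ha0 hu) (by linear_combination e3 - e2)
  have h11 : ∀ v, K v = J v := fun v => by
    refine sub_eq_zero.1 (h10 1 (map_one σ) one_ne_zero _ (h10 (-1) (by simp) (by simp) _ ?_))
    simp only [LinearMap.sub_apply, LinearMap.smul_apply, Module.End.one_apply, map_sub, map_smul, h4, h6, h7]
    have e : (3 : F) • (J (J (K v)) - J (K (K v))) = 0 := by rw [h3, zero_smul]
    linear_combination (norm := module) e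
  exact fun u v => by rw [h1, h11]

/-- A frame permuted cyclically by `g`. -/
theorem frame_SU3 (h : IsHerm B q) (h3 : (3 : F) = 0) (hn : finrank F V = 3) {c : F} (hσ : σ c = c)
    {g : V ≃ₗ[F] V} (hg : g ∈ UG B) {x : V} (hx : B x x ≠ 0) (h1 : B x (g x) = 0) (hg3 : g (g (g x)) = x) :
    ∃ J : End F V, (aeval J (asP c) = 0 ∧ ∀ u v, B (J u) v = B u (J v)) ∧ g ∈ NJ ⊤ J := by
  haveI := h.bar.finite
  obtain ⟨α, hα⟩ := exists_cube h3 (-c)
  have hα' : σ α = α := cube_inj h3 (by rw [← map_pow, hα, map_neg, hσ])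
  have h2 : B (g x) (g (g x)) = 0 := (hg _ _).trans h1
  have h4 : B (g (g x)) x = 0 := by rw [← h2, ← hg (g x), hg3]
  have h5 : B (g x) (g x) = B x x := hg _ _
  have h6 : B (g (g x)) (g (g x)) = B x x := (hg _ _).trans h5
  have h1' := h.flip_zero h1
  have h2' := h.flip_zero h2
  have h4' := h.flip_zero h4
  have hl : LinearIndependent F ![x, g x, g (g x)] := by
    rw [Fintype.linearIndependent_iff]
    intro a ha
    have e1 := congrArg (B x) ha
    have e2 := congrArg (B (g x)) ha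
    have e3 := congrArg (B (g (g x))) ha
    simp [Fin.sum_univ_three, h1, h2, h4, h1', h2', h4', h5, h6, hx] at e1 e2 e3
    intro i
    fin_cases i <;> assumption
  let b := basisOfLinearIndependentOfCardEqFinrank hl (by simp [hn])
  have hb : ∀ i, b i = ![x, g x, g (g x)] i := fun i => by simp [b]
  let J : End F V := b.constr F ![α • (g x + g (g x)), g x + α • (x + g (g x)), (2 : F) • g (g x) + α • (x + g x)]
  have hJ : ∀ i, J (![x, g x, g (g x)] i) =
      ![α • (g x + g (g x)), g x + α • (x + g (g x)), (2 : F) • g (g x) + α • (x + g x)] i := fun i => by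
    rw [← hb]
    exact b.constr_basis F _ i
  have j0 : J x = α • (g x + g (g x)) := hJ 0
  have j1 : J (g x) = g x + α • (x + g (g x)) := hJ 1
  have j2 : J (g (g x)) = (2 : F) • g (g x) + α • (x + g x) := hJ 2
  have hc : c = -α ^ 3 := by rw [hα, neg_neg]
  refine ⟨J, ⟨b.ext fun i => ?_, ?_⟩, -1, trivial, fun v => ?_⟩
  · rw [aeval_asP, hb, hc, LinearMap.zero_apply]
    fin_cases i <;> simp only [Fin.zero_eta, Fin.mk_one, Fin.reduceFinMk, Matrix.cons_val, map_add, map_smul, j0, j1, j2] <;>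
      match_scalars <;> grind
  · have : B ∘ₛₗ J = B.compl₂ J := b.ext fun i => b.ext fun j => by
      rw [hb, hb]
      fin_cases i <;> fin_cases j <;>
        simp [j0, j1, j2, h1, h2, h4, h1', h2', h4', h5, h6, hα', map_ofNat]
    exact fun u v => congrArg (fun f : V →ₛₗ[σ] V →ₗ[F] F => f u v) this
  · have : (g : End F V) * J = J * g + (-1 : F) • (g : End F V) := b.ext fun i => by
      rw [hb]
      fin_cases i <;> simp only [Fin.zero_eta, Fin.mk_one, Fin.reduceFinMk, Matrix.cons_val, map_add, map_smul, j0,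
        j1, j2, Module.End.mul_apply, LinearMap.add_apply, LinearMap.smul_apply, LinearEquiv.coe_coe, hg3] <;>
        match_scalars <;> grind
    exact congrArg (fun f : End F V => f v) this

theorem unip_SU3 (h : IsHerm B q) (h3 : (3 : F) = 0) (hn : finrank F V = 3) {c : F} (hσ : σ c = c)
    {g : V ≃ₗ[F] V} (hg : g ∈ UG B) {v u w : V} {a s t : F} (ha : a ≠ 0) (hvv : B v v = 0) (hvu : B v u = 0)
    (huu : B u u ≠ 0) (hvw : B v w = 1) (huw : B u w = 0) (e1 : g v = v) (e2 : g u = u + a • v)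
    (e3 : g w = w + s • u + t • v) :
    ∃ J : End F V, (aeval J (asP c) = 0 ∧ ∀ u v, B (J u) v = B u (J v)) ∧ g ∈ NJ ⊤ J := by
  have huv := h.flip_zero hvu
  have hwv := h.flip_one hvw
  have hwu := h.flip_zero huw
  have r1 := hg u w
  have r2 := hg w w
  rw [e2, e3] at r1
  rw [e3] at r2
  simp only [map_add, LinearMap.add_apply, LinearMap.map_smulₛₗ, map_smul, LinearMap.smul_apply, smul_eq_mul,
    RingHom.id_apply, hvv, hvu, hvw, huv, huw, hwv, hwu] at r1 r2
  have hs : s ≠ 0 := fun e => (map_ne_zero σ).2 ha (by rw [e] at r1; linear_combination r1)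
  obtain ⟨z, hz⟩ := h.exists_add_smul_self_eq hvv (w := w + (t / a) • u) (by simp [hvw, hvu])
    (a := -(s * σ s * B u u)) (by rw [map_neg, map_mul, h.bar.norm_fixed, h.self_fixed])
  have e4 : g (w + (t / a) • u + z • v) = w + (t / a) • u + z • v + s • u + (2 * t) • v := by
    simp only [map_add, map_smul, e1, e2, e3]
    match_scalars <;> field_simp <;> ring
  refine frame_SU3 h h3 hn hσ hg (x := w + (t / a) • u + z • v) ?_ ?_ ?_
  · rw [hz]
    exact neg_ne_zero.2 (mul_ne_zero (mul_ne_zero hs ((map_ne_zero σ).2 hs)) huu)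
  · rw [e4, map_add, map_add, hz]
    simp only [map_add, LinearMap.add_apply, LinearMap.map_smulₛₗ, map_smul, LinearMap.smul_apply, smul_eq_mul,
      RingHom.id_apply, hvv, hvu, huv, hwv, hwu, map_div₀]
    have h4 : σ a ≠ 0 := (map_ne_zero σ).2 ha
    field_simp
    linear_combination σ t * r1 - σ a * r2 + σ a * t * h3
  · simp only [map_add, map_smul, e1, e2, e3]
    match_scalars <;> field_simp <;> grind

theorem cover_SU3 (h : IsHerm B q) (h3 : (3 : F) = 0) (hn : finrank F V = 3) {c : F} (hc : ∀ t : F, t ^ 3 - t ≠ c)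
    (hσ : σ c = c) {g : V ≃ₗ[F] V} (hg : g ∈ UG B) :
    (∃ H ∈ {H | ∃ v : V, B v v ≠ 0 ∧ H = stabSet F ((F ∙ v : Submodule F V) : Set V)}, g ∈ H) ∨
      ∃ H ∈ {H | ∃ J : End F V, (aeval J (asP c) = 0 ∧ ∀ u v, B (J u) v = B u (J v)) ∧ H = NJ ⊤ J}, g ∈ H := by
  by_cases hi : ∃ v, ∃ c : F, g v = c • v ∧ B v v ≠ 0
  · obtain ⟨v, c, h1, h2⟩ := hi
    exact Or.inl ⟨_, ⟨v, h2, rfl⟩, mem_stabSet_span h1⟩
  right
  suffices ∃ J : End F V, (aeval J (asP c) = 0 ∧ ∀ u v, B (J u) v = B u (J v)) ∧ g ∈ NJ ⊤ J by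
    obtain ⟨J, hJ, hg⟩ := this
    exact ⟨_, ⟨J, hJ, rfl⟩, hg⟩
  have hti : ∀ W : Submodule F V, W ≤ perp B W → finrank F W ≤ 1 := fun W hW => by
    have h3 := h.finrank_add_finrank_perp W
    have h4 := Submodule.finrank_mono hW
    omega
  by_cases hirr : Irreducible (g : End F V).charpoly
  · exact irr_SU3 h h3 hn hc hσ hg hirr
  have hs : ∀ P : F[X], Irreducible P → P ∣ (g : End F V).charpoly → P.natDegree = 1 := fun P hP hd => by
    have h1 := natDegree_le_of_dvd hd (g : End F V).charpoly_monic.ne_zero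
    have h2 := hP.natDegree_pos
    rw [LinearMap.charpoly_natDegree, hn] at h1
    by_contra h4
    rcases (by omega : P.natDegree = 2 ∨ P.natDegree = 3) with e | e
    · obtain ⟨w, hw, hw'⟩ := exists_killed hP hd
      have := hti _ (ti_of_even h.bar hg hP (e ▸ even_two) hw')
      rw [finrank_cyc hP hw hw'] at this
      omega
    · exact hirr ((associated_of_dvd_of_natDegree_le hd (g : End F V).charpoly_monic.ne_zero
        (by rw [LinearMap.charpoly_natDegree, hn, e])).irreducible hP)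
  push Not at hi
  obtain ⟨v, -, hv, α, hα⟩ := exists_eigen_mod hs (A := ⊥) (C := ⊤) (fun _ _ => trivial) (by simp [hn])
  rw [Submodule.mem_bot] at hv hα
  replace hα : g v = α • v := sub_eq_zero.1 hα
  have hvv := hi v α hα
  have h1 := h.finrank_perp_singleton hv
  obtain ⟨u, hu, hu', d, a, e, hd⟩ := step_eigen h hs hi hv hα (inv_perp hg (inv_span (g := (g : End F V)) hα))
    (fun w hw => mem_perp_singleton.1 hw) (by omega)
  replace hu := mem_perp_singleton.1 hu
  have huu : B u u ≠ 0 := fun e => by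
    obtain ⟨h4, h5⟩ := ti_pair h hv hu' hvv hu e
    have := hti _ h5
    omega
  obtain rfl := hd.resolve_left huu
  have ha : a ≠ 0 := fun e' => huu (hi u d (by rw [e, e', zero_smul, add_zero]))
  have hl : LinearIndependent F ![v, u] := by
    rw [LinearIndependent.pair_iff' hv]
    exact fun a e => hu' (Submodule.mem_span_singleton.2 ⟨a, e⟩)
  obtain ⟨w, hw⟩ := h.exists_forall_eq hl ![1, 0]
  have hvw : B v w = 1 := hw 0
  have huw : B u w = 0 := hw 1
  have hd1 : d * σ d = 1 := by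
    have := hg u u
    rw [e] at this
    simp only [map_add, LinearMap.add_apply, LinearMap.map_smulₛₗ, map_smul, LinearMap.smul_apply, smul_eq_mul,
      RingHom.id_apply, hvv, hu, h.flip_zero hu] at this
    exact mul_right_cancel₀ huu (by linear_combination this)
  have hd0 : d ≠ 0 := left_ne_zero_of_mul_eq_one hd1
  have h4 : Submodule.span F {v, u} = perp B (F ∙ v) := by
    refine Submodule.eq_of_le_of_finrank_le (Submodule.span_le.2 ?_) ?_
    · rintro x (rfl | rfl)
      exacts [mem_perp_singleton.2 hvv, mem_perp_singleton.2 hu]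
    · have := finrank_span_eq_card hl
      rw [Matrix.range_cons, Matrix.range_cons, Matrix.range_empty, Set.union_empty, Set.singleton_union,
        Fintype.card_fin] at this
      omega
  obtain ⟨t, s, e'⟩ : ∃ t s : F, t • v + s • u = g w - d • w := Submodule.mem_span_pair.1 (by
    rw [h4, mem_perp_singleton, map_sub, map_smul, hvw]
    have := hg v w
    rw [hα, LinearMap.map_smulₛₗ, LinearMap.smul_apply, hvw, smul_eq_mul] at this
    rw [smul_eq_mul]
    linear_combination d * this - B v (g w) * hd1)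
  let z := LinearEquiv.smulOfNeZero F V d hd0
  have hz : ∀ x, (z⁻¹ * g) x = d⁻¹ • g x := fun x => z.injective (by
    rw [LinearEquiv.mul_apply, CL.Sp.apply_inv_apply, LinearEquiv.smulOfNeZero_apply, smul_inv_smul₀ hd0])
  obtain ⟨J, hJ, hg'⟩ := unip_SU3 h h3 hn hσ (g := z⁻¹ * g) (fun x y => by
      simp only [hz, LinearMap.map_smulₛₗ, map_smul, LinearMap.smul_apply, smul_eq_mul, RingHom.id_apply, hg x y,
        map_inv₀]
      rw [← mul_assoc, ← mul_inv, hd1, inv_one, one_mul])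
    (a := d⁻¹ * a) (s := d⁻¹ * s) (t := d⁻¹ * t) (mul_ne_zero (inv_ne_zero hd0) ha) hvv hu huu hvw huw
    (by rw [hz, hα, inv_smul_smul₀ hd0]) (by rw [hz, e, smul_add, inv_smul_smul₀ hd0, mul_smul])
    (by rw [hz, ← add_sub_cancel (d • w) (g w), ← e', smul_add, inv_smul_smul₀ hd0]; module)
  refine ⟨J, hJ, ?_⟩
  rw [← mul_inv_cancel_left z g]
  exact (NJ ⊤ J).mul_mem (smul_mem_NJ (a := d) fun _ => rfl) hg'

theorem isCov_PSU3 (F : Type*) [Field F] [Fintype F] {q a : ℕ} (hF : Fintype.card F = q ^ 2) (ha : 1 ≤ a)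
    (hq : q = 3 ^ a) : IsCov (Cfsg.PSU 3 F q) := by
  have hb := isBar_bar hF
  have h := isHerm_stdB hb (Fin 3)
  have h3 : (3 : F) = 0 := by
    have := hb.cast_q
    rw [hq, Nat.cast_pow, pow_eq_zero_iff (by omega)] at this
    exact_mod_cast this
  obtain ⟨d, hd⟩ := exists_not_as F
  obtain ⟨t, ht⟩ := exists_pow_sub h3 d a
  have hc : ∀ s : F, s ^ 3 - s ≠ d + bar hF d := fun s hs => hd (t - s) (by
    rw [bar_apply, hq] at hs
    linear_combination -hs - ht + (s ^ 2 * t - s * t ^ 2 - d) * h3)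
  exact cov_quot_of_good (suEquiv hb 3) (good_noniso h (by simp)) (good_as_SU h h3 (by simp) hc)
    fun _ hg => cover_SU3 h h3 (by simp) hc (hb.trace_fixed d) (SUG_le_UG hg)

end SU3

end CL.Cov
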