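/-
`Sp₆(q)`, `q` a power of `3`: the two families of subgroups, and the construction of Artin–Schreier endomorphisms.
-/
import Cfsg.Agent.Known.Cov4
import Cfsg.Agent.Cls.ElfBasic

set_option autoImplicit false

open Polynomial Module

namespace CL.Cov

open CL.Uni CL.Sp CL.Elf

variable {F V : Type*} [Field F] [AddCommGroup V] [Module F V] {B : LinearMap.BilinForm F V}

theorem li_pair (hB : B.IsAlt) {e f : V} (h : B e f ≠ 0) : LinearIndependent F ![e, f] := by
  rw [LinearIndependent.pair_iff]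
  intro s t hst
  have h1 := congrArg (B e) hst
  have h2 := congrArg (B f) hst
  simp only [map_add, map_smul, alt_self hB, smul_eq_mul, map_zero, alt_neg hB f e] at h1 h2
  exact ⟨by simpa [h] using h2, by simpa [h] using h1⟩

theorem range_pair (e f : V) : Set.range ![e, f] = {e, f} := by
  rw [Matrix.range_cons, Matrix.range_cons, Matrix.range_empty, Set.union_empty, Set.singleton_union]

theorem finrank_span_pair (hB : B.IsAlt) {e f : V} (h : B e f ≠ 0) : finrank F (Submodule.span F {e, f}) = 2 := by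
  have := finrank_span_eq_card (li_pair hB h)
  rwa [range_pair, Fintype.card_fin] at this

theorem nd_span_pair (hB : B.IsAlt) {e f : V} (h : B e f ≠ 0) : ND B (Submodule.span F {e, f}) := fun x hx h1 => by
  obtain ⟨a, b, rfl⟩ := Submodule.mem_span_pair.1 hx
  have h2 := h1 e (Submodule.subset_span (by simp))
  have h3 := h1 f (Submodule.subset_span (by simp))
  simp only [map_add, map_smul, LinearMap.add_apply, LinearMap.smul_apply, alt_self hB, smul_eq_mul,
    alt_neg hB f e] at h2 h3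
  rw [show a = 0 by simpa [h] using h3, show b = 0 by simpa [h] using h2]
  simp

/-- `B(x, J x) = 0` for a self-adjoint `J`, in odd characteristic. -/
theorem form_self_adj (hB : B.IsAlt) (h2 : (2 : F) ≠ 0) {J : V → V} (hs : ∀ u v, B (J u) v = B u (J v)) (x : V) :
    B x (J x) = 0 := by
  have := hs x x
  rw [alt_neg hB (J x)] at this
  exact (mul_eq_zero.1 (by linear_combination -this : 2 * B x (J x) = 0)).resolve_left h2

theorem aeval_self_adj {s : End F V} (hs : ∀ u v, B (s u) v = B u (s v)) (r : F[X]) (u v : V) :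
    B (aeval s r u) v = B u (aeval s r v) := by
  induction r using Polynomial.induction_on generalizing u v with
  | C a => simp [Module.algebraMap_end_apply]
  | add p r hp hr => simp only [map_add, LinearMap.add_apply, hp, hr]
  | monomial n a h =>
    rw [pow_succ, ← mul_assoc, aeval_mul_apply, h, aeval_X, mul_comm _ X, aeval_mul_apply s X, aeval_X, hs]

theorem cube_add {R : Type*} [Ring R] (h3 : (3 : R) = 0) {D t u : R} (h1 : D * t = t * D + u)
    (h2 : D * u = u * D + t) (h4 : t * u = u * t) : (D + t) ^ 3 = D ^ 3 + t + t ^ 3 := by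
  have e1 : D * D * t = t * D * D + 2 * (u * D) + t := by
    rw [mul_assoc, h1, mul_add, ← mul_assoc, h1, h2]
    noncomm_ring
  have e2 : D * t * D = t * D * D + u * D := by rw [h1, add_mul]
  have e3 : D * t * t = t * t * D + 2 * (t * u) := by
    rw [h1, add_mul, mul_assoc, h1, ← h4]
    noncomm_ring
  have e4 : t * D * t = t * t * D + t * u := by rw [mul_assoc, h1, mul_add, mul_assoc]
  have e5 : (D + t) ^ 3 = D ^ 3 + (D * D * t + D * t * D + t * D * D) + (D * t * t + t * D * t + t * t * D) + t ^ 3 := by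
    noncomm_ring
  rw [e5, e1, e2, e3, e4]
  have e6 : D ^ 3 + (t * D * D + 2 * (u * D) + t + (t * D * D + u * D) + t * D * D) +
      (t * t * D + 2 * (t * u) + (t * t * D + t * u) + t * t * D) + t ^ 3 =
      D ^ 3 + t + t ^ 3 + 3 * (t * D * D + u * D + t * t * D + t * u) := by noncomm_ring
  rw [e6, h3, zero_mul, add_zero]

variable [FiniteDimensional F V]

theorem exists_forall_eq_alt (hB : B.IsAlt) (hN : B.Nondegenerate) {ι : Type*} {f : ι → V}
    (hf : LinearIndependent F f) (c : ι → F) : ∃ x : V, ∀ i, B (f i) x = c i := by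
  obtain ⟨φ, hφ⟩ := LinearMap.exists_extend ((Basis.span hf).constr F fun i => -c i)
  obtain ⟨t, ht⟩ := CL.Cls.exists_repr_of_nondeg (σ := RingHom.id F) (fun _ => rfl) B hN.1 φ
  refine ⟨t, fun i => ?_⟩
  have := congrArg (fun ψ => ψ (Basis.span hf i)) hφ
  simp only [LinearMap.comp_apply, Submodule.subtype_apply, Basis.constr_basis] at this
  rw [Basis.span_apply] at this
  rw [alt_neg hB, ht, this, neg_neg]

theorem exists_pair_of_nd (hB : B.IsAlt) {W : Submodule F V} (h2 : finrank F W = 2) (hW : ND B W) :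
    ∃ e f, B e f = 1 ∧ Submodule.span F {e, f} = W := by
  obtain ⟨e, he, he0⟩ := exists_notMem_of_lt (A := ⊥) (C := W) (by simp [h2])
  obtain ⟨f, hf, hef⟩ : ∃ f ∈ W, B e f ≠ 0 := by
    by_contra! h
    exact he0 (hW e he h)
  have h1 : B e ((B e f)⁻¹ • f) = 1 := by rw [map_smul, smul_eq_mul, inv_mul_cancel₀ hef]
  refine ⟨e, _, h1, Submodule.eq_of_le_of_finrank_eq (Submodule.span_le.2 ?_) ?_⟩
  · rintro x (rfl | rfl)
    exacts [he, W.smul_mem _ hf]
  · rw [finrank_span_pair hB (h1 ▸ one_ne_zero), h2]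

theorem good_nd (hB : B.IsAlt) (hN : B.Nondegenerate) (hn : 3 ≤ finrank F V) :
    Good (Isom B) {H | ∃ W : Submodule F V, (finrank F W = 2 ∧ ND B W) ∧ H = stabSet F (W : Set V)} where
  proper := by
    rintro _ ⟨W, ⟨hW, -⟩, rfl⟩ hle
    obtain ⟨e, he, he0⟩ := exists_notMem_of_lt (A := ⊥) (C := W) (by simp [hW])
    obtain ⟨f, -, hf⟩ := exists_notMem_of_lt (A := W) (C := ⊤) (by simp [hW]; omega)
    obtain ⟨t, ht, rfl⟩ := exists_isom_apply_eq hB hN (x := e) (y := f) he0 fun e => hf (e ▸ W.zero_mem)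
    exact hf ((hle ht e).1 he)
  cen := by
    rintro _ ⟨W, -, rfl⟩ z hz h
    rcases isom_cen hB hN hz h with e | e <;> exact smul_mem_stabSet e
  conj := by
    rintro _ ⟨X, ⟨hX, hX'⟩, rfl⟩ _ ⟨Y, ⟨hY, hY'⟩, rfl⟩
    obtain ⟨e, f, h, rfl⟩ := exists_pair_of_nd hB hX hX'
    obtain ⟨e', f', h', rfl⟩ := exists_pair_of_nd hB hY hY'
    obtain ⟨t, ht, ht'⟩ := witt_family hB hN (li_pair hB (h ▸ one_ne_zero)) (li_pair hB (h' ▸ one_ne_zero))
      fun i j => by fin_cases i <;> fin_cases j <;> simp [alt_self hB, alt_neg hB f e, alt_neg hB f' e', h, h']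
    refine ⟨t, ht, fun g hg => conj_mem_stabSet ?_ hg⟩
    rw [Submodule.map_span, Set.image_pair]
    exact congrArg₂ (fun a b => Submodule.span F {a, b}) (ht' 0) (ht' 1)

omit [FiniteDimensional F V] in
theorem li_three {J : End F V} {P : F[X]} (hP : Irreducible P) (hd : P.natDegree = 3) {v : V} (hv : v ≠ 0)
    (hJ : aeval J P v = 0) : LinearIndependent F ![v, J v, J (J v)] := by
  rw [Fintype.linearIndependent_iff]
  intro a ha
  have h1 : aeval J (C (a 2) * X ^ 2 + C (a 1) * X + C (a 0)) v = 0 := by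
    rw [← ha]
    simp [Fin.sum_univ_three, pow_succ, Module.algebraMap_end_apply]
    abel
  have h2 : P ∣ C (a 2) * X ^ 2 + C (a 1) * X + C (a 0) := by
    by_contra h
    exact hv (eq_zero_of_isCoprime (hP.coprime_iff_not_dvd.2 h) hJ h1)
  have h3 := eq_zero_of_dvd_of_natDegree_lt h2 (natDegree_quadratic_le.trans_lt (by omega))
  intro i
  fin_cases i
  · simpa using congrArg (coeff · 0) h3
  · simpa using congrArg (coeff · 1) h3
  · simpa using congrArg (coeff · 2) h3

theorem exists_gram (hB : B.IsAlt) (hN : B.Nondegenerate) (h2 : (2 : F) ≠ 0) (hn : finrank F V = 6) {c : F}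
    (hc : ∀ t : F, t ^ 3 - t ≠ c) {J : End F V} (hJ : aeval J (asP c) = 0) (hs : ∀ u v, B (J u) v = B u (J v)) :
    ∃ v w, LinearIndependent F ![v, J v, J (J v), w, J w, J (J w)] ∧ ∀ i j,
      B (![v, J v, J (J v), w, J w, J (J w)] i) (![v, J v, J (J v), w, J w, J (J w)] j) =
        !![0, 0, 0, 0, 0, 1; 0, 0, 0, 0, 1, 0; 0, 0, 0, 1, 0, 1;
          0, 0, -1, 0, 0, 0; 0, -1, 0, 0, 0, 0; -1, 0, -1, 0, 0, 0] i j := by
  haveI : Nontrivial V := nontrivial_of_finrank_pos (R := F) (by omega)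
  obtain ⟨v, hv⟩ := exists_ne (0 : V)
  obtain ⟨w, hw⟩ := exists_forall_eq_alt hB hN
    (li_three (J := J) (irreducible_asP hc) (natDegree_asP c) hv (by rw [hJ]; rfl)) ![0, 0, 1]
  have h3 := aeval_asP_eq_zero.1 hJ
  have a0 : B v w = 0 := hw 0
  have a1 : B v (J w) = 0 := (hs v w).symm.trans (hw 1)
  have a2 : B v (J (J w)) = 1 := ((hs _ _).trans (hs _ _)).symm.trans (hw 2)
  have b0 : B w v = 0 := by rw [alt_neg hB, a0, neg_zero]
  have b1 : B w (J v) = 0 := by rw [← hs, alt_neg hB, a1, neg_zero]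
  have b2 : B w (J (J v)) = -1 := by rw [← hs, ← hs, alt_neg hB, a2]
  have c1 := form_self_adj hB h2 hs
  have c2 : ∀ x, B x (J (J x)) = 0 := fun x => by rw [← hs, alt_self hB]
  have key : ∀ i j, B (![v, J v, J (J v), w, J w, J (J w)] i) (![v, J v, J (J v), w, J w, J (J w)] j) =
        !![0, 0, 0, 0, 0, 1; 0, 0, 0, 0, 1, 0; 0, 0, 0, 1, 0, 1;
          0, 0, -1, 0, 0, 0; 0, -1, 0, 0, 0, 0; -1, 0, -1, 0, 0, 0] i j := fun i j => by
    fin_cases i <;> fin_cases j <;> simp [hs, h3, a0, a1, a2, b0, b1, b2, c1, c2, alt_self hB]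
  refine ⟨v, w, Fintype.linearIndependent_iff.2 fun a ha => ?_, key⟩
  have h4 : ∀ j, ∑ i, a i * !![0, 0, 0, 0, 0, 1; 0, 0, 0, 0, 1, 0; 0, 0, 0, 1, 0, 1;
      0, 0, -1, 0, 0, 0; 0, -1, 0, 0, 0, 0; -1, 0, -1, 0, 0, (0 : F)] i j = 0 := fun j => by
    have := congrArg (fun x => B x (![v, J v, J (J v), w, J w, J (J w)] j)) ha
    simpa only [map_sum, map_smul, LinearMap.sum_apply, LinearMap.smul_apply, key, smul_eq_mul, map_zero,
      LinearMap.zero_apply] using this
  have e0 := h4 0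
  have e1 := h4 1
  have e2 := h4 2
  have e3 := h4 3
  have e4 := h4 4
  have e5 := h4 5
  simp [Fin.sum_univ_six] at e0 e1 e2 e3 e4 e5
  intro i
  fin_cases i <;> simp_all

theorem good_as_Sp (hB : B.IsAlt) (hN : B.Nondegenerate) (h2 : (2 : F) ≠ 0) (hn : finrank F V = 6) {c : F}
    (hc : ∀ t : F, t ^ 3 - t ≠ c) :
    Good (Isom B) {H | ∃ J : End F V, (aeval J (asP c) = 0 ∧ ∀ u v, B (J u) v = B u (J v)) ∧ H = NJ ⊤ J} where
  proper := by
    rintro _ ⟨J, ⟨hJ, -⟩, rfl⟩ hle
    haveI : Nontrivial V := nontrivial_of_finrank_pos (R := F) (by omega)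
    obtain ⟨v, hv⟩ := exists_ne (0 : V)
    refine tv_notMem_NJ (no_eigen (not_isRoot_asP hc) hJ) (Or.inr (by omega)) (φ := B.flip v) hv
      (fun e => hv (hN.2 v fun x => congrArg (fun f : V →ₗ[F] F => f x) e)) (fun x => ?_) (hle (tv_mem_isom hB v 1))
    rw [tv_apply, one_mul]
    rfl
  cen := by
    rintro _ ⟨J, -, rfl⟩ z hz h
    rcases isom_cen hB hN hz h with e | e <;> exact smul_mem_NJ e
  conj := by
    rintro _ ⟨J, ⟨hJ, hs⟩, rfl⟩ _ ⟨J', ⟨hJ', hs'⟩, rfl⟩
    obtain ⟨v, w, hl, hg⟩ := exists_gram hB hN h2 hn hc hJ hs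
    obtain ⟨v', w', hl', hg'⟩ := exists_gram hB hN h2 hn hc hJ' hs'
    obtain ⟨t, ht, ht'⟩ := witt_family hB hN hl hl' fun i j => (hg' i j).trans (hg i j).symm
    refine ⟨t, ht, fun g hg => conj_mem_NJ (fun x => ?_) hg⟩
    let b := basisOfLinearIndependentOfCardEqFinrank hl (by simp [hn])
    have hb : ∀ i, b i = ![v, J v, J (J v), w, J w, J (J w)] i := fun i => by simp [b]
    have t0 : t v = v' := ht' 0
    have t1 : t (J v) = J' v' := ht' 1
    have t2 : t (J (J v)) = J' (J' v') := ht' 2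
    have t3 : t w = w' := ht' 3
    have t4 : t (J w) = J' w' := ht' 4
    have t5 : t (J (J w)) = J' (J' w') := ht' 5
    have : (t : End F V) * J = J' * t := b.ext fun i => by
      rw [hb]
      fin_cases i <;> simp [t0, t1, t2, t3, t4, t5, aeval_asP_eq_zero.1 hJ, aeval_asP_eq_zero.1 hJ']
    exact congrArg (fun f : End F V => f x) this

/-- The self-adjoint map `g + g⁻¹`. -/
abbrev sOf (g : V ≃ₗ[F] V) : End F V := (g : End F V) + ((g⁻¹ : V ≃ₗ[F] V) : End F V)

omit [FiniteDimensional F V] in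
theorem sOf_apply (g : V ≃ₗ[F] V) (v : V) : sOf g v = g v + g⁻¹ v := rfl

omit [FiniteDimensional F V] in
theorem sOf_comm (g : V ≃ₗ[F] V) (v : V) : g (sOf g v) = sOf g (g v) := by
  rw [sOf_apply, sOf_apply, map_add, apply_inv_apply, inv_apply_apply]

omit [FiniteDimensional F V] in
theorem sOf_adj {g : V ≃ₗ[F] V} (hg : g ∈ Isom B) (u v : V) : B (sOf g u) v = B u (sOf g v) := by
  rw [sOf_apply, sOf_apply, map_add, map_add, LinearMap.add_apply, isom_left hg, isom_right hg u v, add_comm]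

omit [FiniteDimensional F V] in
theorem exists_J_of_D [Finite F] (h3 : (3 : F) = 0) (c : F) {g : V ≃ₗ[F] V} (hg : g ∈ Isom B) {a : F}
    (ha : sOf g ^ 3 = algebraMap F _ (a ^ 3)) {D : End F V} (hD : ∀ u v, B (D u) v = B u (D v))
    (h1 : D * g = g * D + g) (h2 : D ^ 3 = D) :
    ∃ J : End F V, (aeval J (asP c) = 0 ∧ ∀ u v, B (J u) v = B u (J v)) ∧ g ∈ NJ ⊤ J := by
  obtain ⟨l, m, hlm⟩ : ∃ l m : F, l ^ 3 * a ^ 3 + m ^ 3 * (a ^ 6 + 1) = c := by
    obtain ⟨x, hx⟩ := exists_cube h3 c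
    rcases eq_or_ne a 0 with rfl | ha
    · exact ⟨0, x, by simpa using hx⟩
    · exact ⟨x / a, 0, by rw [← hx]; field_simp; simp⟩
  set G : End F V := (g : End F V) with hG
  set G' : End F V := ((g⁻¹ : V ≃ₗ[F] V) : End F V) with hG'
  have e1 : G * G' = 1 := LinearMap.ext fun v => apply_inv_apply g v
  have e2 : G' * G = 1 := LinearMap.ext fun v => inv_apply_apply g v
  have h3' : (3 : End F V) = 0 := by rw [← map_ofNat (algebraMap F (End F V)) 3, h3, map_zero]
  have h4 : D * G' = G' * D - G' := by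
    calc D * G' = G' * (G * D) * G' := by rw [← mul_assoc, e2, one_mul]
      _ = G' * D * (G * G') - G' * G * G' := by rw [eq_sub_of_add_eq h1.symm]; noncomm_ring
      _ = _ := by rw [e1, e2, mul_one, one_mul]
  let r : F[X] := C l * X + C m * (X ^ 2 - 2)
  have ht : aeval (sOf g) r = l • (G + G') + m • (G * G + G' * G') := by
    have : (G + G') ^ 2 - 2 = G * G + G' * G' := by
      rw [sq, add_mul, mul_add, mul_add, e1, e2, ← one_add_one_eq_two]
      abel
    simp only [r, map_add, map_mul, aeval_C, aeval_X, map_sub, map_pow, map_ofNat, ← Algebra.smul_def]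
    rw [← this]
  have h5 : aeval (sOf g) r ^ 3 = algebraMap F _ c := by
    have h3X : (3 : F[X]) = 0 := by rw [← map_ofNat C 3, h3, map_zero]
    have : r ^ 3 = C c + (X ^ 3 - C (a ^ 3)) * (C l ^ 3 + C m ^ 3 * (X ^ 3 + C a ^ 3)) := by
      rw [← hlm]
      simp only [r, map_add, map_mul, map_pow, map_one]
      linear_combination (C l ^ 2 * C m * X ^ 2 * (X ^ 2 - 2) + C l * C m ^ 2 * X * (X ^ 2 - 2) ^ 2 +
        C m ^ 3 * (-2 * X ^ 4 + 4 * X ^ 2 - 3)) * h3X
    rw [← map_pow, this, map_add, map_mul, map_sub, map_pow, aeval_X, aeval_C, aeval_C, ha, sub_self, zero_mul,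
      add_zero]
  have d2 : D * (G * G) = G * G * D + 2 * (G * G) := by
    rw [← mul_assoc, h1, add_mul, mul_assoc, h1]
    noncomm_ring
  have d2' : D * (G' * G') = G' * G' * D - 2 * (G' * G') := by
    rw [← mul_assoc, h4, sub_mul, mul_assoc, h4]
    noncomm_ring
  have h6 := cube_add h3' (D := D) (t := aeval (sOf g) r) (u := l • (G - G') + m • (2 * (G * G) - 2 * (G' * G')))
    (by
      simp only [ht, mul_add, mul_smul_comm, h1, h4, d2, d2', add_mul, smul_mul_assoc, smul_add, smul_sub]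
      abel)
    (by
      have e3 : 2 * (2 * (G * G)) = G * G + 3 * (G * G) := by noncomm_ring
      have e4 : 2 * (2 * (G' * G')) = G' * G' + 3 * (G' * G') := by noncomm_ring
      have e5 : ∀ x : End F V, D * (2 * x) = 2 * (D * x) := fun x => by noncomm_ring
      simp only [ht, mul_add, mul_sub, mul_smul_comm, h1, h4, e5, d2, d2', add_mul, sub_mul, smul_mul_assoc, smul_add,
        smul_sub, e3, e4, h3', zero_mul, add_zero, mul_assoc]
      abel)
    (by
      have c1 : Commute G G' := e1.trans e2.symm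
      have c2 : ∀ x, Commute x G → Commute x G' → Commute x (l • (G - G') + m • (2 * (G * G) - 2 * (G' * G'))) :=
        fun x h h' => ((h.sub_right h').smul_right l).add_right ((((Commute.ofNat_right x 2).mul_right
          (h.mul_right h)).sub_right ((Commute.ofNat_right x 2).mul_right (h'.mul_right h'))).smul_right m)
      have c3 := c2 G (.refl G) c1
      have c4 := c2 G' c1.symm (.refl G')
      rw [ht]
      exact ((c3.add_left c4).smul_left l).add_left (((c3.mul_left c3).add_left (c4.mul_left c4)).smul_left m))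
  rw [h2, h5] at h6
  refine ⟨D + aeval (sOf g) r, ⟨?_, fun u v => ?_⟩, -1, trivial, fun v => ?_⟩
  · rw [asP, map_sub, map_sub, map_pow, aeval_X, aeval_C, h6]
    abel
  · simp only [LinearMap.add_apply, map_add, hD, aeval_self_adj (sOf_adj hg)]
  · have h7 : D (g v) = g (D v) + g v := congrArg (fun f : End F V => f v) h1
    have h8 : g (aeval (sOf g) r v) = aeval (sOf g) r (g v) := CL.GLn.aeval_intertwine G (sOf_comm g) r v
    simp only [LinearMap.add_apply, map_add, h7, h8]
    module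

theorem exists_D (hB : B.IsAlt) (h3 : (3 : F) = 0) (hn : finrank F V = 6) {g : V ≃ₗ[F] V} (hg : g ∈ Isom B)
    {x y : V} (hxy : B x y ≠ 0) (hx : g (g (g x)) ∈ Submodule.span F {x, y})
    (hy : g (g (g y)) ∈ Submodule.span F {x, y}) (a1 : B x (g x) = 0) (a2 : B x (g y) = 0) (a3 : B y (g x) = 0)
    (a4 : B y (g y) = 0) (b1 : B x (g (g x)) = 0) (b2 : B x (g (g y)) = 0) (b3 : B y (g (g x)) = 0)
    (b4 : B y (g (g y)) = 0) :
    ∃ D : End F V, (∀ u v, B (D u) v = B u (D v)) ∧ D * g = g * D + g ∧ D ^ 3 = D := by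
  have flip : ∀ {u v}, B u v = 0 → B v u = 0 := fun h => (alt_eq_zero_comm hB).1 h
  have key : ∀ i j, B (![x, y, g x, g y, g (g x), g (g y)] i) (![x, y, g x, g y, g (g x), g (g y)] j) =
        !![0, B x y, 0, 0, 0, 0; -B x y, 0, 0, 0, 0, 0; 0, 0, 0, B x y, 0, 0;
          0, 0, -B x y, 0, 0, 0; 0, 0, 0, 0, 0, B x y; 0, 0, 0, 0, -B x y, 0] i j := fun i j => by
    fin_cases i <;> fin_cases j <;> simp [mem_isom.1 hg, a1, a2, a3, a4, b1, b2, b3, b4, flip a1, flip a2, flip a3,
      flip a4, flip b1, flip b2, flip b3, flip b4, alt_self hB, alt_neg hB y x]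
  have hl : LinearIndependent F ![x, y, g x, g y, g (g x), g (g y)] := Fintype.linearIndependent_iff.2 fun a ha => by
    have h4 : ∀ j, ∑ i, a i * !![0, B x y, 0, 0, 0, 0; -B x y, 0, 0, 0, 0, 0; 0, 0, 0, B x y, 0, 0;
        0, 0, -B x y, 0, 0, 0; 0, 0, 0, 0, 0, B x y; 0, 0, 0, 0, -B x y, 0] i j = 0 := fun j => by
      have := congrArg (fun z => B z (![x, y, g x, g y, g (g x), g (g y)] j)) ha
      simpa only [map_sum, map_smul, LinearMap.sum_apply, LinearMap.smul_apply, key, smul_eq_mul, map_zero,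
        LinearMap.zero_apply] using this
    have e0 := h4 0
    have e1 := h4 1
    have e2 := h4 2
    have e3 := h4 3
    have e4 := h4 4
    have e5 := h4 5
    simp [Fin.sum_univ_six, hxy] at e0 e1 e2 e3 e4 e5
    intro i
    fin_cases i <;> assumption
  let b := basisOfLinearIndependentOfCardEqFinrank hl (by simp [hn])
  have hb : ∀ i, b i = ![x, y, g x, g y, g (g x), g (g y)] i := fun i => by simp [b]
  let D : End F V := b.constr F fun i => (![0, 0, 1, 1, 2, 2] i : F) • b i
  have hD : ∀ i, D (b i) = (![0, 0, 1, 1, 2, 2] i : F) • b i := b.constr_basis F _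
  have hD' : ∀ i, D (![x, y, g x, g y, g (g x), g (g y)] i) =
      (![0, 0, 1, 1, 2, 2] i : F) • ![x, y, g x, g y, g (g x), g (g y)] i := fun i => by rw [← hb, hD]
  have d0 : D x = 0 := (hD' 0).trans (zero_smul F _)
  have d1 : D y = 0 := (hD' 1).trans (zero_smul F _)
  have d2 : D (g x) = g x := (hD' 2).trans (one_smul F _)
  have d3 : D (g y) = g y := (hD' 3).trans (one_smul F _)
  have d4 : D (g (g x)) = (2 : F) • g (g x) := hD' 4
  have d5 : D (g (g y)) = (2 : F) • g (g y) := hD' 5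
  have d6 : ∀ z ∈ Submodule.span F {x, y}, D z = 0 := fun z hz => by
    obtain ⟨p, q, rfl⟩ := Submodule.mem_span_pair.1 hz
    rw [map_add, map_smul, map_smul, d0, d1, smul_zero, smul_zero, add_zero]
  have d7 : ∀ z : V, z + z + z = 0 := fun z => by
    rw [← one_smul F z, ← add_smul, ← add_smul, show (1 : F) + 1 + 1 = 3 by norm_num, h3, zero_smul]
  refine ⟨D, ?_, b.ext fun i => ?_, b.ext fun i => ?_⟩
  · have : B ∘ₗ D = B.compl₂ D := b.ext fun i => b.ext fun j => by
      change B (D (b i)) (b j) = B (b i) (D (b j))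
      rw [hD, hD, map_smul, map_smul, LinearMap.smul_apply, hb, hb, key]
      fin_cases i <;> fin_cases j <;> simp
    exact fun u v => congrArg (fun f : V →ₗ[F] V →ₗ[F] F => f u v) this
  · rw [hb]
    fin_cases i <;> simp [d0, d1, d2, d3, d4, d5, d6 _ hx, d6 _ hy, d7, two_smul]
  · rw [pow_succ, sq, Module.End.mul_apply, Module.End.mul_apply, hD, map_smul, map_smul, hD, map_smul, hD, smul_smul,
      smul_smul]
    congr 1
    fin_cases i <;> simp
    all_goals linear_combination 2 * h3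

end CL.Cov
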