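/-
`Sp₆(q)`, `q` a power of `3`, is the union of the conjugates of two proper subgroups.
-/
import Cfsg.Agent.Known.Cov5

set_option autoImplicit false

open Polynomial Module

namespace CL.Cov

open CL.Uni CL.Sp CL.Elf

variable {F V : Type*} [Field F] [AddCommGroup V] [Module F V] {B : LinearMap.BilinForm F V} {g : V ≃ₗ[F] V}

theorem polarize (hB : B.IsAlt) (hN : B.Nondegenerate) (hg : g ∈ Isom B) {T : End F V}
    (hs : ∀ u v, B (T u) v = B u (T v)) (hc : ∀ v, g (T v) = T (g v)) (h : ∀ x, B x (T (g x)) = 0) (y : V) :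
    T (g y) = T (g⁻¹ y) := by
  refine sub_eq_zero.1 (hN.2 _ fun x => ?_)
  have h1 := h (x + y)
  simp only [map_add, LinearMap.add_apply, h x, h y] at h1
  rw [← hc x, isom_right hg, ← hs, alt_neg hB (T (g⁻¹ y))] at h1
  rw [map_sub]
  linear_combination h1

theorem exists_pow_kill {s : End F V} {P : F[X]} (hP : Irreducible P) {k : ℕ} {v : V} (hv : aeval s (P ^ k) v = 0) :
    ∃ j, aeval s (P ^ j) v = 0 ∧ finrank F (cyc s v) = j * P.natDegree := by
  classical
  have he : ∃ j, aeval s (P ^ j) v = 0 := ⟨k, hv⟩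
  refine ⟨Nat.find he, Nat.find_spec he, ?_⟩
  rw [← natDegree_pow]
  refine finrank_cyc_of fun r => ⟨fun hr => ?_, fun ⟨t, e⟩ => by
    rw [e, mul_comm, aeval_mul_apply, Nat.find_spec he, map_zero]⟩
  obtain ⟨i, hi, e⟩ := (dvd_prime_pow hP.prime _).1 (EuclideanDomain.gcd_dvd_right r (P ^ Nat.find he))
  have h1 : aeval s (EuclideanDomain.gcd r (P ^ Nat.find he)) v = 0 := by
    rw [EuclideanDomain.gcd_eq_gcd_ab, map_add, LinearMap.add_apply, mul_comm r, mul_comm (P ^ _), aeval_mul_apply,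
      aeval_mul_apply, hr, Nat.find_spec he, map_zero, map_zero, add_zero]
  obtain ⟨t, ht⟩ := e.dvd
  have h2 : aeval s (P ^ i) v = 0 := by rw [ht, mul_comm, aeval_mul_apply, h1, map_zero]
  obtain rfl := le_antisymm hi (Nat.find_min' he h2)
  exact e.symm.dvd.trans (EuclideanDomain.gcd_dvd_left _ _)

variable [FiniteDimensional F V]

theorem finrank_cyc_le (hB : B.IsAlt) (hN : B.Nondegenerate) (h2 : (2 : F) ≠ 0) {s : End F V}
    (hs : ∀ u v, B (s u) v = B u (s v)) (v : V) : 2 * finrank F (cyc s v) ≤ finrank F V := by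
  have h := CL.Cls.isWittForm_alt B hN.1 hB
  rw [← finrank_top F V]
  refine (nd_top h).two_mul_le h le_top ?_
  rintro _ ⟨p, rfl⟩ _ ⟨r, rfl⟩
  rw [evAt_apply, evAt_apply, aeval_self_adj hs, ← aeval_mul_apply]
  exact form_self_adj hB h2 (aeval_self_adj hs _) v

theorem exists_primary (hN : B.Nondegenerate) [Nontrivial V] (hg : g ∈ Isom B)
    (hirr : ∀ U, ND B U → Inv g U → U = ⊥ ∨ U = ⊤) :
    ∃ P : F[X], P.Monic ∧ Irreducible P ∧ aeval (sOf g) (P ^ finrank F V) = 0 := by
  obtain ⟨P, hm, hP, hd⟩ := exists_monic_irreducible_factor (sOf g).charpoly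
    (not_isUnit_of_natDegree_pos _ (by rw [LinearMap.charpoly_natDegree]; exact finrank_pos))
  refine ⟨P, hm, hP, ?_⟩
  have h1 := aeval_self_adj (sOf_adj hg) (P ^ finrank F V)
  refine (hirr (LinearMap.range (aeval (sOf g) (P ^ finrank F V))) ?_ ?_).elim LinearMap.range_eq_bot.1 fun e => ?_
  · rintro _ ⟨w, rfl⟩ hw
    have h2 : aeval (sOf g) (P ^ finrank F V) (aeval (sOf g) (P ^ finrank F V) w) = 0 :=
      hN.1 _ fun z => by rw [h1]; exact hw _ ⟨z, rfl⟩
    rw [map_pow, ← Module.End.mul_apply, ← pow_add, ← LinearMap.mem_ker,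
      Module.End.ker_pow_eq_ker_pow_finrank_of_le (Nat.le_add_right _ _)] at h2
    rw [map_pow]
    exact h2
  · rintro _ ⟨w, rfl⟩
    exact ⟨g w, (CL.GLn.aeval_intertwine (g : End F V) (sOf_comm g) _ w).symm⟩
  · obtain ⟨u, hu, hu'⟩ := exists_killed hP hd
    obtain ⟨k, hk⟩ := Nat.exists_eq_succ_of_ne_zero (finrank_pos (R := F) (M := V)).ne'
    refine (hu (LinearMap.injective_iff_surjective.2 (LinearMap.range_eq_top.1 e) ?_)).elim
    rw [hk, pow_succ, aeval_mul_apply, hu', map_zero, map_zero]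

omit [FiniteDimensional F V] in
theorem apply_apply_eq (g : V ≃ₗ[F] V) (x : V) : g (g x) = sOf g (g x) - x := by
  rw [sOf_apply, inv_apply_apply, add_sub_cancel_right]

theorem false_of_four (hB : B.IsAlt) (h2 : (2 : F) ≠ 0) (hn : finrank F V = 6) (hg : g ∈ Isom B)
    (hirr : ∀ U, ND B U → Inv g U → U = ⊥ ∨ U = ⊤) {x : V} {α β : F}
    (hx : sOf g (sOf g x) = α • sOf g x + β • x)
    (hd : B x (g x) * (α * B x (sOf g (g x)) + β * B x (g x)) ≠ B x (sOf g (g x)) ^ 2) : False := by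
  have hs := sOf_adj hg
  have hc := sOf_comm g
  have hgg := apply_apply_eq g x
  generalize sOf g = s at *
  have hx' : s (s (g x)) = α • s (g x) + β • g x := by
    rw [← hc, ← hc, hx, map_add, map_smul, map_smul]
  have c1 := form_self_adj hB h2 hs
  have mem : ∀ i, ![x, s x, g x, s (g x)] i ∈
      Submodule.span F (Set.range ![x, s x, g x, s (g x)]) := fun i => Submodule.subset_span ⟨i, rfl⟩
  have solve : ∀ p q : F, p * B x (g x) + q * B x (s (g x)) = 0 →
      p * B x (s (g x)) + q * (α * B x (s (g x)) + β * B x (g x)) = 0 → p = 0 ∧ q = 0 := fun p q e1 e2 =>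
    ⟨mul_right_cancel₀ (sub_ne_zero.2 hd) (by
        linear_combination (α * B x (s (g x)) + β * B x (g x)) * e1 - B x (s (g x)) * e2),
      mul_right_cancel₀ (sub_ne_zero.2 hd) (by linear_combination B x (g x) * e2 - B x (s (g x)) * e1)⟩
  refine (hirr (Submodule.span F (Set.range ![x, s x, g x, s (g x)])) (fun u hu h => ?_)
    (fun u hu => ?_)).elim (fun e => ?_) fun e => ?_
  rotate_left 2
  · have : x = 0 := (Submodule.mem_bot F).1 (e ▸ mem 0)
    exact hd (by simp [this])
  · have := finrank_range_le_card (R := F) ![x, s x, g x, s (g x)]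
    rw [Set.finrank, e, finrank_top, hn] at this
    simp at this
  · obtain ⟨a, rfl⟩ := (Submodule.mem_span_range_iff_exists_fun F).1 hu
    have e0 := h _ (mem 0)
    have e1 := h _ (mem 1)
    have e2 := h _ (mem 2)
    have e3 := h _ (mem 3)
    rw [alt_eq_zero_comm hB] at e0 e1
    simp only [Fin.sum_univ_four, Matrix.cons_val, map_add, map_smul, LinearMap.add_apply, LinearMap.smul_apply, hs,
      hx, hx', c1, alt_self hB, smul_eq_mul] at e0 e1 e2 e3
    obtain ⟨f1, f2⟩ := solve (a 2) (a 3) (by linear_combination e0) (by linear_combination e1)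
    obtain ⟨f3, f4⟩ := solve (a 0) (a 1) (by linear_combination e2) (by linear_combination e3)
    simp [Fin.sum_univ_four, f1, f2, f3, f4]
  · obtain ⟨a, rfl⟩ := (Submodule.mem_span_range_iff_exists_fun F).1 hu
    refine (Submodule.mem_span_range_iff_exists_fun F).2 ⟨![-a 2, -a 3, a 0 + a 3 * β, a 1 + a 2 + a 3 * α], ?_⟩
    simp only [Fin.sum_univ_four, Matrix.cons_val, map_add, map_smul, hc, hgg, map_sub, hx']
    module

theorem D_of_free (hB : B.IsAlt) (h3 : (3 : F) = 0) (hn : finrank F V = 6) (hg : g ∈ Isom B) {a : F} {n : End F V}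
    (hn0 : ∀ v, n v = g v + g⁻¹ v - a • v) (hn3 : ∀ v, n (n (n v)) = 0) {x : V} (hx : B x (n (n (g x))) ≠ 0) :
    ∃ D : End F V, (∀ u v, B (D u) v = B u (D v)) ∧ D * g = g * D + g ∧ D ^ 3 = D := by
  have h2 := two_ne_zero_of_three h3
  have hs : ∀ u v, B (n u) v = B u (n v) := fun u v => by
    rw [hn0, hn0, ← sOf_apply, ← sOf_apply, map_sub, map_sub, LinearMap.sub_apply, sOf_adj hg, map_smul, map_smul,
      LinearMap.smul_apply]
  have hc : ∀ v, g (n v) = n (g v) := fun v => by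
    rw [hn0, hn0, ← sOf_apply, ← sOf_apply, map_sub, sOf_comm, map_smul]
  obtain ⟨y, y0, y1, y2⟩ : ∃ y, B y (g y) = 0 ∧ B y (n (g y)) = 0 ∧ B y (n (n (g y))) ≠ 0 := by
    obtain ⟨p, hp⟩ : ∃ p : F, B x (n (g x)) + 2 * p * B x (n (n (g x))) = 0 :=
      ⟨-B x (n (g x)) / (2 * B x (n (n (g x)))), by field_simp; ring⟩
    obtain ⟨r, hr⟩ : ∃ r : F, B x (g x) + 2 * p * B x (n (g x)) + (p ^ 2 + 2 * r) * B x (n (n (g x))) = 0 :=
      ⟨-(B x (g x) + 2 * p * B x (n (g x)) + p ^ 2 * B x (n (n (g x)))) / (2 * B x (n (n (g x)))), by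
        field_simp; ring⟩
    refine ⟨x + p • n x + r • n (n x), ?_, ?_, ?_⟩ <;>
      simp only [map_add, map_smul, LinearMap.add_apply, LinearMap.smul_apply, hs, hc, hn3, map_zero, smul_eq_mul]
    · linear_combination hr
    · linear_combination hp
    · simpa using hx
  have flip : ∀ {u v}, B u v = 0 → B v u = 0 := fun h => (alt_eq_zero_comm hB).1 h
  have m1 : B y (g⁻¹ y) = 0 := by rw [← isom_left hg, flip y0]
  have b2 : B y (g (g y)) = 0 := by simpa [hn0, inv_apply_apply, alt_self hB, y0] using y1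
  have m2 : B y (g⁻¹ (g⁻¹ y)) = 0 := by rw [← isom_left hg, ← isom_left hg, flip b2]
  have b3 : B y (g (g (g y))) ≠ 0 := by
    simpa [hn0, inv_apply_apply, apply_inv_apply, alt_self hB, y0, b2, show B y (g.symm y) = 0 from m1] using y2
  have h6 : ∀ v, g (g (g v)) = a ^ 3 • v - g⁻¹ (g⁻¹ (g⁻¹ v)) := fun v => by
    have h4 := hn3 v
    simp only [hn0, map_add, map_sub, map_smul, inv_apply_apply, apply_inv_apply] at h4
    have h5 : (3 : F) • (g v + g⁻¹ v - a • (g (g v) + g⁻¹ (g⁻¹ v)) - (2 * a) • v + a ^ 2 • (g v + g⁻¹ v)) = 0 := by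
      rw [h3, zero_smul]
    linear_combination (norm := module) h4 - h5
  have hI := mem_isom.1 hg
  refine exists_D hB h3 hn hg b3 (Submodule.subset_span (by simp)) ?_ y0 ?_ ?_ ?_ b2 ?_ ?_ ?_
  · rw [h6 (g (g (g y)))]
    simp only [inv_apply_apply]
    exact Submodule.mem_span_pair.2 ⟨-1, a ^ 3, by module⟩
  · rw [h6 (g y)]
    simp [inv_apply_apply, y0, show B y (g.symm (g.symm y)) = 0 from m2]
  · rw [hI, flip b2]
  · rw [hI, hI, hI, y0]
  · rw [h6 (g (g y))]
    simp [inv_apply_apply, b2, show B y (g.symm y) = 0 from m1]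
  · rw [hI, hI, flip y0]
  · rw [hI, hI, hI, b2]

theorem sq_eq_zero_of (hB : B.IsAlt) (hN : B.Nondegenerate) (h2 : (2 : F) ≠ 0) (hn : finrank F V = 6) {n : End F V}
    (hs : ∀ u v, B (n u) v = B u (n v)) (hn3 : ∀ v, n (n (n v)) = 0) {y : V} (hy : n (n y) ≠ 0) {z : V}
    (hz : n (n z) = 0) : ∃ w, n w = z := by
  obtain ⟨x, hx⟩ : ∃ x, B x (n (n y)) ≠ 0 := by
    by_contra! h
    exact hy (hN.2 _ h)
  have c1 := form_self_adj hB h2 hs
  have c2 : ∀ x, B x (n (n x)) = 0 := fun x => by rw [← hs, alt_self hB]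
  have hx' : B y (n (n x)) ≠ 0 := by rwa [← hs, ← hs, Ne, alt_eq_zero_comm hB]
  have hl : LinearIndependent F ![x, n x, n (n x), y, n y, n (n y)] := Fintype.linearIndependent_iff.2 fun a ha => by
    have e0 := congrArg (B x) ha
    have e1 := congrArg (fun v => B x (n v)) ha
    have e2 := congrArg (fun v => B x (n (n v))) ha
    have e3 := congrArg (B y) ha
    have e4 := congrArg (fun v => B y (n v)) ha
    have e5 := congrArg (fun v => B y (n (n v))) ha
    simp [Fin.sum_univ_six, c1, c2, hn3, alt_self hB, hx, hx'] at e0 e1 e2 e3 e4 e5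
    simp [e2, e5, hx, hx'] at e1 e4
    simp [e1, e2, e4, e5, hx, hx'] at e0 e3
    intro i
    fin_cases i <;> assumption
  obtain ⟨a, rfl⟩ := (Submodule.mem_span_range_iff_exists_fun F).1
    ((hl.span_eq_top_of_card_eq_finrank' (by simp [hn])).ge (Submodule.mem_top : z ∈ ⊤))
  have e2 := congrArg (B x) hz
  have e5 := congrArg (B y) hz
  simp [Fin.sum_univ_six, c2, hn3, hx, hx'] at e2 e5
  exact ⟨a 1 • x + a 2 • n x + a 4 • y + a 5 • n y, by simp [Fin.sum_univ_six, e2, e5]⟩

theorem D_of_cube (hB : B.IsAlt) (hN : B.Nondegenerate) (h3 : (3 : F) = 0) (hn : finrank F V = 6) (hg : g ∈ Isom B)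
    {a : F} {n : End F V} (hn0 : ∀ v, n v = g v + g⁻¹ v - a • v) (hs : ∀ u v, B (n u) v = B u (n v))
    (hc : ∀ v, g (n v) = n (g v)) (hn2 : ∀ v, n (n v) = 0) (hm : ∀ v, n (g v) = n (g⁻¹ v)) {x₀ : V}
    (hx₀ : n x₀ ≠ 0) : ∃ D : End F V, (∀ u v, B (D u) v = B u (D v)) ∧ D * g = g * D + g ∧ D ^ 3 = D := by
  have h2 := two_ne_zero_of_three h3
  have z3 : ∀ v : V, (3 : F) • v = 0 := fun v => by rw [h3, zero_smul]
  have f0 : ∀ v, g⁻¹ v = n v + a • v - g v := fun v => by rw [hn0]; abel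
  have f1 : ∀ v, n (g v) = -a • n v := fun v => by
    have h4 := hm v
    rw [f0, map_sub, map_add, map_smul, hn2] at h4
    linear_combination (norm := module) -h4 + z3 (n (g v))
  have f2 : a ^ 2 = 1 := by
    have h4 := hm (g x₀)
    rw [inv_apply_apply, f1, f1, smul_smul, ← sub_eq_zero, ← one_smul F (n x₀), smul_smul, ← sub_smul] at h4
    linear_combination (smul_eq_zero.1 h4).resolve_right hx₀
  have f3 : ∀ v, g (g v) = -a • n v + a • g v - v := fun v => by
    rw [← f1, hn0 (g v), inv_apply_apply]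
    abel
  have f4 : ∀ v, g (g (g v)) = -a • v := fun v => by
    rw [f3 (g v), f1, f3]
    match_scalars <;> grind
  have c1 := form_self_adj hB h2 hs
  have flip : ∀ {u v}, B u v = 0 → B v u = 0 := fun h => (alt_eq_zero_comm hB).1 h
  have hI := mem_isom.1 hg
  obtain ⟨x, x0, x1⟩ : ∃ x, n x ≠ 0 ∧ B x (g x) = 0 := by
    obtain ⟨w, hw⟩ : ∃ w, B w (n x₀) ≠ 0 := by
      by_contra! h
      exact hx₀ (hN.2 _ h)
    have e1 : n (g (g w) - w) = 0 := by
      rw [map_sub, f1, f1]
      match_scalars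
      grind
    have e2 : B (g (g w) - w) (g (g (g w) - w)) = 0 := by
      rw [map_sub g, f4, f3]
      simp only [map_add, map_sub, map_smul, LinearMap.add_apply, LinearMap.sub_apply, LinearMap.smul_apply, hs, f1,
        c1, alt_self hB, smul_eq_mul, alt_neg hB (g w) w]
      grind
    have e3 : B x₀ (g (g (g w) - w)) + B (g (g w) - w) (g x₀) = 2 * B w (n x₀) := by
      have e4 : B x₀ (g w) = -(B w (n x₀) + a * B w x₀ - B w (g x₀)) := by
        rw [isom_right hg, alt_neg hB, f0, map_sub, map_add, map_smul, smul_eq_mul]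
      rw [map_sub g, f4, f3]
      simp only [map_add, map_sub, map_smul, LinearMap.add_apply, LinearMap.sub_apply, LinearMap.smul_apply, hs, f1,
        hI, smul_eq_mul, alt_neg hB x₀ w, e4]
      grind
    refine ⟨x₀ + (-B x₀ (g x₀) / (2 * B w (n x₀))) • (g (g w) - w), by
      rwa [map_add, map_smul, e1, smul_zero, add_zero], ?_⟩
    generalize g (g w) - w = z at e2 e3
    simp only [map_add, map_smul, LinearMap.add_apply, LinearMap.smul_apply, smul_eq_mul, e2]
    field_simp
    linear_combination -(2 * B w (n x₀) * B x₀ (g x₀)) * e3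
  have hl : LinearIndependent F ![x, g x, n x] := Fintype.linearIndependent_iff.2 fun c hc' => by
    have ha : a ≠ 0 := fun e => by simp [e] at f2
    simp only [Fin.sum_univ_three, Matrix.cons_val] at hc'
    have e1 := congrArg n hc'
    have e2 := congrArg g hc'
    simp only [map_add, map_smul, map_zero, hc, f1, f3, hn2] at e1 e2
    have e3 : c 0 = c 1 * a := by
      have : (c 0 - c 1 * a) • n x = 0 := by linear_combination (norm := module) e1
      exact sub_eq_zero.1 ((smul_eq_zero.1 this).resolve_right x0)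
    have e4 : c 1 = 0 := by
      have : (c 1 * a) • n x = 0 := by
        rw [e3] at e2 hc'
        have e5 : (c 1 * (a ^ 2 - 1)) • x = 0 := by rw [f2, sub_self, mul_zero, zero_smul]
        linear_combination (norm := module) -e2 - a • hc' + e5 + z3 ((c 1 * a) • g x)
      exact ((mul_eq_zero.1 ((smul_eq_zero.1 this).resolve_right x0)).resolve_right ha)
    rw [e4, zero_mul] at e3
    rw [e3, e4, zero_smul, zero_smul, zero_add, zero_add] at hc'
    have e5 := (smul_eq_zero.1 hc').resolve_right x0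
    intro i
    fin_cases i <;> assumption
  obtain ⟨y, hy⟩ := exists_forall_eq_alt hB hN hl ![1, 0, -a]
  have y0 : B x y = 1 := hy 0
  have y1 : B (g x) y = 0 := hy 1
  have y2 : B x (n y) = -a := (hs x y).symm.trans (hy 2)
  have y3 : B x (g y) = 0 := by
    rw [isom_right hg, f0]
    simp [hs, y0, y1, y2]
  have y4 : B y (n x) = a := by rw [← hs, alt_neg hB, y2, neg_neg]
  have y5 : B y x = -1 := by rw [alt_neg hB, y0]
  have a4 : B (y + (-B y (g y)) • g x) (g (y + (-B y (g y)) • g x)) = 0 := by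
    simp only [map_add, map_smul, LinearMap.add_apply, LinearMap.smul_apply, smul_eq_mul, hI, x1, y0]
    simp only [f3, map_add, map_sub, map_smul, smul_eq_mul, y4, y5, flip y1]
    grind
  refine exists_D hB h3 hn hg (x := x) (y := y + (-B y (g y)) • g x) (by simp [y0, x1]) ?_ ?_ x1 ?_ ?_ a4 ?_ ?_ ?_ ?_
  · rw [f4]
    exact Submodule.smul_mem _ _ (Submodule.subset_span (by simp))
  · rw [f4]
    exact Submodule.smul_mem _ _ (Submodule.subset_span (by simp))
  · simp [f3, y3, c1, x1, alt_self hB]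
  · simp [flip y1, alt_self hB]
  · simp [f3, c1, x1, alt_self hB]
  · rw [f3]
    simp only [map_add, map_sub, map_smul, smul_eq_mul, f1, f3, y0, y2, y3, c1, x1, alt_self hB]
    grind
  · simp only [map_add, map_smul, LinearMap.add_apply, LinearMap.smul_apply, smul_eq_mul, hI, x1]
    simp only [f3, map_add, map_sub, map_smul, smul_eq_mul, y4, y5, flip y1]
    grind
  · rw [f3, map_sub, map_add, map_smul, map_smul, a4, c1, alt_self hB]
    simp

theorem exists_J_Sp6 [Finite F] (hB : B.IsAlt) (hN : B.Nondegenerate) (h3 : (3 : F) = 0) (hn : finrank F V = 6)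
    {c : F} (hc : ∀ t : F, t ^ 3 - t ≠ c) (hg : g ∈ Isom B) (hirr : ∀ U, ND B U → Inv g U → U = ⊥ ∨ U = ⊤) :
    ∃ J : End F V, (aeval J (asP c) = 0 ∧ ∀ u v, B (J u) v = B u (J v)) ∧ g ∈ NJ ⊤ J := by
  haveI : Nontrivial V := nontrivial_of_finrank_pos (R := F) (by omega)
  have h2 := two_ne_zero_of_three h3
  obtain ⟨P, hm, hP, hP6⟩ := exists_primary hN hg hirr
  have hk : ∀ k, 3 < (k + 1) * P.natDegree → aeval (sOf g) (P ^ k) = 0 := fun k hk => LinearMap.ext fun v => by
    obtain ⟨j, h4, h5⟩ := exists_pow_kill hP (v := v) (by rw [hP6]; rfl)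
    have h6 := finrank_cyc_le hB hN h2 (sOf_adj hg) v
    have h7 : j ≤ k := by
      by_contra h7
      have := Nat.mul_le_mul_right P.natDegree (show k + 1 ≤ j by omega)
      omega
    obtain ⟨i, rfl⟩ := Nat.exists_eq_add_of_le' h7
    rw [pow_add, aeval_mul_apply, h4, map_zero, LinearMap.zero_apply]
  have htwo : ∀ U, ND B U → Inv g U → finrank F U ≠ 2 := fun U h4 h5 h6 => by
    rcases hirr U h4 h5 with rfl | rfl
    · simp at h6
    · rw [finrank_top] at h6
      omega
  have hd := hP.natDegree_pos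
  rcases (by omega : 3 < P.natDegree ∨ P.natDegree = 3 ∨ P.natDegree = 2 ∨ P.natDegree = 1) with e | e | e | e
  · exact absurd (hk 0 (by omega)) (by simp)
  · obtain ⟨r, hr⟩ := exists_aeval_root hm (irreducible_asP hc) (fun p hp hd => by
      rw [natDegree_asP, natDegree_eq_of_degree_eq (degree_eq_degree_of_associated (hp.associated_of_dvd hP hd)), e])
      (pow_one P ▸ hk 1 (by omega))
    exact ⟨_, ⟨hr, aeval_self_adj (sOf_adj hg) r⟩,
      mem_NJ_of_comm (CL.GLn.aeval_intertwine (g : End F V) (sOf_comm g) r)⟩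
  · exfalso
    obtain ⟨α, β, rfl⟩ : ∃ α β : F, P = X ^ 2 - C α * X - C β := by
      obtain ⟨a, b, h⟩ := (isMonicOfDegree_two_iff (f := P)).1 ⟨e, hm⟩
      exact ⟨-a, -b, by rw [h, map_neg, map_neg]; ring⟩
    have h4 : ∀ x, sOf g (sOf g x) = α • sOf g x + β • x := fun x => by
      have := congrArg (fun f : End F V => f x) (hk 1 (by omega))
      simp only [pow_one, map_sub, map_mul, sq, aeval_X, aeval_C, LinearMap.sub_apply, Module.End.mul_apply,
        Module.algebraMap_end_apply, LinearMap.zero_apply] at this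
      linear_combination (norm := module) this
    have h5 : ∀ t : F, t ^ 2 - α * t - β ≠ 0 := fun t ht =>
      not_isRoot_of_irreducible hP e.ge t (by simpa using ht)
    obtain ⟨x, hx⟩ : ∃ x, B x (g x) ≠ 0 := by
      by_contra! h
      have h6 : ∀ y, g y = g⁻¹ y := polarize hB hN hg (T := 1) (fun _ _ => rfl) (fun _ => rfl) h
      have h7 : ∀ y, sOf g (sOf g y) = (4 : F) • y := fun y => by
        rw [sOf_apply, sOf_apply, ← h6, ← h6 (g y + g y), map_add, h6 (g y), inv_apply_apply]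
        module
      obtain ⟨y, hy⟩ := exists_ne (0 : V)
      have hJ := no_eigen (not_isRoot_of_irreducible hP e.ge) (pow_one (X ^ 2 - C α * X - C β) ▸ hk 1 (by omega))
      exact hy (hJ y (-2) (eq_neg_of_add_eq_zero_left (hJ (sOf g y + (2 : F) • y) 2 (by
        rw [map_add, map_smul, h7]; module)) |>.trans (neg_smul _ _).symm))
    refine false_of_four hB h2 hn hg hirr (h4 x) fun h => h5 (B x (sOf g (g x)) / B x (g x)) ?_
    field_simp
    linear_combination -h
  obtain ⟨a, rfl⟩ : ∃ a : F, P = X - C a := ⟨_, (hm.eq_X_add_C e).trans (by rw [← sub_neg_eq_add, ← map_neg])⟩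
  set n := aeval (sOf g) (X - C a) with hn'
  have hn0 : ∀ v, n v = g v + g⁻¹ v - a • v := fun v => by simp [hn', Module.algebraMap_end_apply]
  have hn3 : ∀ v, n (n (n v)) = 0 := fun v => by
    have := hk 3 (by omega)
    rw [map_pow, ← hn', pow_succ, sq] at this
    exact congrArg (fun f : End F V => f v) this
  have hs : ∀ u v, B (n u) v = B u (n v) := aeval_self_adj (sOf_adj hg) _
  have hcm : ∀ v, g (n v) = n (g v) := CL.GLn.aeval_intertwine (g : End F V) (sOf_comm g) _
  have hcm' : ∀ v, g⁻¹ (n v) = n (g⁻¹ v) := fun v => g.injective (by rw [hcm, apply_inv_apply, apply_inv_apply])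
  suffices ∃ D : End F V, (∀ u v, B (D u) v = B u (D v)) ∧ D * g = g * D + g ∧ D ^ 3 = D by
    obtain ⟨D, d1, d2, d3⟩ := this
    refine exists_J_of_D h3 c hg (a := a) ?_ d1 d2 d3
    have h3X : (3 : F[X]) = 0 := by rw [← map_ofNat C 3, h3, map_zero]
    have h4 := hk 3 (by omega)
    rw [show (X - C a) ^ 3 = X ^ 3 - C (a ^ 3) by rw [map_pow]; linear_combination (C a ^ 2 * X - C a * X ^ 2) * h3X,
      map_sub, map_pow, aeval_X, aeval_C, sub_eq_zero] at h4
    exact h4
  by_cases c2 : ∃ x, B x (n (n (g x))) ≠ 0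
  · obtain ⟨x, hx⟩ := c2
    exact D_of_free hB h3 hn hg hn0 hn3 hx
  push Not at c2
  have m2 : ∀ y, n (n (g y)) = n (n (g⁻¹ y)) := polarize hB hN hg (T := n * n)
    (fun u v => (hs _ _).trans (hs _ _)) (fun v => (hcm _).trans (congrArg n (hcm v))) c2
  have mm : ∀ v, g (g v - g⁻¹ v) - g⁻¹ (g v - g⁻¹ v) = n (n v) + (2 * a) • n v + (a ^ 2 - 4) • v := fun v => by
    simp only [hn0, map_add, map_sub, map_smul, inv_apply_apply, apply_inv_apply]
    module
  have hn2 : ∀ v, n (n v) = 0 := by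
    by_contra! h
    obtain ⟨y, hy⟩ := h
    have h4 : a ^ 2 - 4 = 0 := by
      have := congrArg (fun v => n (n v)) (mm y)
      simp only [map_add, map_smul, hn3, map_zero, smul_zero, zero_add] at this
      rw [map_sub, map_sub, m2, sub_self] at this
      exact (smul_eq_zero.1 this.symm).resolve_right hy
    obtain ⟨w, hw⟩ := sq_eq_zero_of hB hN h2 hn hs hn3 hy (z := g y - g⁻¹ y) (by rw [map_sub, map_sub, m2, sub_self])
    have h5 := mm y
    rw [← hw, hcm, hcm'] at h5
    have h6 := congrArg n h5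
    rw [map_sub, m2, sub_self, h4, zero_smul, add_zero, map_add, hn3, zero_add, map_smul] at h6
    have h7 : a = 0 := (mul_eq_zero.1 ((smul_eq_zero.1 h6.symm).resolve_right hy)).resolve_left h2
    exact h2 (pow_eq_zero_iff two_ne_zero |>.1 (by rw [h7] at h4; linear_combination -h4))
  have c1 : ∀ x, B x (n (g x)) = 0 := fun x => by
    by_contra h
    refine false_of_four hB h2 hn hg hirr (x := x) (α := 2 * a) (β := -a ^ 2) ?_ fun e => h ?_
    · have := hn2 x
      rw [hn0, hn0, ← sOf_apply, ← sOf_apply, map_sub, map_smul] at this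
      linear_combination (norm := module) this
    · rw [hn0, ← sOf_apply, map_sub, map_smul, smul_eq_mul]
      exact pow_eq_zero_iff two_ne_zero |>.1 (by linear_combination -e)
  have m1 := polarize hB hN hg hs hcm c1
  by_cases h0 : ∃ x, n x ≠ 0
  · obtain ⟨x, hx⟩ := h0
    exact D_of_cube hB hN h3 hn hg hn0 hs hcm hn2 m1 hx
  push Not at h0
  exfalso
  by_cases c0 : ∃ x, B x (g x) ≠ 0
  · obtain ⟨x, hx⟩ := c0
    refine htwo _ (nd_span_pair hB hx) (fun w hw => ?_) (finrank_span_pair hB hx)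
    obtain ⟨p, q, rfl⟩ := Submodule.mem_span_pair.1 hw
    have h4 := h0 (g x)
    rw [hn0, inv_apply_apply] at h4
    exact Submodule.mem_span_pair.2 ⟨-q, p + q * a, by
      rw [map_add, map_smul, map_smul]; linear_combination (norm := module) -q • h4⟩
  push Not at c0
  have h6 : ∀ y, g y = g⁻¹ y := polarize hB hN hg (T := 1) (fun _ _ => rfl) (fun _ => rfl) c0
  obtain ⟨W, -, hW, hW'⟩ := ND.exists_nd_alt hN.1 hB 1 (nd_top (CL.Cls.isWittForm_alt B hN.1 hB))
    (by rw [finrank_top]; omega)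
  refine htwo W hW (fun w hw => ?_) hW'
  have h4 := h0 w
  rw [hn0, ← h6] at h4
  have h5 : (3 : F) • g w = 0 := by rw [h3, zero_smul]
  rw [show g w = -a • w by linear_combination (norm := module) h5 - h4]
  exact W.smul_mem _ hw

theorem isCov_PSp6 (F : Type*) [Field F] [Fintype F] {a : ℕ} (ha : 1 ≤ a) (hF : Fintype.card F = 3 ^ a) :
    IsCov (Cfsg.PSp 3 F) := by
  have h3 : (3 : F) = 0 := by
    have := FiniteField.cast_card_eq_zero F
    rw [hF, Nat.cast_pow, pow_eq_zero_iff (by omega)] at this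
    exact_mod_cast this
  obtain ⟨c, hc⟩ := exists_not_as F
  have hB := stdForm_isAlt (Fin 3) F
  have hN := stdForm_nondegenerate (Fin 3) F
  have hn : finrank F (Fin 3 ⊕ Fin 3 → F) = 6 := by simp
  have h := CL.Cls.isWittForm_alt _ hN.1 hB
  refine cov_quot_of_good (spEquiv (Fin 3) F) (good_nd hB hN (by omega))
    (good_as_Sp hB hN (two_ne_zero_of_three h3) hn hc) fun g hg => ?_
  by_cases hirr : ∀ U, ND (stdForm (Fin 3) F) U → Inv g U → U = ⊥ ∨ U = ⊤
  · obtain ⟨J, hJ, hg⟩ := exists_J_Sp6 hB hN h3 hn hc hg hirr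
    exact Or.inr ⟨_, ⟨J, hJ, rfl⟩, hg⟩
  push Not at hirr
  obtain ⟨U, h1, h2, h4, h5⟩ := hirr
  obtain ⟨k, hk⟩ := h1.even_of_alt hB
  have h6 := Submodule.finrank_lt h5
  have h7 := Submodule.finrank_eq_zero.not.2 h4
  have h8 := finrank_prp h U
  rcases (by omega : finrank F U = 2 ∨ finrank F (prp (stdForm (Fin 3) F) U) = 2) with e | e
  · exact Or.inl ⟨_, ⟨U, ⟨e, h1⟩, rfl⟩, mem_stabSet_of_forall h2⟩
  · exact Or.inl ⟨_, ⟨_, ⟨e, h1.perp h⟩, rfl⟩, mem_stabSet_of_forall (h2.perp hg)⟩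

end CL.Cov
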