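/-
Brauer's count of the simple modules in characteristic `p`, and common eigenvectors in simple modules.
-/
import Cfsg.Agent.Blk.IBrDec

set_option autoImplicit false

namespace CL.CurRich

open Cfsg CL.Char CL.Blk CL.Blk.Rk Module
open scoped MonoidAlgebra

/-- The number of simple modules is the number of `p`-regular classes. -/
theorem card_sim {G : Type*} [Group G] [Finite G] {p : ℕ} {M : Ideal AlgInt} (hM : IsPModular p M) :
    Nat.card (Sim M G) =
      Nat.card {c : ConjClasses G // ∃ g : G, ConjClasses.mk g = c ∧ (orderOf g).Coprime p} := by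
  classical
  let C := {c : ConjClasses G // ∃ g : G, ConjClasses.mk g = c ∧ (orderOf g).Coprime p}
  have hp : p.Prime := hM.1
  have hreg : ∀ g : G, IsPRegular p g ↔ (orderOf g).Coprime p := fun g => by
    rw [IsPRegular, Nat.coprime_comm, hp.coprime_iff_not_dvd]
  let L : (C → ℂ) →ₗ[ℂ] (G → ℂ) :=
    { toFun := fun f g => if h : IsPRegular p g then f ⟨ConjClasses.mk g, g, rfl, (hreg g).1 h⟩ else 0
      map_add' := fun f f' => by ext g; by_cases h : IsPRegular p g <;> simp [h]
      map_smul' := fun a f => by ext g; by_cases h : IsPRegular p g <;> simp [h] }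
  have hL : ∀ f g, L f g = if h : IsPRegular p g then f ⟨ConjClasses.mk g, g, rfl, (hreg g).1 h⟩ else 0 :=
    fun _ _ => rfl
  have hinj : Function.Injective L := by
    rw [← LinearMap.ker_eq_bot, eq_bot_iff]
    intro f hf
    rw [Submodule.mem_bot]
    ext c
    obtain ⟨g, e, h⟩ := c.2
    have := congrFun (LinearMap.mem_ker.1 hf) g
    rw [hL, dif_pos ((hreg g).2 h)] at this
    rwa [show (⟨ConjClasses.mk g, g, rfl, (hreg g).1 ((hreg g).2 h)⟩ : C) = c from Subtype.ext e] at this
  have hrange : LinearMap.range L = Submodule.span ℂ (Set.range fun j : Sim M G => j.ibr p) := by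
    refine le_antisymm ?_ (Submodule.span_le.2 ?_)
    · rintro _ ⟨f, rfl⟩
      have h1 : IsClassFunction G (L f) := fun g x => by
        have h2 : IsPRegular p (x * g * x⁻¹) ↔ IsPRegular p g := by
          rw [IsPRegular, IsPRegular, show x * g * x⁻¹ = MulAut.conj x g from rfl, MulEquiv.orderOf_eq]
        rw [hL, hL]
        by_cases h : IsPRegular p g
        · rw [dif_pos h, dif_pos (h2.2 h)]
          congr 2
          exact ConjClasses.mk_eq_mk_iff_isConj.2 (isConj_iff.2 ⟨x, rfl⟩).symm
        · rw [dif_neg h, dif_neg (mt h2.1 h)]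
      have h3 : pRegularPart p (L f) = L f := pReg_eq_self_iff.2 fun g h => by rw [hL, dif_neg h]
      have := Fintype.ofFinite G
      rw [← h3, h1.eq_sum_irr, pReg_sum]
      refine Submodule.sum_mem _ fun χ _ => ?_
      rw [pReg_smul, pReg_eq_sum_dec hM χ.2.isCharacter]
      exact Submodule.smul_mem _ _ (Submodule.sum_mem _ fun j _ =>
        Submodule.smul_mem _ _ (Submodule.subset_span ⟨j, rfl⟩))
    · rintro _ ⟨j, rfl⟩
      refine ⟨fun c => j.ibr p (Quotient.out c.1), ?_⟩
      ext g
      rw [hL]
      by_cases h : IsPRegular p g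
      · rw [dif_pos h]
        obtain ⟨x, hx⟩ := isConj_iff.1 (isConj_out g)
        conv_rhs => rw [← hx]
        exact (j.isClassFunction_ibr _ x).symm
      · rw [dif_neg h]
        exact (pReg_eq_self_iff.1 j.pReg_ibr g h).symm
  have h1 := finrank_span_eq_card (linearIndependent_ibr (G := G) hM)
  have := Fintype.ofFinite C
  rw [← hrange, LinearMap.finrank_range_of_inj hinj, finrank_fintype_fun_eq_card] at h1
  rw [Nat.card_eq_fintype_card, Nat.card_eq_fintype_card, h1]

section Alg

variable {k : Type*} [Field k]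

/-- A left ideal of an endomorphism ring without common kernel is everything. -/
theorem one_mem_of_ker {V : Type*} [AddCommGroup V] [Module k V] [FiniteDimensional k V]
    (J : Submodule k (End k V)) (hJ : ∀ f, ∀ a ∈ J, f * a ∈ J) (h : ∀ v, (∀ a ∈ J, a v = 0) → v = 0) :
    (1 : End k V) ∈ J := by
  classical
  let D : Submodule k (Dual k V) := Submodule.span k {ψ | ∃ φ : Dual k V, ∃ a ∈ J, ψ = φ.comp a}
  have hD : D = ⊤ := by
    rw [← Subspace.dualCoannihilator_dualAnnihilator_eq (W := D)]
    have : D.dualCoannihilator = ⊥ := by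
      rw [eq_bot_iff]
      intro v hv
      rw [Submodule.mem_dualCoannihilator] at hv
      refine h v fun a ha => ?_
      rw [← Module.forall_dual_apply_eq_zero_iff k]
      exact fun φ => hv _ (Submodule.subset_span ⟨φ, a, ha, rfl⟩)
    rw [this, Submodule.dualAnnihilator_bot]
  have key : ∀ ψ ∈ D, ∀ v : V, (ψ.smulRight v : End k V) ∈ J := fun ψ hψ v => by
    induction hψ using Submodule.span_induction with
    | mem x hx =>
      obtain ⟨φ, a, ha, rfl⟩ := hx
      exact hJ (φ.smulRight v) a ha
    | zero => rw [show ((0 : Dual k V).smulRight v : End k V) = 0 by ext; simp]; exact J.zero_mem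
    | add x y _ _ hx hy =>
      rw [show ((x + y).smulRight v : End k V) = x.smulRight v + y.smulRight v by ext; simp [add_smul]]
      exact J.add_mem hx hy
    | smul a x _ hx =>
      rw [show ((a • x).smulRight v : End k V) = a • x.smulRight v by ext; simp [mul_smul]]
      exact J.smul_mem a hx
  let b := Module.finBasis k V
  have : (1 : End k V) = ∑ i, (b.coord i).smulRight (b i) := by
    ext x
    simp [b.sum_repr x]
  rw [this]
  exact J.sum_mem fun i _ => key _ (hD ▸ Submodule.mem_top) _

variable {A : Type*} [Ring A] [Algebra k A] (W : Wedd k A)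

/-- A non-zero vector of any module has an image in a simple module with a larger annihilator. -/
theorem exists_simple_ann {V : Type*} [AddCommGroup V] [Module k V] (ρ : A →ₐ[k] End k V) {m : V} (hm : m ≠ 0) :
    ∃ (j : Fin W.n) (v : Fin (W.dim j) → k), v ≠ 0 ∧ ∀ a, ρ a m = 0 → W.π a j v = 0 := by
  classical
  by_contra hc
  push Not at hc
  let I : Submodule k A := LinearMap.ker ((LinearMap.applyₗ m).comp ρ.toLinearMap)
  have hI : ∀ a, a ∈ I ↔ ρ a m = 0 := fun a => Iff.rfl
  have h1 : ∀ j : Fin W.n, ∃ a, ρ a m = 0 ∧ W.π a j = 1 := fun j => by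
    let πj : A →ₗ[k] End k (Fin (W.dim j) → k) := (LinearMap.proj j).comp W.π.toLinearMap
    have := one_mem_of_ker (I.map πj) (by
      rintro f _ ⟨a, ha, rfl⟩
      obtain ⟨b, hb⟩ := W.surj (Pi.single j f)
      refine ⟨b * a, ?_, ?_⟩
      · rw [SetLike.mem_coe, hI, map_mul, End.mul_apply, (hI a).1 ha, map_zero]
      · change W.π (b * a) j = f * W.π a j
        rw [map_mul, Pi.mul_apply, hb, Pi.single_eq_same]) (fun v hv => by
      by_contra h0
      obtain ⟨a, ha, h2⟩ := hc j v h0
      exact h2 (hv _ ⟨a, ha, rfl⟩))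
    obtain ⟨a, ha, e⟩ := this
    exact ⟨a, ha, e⟩
  choose a ha ha' using h1
  choose e he using fun j : Fin W.n => W.surj (Pi.single j 1)
  have h2 : W.π (1 - ∑ j, e j * a j) = 0 := by
    ext1 j
    rw [map_sub, map_one, map_sum, Pi.sub_apply, Finset.sum_apply, Finset.sum_eq_single j]
    · simp [he, ha']
    · intro i _ hi
      simp [he, Pi.single_eq_of_ne hi.symm]
    · simp
  obtain ⟨u, hu⟩ := (W.isNilpotent h2).isUnit_one_sub
  rw [sub_sub_cancel] at hu
  have h3 : ρ u m = 0 := by
    rw [hu, map_sum, LinearMap.sum_apply]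
    exact Finset.sum_eq_zero fun j _ => by rw [map_mul, End.mul_apply, ha, map_zero]
  apply hm
  have : ρ (↑u⁻¹ * u) m = 0 := by rw [map_mul, End.mul_apply, h3, map_zero]
  simpa using this

end Alg

end CL.CurRich
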