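/-
Weight vectors (Curtis, Richen) in modules of the group of a Steinberg system over a finite field, in the defining
characteristic.
-/
import Cfsg.Agent.Known.StMod
import Cfsg.Agent.Known.StChev
import Cfsg.Agent.Chev.StSylow

set_option autoImplicit false
set_option linter.unusedSectionVars false

namespace CL.CurRich

open CL.Chev Module

variable {ι Φ : Type} [Fintype ι] [DecidableEq ι] {R : RS ι Φ} {F : Type*} [Field F] {G : Type*} [Group G]
  (S : StSys R F G)

section Rank1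

theorem nS_mul_x (i : ι) (u : F) : S.nS i * S.x (R.simple i) u = S.x (R.neg (R.simple i)) (-u) * S.nS i := by
  have := S.conj_n (R.simple i) (R.simple i) one_ne_zero u
  rw [R.refl_self, S.η_self, one_zpow] at this
  rw [StSys.nS, ← mul_inv_eq_iff_eq_mul, this]
  congr 1
  simp

theorem nS_mul_x_neg (i : ι) (u : F) : S.nS i * S.x (R.neg (R.simple i)) u = S.x (R.simple i) (-u) * S.nS i := by
  have := S.conj_n (R.simple i) (R.neg (R.simple i)) one_ne_zero u
  rw [R.refl_apply_neg, R.refl_self, R.neg_neg, S.η_neg, S.η_self, one_zpow] at this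
  rw [StSys.nS, ← mul_inv_eq_iff_eq_mul, this]
  congr 1
  simp

theorem n_eq_neg (r : Φ) {t : F} (ht : t ≠ 0) :
    S.n r t = S.x (R.neg r) (-t⁻¹) * S.x r t * S.x (R.neg r) (-t⁻¹) := by
  have h1 := S.conj_n r r ht t
  have h2 := S.conj_n r (R.neg r) ht (-t⁻¹)
  rw [R.refl_self, S.η_self, R.pair_self, show ((-1 : ℤ) : F) * t ^ (-2 : ℤ) * t = -t⁻¹ by
    rw [zpow_neg]; field_simp; simp] at h1
  rw [R.refl_apply_neg, R.refl_self, R.neg_neg, S.η_neg, S.η_self, R.pair_neg_right, R.pair_self,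
    show ((-1 : ℤ) : F) * t ^ (- -2 : ℤ) * -t⁻¹ = t by rw [neg_neg]; field_simp; simp] at h2
  calc S.n r t = S.n r t * S.n r t * (S.n r t)⁻¹ := by group
    _ = (S.n r t * S.x r t * (S.n r t)⁻¹) * (S.n r t * S.x (R.neg r) (-t⁻¹) * (S.n r t)⁻¹) *
        (S.n r t * S.x r t * (S.n r t)⁻¹) := by nth_rewrite 2 [StSys.n]; group
    _ = _ := by rw [h1, h2]

variable {S}

theorem h_neg_one_inv (hM : S.HMul) (r : Φ) : (S.h r (-1))⁻¹ = S.h r (-1) := by
  rw [← hM.h_inv r (by simp), inv_neg, inv_one]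

theorem nS_mul_nS (hM : S.HMul) (i : ι) : S.nS i * S.nS i = S.h (R.simple i) (-1) := by
  rw [StSys.nS, S.n_mul_n, S.h_one, one_mul, h_neg_one_inv hM]

theorem x_mul_nS (hM : S.HMul) (i : ι) {t : F} (ht : t ≠ 0) :
    S.x (R.simple i) t * S.nS i =
      S.x (R.neg (R.simple i)) t⁻¹ * S.h (R.simple i) (-t) * S.x (R.simple i) (-t⁻¹) := by
  have h1 := n_eq_neg S (R.simple i) ht
  have h2 := nS_mul_x S i (-t⁻¹)
  have h3 : S.h (R.simple i) (-t) = S.n (R.simple i) t * S.nS i := by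
    rw [StSys.nS, S.n_mul_n, h_neg_one_inv hM, ← hM _ _ _ ht (by simp), mul_neg_one]
  rw [neg_neg] at h2
  rw [h3, mul_assoc, mul_assoc, h2, h1, S.x_neg]
  group

variable (S) in
/-- Moving an element of `V` through `x_i(t) n_i`. -/
theorem exists_move (i : ι) {v : G} (hv : v ∈ S.V) : ∃ s, ∀ t, ∃ v' ∈ S.V,
    S.x (R.simple i) t * S.nS i * v = v' * (S.x (R.simple i) (t + s) * S.nS i) := by
  obtain ⟨u, hu, s, rfl⟩ := S.opp.exists_Ui_mul i (S.opp_U ▸ hv)
  refine ⟨-s, fun t => ?_⟩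
  have h1 : S.x (R.simple i) t ∈ Subgroup.normalizer (S.opp.Ui i : Set G) :=
    S.opp.X_neg_simple_le_normalizer_Ui i (by simpa using S.opp.x_mem_X (R.neg (R.simple i)) t)
  have h2 : S.nS i ∈ Subgroup.normalizer (S.opp.Ui i : Set G) := by
    have h3 : S.x (R.simple i) 1 ∈ Subgroup.normalizer (S.opp.Ui i : Set G) :=
      S.opp.X_neg_simple_le_normalizer_Ui i (by simpa using S.opp.x_mem_X (R.neg (R.simple i)) 1)
    have h4 := (S.opp.X_simple_le_U i).trans (S.opp.U_le_normalizer_Ui i) (S.opp.x_mem_X (R.simple i) (-1⁻¹))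
    exact mul_mem (mul_mem h3 h4) h3
  refine ⟨_, S.opp_U ▸ S.opp.Ui_le_U i (conj_mem_of_normalizer (mul_mem h1 h2) hu), ?_⟩
  rw [S.x_add, StSys.opp_x, mul_assoc (S.x _ t) (S.x _ (-s)), ← nS_mul_x_neg]
  group

end Rank1

variable [Fintype F] [DecidableEq F] {k V : Type*} [Field k] [AddCommGroup V] [Module k V]

/-- The Hecke operator of a simple root. -/
def crT (σ : G →* End k V) (i : ι) : End k V := ∑ t : F, σ (S.x (R.simple i) t * S.nS i)

theorem crT_apply (σ : G →* End k V) (i : ι) (m : V) :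
    crT S σ i m = ∑ t : F, σ (S.x (R.simple i) t * S.nS i) m := by
  simp only [crT, LinearMap.sum_apply]

theorem crT_shift (σ : G →* End k V) (i : ι) (m : V) (s : F) :
    ∑ t : F, σ (S.x (R.simple i) (t + s) * S.nS i) m = crT S σ i m := by
  rw [crT_apply]
  exact Fintype.sum_equiv (Equiv.addRight s) _ _ fun _ => rfl

variable {S}

/-- Weight vectors. -/
structure IsWt (hM : S.HMul) (σ : G →* End k V) (χ : (ι → Fˣ) →* kˣ) (μ : ι → k) (m : V) : Prop where
  ne : m ≠ 0
  U : ∀ u ∈ S.U, σ u m = m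
  H : ∀ c, σ (hM.torus c) m = (χ c : k) • m
  T : ∀ i, crT S σ i m = μ i • m

/-- The character sum of the `i`-th component of `χ`. -/
def csum (χ : (ι → Fˣ) →* kˣ) (i : ι) : k := ∑ t : Fˣ, (χ (Pi.mulSingle i t) : k)

theorem sum_erase_eq {M : Type*} [AddCommMonoid M] (f : F → M) : ∑ t : F, f t = f 0 + ∑ t : Fˣ, f (-t) := by
  classical
  rw [← Finset.add_sum_erase _ _ (Finset.mem_univ (0 : F))]
  congr 1
  symm
  refine Finset.sum_bij (fun t _ => -(t : F)) (fun t _ => by simp) (fun a _ b _ h => Units.ext (neg_injective h))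
    (fun b hb => ⟨-Units.mk0 b (Finset.ne_of_mem_erase hb), Finset.mem_univ _, by simp⟩) fun _ _ => rfl

variable {hM : S.HMul} {σ : G →* End k V} {χ χ' : (ι → Fˣ) →* kˣ} {μ μ' : ι → k} {m m' : V}

theorem IsWt.h_apply (h : IsWt hM σ χ μ m) (i : ι) (t : Fˣ) :
    σ (S.h (R.simple i) t) m = (χ (Pi.mulSingle i t) : k) • m := by
  rw [← hM.torus_mulSingle, h.H]

theorem IsWt.x_nS (h : IsWt hM σ χ μ m) (i : ι) (t : Fˣ) :
    σ (S.x (R.simple i) (-t) * S.nS i) m =
      (χ (Pi.mulSingle i t) : k) • σ (S.x (R.neg (R.simple i)) (-t : F)⁻¹) m := by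
  rw [x_mul_nS hM i (neg_ne_zero.2 t.ne_zero), neg_neg, map_mul, map_mul, End.mul_apply, End.mul_apply,
    h.U _ (S.x_mem_U (R.pos_simple i) _), h.h_apply, map_smul]

/-- The eigenvalue of a Hecke operator is `0` or the character sum. -/
theorem IsWt.mu_eq (h : IsWt hM σ χ μ m) (hq : (Fintype.card F : k) = 0) (i : ι) : μ i = 0 ∨ μ i = csum χ i := by
  have h1 : crT S σ i (crT S σ i m) = csum χ i • crT S σ i m := by
    have h2 : crT S σ i (crT S σ i m) =
        ∑ u : F, ∑ t : F, σ (S.x (R.simple i) t * S.nS i * (S.x (R.simple i) u * S.nS i)) m := by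
      rw [crT_apply S σ i m, map_sum]
      refine Finset.sum_congr rfl fun u _ => ?_
      rw [crT_apply]
      exact Finset.sum_congr rfl fun t _ => by rw [map_mul σ (_ * _), End.mul_apply]
    rw [h2, sum_erase_eq, csum, Finset.sum_smul]
    have h3 : ∑ t : F, σ (S.x (R.simple i) t * S.nS i * (S.x (R.simple i) 0 * S.nS i)) m = 0 := by
      have h4 : ∀ t : F, σ (S.x (R.simple i) t * S.nS i * (S.x (R.simple i) 0 * S.nS i)) m =
          (χ (Pi.mulSingle i (-1)) : k) • m := fun t => by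
        rw [S.x_zero, one_mul, mul_assoc, nS_mul_nS hM, map_mul, End.mul_apply,
          show (-1 : F) = ((-1 : Fˣ) : F) by simp, h.h_apply, map_smul, h.U _ (S.x_mem_U (R.pos_simple i) _)]
      simp only [h4, Finset.sum_const, Finset.card_univ]
      rw [← Nat.cast_smul_eq_nsmul k, hq, zero_smul]
    rw [h3, zero_add]
    refine Finset.sum_congr rfl fun u _ => ?_
    rw [← crT_shift S σ i m (-(-u : F)⁻¹), Finset.smul_sum]
    refine Finset.sum_congr rfl fun t _ => ?_
    rw [map_mul σ (_ * _), End.mul_apply, h.x_nS, map_smul, ← End.mul_apply, ← map_mul, mul_assoc, nS_mul_x_neg,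
      S.x_add, mul_assoc]
  rw [h.T, map_smul, h.T, smul_smul, smul_smul] at h1
  have := smul_left_injective k h.ne h1
  by_cases h0 : μ i = 0
  · exact Or.inl h0
  · exact Or.inr (mul_right_cancel₀ h0 this)

/-- A weight vector generates its module under `V`. -/
theorem IsWt.eq_zero (h : IsWt hM σ χ μ m) {f : V →ₗ[k] k} (hf : ∀ v ∈ S.V, ∀ x, f (σ v x) = f x) (h0 : f m = 0)
    {g : G} (hg : g ∈ S.grp) : f (σ g m) = 0 := by
  let L : Submodule k V := Submodule.span k {y | ∃ v ∈ S.V, y = σ v m}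
  have hm : ∀ v ∈ S.V, σ v m ∈ L := fun v hv => Submodule.subset_span ⟨v, hv, rfl⟩
  have hL : L ≤ LinearMap.ker f := Submodule.span_le.2 (by
    rintro _ ⟨v, hv, rfl⟩
    exact (hf v hv m).trans h0)
  let K : Submonoid G :=
    { carrier := {g | ∀ y ∈ L, σ g y ∈ L}
      mul_mem' := fun {a b} ha hb y hy => by rw [map_mul]; exact ha _ (hb y hy)
      one_mem' := fun y hy => by rwa [map_one] }
  have hK : ∀ g, (∀ v ∈ S.V, σ (g * v) m ∈ L) → g ∈ K := fun g hg y hy => by
    have : L ≤ L.comap (σ g) := Submodule.span_le.2 (by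
      rintro _ ⟨v, hv, rfl⟩
      have := hg v hv
      rwa [map_mul] at this)
    exact this hy
  have hV : ∀ v ∈ S.V, v ∈ K := fun v hv => hK v fun w hw => hm _ (mul_mem hv hw)
  have hH : ∀ c, hM.torus c ∈ K := fun c => hK _ fun v hv => by
    rw [show hM.torus c * v = hM.torus c * v * (hM.torus c)⁻¹ * hM.torus c by group, map_mul, End.mul_apply, h.H,
      map_smul]
    exact L.smul_mem _ (hm _ (conj_mem_of_normalizer (S.H_le_normalizer_V (hM.torus_mem_H c)) hv))
  have hx : ∀ i t, σ (S.x (R.simple i) t * S.nS i) m ∈ L := fun i => by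
    have h1 : ∀ t : Fˣ, σ (S.x (R.simple i) (-t) * S.nS i) m ∈ L := fun t => by
      rw [h.x_nS]
      exact L.smul_mem _ (hm _ (S.x_mem_V (by rw [R.pos_neg_iff, not_not]; exact R.pos_simple i) _))
    intro t
    by_cases ht : t = 0
    · have h2 := h.T i
      rw [crT_apply, sum_erase_eq, ← eq_sub_iff_add_eq] at h2
      rw [ht, h2]
      exact L.sub_mem (L.smul_mem _ (by simpa using hm 1 (one_mem _))) (L.sum_mem fun t _ => h1 t)
    · simpa using h1 (-Units.mk0 t ht)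
  have hn : ∀ i, S.nS i ∈ K := fun i => hK _ fun v hv => by
    obtain ⟨s, hs⟩ := exists_move S i hv
    obtain ⟨v', hv', e⟩ := hs 0
    rw [S.x_zero, one_mul] at e
    rw [e, map_mul]
    exact hV v' hv' _ (hx i _)
  have hx' : ∀ r, (∃ i, r = R.simple i ∨ r = R.neg (R.simple i)) → ∀ t, S.x r t ∈ K := by
    rintro r ⟨i, rfl | rfl⟩ t
    · have h1 := nS_mul_x_neg S i (-t)
      rw [neg_neg, ← mul_inv_eq_iff_eq_mul, S.nS_inv, show (-1 : F) = ((-1 : Fˣ) : F) by simp,
        ← hM.torus_mulSingle] at h1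
      rw [← h1]
      exact mul_mem (mul_mem (hn i) (hV _ (S.x_mem_V (by rw [R.pos_neg_iff, not_not]; exact R.pos_simple i) _)))
        (mul_mem (hH _) (hn i))
    · exact hV _ (S.x_mem_V (by rw [R.pos_neg_iff, not_not]; exact R.pos_simple i) _)
  have hall : g ∈ K ∧ g⁻¹ ∈ K := by
    rw [S.grp_eq_XS_simple] at hg
    induction hg using Subgroup.closure_induction with
    | mem x hx => obtain ⟨r, hr, t, rfl⟩ := hx; exact ⟨hx' r hr t, S.x_neg r t ▸ hx' r hr _⟩
    | one => simp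
    | mul a b _ _ ha hb => exact ⟨mul_mem ha.1 hb.1, by rw [mul_inv_rev]; exact mul_mem hb.2 ha.2⟩
    | inv a _ ha => exact ⟨ha.2, by simpa using ha.1⟩
  exact hL (hall.1 m (by simpa using hm 1 (one_mem _)))

/-- The weight is determined by the module. -/
theorem IsWt.unique (h : IsWt hM σ χ μ m) (h' : IsWt hM σ χ' μ' m') {f : V →ₗ[k] k}
    (hf : ∀ v ∈ S.V, ∀ x, f (σ v x) = f x) (h0 : f m' ≠ 0)
    (hgen : ∀ φ : V →ₗ[k] k, (∀ g ∈ S.grp, φ (σ g m) = 0) → φ = 0) : χ = χ' ∧ μ = μ' := by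
  have key : ∀ (a : End k V) (c c' : k), a m = c • m → a m' = c' • m' →
      (∀ v ∈ S.V, ∀ x, f (a (σ v x)) = f (a x)) → c = c' := fun a c c' e e' ha => by
    have h1 := hgen (f.comp a - c • f) fun g hg => h.eq_zero (f := f.comp a - c • f)
      (fun v hv x => by simp [ha v hv, hf v hv]) (by simp [e]) hg
    have h2 := LinearMap.congr_fun h1 m'
    simp only [LinearMap.sub_apply, LinearMap.comp_apply, e', map_smul, LinearMap.smul_apply, smul_eq_mul,
      LinearMap.zero_apply, sub_eq_zero] at h2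
    exact (mul_right_cancel₀ h0 h2).symm
  refine ⟨MonoidHom.ext fun c => Units.ext (key _ _ _ (h.H c) (h'.H c) fun v hv x => ?_),
    funext fun i => key _ _ _ (h.T i) (h'.T i) fun v hv x => ?_⟩
  · rw [← End.mul_apply, ← map_mul,
      show hM.torus c * v = hM.torus c * v * (hM.torus c)⁻¹ * hM.torus c by group, map_mul, End.mul_apply,
      hf _ (conj_mem_of_normalizer (S.H_le_normalizer_V (hM.torus_mem_H c)) hv)]
  · obtain ⟨s, hs⟩ := exists_move S i hv
    rw [← crT_shift S σ i x s, crT_apply, map_sum, map_sum]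
    refine Finset.sum_congr rfl fun t _ => ?_
    obtain ⟨v', hv', e⟩ := hs t
    rw [← End.mul_apply, ← map_mul, e, map_mul σ v', End.mul_apply, hf _ hv']

/-- Two modules with weight vectors of the same weight: a `V`-invariant pairing. -/
theorem IsWt.pair_eq {V' : Type*} [AddCommGroup V'] [Module k V'] {σ' : G →* End k V'} {m' : V'}
    (h : IsWt hM σ χ μ m) (h' : IsWt hM σ' χ μ m') {f : V →ₗ[k] k} (hf : ∀ v ∈ S.V, ∀ x, f (σ v x) = f x)
    {f' : V' →ₗ[k] k} (hf' : ∀ v ∈ S.V, ∀ x, f' (σ' v x) = f' x) {g : G} (hg : g ∈ S.grp) :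
    f' m' * f (σ g m) = f m * f' (σ' g m') := by
  let τ : G →* End k (V × V') := Representation.prod σ σ'
  have hτ : ∀ g x y, τ g (x, y) = (σ g x, σ' g y) := fun _ _ _ => rfl
  have h1 : IsWt hM τ χ μ (m, m') :=
    ⟨fun e => h.ne (congrArg Prod.fst e), fun u hu => by rw [hτ, h.U u hu, h'.U u hu],
      fun c => by rw [hτ, h.H, h'.H]; rfl, fun i => by
        rw [crT_apply, Prod.smul_mk, ← h.T, ← h'.T, crT_apply, crT_apply]
        simp only [hτ]
        exact Prod.ext (by simp [Prod.fst_sum]) (by simp [Prod.snd_sum])⟩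
  have h2 := h1.eq_zero (f := f' m' • f.comp (LinearMap.fst k V V') - f m • f'.comp (LinearMap.snd k V V'))
    (fun v hv x => by obtain ⟨x, y⟩ := x; simp [hτ, hf v hv, hf' v hv]) (by simp [mul_comm]) hg
  simpa [hτ, sub_eq_zero] using h2

/-- Every non-zero module has a weight vector. -/
theorem exists_isWt [Finite Φ] [IsAlgClosed k] [FiniteDimensional k V] [Nontrivial V] (hS : S.Faithful)
    (hM : S.HMul) (p : ℕ) [Fact p.Prime] [CharP F p] [CharP k p] (σ : G →* End k V) :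
    ∃ χ μ m, IsWt hM σ χ μ m := by
  classical
  have := hS.finite_grp hM
  have := Fintype.ofFinite S.grp
  have hU : IsPGroup p hS.sharp.U := by
    obtain ⟨n, hn⟩ := hS.uFaithful.exists_card_U p
    exact IsPGroup.of_card (hS.card_sharp_U.trans hn)
  obtain ⟨v, -, ψ, hv⟩ := St.exists_hVec (Q := hS.sharp) (ρ := σ.comp S.grp.subtype) hU (fun a ha b hb => by
    rw [hS.sharp_H] at ha hb
    exact Subtype.ext (hM.commute_of_mem_H ha hb).eq) (W := ⊤) top_ne_bot (fun _ _ _ => trivial)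
  have hH : ∀ c, ∃ a : kˣ, σ (hM.torus c) v = (a : k) • v := fun c => by
    have h1 := hM.torus_mem_H c
    have h2 : (⟨hM.torus c, S.H_le_grp h1⟩ : S.grp) ∈ hS.sharp.H := by rw [hS.sharp_H]; exact h1
    exact ⟨Units.mk0 _ (hv.ne_zero_H (h := ⟨_, h2.2⟩) h2), hv.rho_H (h := ⟨_, h2.2⟩) h2⟩
  choose χ hχ using hH
  let χ' : (ι → Fˣ) →* kˣ := MonoidHom.mk' χ fun a b => Units.ext (hv.eq_of_smul (by
    rw [← hχ, map_mul, map_mul, End.mul_apply, hχ, map_smul, hχ, smul_smul, Units.val_mul, mul_comm]))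
  refine ⟨χ', fun i => ψ ⟨S.nG i, S.nS_mem_N i⟩, v, hv.ne, fun u hu => hv.fix ⟨u, S.U_le_grp hu⟩ hu, hχ,
    fun i => ?_⟩
  rw [← hv.eig, St.hecke_apply, crT_apply]
  have h1 : ∀ u : S.grp, u ∈ hS.sharp.Un (S.nG i) ↔ (u : G) ∈ S.X (R.simple i) := fun u => by
    rw [hS.mem_sharp_Un (w := R.sperm i) (S.induces_nS i), R.sperm_inv, R.inv_sperm]
    rfl
  refine Finset.sum_bij (fun t _ => ⟨S.x (R.simple i) t, S.x_mem_grp _ _⟩)
    (fun t _ => St.mem_fs.2 ((h1 _).2 (S.x_mem_X _ _)))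
    (fun a _ b _ e => hS.uFaithful.x_injective _ (congrArg Subtype.val e)) (fun u hu => ?_) fun _ _ => rfl
  obtain ⟨t, ht⟩ := S.mem_X.1 ((h1 u).1 (St.mem_fs.1 hu))
  exact ⟨t, Finset.mem_univ _, Subtype.ext ht.symm⟩

/-- Every non-zero module has a non-zero `V`-invariant functional. -/
theorem exists_inv_dual [Finite Φ] [FiniteDimensional k V] [Nontrivial V] (hS : S.Faithful)
    (p : ℕ) [Fact p.Prime] [CharP F p] [CharP k p] (σ : G →* End k V) :
    ∃ f : V →ₗ[k] k, f ≠ 0 ∧ ∀ v ∈ S.V, ∀ x, f (σ v x) = f x := by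
  obtain ⟨n, hn⟩ := hS.opp.uFaithful.exists_card_U p
  rw [S.opp_U] at hn
  have : Finite S.V := Nat.finite_of_card_ne_zero (hn ▸ pow_ne_zero _ (Fact.out : p.Prime).ne_zero)
  obtain ⟨f, -, h0, hf⟩ := St.exists_fixed_of_isPGroup (IsPGroup.of_card hn)
    ((Representation.dual σ).comp S.V.subtype) (W := ⊤) top_ne_bot (fun _ _ _ => trivial)
  refine ⟨f, h0, fun v hv x => ?_⟩
  have := LinearMap.congr_fun (hf ⟨v⁻¹, inv_mem hv⟩) x
  simpa [Representation.dual_apply, Module.Dual.transpose_apply] using this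

end CL.CurRich
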