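/-
The theorem of Curtis and Richen for simply connected Steinberg systems over a finite field: the number of simple
modules in the defining characteristic, hence of `p`-regular classes, is `q ^ rank`.
-/
import Cfsg.Agent.Known.CurRich1
import Cfsg.Agent.Known.CurRich2
import Cfsg.Agent.Fgs.Kazarin

set_option autoImplicit false
set_option linter.unusedSectionVars false

namespace CL.CurRich

open CL.Chev Module Finset

variable {ι Φ : Type} [Fintype ι] [DecidableEq ι] {R : RS ι Φ} {F : Type*} [Field F] {G : Type*} [Group G]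
  {S : StSys R F G} {k : Type*} [Field k]

theorem exists_nS_conj_torus (hM : S.HMul) (j : ι) (c : ι → Fˣ) :
    ∃ t : Fˣ, S.nS j * hM.torus c * (S.nS j)⁻¹ = hM.torus (c * Pi.mulSingle j t) := by
  have key : ∀ s : Finset ι, ∃ t : Fˣ, S.nS j * hM.torus (∏ i ∈ s, Pi.mulSingle i (c i)) * (S.nS j)⁻¹ =
      hM.torus ((∏ i ∈ s, Pi.mulSingle i (c i)) * Pi.mulSingle j t) := fun s => by
    induction s using Finset.induction_on with
    | empty => exact ⟨1, by simp⟩
    | insert i s hi ih =>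
      obtain ⟨u, hu⟩ := ih
      refine ⟨c i ^ (- R.pair (R.simple i) (R.simple j)) * u, ?_⟩
      have h1 : S.nS j * hM.torus (Pi.mulSingle i (c i)) * (S.nS j)⁻¹ =
          hM.torus (Pi.mulSingle i (c i) * Pi.mulSingle j (c i ^ (- R.pair (R.simple i) (R.simple j)))) := by
        rw [map_mul, hM.torus_mulSingle, hM.torus_mulSingle, StSys.nS,
          hM.conj_h (S.induces_n (R.simple j) one_ne_zero) _ (c i).ne_zero, hM.h_refl _ _ (c i).ne_zero,
          Units.val_zpow_eq_zpow_val]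
      rw [prod_insert hi, Pi.mulSingle_mul, mul_mul_mul_comm, map_mul _ (_ * _), ← h1, ← hu, map_mul]
      group
  simpa only [univ_prod_mulSingle] using key univ

section Lam

variable (hM : S.HMul) (J : Set ι) (χ : (ι → Fˣ) →* kˣ)

/-- `a` is the value at `n` of the extension of `χ` to `N_J H`. -/
def Lam (n : G) (a : kˣ) : Prop :=
  ∃ c, ∃ l : List ι, (∀ j ∈ l, j ∈ J) ∧ n = hM.torus c * wprod S.nS l ∧ a = χ c

variable {hM J χ} (hJ : ∀ j ∈ J, ∀ t, χ (Pi.mulSingle j t) = 1)
include hJ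

theorem exists_wprod_conj {l : List ι} (hl : ∀ j ∈ l, j ∈ J) (c : ι → Fˣ) :
    ∃ c', χ c' = χ c ∧ wprod S.nS l * hM.torus c * (wprod S.nS l)⁻¹ = hM.torus c' := by
  induction l with
  | nil => exact ⟨c, rfl, by simp⟩
  | cons a l ih =>
    obtain ⟨c', h1, h2⟩ := ih fun j hj => hl j (List.mem_cons_of_mem _ hj)
    obtain ⟨t, ht⟩ := exists_nS_conj_torus hM a c'
    refine ⟨c' * Pi.mulSingle a t, by rw [map_mul, hJ a (hl a List.mem_cons_self), mul_one, h1], ?_⟩
    rw [← ht, ← h2, wprod_cons]; group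

theorem wprod_eq_torus {l : List ι} (hl' : ∀ j ∈ l, j ∈ J) (hl : wprod R.sperm l = 1) :
    ∃ c, χ c = 1 ∧ wprod S.nS l = hM.torus c := by
  obtain ⟨n, hk⟩ : ∃ n, l.length = n := ⟨_, rfl⟩
  induction n using Nat.strong_induction_on generalizing l with
  | _ n ih =>
    rcases l.eq_nil_or_concat with rfl | ⟨l', i, rfl⟩
    · exact ⟨1, map_one _, by simp⟩
    rw [List.concat_eq_append] at hl hk hl' ⊢
    rw [wprod_append, wprod_singleton, mul_eq_one_iff_eq_inv, R.sperm_inv] at hl
    obtain ⟨l₁, a, l₂, rfl, e⟩ := R.exists_split_of_not_pos (l := l') (R.pos_simple i) (by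
      rw [hl, RS.sperm_apply, R.sref_simple, R.pos_neg_iff, not_not]; exact R.pos_simple i)
    have hI := S.induces_wprod l₂
    obtain ⟨c, hc, -, h2⟩ := hI.exists_conj_n (R.simple i)
    have h3 := h2 1
    rw [e, mul_one] at h3
    have h4 := R.aut_conj_refl hI.aut (R.simple i)
    rw [e, R.refl_simple, R.refl_simple] at h4
    have h5 : wprod R.sperm (l₁ ++ l₂) = 1 := by
      rw [wprod_append, wprod_cons, ← h4] at hl
      rw [wprod_append]
      have : wprod R.sperm l₁ * wprod R.sperm l₂ * R.sperm i = 1 * R.sperm i := by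
        rw [one_mul]; nth_rewrite 2 [← hl]; group
      exact mul_right_cancel this
    obtain ⟨c₁, h6, h7⟩ := ih _ (by simp only [List.length_append, List.length_cons] at hk ⊢; omega)
      (fun j hj => hl' j (by simp only [List.mem_append, List.mem_cons] at hj ⊢; tauto)) h5 rfl
    obtain ⟨c₂, h8, h9⟩ := exists_wprod_conj (hM := hM) hJ (l := l₁)
      (fun j hj => hl' j (by simp only [List.mem_append, List.mem_cons]; tauto))
      (Pi.mulSingle a (-Units.mk0 c hc))⁻¹
    refine ⟨c₂ * c₁, by rw [map_mul, h8, h6, map_inv, hJ a (hl' a (by simp)), inv_one, mul_one], ?_⟩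
    have h10 : S.n (R.simple a) 1 * S.n (R.simple a) c = hM.torus (Pi.mulSingle a (-Units.mk0 c hc))⁻¹ := by
      rw [S.n_mul_n, S.h_one, one_mul, map_inv, hM.torus_mulSingle]; rfl
    rw [map_mul, ← h9, ← h7, ← h10, ← h3]
    simp only [wprod_append, wprod_cons, wprod_nil, StSys.nS_def]
    group

theorem Lam.unique (hS : S.Faithful) (hT : Function.Injective hM.torus) {n : G} {a a' : kˣ}
    (h : Lam hM J χ n a) (h' : Lam hM J χ n a') : a = a' := by
  obtain ⟨c, l, hl, rfl, rfl⟩ := h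
  obtain ⟨c', l', hl', e, rfl⟩ := h'
  have h1 : wprod R.sperm l = wprod R.sperm l' :=
    hS.eq_of_NW (S.mem_NW_iff.2 ⟨l, _, hM.torus_mem_H c, rfl, rfl⟩) (S.mem_NW_iff.2 ⟨l', _, hM.torus_mem_H c', e, rfl⟩)
  obtain ⟨d, hd, h2⟩ := wprod_eq_torus (hM := hM) hJ (l := l ++ l'.reverse)
    (fun j hj => by rcases List.mem_append.1 hj with h | h; exacts [hl j h, hl' j (List.mem_reverse.1 h)])
    (by rw [wprod_append, wprod_reverse R.sperm_mul_self, h1, mul_inv_cancel])
  obtain ⟨d', hd', h3⟩ := wprod_eq_torus (hM := hM) hJ (l := l' ++ l'.reverse)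
    (fun j hj => by rcases List.mem_append.1 hj with h | h; exacts [hl' j h, hl' j (List.mem_reverse.1 h)])
    (by rw [wprod_append, wprod_reverse R.sperm_mul_self, mul_inv_cancel])
  have h4 : c * d = c' * d' := hT (by
    rw [map_mul, map_mul, ← h2, ← h3, wprod_append, wprod_append, ← mul_assoc, e, mul_assoc])
  have h5 := congrArg χ h4
  rwa [map_mul, map_mul, hd, hd', mul_one, mul_one] at h5

theorem Lam.mul_torus {n : G} {a : kˣ} (h : Lam hM J χ n a) (c : ι → Fˣ) :
    Lam hM J χ (n * hM.torus c) (a * χ c) := by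
  obtain ⟨d, l, hl, rfl, rfl⟩ := h
  obtain ⟨c', h1, h2⟩ := exists_wprod_conj (hM := hM) hJ hl c
  exact ⟨d * c', l, hl, by rw [map_mul, ← h2]; group, by rw [map_mul, h1]⟩

omit hJ in
theorem Lam.mul_nS {n : G} {a : kˣ} (h : Lam hM J χ n a) {j : ι} (hj : j ∈ J) : Lam hM J χ (n * S.nS j) a := by
  obtain ⟨d, l, hl, rfl, rfl⟩ := h
  refine ⟨d, l ++ [j], fun i hi => ?_, by simp [mul_assoc], rfl⟩
  rcases List.mem_append.1 hi with h | h
  · exact hl i h
  · exact List.mem_singleton.1 h ▸ hj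

theorem Lam.of_mul_nS {n : G} {a : kˣ} {j : ι} (hj : j ∈ J) (h : Lam hM J χ (n * S.nS j) a) : Lam hM J χ n a := by
  have h1 := (h.mul_torus hJ (Pi.mulSingle j (-1))).mul_nS hj
  rwa [hJ j hj, mul_one, hM.torus_mulSingle, mul_assoc, Units.val_neg, Units.val_one, ← S.nS_inv,
    mul_inv_cancel_right] at h1

omit hJ in
theorem Lam.exists_WJ {n : G} {a : kˣ} (h : Lam hM J χ n a) : ∃ w ∈ R.WJ J, (n, w) ∈ S.NW := by
  obtain ⟨d, l, hl, rfl, rfl⟩ := h
  exact ⟨_, wprod_mem fun i hi => R.sperm_mem_WJ (hl i hi), S.mem_NW_iff.2 ⟨l, _, hM.torus_mem_H d, rfl, rfl⟩⟩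

end Lam

variable [Finite Φ]

theorem eq_of_VNU (hS : S.Faithful) {v v' n n' u u' : G} (hv : v ∈ S.V) (hv' : v' ∈ S.V) (hn : n ∈ S.N)
    (hn' : n' ∈ S.N) (hu : u ∈ S.U) (hu' : u' ∈ S.U) (e : v * n * u = v' * n' * u') : n = n' := by
  have hI := StSys.NW_induces S.n0_mem_NW
  have h0 := StSys.NW_mem_N S.n0_mem_NW
  have e1 : S.n0 * v * S.n0⁻¹ * (S.n0 * n) * u = S.n0 * v' * S.n0⁻¹ * (S.n0 * n') * u' := by
    calc _ = S.n0 * (v * n * u) := by group
      _ = _ := by rw [e]; group
  have h1 := (StSys.conj_mem_U_iff hI).2 hv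
  have h1' := (StSys.conj_mem_U_iff hI).2 hv'
  generalize S.n0 * v * S.n0⁻¹ = a at e1 h1
  generalize S.n0 * v' * S.n0⁻¹ = a' at e1 h1'
  suffices S.n0 * n = S.n0 * n' from mul_left_cancel this
  have h2 := mul_mem h0 hn
  have h2' := mul_mem h0 hn'
  generalize S.n0 * n = m at e1 h2
  generalize S.n0 * n' = m' at e1 h2'
  have h3 := hS.inv_mul_mem_H_of_BNB h2 h2' (S.U_le_B h1) (S.U_le_B hu) (S.U_le_B h1') (S.U_le_B hu') e1
  obtain ⟨w, hw⟩ := S.exists_NW_of_mem_N h2
  have hw' : (m', w) ∈ S.NW := by simpa using StSys.NW_mul hw (S.mem_NW_of_mem_H h3)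
  obtain ⟨b, hb, c, hc, rfl⟩ := StSys.exists_pos_mul_inv w hu
  obtain ⟨b', hb', c', hc', rfl⟩ := StSys.exists_pos_mul_inv w hu'
  have h4 := (StSys.NW_induces hw).conj_mem_XS (A' := {r | R.Pos r}) (fun _ h => h.2) hb
  have h4' := (StSys.NW_induces hw').conj_mem_XS (A' := {r | R.Pos r}) (fun _ h => h.2) hb'
  have h5 := StSys.NW_mul_inv_mem_H hw' hw
  have h6 := (hS.normal_form_unique (StSys.NW_induces hw) (S.U_le_B (mul_mem h1 h4))
    (mul_mem (S.U_le_B (mul_mem h1' h4')) (S.H_le_B h5)) hc hc' (by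
      calc _ = a * m * (b * c) := by group
        _ = _ := by rw [e1]; group)).1
  have h7 := (hS.eq_of_U_mul_N (mul_mem h1 h4) (mul_mem h1' h4') (one_mem _) (S.H_le_N h5) (by
    rw [mul_one]; exact h6)).2
  exact (mul_inv_eq_one.1 h7.symm).symm

theorem exists_VNU {g : G} (hg : g ∈ S.grp) : ∃ v ∈ S.V, ∃ n ∈ S.N, ∃ u ∈ S.U, g = v * n * u := by
  have hI := StSys.NW_induces S.n0_mem_NW
  have h0 := StSys.NW_mem_N S.n0_mem_NW
  obtain ⟨n, w, hn, u, hu, u', hu', e⟩ := StSys.exists_bruhat (mul_mem (inv_mem (S.N_le_grp h0)) hg)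
  exact ⟨_, (StSys.conj_mem_V_iff hI).2 hu, S.n0 * n, mul_mem h0 (StSys.NW_mem_N hn), u',
    S.XS_mono (fun _ h => h.1) hu', by rw [← mul_inv_cancel_left S.n0 g, e]; group⟩

/-- Right translation of functions. -/
def rtrans (k G : Type*) [Field k] [Group G] : G →* End k (G → k) where
  toFun g := LinearMap.funLeft k k (· * g)
  map_one' := by ext; simp [LinearMap.funLeft_apply]
  map_mul' a b := by ext; simp [LinearMap.funLeft_apply, mul_assoc]

theorem rtrans_apply (g : G) (φ : G → k) (x : G) : rtrans k G g φ x = φ (x * g) := rfl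

variable [Fintype F] [DecidableEq F]

theorem csum_of_trivial (hq : (Fintype.card F : k) = 0) {χ : (ι → Fˣ) →* kˣ} {i : ι}
    (h : ∀ t, χ (Pi.mulSingle i t) = 1) : csum χ i = -1 := by
  simp only [csum, h, Units.val_one, sum_const, card_univ, Fintype.card_units, nsmul_eq_mul, mul_one]
  rw [Nat.cast_sub Fintype.card_pos, hq]
  simp

/-- All admissible weights occur. -/
theorem exists_isWt_of_adm (hS : S.Faithful) (hM : S.HMul) (hT : Function.Injective hM.torus) (hG : S.grp = ⊤)
    (hq : (Fintype.card F : k) = 0) {J : Set ι} {χ : (ι → Fˣ) →* kˣ}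
    (hJ : ∀ j ∈ J, ∀ t, χ (Pi.mulSingle j t) = 1) {μ : ι → k} (h0 : ∀ j ∈ J, μ j = 0)
    (h1 : ∀ j, j ∉ J → μ j = csum χ j) : ∃ φ, IsWt hM (rtrans k G) χ μ φ := by
  classical
  let φ : G → k := fun g =>
    if h : ∃ a : kˣ, ∃ n, Lam hM J χ n a ∧ ∃ v ∈ S.V, ∃ u ∈ S.U, g = v * n * u then (h.choose : k) else 0
  have hN : ∀ {n a}, Lam hM J χ n a → n ∈ S.N := fun h => by
    obtain ⟨w, -, hw⟩ := h.exists_WJ
    exact StSys.NW_mem_N hw
  have e1 : ∀ {n a v u}, Lam hM J χ n a → v ∈ S.V → u ∈ S.U → φ (v * n * u) = a := fun {n a v u} h hv hu => by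
    have h2 : ∃ a : kˣ, ∃ n', Lam hM J χ n' a ∧ ∃ v' ∈ S.V, ∃ u' ∈ S.U, v * n * u = v' * n' * u' :=
      ⟨a, n, h, v, hv, u, hu, rfl⟩
    simp only [φ, dif_pos h2]
    obtain ⟨n', h3, v', hv', u', hu', e⟩ := h2.choose_spec
    obtain rfl := eq_of_VNU hS hv hv' (hN h) (hN h3) hu hu' e
    rw [h3.unique hJ hS hT h]
  have e2 : ∀ {n v u}, n ∈ S.N → (¬ ∃ a, Lam hM J χ n a) → v ∈ S.V → u ∈ S.U → φ (v * n * u) = 0 :=
    fun {n v u} hn h hv hu => dif_neg (by
      rintro ⟨a, n', h3, v', hv', u', hu', e⟩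
      obtain rfl := eq_of_VNU hS hv hv' hn (hN h3) hu hu' e
      exact h ⟨a, h3⟩)
  have e3 : ∀ {n v u}, n ∈ S.N → v ∈ S.V → u ∈ S.U → φ (v * n * u) = φ n := fun {n v u} hn hv hu => by
    by_cases h : ∃ a, Lam hM J χ n a
    · obtain ⟨a, h⟩ := h
      rw [e1 h hv hu, ← e1 h (one_mem _) (one_mem _), one_mul, mul_one]
    · rw [e2 hn h hv hu, ← e2 hn h (one_mem _) (one_mem _), one_mul, mul_one]
  have e1' : ∀ {n a}, Lam hM J χ n a → φ n = a := fun h => by simpa using e1 h (one_mem _) (one_mem _)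
  have e2' : ∀ {n}, n ∈ S.N → (¬ ∃ a, Lam hM J χ n a) → φ n = 0 := fun hn h => by
    simpa using e2 hn h (one_mem _) (one_mem _)
  have e4 : ∀ {n}, n ∈ S.N → ∀ c, φ (n * hM.torus c) = χ c * φ n := fun {n} hn c => by
    by_cases h : ∃ a, Lam hM J χ n a
    · obtain ⟨a, h⟩ := h
      rw [e1' h, e1' (h.mul_torus hJ c), Units.val_mul, mul_comm]
    · rw [e2' hn h, mul_zero]
      refine e2' (mul_mem hn (S.H_le_N (hM.torus_mem_H c))) fun ⟨a, ha⟩ => h ⟨a * χ c⁻¹, ?_⟩
      have := ha.mul_torus hJ c⁻¹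
      rwa [map_inv hM.torus, mul_inv_cancel_right] at this
  have e5 : ∀ {n}, n ∈ S.N → ∀ j ∈ J, φ (n * S.nS j) = φ n := fun {n} hn j hj => by
    by_cases h : ∃ a, Lam hM J χ n a
    · obtain ⟨a, h⟩ := h
      rw [e1' h, e1' (h.mul_nS hj)]
    · rw [e2' hn h]
      exact e2' (mul_mem hn (S.nS_mem_N j)) fun ⟨a, ha⟩ => h ⟨_, ha.of_mul_nS hJ hj⟩
  have e6 : ∀ {n w}, (n, w) ∈ S.NW → ∀ i, i ∉ J → ¬ R.Pos (w (R.simple i)) → φ n = 0 := fun {n w} hn i hi hw =>
    e2' (StSys.NW_mem_N hn) fun ⟨a, ha⟩ => by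
      obtain ⟨w', h2, h3⟩ := ha.exists_WJ
      obtain rfl := hS.eq_of_NW hn h3
      exact hw (R.pos_apply_of_not_mem_PhiJ h2 (R.pos_simple i) (by simpa using hi))
  have hdec : ∀ g : G, ∃ v ∈ S.V, ∃ n ∈ S.N, ∃ u ∈ S.U, g = v * n * u := fun g =>
    exists_VNU (hG ▸ Subgroup.mem_top g)
  refine ⟨φ, fun e => ?_, fun u hu => funext fun g => ?_, fun c => funext fun g => ?_, fun i => funext fun g => ?_⟩
  · have := e1' (n := 1) (a := 1) ⟨1, [], by simp, by simp, by simp⟩
    rw [e] at this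
    exact zero_ne_one this
  · obtain ⟨v, hv, n, hn, u', hu', rfl⟩ := hdec g
    rw [rtrans_apply, mul_assoc, e3 hn hv (mul_mem hu' hu), e3 hn hv hu']
  · obtain ⟨v, hv, n, hn, u, hu, rfl⟩ := hdec g
    rw [rtrans_apply, Pi.smul_apply, smul_eq_mul, e3 hn hv hu, ← e4 hn,
      ← e3 (mul_mem hn (S.H_le_N (hM.torus_mem_H c))) hv
        (inv_conj_mem_of_normalizer (S.H_le_normalizer_U (hM.torus_mem_H c)) hu)]
    congr 1; group
  · obtain ⟨v, hv, n, hn, u, hu, rfl⟩ := hdec g
    obtain ⟨s, u', hu', rfl⟩ := S.exists_mul_Ui i hu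
    obtain ⟨w, hw⟩ := S.exists_NW_of_mem_N hn
    have hI := StSys.NW_induces hw
    have hnn := mul_mem hn (S.nS_mem_N i)
    let ψ : F → k := fun t => φ (v * n * (S.x (R.simple i) t * S.nS i))
    have h2 : crT S (rtrans k G) i φ (v * n * (S.x (R.simple i) s * u')) = ∑ t, ψ t := by
      rw [crT_apply, Finset.sum_apply, ← Fintype.sum_equiv (Equiv.addLeft s) (fun t => ψ (s + t)) ψ fun _ => rfl]
      refine Finset.sum_congr rfl fun t _ => ?_
      have h3 : S.x (R.simple i) t * S.nS i ∈ Subgroup.normalizer (S.Ui i : Set G) :=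
        mul_mem (S.U_le_normalizer_Ui i (S.x_mem_U (R.pos_simple i) t)) (S.n_simple_mem_normalizer_Ui i 1)
      have h4 := S.Ui_le_U i (inv_conj_mem_of_normalizer h3 hu')
      obtain ⟨v₁, hv₁, n₁, hn₁, u₁, hu₁, e⟩ := hdec (v * n * (S.x (R.simple i) (s + t) * S.nS i))
      rw [rtrans_apply]
      simp only [ψ]
      rw [e, e3 hn₁ hv₁ hu₁, ← e3 hn₁ hv₁ (mul_mem hu₁ h4), ← mul_assoc (v₁ * n₁), ← e, S.x_add]
      congr 1; group
    rw [h2, Pi.smul_apply, smul_eq_mul, e3 hn hv (mul_mem (S.x_mem_U (R.pos_simple i) s) (S.Ui_le_U i hu'))]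
    by_cases hp : R.Pos (w (R.simple i))
    · have h3 : ∀ t : Fˣ, ψ (-t) = χ (Pi.mulSingle i t) * φ n := fun t => by
        have h4 : n * S.x (R.neg (R.simple i)) (-t : F)⁻¹ * n⁻¹ ∈ S.V := by
          obtain ⟨c, -, hc⟩ := hI.exists_conj (R.neg (R.simple i))
          rw [hc]
          exact S.x_mem_V (by rw [RS.aut_neg hI.aut, R.pos_neg_iff, not_not]; exact hp) _
        simp only [ψ]
        rw [x_mul_nS hM i (neg_ne_zero.2 t.ne_zero), neg_neg, ← hM.torus_mulSingle, ← e4 hn,
          ← e3 (mul_mem hn (S.H_le_N (hM.torus_mem_H _))) (mul_mem hv h4)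
            (S.x_mem_U (R.pos_simple i) (-(-t : F)⁻¹))]
        congr 1; group
      have h4 : ψ 0 = φ (n * S.nS i) := by
        simp only [ψ]
        rw [← e3 hnn hv (one_mem _), S.x_zero, one_mul, mul_one, mul_assoc]
      rw [sum_erase_eq, h4]
      simp only [h3]
      rw [← Finset.sum_mul]
      change _ + csum χ i * _ = _
      by_cases hi : i ∈ J
      · rw [e5 hn i hi, h0 i hi, csum_of_trivial hq (hJ i hi)]; ring
      · rw [h1 i hi, e6 (StSys.NW_mul hw (S.nS_mem_NW i)) i hi (by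
          rw [Equiv.Perm.mul_apply, RS.sperm_apply, R.sref_simple, RS.aut_neg hI.aut, R.pos_neg_iff, not_not]
          exact hp), zero_add]
    · have h3 : ∀ t, ψ t = φ (n * S.nS i) := fun t => by
        have h4 : n * S.x (R.simple i) t * n⁻¹ ∈ S.V := by
          obtain ⟨c, -, hc⟩ := hI.exists_conj (R.simple i)
          rw [hc]
          exact S.x_mem_V hp _
        simp only [ψ]
        rw [← e3 hnn (mul_mem hv h4) (one_mem _)]
        congr 1; group
      simp only [h3, sum_const, card_univ, nsmul_eq_mul, hq, zero_mul]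
      by_cases hi : i ∈ J
      · rw [h0 i hi, zero_mul]
      · rw [e6 hw i hi hp, mul_zero]

/-- The character of the torus attached to a parameter. -/
def chiOf (ω : ι → Option (Fˣ →* kˣ)) : (ι → Fˣ) →* kˣ :=
  ∏ i, ((ω i).getD 1).comp (Pi.evalMonoidHom (fun _ => Fˣ) i)

theorem chiOf_single (ω : ι → Option (Fˣ →* kˣ)) (i : ι) (t : Fˣ) :
    chiOf ω (Pi.mulSingle i t) = (ω i).getD 1 t := by
  rw [chiOf, MonoidHom.finsetProd_apply, prod_eq_single i (fun j _ hj => by simp [hj]) (by simp)]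
  simp

/-- The eigenvalues of the Hecke operators attached to a parameter. -/
def muOf (ω : ι → Option (Fˣ →* kˣ)) (i : ι) : k := (ω i).elim 0 fun _ => csum (chiOf ω) i

theorem eq_of_chiOf_muOf (hq : (Fintype.card F : k) = 0) {ω ω' : ι → Option (Fˣ →* kˣ)} (h1 : chiOf ω = chiOf ω')
    (h2 : muOf ω = muOf ω') : ω = ω' := by
  funext i
  have h3 : (ω i).getD 1 = (ω' i).getD 1 := MonoidHom.ext fun t => by rw [← chiOf_single, h1, chiOf_single]
  have h4 := congrFun h2 i
  rw [muOf, muOf, ← h1] at h4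
  rcases e : ω i with _ | a <;> rcases e' : ω' i with _ | a' <;> rw [e, e'] at h3 h4
  · rw [Option.elim_none, Option.elim_some, csum_of_trivial hq fun t => by rw [chiOf_single, e]; rfl] at h4
    simp at h4
  · rw [Option.elim_none, Option.elim_some, h1, csum_of_trivial hq fun t => by rw [chiOf_single, e']; rfl] at h4
    simp at h4
  · exact congrArg some h3

theorem IsWt.exists_param {V : Type*} [AddCommGroup V] [Module k V] {hM : S.HMul} {σ : G →* End k V}
    {χ : (ι → Fˣ) →* kˣ} {μ : ι → k} {m : V} (h : IsWt hM σ χ μ m) (hq : (Fintype.card F : k) = 0) :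
    ∃ ω, χ = chiOf ω ∧ μ = muOf ω := by
  classical
  let ω : ι → Option (Fˣ →* kˣ) := fun i =>
    if μ i = csum χ i then some (χ.comp (MonoidHom.mulSingle (fun _ => Fˣ) i)) else none
  have h1 : χ = chiOf ω := by
    refine MonoidHom.pi_ext fun i t => ?_
    rw [chiOf_single]
    by_cases e : μ i = csum χ i
    · simp only [ω, if_pos e]; rfl
    · simp only [ω, if_neg e]
      by_contra h2
      refine e (((h.mu_eq hq i).resolve_right e).trans (Eq.symm ?_))
      refine sum_hom_units_eq_zero ((Units.coeHom k).comp (χ.comp (MonoidHom.mulSingle (fun _ => Fˣ) i))) fun h3 => ?_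
      exact h2 (Units.ext (DFunLike.congr_fun h3 t))
  refine ⟨ω, h1, funext fun i => ?_⟩
  rw [muOf, ← h1]
  by_cases e : μ i = csum χ i
  · simp only [ω, if_pos e]; exact e
  · simp only [ω, if_neg e]; exact (h.mu_eq hq i).resolve_right e

open Cfsg CL.Blk CL.Blk.Rk in
theorem card_sim_eq [Finite G] (hS : S.Faithful) (hM : S.HMul) (hT : Function.Injective hM.torus) (hG : S.grp = ⊤)
    {p : ℕ} [Fact p.Prime] [CharP F p] {M : Ideal AlgInt} (hP : IsPModular p M) :
    Nat.card (Sim M G) = Fintype.card F ^ Fintype.card ι := by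
  classical
  have := charP_resField hP
  have hq : (Fintype.card F : resField M) = 0 := by
    obtain ⟨n, -, hn⟩ := FiniteField.card F p
    rw [hn, Nat.cast_pow, CharP.cast_eq_zero, zero_pow n.ne_zero]
  have hnt : ∀ j : Sim M G, Nontrivial (Fin j.dim → resField M) := fun j =>
    have : Nonempty (Fin j.dim) := ⟨⟨0, j.dim_pos⟩⟩
    inferInstance
  have hall : ∀ g : G, g ∈ S.grp := fun g => hG ▸ Subgroup.mem_top g
  have hex : ∀ j : Sim M G, ∃ ω : ι → Option (Fˣ →* (resField M)ˣ), ∃ m, IsWt hM j.rep (chiOf ω) (muOf ω) m :=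
    fun j => by
      have := hnt j
      obtain ⟨χ, μ, m, h⟩ := exists_isWt hS hM p j.rep
      obtain ⟨ω, rfl, rfl⟩ := h.exists_param hq
      exact ⟨ω, m, h⟩
  choose w m hm using hex
  have hdual : ∀ j : Sim M G, ∃ f : (Fin j.dim → resField M) →ₗ[resField M] resField M, f ≠ 0 ∧
      ∀ v ∈ S.V, ∀ x, f (j.rep v x) = f x := fun j =>
    have := hnt j
    exists_inv_dual hS p j.rep
  choose f hf0 hf using hdual
  have hgen : ∀ (j : Sim M G) (x : Fin j.dim → resField M), x ≠ 0 →
      ∀ φ : (Fin j.dim → resField M) →ₗ[resField M] resField M, (∀ g ∈ S.grp, φ (j.rep g x) = 0) → φ = 0 :=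
    fun j x hx φ hφ => by
      have h1 : ∀ a, φ (j.alg a x) = 0 := fun a => by
        induction a using MonoidAlgebra.induction_on with
        | of g => exact hφ g (hall g)
        | add a b ha hb => rw [map_add, LinearMap.add_apply, map_add, ha, hb, add_zero]
        | smul r a ha => rw [map_smul, LinearMap.smul_apply, map_smul, ha, smul_zero]
      refine LinearMap.ext fun y => ?_
      obtain ⟨ψ, hψ⟩ := not_forall.1 (mt (Module.forall_dual_apply_eq_zero_iff (resField M) x).1 hx)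
      obtain ⟨a, ha⟩ := j.alg_surjective (ψ.smulRight y)
      have := h1 a
      rw [ha, LinearMap.smulRight_apply, map_smul, smul_eq_mul] at this
      exact (mul_eq_zero.1 this).resolve_left hψ
  have hne : ∀ (j : Sim M G) {χ μ x}, IsWt hM j.rep χ μ x → f j x ≠ 0 := fun j χ μ x h e =>
    hf0 j (hgen j x h.ne _ fun g hg => h.eq_zero (hf j) e hg)
  have hbij : Function.Bijective w := by
    refine ⟨fun j j' e => ?_, fun ω => ?_⟩
    · by_contra hjj
      have h1 := hm j'
      rw [← e] at h1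
      have h2 : ∀ a, f j' (m j') * f j (j.alg a (m j)) = f j (m j) * f j' (j'.alg a (m j')) := fun a => by
        induction a using MonoidAlgebra.induction_on with
        | of g => exact (hm j).pair_eq h1 (hf j) (hf j') (hall g)
        | add a b ha hb => simp only [map_add, LinearMap.add_apply, mul_add, ha, hb]
        | smul r a ha =>
          simp only [map_smul, LinearMap.smul_apply, smul_eq_mul]
          linear_combination r * ha
      obtain ⟨a, ha⟩ := (wedd M G).surj (Pi.single j 1)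
      have h3 := h2 a
      rw [Sim.alg_apply, Sim.alg_apply, ha, Pi.single_eq_same, Pi.single_eq_of_ne (Ne.symm hjj), End.one_apply,
        LinearMap.zero_apply, map_zero, mul_zero] at h3
      exact mul_ne_zero (hne j' h1) (hne j (hm j)) h3
    · obtain ⟨φ, hφ⟩ := exists_isWt_of_adm hS hM hT hG hq (J := {i | ω i = none}) (χ := chiOf ω) (μ := muOf ω)
        (fun j hj t => by rw [chiOf_single, show ω j = none from hj]; rfl)
        (fun j hj => by rw [muOf, show ω j = none from hj]; rfl)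
        (fun j hj => by
          obtain ⟨a, ha⟩ := Option.ne_none_iff_exists'.1 hj
          rw [muOf, ha]; rfl)
      let ρ : Representation (resField M) G (G → resField M) := rtrans _ G
      obtain ⟨j, v, hv, h1⟩ := exists_simple_ann (wedd M G) ρ.asAlgebraHom hφ.ne
      have h2 : ∀ a (c : resField M), ρ.asAlgebraHom a φ = c • φ → Sim.alg j a v = c • v := fun a c e => by
        have := h1 (a - c • 1) (by rw [map_sub, map_smul, map_one, LinearMap.sub_apply, e]; simp)
        rw [← Sim.alg_apply, map_sub, map_smul, map_one, LinearMap.sub_apply, sub_eq_zero] at this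
        exact this
      have h3 : IsWt hM (Sim.rep j) (chiOf ω) (muOf ω) v :=
        ⟨hv, fun u hu => (h2 (MonoidAlgebra.single u 1) 1 (by
            rw [Representation.asAlgebraHom_single_one, one_smul]; exact hφ.U u hu)).trans (one_smul _ _),
          fun c => h2 (MonoidAlgebra.single _ 1) _ (by
            rw [Representation.asAlgebraHom_single_one]; exact hφ.H c),
          fun i => by
            have := h2 (∑ t : F, MonoidAlgebra.single (S.x (R.simple i) t * S.nS i) 1) _ (by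
              rw [map_sum, ← hφ.T i]
              simp only [Representation.asAlgebraHom_single_one]
              rfl)
            rw [map_sum] at this
            exact this⟩
      have h4 := (hm j).unique h3 (hf j) (hne j h3) (hgen j _ (hm j).ne)
      exact ⟨j, eq_of_chiOf_muOf hq h4.1 h4.2⟩
  have : NeZero ((Monoid.exponent Fˣ : ℕ) : resField M) := ⟨fun e => by
    have h1 := (CharP.cast_eq_zero_iff _ p _).1 e
    rw [IsCyclic.exponent_eq_card, Nat.card_eq_fintype_card, Fintype.card_units] at h1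
    have h2 := (CharP.cast_eq_zero_iff (resField M) p _).2 h1
    rw [Nat.cast_sub Fintype.card_pos, hq] at h2
    simp at h2⟩
  have h5 := CommGroup.card_monoidHom_of_hasEnoughRootsOfUnity Fˣ (resField M)
  have : Finite (Fˣ →* (resField M)ˣ) := Nat.finite_of_card_ne_zero (h5 ▸ Nat.card_pos.ne')
  rw [Nat.card_congr (Equiv.ofBijective w hbij), Nat.card_fun, Finite.card_option, h5, Nat.card_eq_fintype_card,
    Fintype.card_units, Nat.sub_add_cancel Fintype.card_pos, Nat.card_eq_fintype_card]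

/-- The number of `p`-regular classes of the group of a simply connected Steinberg system. -/
theorem card_regular_classes (hS : S.Faithful) (hM : S.HMul)
    (hH : Nat.card S.H = (Fintype.card F - 1) ^ Fintype.card ι) (p : ℕ) [hp : Fact p.Prime] [CharP F p] :
    Nat.card {c : ConjClasses S.grp // ∃ g : S.grp, ConjClasses.mk g = c ∧ (orderOf g).Coprime p} =
      Fintype.card F ^ Fintype.card ι := by
  have := hS.finite_grp hM
  obtain ⟨M, hP⟩ := CL.Fgs.exists_isPModular hp.out
  have hM' : S.res.HMul := hM.restrict _ _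
  rw [← card_sim hP]
  refine card_sim_eq (S := S.res) (hS.restrict _ _) hM' ?_ S.res_grp hP
  have h1 := hM'.card_ker_mul_card_H
  rw [S.restrict_H, Nat.card_congr (Subgroup.subgroupOfEquivOfLe S.H_le_grp).toEquiv, hH,
    Nat.card_eq_fintype_card (α := F), Nat.mul_eq_right (pow_ne_zero _ (by
      have := Fintype.one_lt_card (α := F); omega)), Subgroup.card_eq_one] at h1
  exact (MonoidHom.ker_eq_bot_iff _).1 h1

open Cfsg.Lie in
theorem real_card_regular_classes {D : ChevalleyDatum} (E : Real D) {q : ℕ} (hq : Fintype.card F = q)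
    (hH : Nat.card (D.diagonalSubgroup F) = (q - 1) ^ D.rank) (p : ℕ) [hp : Fact p.Prime] [CharP F p] :
    Nat.card {c : ConjClasses (D.group F) // ∃ g : D.group F, ConjClasses.mk g = c ∧ (orderOf g).Coprime p} =
      q ^ D.rank := by
  subst hq
  have := card_regular_classes (E.faithful F) (E.hMul F) (by
    rw [← E.diagonalSubgroup_eq, hH, Fintype.card_fin]) p
  rw [Fintype.card_fin] at this
  rw [E.group_eq]
  exact this

end CL.CurRich
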