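/-
Central extensions of Steinberg systems of type `F₄` over the field with two elements: the kernel of a stem extension
has at most two elements.
-/
import Cfsg.Agent.Known.StbUniv

set_option autoImplicit false

namespace CL.Chev

open scoped commutatorElement
open Cfsg

namespace RS

variable {ι Φ : Type} [Fintype ι] [DecidableEq ι] (R : RS ι Φ)

/-- `s` is the sum of two roots of its length, both at a non-obtuse angle to `r`. -/
def GoodLC (r s : Φ) : Prop :=
  ∃ m, R.pair m s = 1 ∧ R.pair s m = 1 ∧ 0 ≤ R.pair r m ∧ R.pair r m ≤ R.pair r s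

/-- The properties of `F₄` used below. -/
structure F4Like : Prop where
  noG2 : R.NoG2
  pos : ∀ i s, 0 < R.pair (R.simple i) s → s = R.simple i ∨ R.GoodLC (R.simple i) s
  dec : ∀ i, ∃ m, R.pair m (R.simple i) = 1 ∧ R.pair (R.simple i) m = 1
  swap : ∀ i a c, R.pair a (R.simple i) = 1 → R.pair (R.simple i) a = 1 → R.pair c (R.simple i) = 1 →
    R.pair (R.simple i) c = 1 → R.pair a c = 0 →
    ∃ γ, R.refl γ a = c ∧ R.GoodLC (R.simple i) γ ∧ R.GoodLC (R.simple i) (R.neg γ)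
  top : ∃ a₀ l₀, R.pair a₀ l₀ = -2 ∧ R.pair l₀ a₀ = -1 ∧ ∀ a l, R.pair a l = -2 → R.pair l a = -1 →
    (a = a₀ ∧ l = l₀) ∨ ∃ i, 3 * R.pair (R.simple i) a + 2 * R.pair (R.simple i) l < 0

variable {R}

theorem GoodLC.aut {r s : Φ} (h : R.GoodLC r s) {w : Equiv.Perm Φ} (hw : w ∈ R.aut) : R.GoodLC (w r) (w s) := by
  obtain ⟨m, h⟩ := h
  exact ⟨w m, by simpa only [aut_pair hw] using h⟩

theorem F4Like.pos' (h : R.F4Like) {r s : Φ} (hp : 0 < R.pair r s) : s = r ∨ R.GoodLC r s := by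
  obtain ⟨w, hw, i, rfl⟩ := R.exists_W_simple r
  obtain ⟨s, rfl⟩ := w.surjective s
  rw [aut_pair (R.W_le_aut hw)] at hp
  exact (h.pos i s hp).imp (congrArg w) fun h => h.aut (R.W_le_aut hw)

theorem F4Like.dec' (h : R.F4Like) (r : Φ) : ∃ a b, R.Dec (-1) r a b := by
  obtain ⟨w, hw, i, rfl⟩ := R.exists_W_simple r
  obtain ⟨m, h1, h2⟩ := h.dec i
  exact ⟨_, _, (dec_of_one h1 h2).aut (R.W_le_aut hw)⟩

theorem F4Like.swap' (h : R.F4Like) {r a b c d : Φ} (h1 : R.Dec (-1) r a b) (h2 : R.Dec (-1) r c d)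
    (h0 : R.pair a c = 0) : ∃ γ, R.refl γ a = c ∧ R.refl γ b = d ∧ R.GoodLC r γ ∧ R.GoodLC r (R.neg γ) := by
  have key : ∃ γ, R.refl γ a = c ∧ R.GoodLC r γ ∧ R.GoodLC r (R.neg γ) := by
    have a1 := h1.pair_left
    have a2 := h1.pair_of_neg_one
    have a3 := h2.pair_left
    have a4 := h2.pair_of_neg_one
    obtain ⟨w, hw, i, rfl⟩ := R.exists_W_simple r
    obtain ⟨a, rfl⟩ := w.surjective a
    obtain ⟨c, rfl⟩ := w.surjective c
    have ha := R.W_le_aut hw
    rw [aut_pair ha] at a1 a2 a3 a4 h0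
    obtain ⟨γ, e1, e2, e3⟩ := h.swap i a c a1 a2 a3 a4 h0
    exact ⟨w γ, by rw [← R.aut_refl ha, e1], e2.aut ha, aut_neg ha γ ▸ e3.aut ha⟩
  obtain ⟨γ, e1, e2, e3⟩ := key
  refine ⟨γ, e1, ?_, e2, e3⟩
  obtain ⟨m, -, -, b1, b2⟩ := e2
  obtain ⟨m', -, -, b3, b4⟩ := e3
  rw [pair_neg_right] at b4
  have := h1.aut (R.W_le_aut (R.refl_mem_W γ))
  rw [(R.refl_eq_self_iff _ _).2 (R.pair_eq_zero_comm.1 (by omega)), e1] at this
  exact this.unique h2

end RS

namespace StSys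

variable {ι Φ : Type} [Fintype ι] [DecidableEq ι] {R : RS ι Φ} {F : Type*} [Field F] {G : Type*} [Group G]
  {S : StSys R F G} {E : Type*} [Group E] {π : E →* G}

theorem H_eq_bot_of_two (hF : ∀ t : F, t = 0 ∨ t = 1) (S : StSys R F G) : S.H = ⊥ :=
  eq_bot_iff.2 ((Subgroup.closure_le _).2 (by
    rintro _ ⟨r, t, ht, rfl⟩
    rw [(hF t).resolve_left ht, S.h_one]
    exact one_mem _))

variable [Finite Φ]

theorem eq_one_of_map_two (hF : ∀ t : F, t = 0 ∨ t = 1) {S' : StSys R F E} (hS : (S'.map π).Faithful)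
    (hg : S'.grp = ⊤) {z : E} (h : π z = 1) : z = 1 :=
  Subgroup.mem_bot.1 (H_eq_bot_of_two hF S' ▸ mem_H_of_map hS (hg ▸ Subgroup.mem_top z) h)

section
variable (hs : Function.Surjective π) (hc : π.ker ≤ Subgroup.center E) (hU : S.UFaithful) (h : R.F4Like)
  (hF : ∀ t : F, t = 0 ∨ t = 1)
include hs hc hU h hF

theorem lc_of_good {r s : Φ} (hg : R.GoodLC r s) : S.LC π r s := by
  obtain ⟨m, h1, h2, h3, h4⟩ := hg
  exact lc_of_root hs hc hU h.noG2 (two_eq_zero_of hF) h1 h2 h3 h4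

theorem lc_pos_f4 {r s : Φ} (hp : 0 < R.pair r s) : S.LC π r s := by
  rcases h.pos' hp with rfl | hg
  · exact lc_self_of_prime hs hc (prime_of_two hF) s
  · exact lc_of_good hs hc hU h hF hg

theorem kAt_f4 (r : Φ) : S.KAt π (S.KP π (-1) r) r := by
  have key : ∀ {a b c d}, R.Dec (-1) r a b → R.Dec (-1) r c d → R.pair a c = 0 → S.KG π c d ≤ S.KG π a b :=
    fun {a b c d} h1 h2 h0 => by
      obtain ⟨γ, rfl, rfl, e1, e2⟩ := h.swap' h1 h2 h0
      refine KG_le_of_conj hs hc (S.induces_n γ one_ne_zero)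
        (n_mem_cent hs hc (lc_of_good hs hc hU h hF e1) (lc_of_good hs hc hU h hF e2) 1) fun t u => ?_
      rw [h1.eq_refl]
      exact ⟨_, hU.comm_A2 h.noG2 h1.2.1 h1.2.2 t u⟩
  obtain ⟨a, b, hd⟩ := h.dec' r
  refine AllEq.kAt hs hc hU h.noG2 hF (fun a b a' b' hd hd' => ?_) hd
    (lc_pos_f4 hs hc hU h hF (by simp [hd.pair_of_neg_one])) (lc_pos_f4 hs hc hU h hF (by simp [hd.symm.pair_of_neg_one]))
  have e := R.pair_of_root_add hd'.1 a
  rw [hd.pair_left] at e
  rcases hd.cases hd' (Or.inr rfl) (hd.len_left.trans hd'.len_left.symm)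
    (hd.len_left.trans hd'.symm.len_left.symm) with h1 | h1 | h1 | h1
  · subst h1; rw [hd.unique hd']
  · subst h1; rw [hd.unique hd'.symm, KG_comm]
  · rw [KG_comm]; exact key hd hd'.symm (by omega)
  · exact key hd hd' (by omega)

theorem lc_f4 {r s : Φ} (hp : 0 ≤ R.pair r s) : S.LC π r s := by
  rcases hp.lt_or_eq with hp | hp
  · exact lc_pos_f4 hs hc hU h hF hp
  · exact lc_of_kAt hs hc hU h.noG2 hF (kAt_f4 hs hc hU h hF r) (R.pair_eq_zero_comm.1 hp.symm)

end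

/-- The kernel of a stem extension of a group of type `F₄` over the field with two elements. -/
theorem card_ker_le_two (hπ : IsStemExtension π) (hS : S.Faithful) (hg : S.grp = ⊤) (hR : R.Irred)
    (hι : 2 ≤ Fintype.card ι) (h : R.F4Like) (hF : ∀ t : F, t = 0 ∨ t = 1) : Nat.card π.ker ∣ 2 := by
  have hs := hπ.1
  have hc := hπ.2.1
  have hU := hS.uFaithful
  have hG := h.noG2
  have h2 := two_eq_zero_of hF
  set L := KLift.mk' (kAt_f4 hs hc hU h hF) (equivar_KP (-1)) with hL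
  have cm : ∀ {r s}, 0 ≤ R.pair r s → Commute (L.y r 1) (L.y s 1) := fun hp =>
    lc_f4 hs hc hU h hF hp _ _ _ _ (L.map_y _ _) (L.map_y _ _)
  have y0 : ∀ r, L.y r 0 = 1 := fun r => (L.eq_y (one_mem _) (by simp)).symm
  have sq : ∀ r, L.y r 1 * L.y r 1 = 1 := fun r => by
    rw [← L.y_add, show (1 : F) + 1 = 0 by linear_combination h2, y0]
  let z : Φ → Φ → E := fun a l => (L.y (R.refl l a) 1 * L.y (R.refl a l) 1)⁻¹ * ⁅L.y a 1, L.y l 1⁆
  have z1 : ∀ {a l}, R.pair a l = -2 → R.pair l a = -1 → π (z a l) = 1 := fun e1 e2 => by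
    simp [z, map_commutatorElement, hU.comm_B2_two hF e1 e2]
  have z2 : ∀ i {a l}, R.pair a l = -2 → R.pair l a = -1 → z (R.sref i a) (R.sref i l) = z a l :=
    fun i {a l} e1 e2 => by
      obtain ⟨g, hg⟩ := hs (S.nS i)
      have hI : S.Induces (π g) (R.sperm i) := hg ▸ S.induces_nS i
      have e : ∀ r, L.y (R.sperm i r) 1 = g * L.y r 1 * g⁻¹ := fun r => (L.conj_y hI (hI.conj_two hF r 1)).symm
      have e' := Subgroup.mem_center_iff.1 (hc (z1 e1 e2)) g
      change z (R.sperm i a) (R.sperm i l) = _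
      rw [← mul_inv_eq_iff_eq_mul.2 e']
      simp only [z, ← R.aut_refl (R.sperm_mem_aut i), e, commutatorElement_def]
      group
  obtain ⟨a₀, l₀, p1, p2, htop⟩ := h.top
  have z3 : ∀ {a l}, R.pair a l = -2 → R.pair l a = -1 → z a l = z a₀ l₀ := fun {a l} e1 e2 => by
    by_contra hne
    obtain ⟨⟨a, l⟩, ⟨e1, e2, hne⟩, hmax⟩ := Set.exists_max_image
      {p : Φ × Φ | R.pair p.1 p.2 = -2 ∧ R.pair p.2 p.1 = -1 ∧ z p.1 p.2 ≠ z a₀ l₀}
      (fun p => 3 * R.ht p.1 + 2 * R.ht p.2) (Set.toFinite _) ⟨(a, l), e1, e2, hne⟩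
    rcases htop a l e1 e2 with ⟨rfl, rfl⟩ | ⟨i, hi⟩
    · exact hne rfl
    have ha := RS.aut_pair (R.sperm_mem_aut i)
    have := hmax (R.sref i a, R.sref i l) ⟨(ha a l).trans e1, (ha l a).trans e2, (z2 i e1 e2).symm ▸ hne⟩
    simp only [R.ht_sref] at this
    omega
  have z4 : z a₀ l₀ ^ 2 = 1 := by
    obtain ⟨q1, q2, q3, q4, q5, q6, q7, q8, q9, q10⟩ := RS.B2_pair p1 p2
    have e : ⁅L.y a₀ 1, L.y l₀ 1⁆ = L.y (R.refl l₀ a₀) 1 * L.y (R.refl a₀ l₀) 1 * z a₀ l₀ := (mul_inv_cancel_left _ _).symm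
    have hz := Subgroup.mem_center_iff.1 (hc (z1 p1 p2))
    have c1 : Commute (L.y l₀ 1) ⁅L.y a₀ 1, L.y l₀ 1⁆ :=
      e ▸ ((cm (by omega)).mul_right (cm (by omega))).mul_right (hz _)
    have c3 := commutatorElement_zpow_left (a := L.y l₀ 1) (b := L.y a₀ 1)
      (by rw [← commutatorElement_inv]; exact c1.inv_right) 2
    rw [zpow_two, sq, commutatorElement_one_left, ← commutatorElement_inv, inv_zpow, eq_comm, inv_eq_one, e,
      (show Commute _ _ from hz _).mul_zpow, (cm (by omega)).mul_zpow, zpow_two, zpow_two, sq, sq, one_mul,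
      one_mul] at c3
    exact_mod_cast c3
  have hN : Subgroup.zpowers (z a₀ l₀) ≤ π.ker := (Subgroup.zpowers_le_of_mem (z1 p1 p2))
  have : (Subgroup.zpowers (z a₀ l₀)).Normal := ⟨fun n hn g => by
    rwa [Subgroup.mem_center_iff.1 (hc (hN hn)) g, mul_inv_cancel_right]⟩
  let q := QuotientGroup.mk' (Subgroup.zpowers (z a₀ l₀))
  have hB : ∀ {a l}, R.pair a l = -2 → R.pair l a = -1 →
      ⁅q (L.y a 1), q (L.y l 1)⁆ ∈ Subgroup.closure {g | ∃ k v, R.Comb k a l ∧ g = q (L.y k v)} := fun {a l} e1 e2 => by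
    have e : ⁅L.y a 1, L.y l 1⁆ = L.y (R.refl l a) 1 * L.y (R.refl a l) 1 * z a l := (mul_inv_cancel_left _ _).symm
    have c1 : R.Comb (R.refl l a) a l := R.comb_of_add (RS.B2_root e1 e2).1
    have c2 : R.Comb (R.refl a l) a l := (R.comb_of_add (RS.B2_root e1 e2).2.1).trans_right c1
    rw [← map_commutatorElement, e, z3 e1 e2, map_mul, map_mul,
      show q (z a₀ l₀) = 1 from (QuotientGroup.eq_one_iff _).2 (Subgroup.mem_zpowers _), mul_one]
    exact mul_mem (Subgroup.subset_closure ⟨_, _, c1, rfl⟩) (Subgroup.subset_closure ⟨_, _, c2, rfl⟩)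
  let P : S.Pre (QuotientGroup.lift _ π hN) :=
    { y := fun r t => q (L.y r t)
      y_add := fun r t u => by rw [L.y_add, map_mul]
      map_y := fun r t => L.map_y r t
      comm_mem := fun r s t u e1 e2 => by
        rcases hF t with rfl | rfl
        · simp [y0]
        rcases hF u with rfl | rfl
        · simp [y0]
        by_cases h0 : 0 ≤ R.pair r s
        · rw [commutatorElement_eq_one_iff_commute.2 ((cm h0).map q)]
          exact one_mem _
        have a1 := hG.mul_le e1 e2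
        have a2 := hG.neg_two_le r s
        have a3 := hG.neg_two_le s r
        have a4 := R.pair_neg_comm.1 (not_le.1 h0)
        obtain b1 | b1 : R.pair r s = -1 ∨ R.pair r s = -2 := by omega
        · obtain b2 | b2 : R.pair s r = -1 ∨ R.pair s r = -2 := by omega
          · have hd := RS.dec_refl b1 b2
            obtain ⟨v, hv⟩ := L.exists_eq_y (r := R.refl r s) (a := ⁅L.y r 1, L.y s 1⁆)
              (KG_le_KP hd (Subgroup.subset_closure ⟨_, _, 1, 1, L.map_y _ _, L.map_y _ _, rfl⟩))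
            rw [← map_commutatorElement, hv]
            exact Subgroup.subset_closure ⟨_, _, hd.comb, rfl⟩
          · rw [← commutatorElement_inv]
            refine inv_mem (Subgroup.closure_mono ?_ (hB b2 b1))
            rintro _ ⟨k, v, e, rfl⟩
            exact ⟨k, v, e.symm, rfl⟩
        · exact hB b1 (by rw [b1] at a1; omega) }
  have hP := P.sys_map hU hR hι
  have hle : π.ker = Subgroup.zpowers (z a₀ l₀) := le_antisymm (fun x hx => (QuotientGroup.eq_one_iff x).1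
    (eq_one_of_map_two hF (π := QuotientGroup.lift _ π hN) (S' := P.sys hU hR hι) (hP.symm ▸ hS)
      (grp_eq_top_of_stem (CL.Schur.IsStem.quot hπ _ hN) (hP.symm ▸ hg)) hx)) hN
  rw [hle, Nat.card_zpowers]
  exact orderOf_dvd_of_pow_eq_one z4

end StSys

end CL.Chev
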