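/-
The Schur multiplier of `F₄(2)` has order two.
-/
import Cfsg.Agent.Known.F4TwoRep
import Cfsg.Agent.Known.F4TwoUp
import Cfsg.Agent.Known.StbData

set_option autoImplicit false

namespace CL.Chev.F4Two

open Cfsg Cfsg.Lie Cert
open scoped commutatorElement

/-- `GoodLC` on the tables. -/
def good (r s : ℕ) : Prop :=
  ∃ m < 48, auxF4.pr m s = 1 ∧ auxF4.pr s m = 1 ∧ 0 ≤ auxF4.pr r m ∧ auxF4.pr r m ≤ auxF4.pr r s

instance (r s : ℕ) : Decidable (good r s) := by unfold good; infer_instance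

theorem tab_pos : ∀ i < 4, ∀ s < 48, 0 < auxF4.pr (auxF4.sim i) s → s = auxF4.sim i ∨ good (auxF4.sim i) s := by
  decide +kernel

theorem tab_dec : ∀ i < 4, ∃ m < 48, auxF4.pr m (auxF4.sim i) = 1 ∧ auxF4.pr (auxF4.sim i) m = 1 := by decide +kernel

/-- The reflection exchanging `a` and `c` on the tables. -/
def swp (r a c : ℕ) : Prop := ∃ γ < 48,
  (∀ j < auxF4.l, auxF4.rt c j = auxF4.rt a j - auxF4.pr γ a * auxF4.rt γ j) ∧ good r γ ∧ good r (auxF4.ng γ)

instance (r a c : ℕ) : Decidable (swp r a c) := by unfold swp; infer_instance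

set_option synthInstance.maxSize 1000 in
theorem tab_swap : ∀ i < 4, ∀ a < 48, auxF4.pr a (auxF4.sim i) = 1 ∧ auxF4.pr (auxF4.sim i) a = 1 → ∀ c < 48,
    auxF4.pr c (auxF4.sim i) = 1 ∧ auxF4.pr (auxF4.sim i) c = 1 ∧ auxF4.pr a c = 0 → swp (auxF4.sim i) a c := by
  decide +kernel

set_option synthInstance.maxSize 1000 in
theorem tab_top : ∀ a < 48, ∀ l < 48, auxF4.pr a l = -2 → auxF4.pr l a = -1 →
    (a = 29 ∧ l = 41) ∨ ∃ i < 4, 3 * auxF4.ca i a + 2 * auxF4.ca i l < 0 := by decide +kernel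

theorem tab_ng : ∀ r < 48, auxF4.ng r = 47 - r := by decide +kernel

theorem len_ms : ms.length = 49 := by decide +kernel

theorem g_comm (r : ℕ) : g r * g 48 = g 48 * g r := by
  obtain h | rfl | h := lt_trichotomy r 48
  · exact (z_comm h).symm
  · rfl
  · rw [g, List.getD_eq_default _ _ (by rw [MxP.Par.gns, List.length_map, len_ms]; exact h), one_mul, mul_one]

theorem goodLC (E : Real chevF4) {r s : Fin chevF4.nroots} (h : good r s) : E.R.GoodLC r s := by
  obtain ⟨m, hm, h⟩ := h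
  exact ⟨⟨m, hm⟩, by simpa only [tabF4.pair E] using h⟩

theorem f4Like (E : Real chevF4) : E.R.F4Like where
  noG2 := E.noG2 (by decide +kernel)
  pos i s h := by
    rw [tabF4.pair E, tabF4.simple E] at h
    exact (tab_pos i i.2 s s.2 h).imp (fun e => Fin.ext (e.trans (tabF4.simple E i).symm))
      fun e => goodLC E (tabF4.simple E i ▸ e)
  dec i := by
    obtain ⟨m, hm, h⟩ := tab_dec i i.2
    exact ⟨⟨m, hm⟩, by simpa only [tabF4.pair E, tabF4.simple E] using h⟩
  swap i a c h1 h2 h3 h4 h5 := by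
    simp only [tabF4.pair E, tabF4.simple E] at h1 h2 h3 h4 h5
    obtain ⟨γ, hγ, e1, e2, e3⟩ := tab_swap i i.2 a a.2 ⟨h1, h2⟩ c c.2 ⟨h3, h4, h5⟩
    exact ⟨⟨γ, hγ⟩, (tabF4.refl_eq_iff E _ _ _).2 e1, goodLC E (tabF4.simple E i ▸ e2),
      goodLC E (by rwa [tabF4.simple E, tabF4.neg E])⟩
  top := ⟨⟨29, by decide⟩, ⟨41, by decide⟩, by rw [tabF4.pair E]; decide +kernel, by rw [tabF4.pair E]; decide +kernel,
    fun a l h1 h2 => by
      rw [tabF4.pair E] at h1 h2
      exact (tab_top a a.2 l l.2 h1 h2).imp (fun e => ⟨Fin.ext e.1, Fin.ext e.2⟩)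
        fun ⟨i, hi, e⟩ => ⟨⟨i, hi⟩, by simpa only [tabF4.pair_simple E] using e⟩⟩

variable {K : Type*} [Field K] (hF : ∀ t : K, t = 0 ∨ t = 1)
include hF

theorem prod_odd {Y : Type*} [Group Y] {f : Fin chevF4.nroots → K → Y} {γ : ℕ → Y} (h0 : ∀ r, f r 0 = 1)
    (h1 : ∀ r, f r 1 = γ r) (r s : Fin chevF4.nroots) :
    ((datT chevF4 r s).map fun c => f c.1 ((c.2.1 : K) * (-1) ^ c.2.2.1 * 1 ^ c.2.2.2)).prod = ((odd r s).map γ).prod := by
  have h2 := StSys.two_eq_zero_of hF
  have : CharP K 2 := (CharP.charP_iff_prime_eq_zero Nat.prime_two).2 (by exact_mod_cast h2)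
  rw [odd, ← tabF4.commTerms r.2 s.2, ← realF4.datT_map]
  induction datT chevF4 r s with
  | nil => rfl
  | cons c l ih =>
    rw [List.map_cons, List.prod_cons, ih, List.map_cons, show (-1 : K) = 1 by linear_combination -h2, one_pow, one_pow,
      mul_one, mul_one]
    have e := CharP.intCast_eq_zero_iff K 2 c.2.1
    by_cases h : c.2.1 % 2 = 1
    · rw [List.filter_cons_of_pos (by simpa using h), (hF _).resolve_left (e.not.2 (by omega)), h1]
      rfl
    · rw [List.filter_cons_of_neg (by simpa using h), e.2 (by omega), h0, one_mul]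

theorem one_lt_card {Y : Type*} [Group Y] {g : ℕ → Y} {z : Y} (hz : z ∈ Subgroup.center Y) (hne : z ≠ 1)
    (hsq : ∀ r < 48, g r * g r = 1) (hrel : ∀ r < 48, ∀ s < 48, s ≠ r → s ≠ 47 - r →
      g s * g r = g r * g s * ((odd r s).map g).prod * if (odd r s).length = 2 then z else 1)
    {B : Type*} [CommGroup B] (hB : HasSchurMultiplier (chevF4.group K) B) : 1 < Nat.card B := by
  classical
  have hN : Subgroup.zpowers z ≤ Subgroup.center Y := Subgroup.zpowers_le_of_mem hz
  have : (Subgroup.zpowers z).Normal := ⟨fun n hn g => by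
    rwa [Subgroup.mem_center_iff.1 (hN hn) g, mul_inv_cancel_right]⟩
  let q := QuotientGroup.mk' (Subgroup.zpowers z)
  have qz : q z = 1 := (QuotientGroup.eq_one_iff _).2 (Subgroup.mem_zpowers _)
  have ne : ∀ {r s : Fin chevF4.nroots}, s ≠ realF4.R.neg r ↔ (s : ℕ) ≠ 47 - r := fun {r s} => by
    rw [← tab_ng r r.2, ← tabF4.neg realF4, Ne, Ne, Fin.ext_iff]
  let f : Fin chevF4.nroots → K → Y ⧸ Subgroup.zpowers z := fun r t => if t = 0 then 1 else q (g r)
  have f0 : ∀ r, f r 0 = 1 := fun r => if_pos rfl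
  have f1 : ∀ r, f r 1 = q (g r) := fun r => if_neg one_ne_zero
  have hφ := (realF4.forall_relsAB_iff (FreeGroup.lift fun p : _ × K => f p.1 p.2)).2 ⟨fun r t u => by
    simp only [FreeGroup.lift_apply_of]
    rcases hF t with rfl | rfl
    · rw [zero_add, f0, one_mul]
    rcases hF u with rfl | rfl
    · rw [add_zero, f0, mul_one]
    rw [one_add_one_eq_two, StSys.two_eq_zero_of hF, f0, f1, ← map_mul, hsq r r.2, map_one], fun r s t u h1 h2 => by
    simp only [FreeGroup.lift_apply_of]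
    have hT := realF4.ok.T_spec r s h1 h2
    rcases hF t with rfl | rfl
    · rw [f0, mul_one, one_mul, List.prod_eq_one, mul_one]
      simp only [List.mem_map]
      rintro _ ⟨c, hc, rfl⟩
      rw [neg_zero, zero_pow (hT c hc).1.ne', mul_zero, zero_mul, f0]
    rcases hF u with rfl | rfl
    · rw [f0, mul_one, one_mul, List.prod_eq_one, mul_one]
      simp only [List.mem_map]
      rintro _ ⟨c, hc, rfl⟩
      rw [zero_pow (hT c hc).2.1.ne', mul_zero, f0]
    rw [prod_odd hF (γ := fun r => q (g r)) f0 f1, f1, f1, ← map_mul, hrel r r.2 s s.2 (Fin.val_ne_of_ne h1) (ne.1 h2),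
      map_mul, map_mul, map_mul, map_list_prod, List.map_map, apply_ite q, qz, map_one, ite_self, mul_one]
    rfl⟩
  let φ : chevF4.SteinbergCover K →* Y ⧸ Subgroup.zpowers z := PresentedGroup.toGroup hφ
  let c : ℕ → chevF4.SteinbergCover K := fun r => chevF4.scGen K r 1
  have crel : ∀ r < 48, ∀ s < 48, s ≠ r → s ≠ 47 - r → c s * c r = c r * c s * ((odd r s).map c).prod :=
    fun r hr s hs h1 h2 => by
      have := realF4.SC_commFormula K ⟨r, hr⟩ ⟨s, hs⟩ 1 1 (fun e => h1 (congrArg Fin.val e)) (ne.2 h2)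
      rw [prod_odd hF (γ := c) (realF4.SC K).x_zero fun r => (Real.scGen_coe r 1).symm] at this
      exact (congrArg₂ (· * ·) (Real.scGen_coe ⟨s, hs⟩ 1) (Real.scGen_coe ⟨r, hr⟩ 1)).trans (this.trans
        (congrArg (· * _) (congrArg₂ (· * ·) (Real.scGen_coe ⟨r, hr⟩ 1) (Real.scGen_coe ⟨s, hs⟩ 1)).symm))
  let x : ∀ r < 48, CL.Schur.pb φ q := fun r hr => ⟨(c r, g r),
    (congrArg φ (Real.scGen_coe ⟨r, hr⟩ 1)).trans ((PresentedGroup.toGroup.of hφ).trans (f1 ⟨r, hr⟩))⟩
  let y : CL.Schur.pb φ q := ⟨(1, z), (map_one φ).trans qz.symm⟩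
  have key : ∀ {a b d : CL.Schur.pb φ q}, b * a = a * b * d → d ∈ commutator _ := fun {a b d} e => by
    rw [show d = ⁅b⁻¹, a⁻¹⁆ by rw [commutatorElement_def, inv_inv, inv_inv, mul_assoc _ b, e]; group]
    exact Subgroup.commutator_mem_commutator (Subgroup.mem_top _) (Subgroup.mem_top _)
  have o1 : odd 9 40 = [28] := by decide +kernel
  have o2 : odd 4 46 = [30] := by decide +kernel
  have o3 : odd 27 25 = [28, 30] := by decide +kernel
  have m1 := key (a := x 9 (by omega)) (b := x 40 (by omega)) (d := x 28 (by omega)) (Subtype.ext (Prod.ext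
    (by simpa [o1] using crel 9 (by omega) 40 (by omega) (by omega) (by omega))
    (by simpa [o1] using hrel 9 (by omega) 40 (by omega) (by omega) (by omega))))
  have m2 := key (a := x 4 (by omega)) (b := x 46 (by omega)) (d := x 30 (by omega)) (Subtype.ext (Prod.ext
    (by simpa [o2] using crel 4 (by omega) 46 (by omega) (by omega) (by omega))
    (by simpa [o2] using hrel 4 (by omega) 46 (by omega) (by omega) (by omega))))
  have m3 := key (a := x 27 (by omega)) (b := x 25 (by omega)) (d := x 28 (by omega) * x 30 (by omega) * y)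
    (Subtype.ext (Prod.ext (by simpa [o3, y] using crel 27 (by omega) 25 (by omega) (by omega) (by omega))
      (by simpa [o3, mul_assoc] using hrel 27 (by omega) 25 (by omega) (by omega) (by omega))))
  rw [Subgroup.mul_mem_cancel_left _ (mul_mem m1 m2)] at m3
  have hd := CL.Schur.HasSM.card_ker_inf_dvd hB ((realF4.θC K).comp (CL.Schur.pbFst φ q))
    ((realF4.θC_surjective K).comp (CL.Schur.pbFst_surjective φ (QuotientGroup.mk'_surjective _))) fun a ha =>
      CL.Schur.pbFst_ker_le_center φ (by rwa [QuotientGroup.ker_mk'])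
        (StSys.eq_one_of_map_two hF (π := realF4.θC K) (realF4.SC_map K ▸ realF4.SG_faithful) (realF4.SC_grp K) ha)
  have := CL.Schur.HasSM.finite_mult hB
  by_contra hlt
  rw [show Nat.card B = 1 from le_antisymm (not_lt.1 hlt) Nat.card_pos, Nat.dvd_one, Subgroup.card_eq_one] at hd
  have : y ∈ ((realF4.θC K).comp (CL.Schur.pbFst φ q)).ker ⊓ commutator _ := ⟨map_one (realF4.θC K), m3⟩
  rw [hd, Subgroup.mem_bot] at this
  exact hne (congrArg (fun a => a.1.2) this)

theorem one_lt_card' {Y : Type*} [Group Y] {g : ℕ → Y} {z : Y} (hz : ∀ r, g r * z = z * g r) (hne : z ≠ 1)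
    (hsq : ∀ r < 48, g r * g r = 1) (hrel : ∀ r < 48, ∀ s < 48, s ≠ r → s ≠ 47 - r →
      g s * g r = g r * g s * ((odd r s).map g).prod * if (odd r s).length = 2 then z else 1)
    {B : Type*} [CommGroup B] (hB : HasSchurMultiplier (chevF4.group K) B) : 1 < Nat.card B :=
  one_lt_card hF (Y := Subgroup.centralizer {z}) (g := fun r => ⟨g r, Subgroup.mem_centralizer_singleton_iff.2 (hz r)⟩)
    (z := ⟨z, Subgroup.mem_centralizer_singleton_iff.2 rfl⟩)
    (Subgroup.mem_center_iff.2 fun a => Subtype.ext (Subgroup.mem_centralizer_singleton_iff.1 a.2))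
    (fun e => hne (congrArg Subtype.val e)) (fun r hr => Subtype.ext (hsq r hr)) (fun r hr s hs h1 h2 => Subtype.ext (by
      rw [Subgroup.coe_mul, hrel r hr s hs h1 h2, Subgroup.coe_mul, Subgroup.coe_mul, Subgroup.coe_mul,
        SubmonoidClass.coe_list_prod, List.map_map]
      split_ifs <;> rfl)) hB

attribute [local irreducible] g par in
theorem schur [Finite K] : HasCyclicSchurMultiplier (chevF4.group K) 2 := by
  have := (realF4.SG K).finite_of_grp realF4.SG_grp
  obtain ⟨B, _, _, hB⟩ := CL.Schur.exists_hasSchurMultiplier (chevF4.group K)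
  have h1 := one_lt_card' hF (g := g) (z := g 48) g_comm z_ne (fun _ => g_sq) (fun _ hr _ hs => g_rel hr hs) hB
  obtain ⟨Γ, _, _, τ, hτ, ⟨e⟩⟩ := hB.1
  have h2 := StSys.card_ker_le_two hτ realF4.SG_faithful realF4.SG_grp realF4.irred realF4.two_le_card (f4Like realF4) hF
  rw [Nat.card_congr e.toEquiv] at h2
  have : Fact (Nat.Prime 2) := ⟨Nat.prime_two⟩
  exact CL.Schur.HasSM.congr_right hB (mulEquivOfPrimeCardEq (le_antisymm (Nat.le_of_dvd two_pos h2) h1) (by simp))

end CL.Chev.F4Two
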