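/-
The Jacobi-Trudi identity and the double cosets of Young subgroups.
-/
import Cfsg.Agent.Char.Mackey
import Mathlib.RingTheory.PowerSeries.Basic
import Mathlib.LinearAlgebra.Matrix.Block
import Mathlib.Algebra.Polynomial.BigOperators

set_option autoImplicit false

namespace CL.Flag

open Finset Equiv CL.Char

section JT

open PowerSeries

variable {n : ℕ} {A : Type*} [CommRing A] (x : Fin n → A)

/-- The generating series of the complete symmetric functions. -/
noncomputable def H : A⟦X⟧ := ∏ i, PowerSeries.mk fun k => x i ^ k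

/-- The Jacobi-Trudi determinant. -/
noncomputable def D (a : Fin n → ℕ) : A := (Matrix.of fun i (k : Fin n) => coeff (a i) (X ^ k.val * H x)).det

/-- The alternant. -/
noncomputable def alt (a : Fin n → ℕ) : A := (Matrix.of fun i j => x j ^ a i).det

theorem mul_mk (a : A) : (1 - C a * X) * PowerSeries.mk (fun k => a ^ k) = 1 := by
  ext k
  cases k <;> simp [sub_mul, mul_assoc, coeff_succ_X_mul, pow_succ']

theorem exists_pow_eq : ∃ c : Matrix (Fin n) (Fin n) A, ∀ m j, x j ^ m = ∑ k : Fin n, coeff m (X ^ k.val * H x) * c k j := by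
  classical
  let P : Fin n → Polynomial A := fun j => ∏ i ∈ univ.erase j, (1 - Polynomial.C (x i) * Polynomial.X)
  refine ⟨fun k j => (P j).coeff k, fun m j => ?_⟩
  have h1 : (P j).natDegree < n := by
    nontriviality A using j.pos
    refine ((Polynomial.natDegree_prod_le _ _).trans (sum_le_card_nsmul _ _ 1 fun i _ => by compute_degree)).trans_lt ?_
    simpa using j.pos
  have h2 : (P j : A⟦X⟧) * H x = PowerSeries.mk fun k => x j ^ k := by
    rw [H, ← mul_prod_erase _ _ (mem_univ j), mul_left_comm, ← Polynomial.coeToPowerSeries.ringHom_apply, map_prod,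
      ← prod_mul_distrib, prod_eq_one fun i _ => by simpa [Polynomial.coeToPowerSeries.ringHom_apply] using mul_mk (x i), mul_one]
  rw [← coeff_mk m fun k => x j ^ k, ← h2]
  conv_lhs => rw [(P j).as_sum_range' n h1, ← Polynomial.coeToPowerSeries.ringHom_apply, map_sum, sum_mul, map_sum, sum_range]
  refine sum_congr rfl fun k _ => ?_
  rw [Polynomial.coeToPowerSeries.ringHom_apply, ← Polynomial.C_mul_X_pow_eq_monomial, Polynomial.coe_mul, Polynomial.coe_C,
    Polynomial.coe_pow, Polynomial.coe_X, mul_assoc, coeff_C_mul, mul_comm]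

theorem jacobi_trudi (a : Fin n → ℕ) : alt x a = alt x Fin.val * D x a := by
  obtain ⟨c, hc⟩ := exists_pow_eq x
  have h1 : ∀ a, alt x a = D x a * c.det := fun a => by
    rw [alt, D, ← Matrix.det_mul]
    exact congrArg _ (Matrix.ext fun i j => hc _ _)
  have h2 : D x Fin.val = 1 := by
    rw [D, Matrix.det_of_isLowerTriangular _ fun i j h => by
      rw [Matrix.of_apply, coeff_X_pow_mul', if_neg (not_le.2 (show i.val < j.val from h))]]
    simp [coeff_X_pow_mul', H, map_prod, ← coeff_zero_eq_constantCoeff_apply]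
  rw [h1, h1, h2, one_mul, mul_comm]

theorem D_eq (a : Fin n → ℕ) : D x a = ∑ κ : Perm (Fin n),
    if ∀ i, (κ i).val ≤ a i then (Perm.sign κ : ℤ) * ∏ i, coeff (a i - κ i) (H x) else 0 := by
  rw [D, ← Matrix.det_transpose, Matrix.det_apply']
  simp [coeff_X_pow_mul', prod_ite_zero]

end JT

open MvPolynomial

variable {n : ℕ}

/-- An exponent vector. -/
noncomputable abbrev tf (a : Fin n → ℕ) : Fin n →₀ ℕ := Finsupp.equivFunOnFinite.symm a

theorem prod_X_pow (a : Fin n →₀ ℕ) : ∏ i, (X i : MvPolynomial (Fin n) ℂ) ^ a i = monomial a 1 := by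
  rw [monomial_eq, Finsupp.prod_fintype _ _ (by simp), C_1, one_mul]

theorem alt_X (a : Fin n → ℕ) : alt (X : Fin n → MvPolynomial (Fin n) ℂ) a =
    ∑ κ : Perm (Fin n), monomial (tf (a ∘ κ)) ((Perm.sign κ : ℤ) : ℂ) := by
  rw [alt, Matrix.det_apply']
  refine sum_congr rfl fun κ _ => ?_
  rw [← mul_one ((_ : ℤ) : ℂ), ← C_mul_monomial, ← prod_X_pow]
  simp

/-- The number of matrices with given row and column sums. -/
noncomputable def N (a b : Fin n → ℕ) : ℂ := coeff (tf a) (∏ i, PowerSeries.coeff (b i) (H X))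

theorem N_eq (a b : Fin n → ℕ) :
    N a b = #{s ∈ Fintype.piFinset fun i => finsuppAntidiag univ (b i) | ∑ i, s i = tf a} := by
  simp only [N, H, PowerSeries.coeff_prod, PowerSeries.coeff_mk, prod_X_pow, prod_univ_sum, ← monomial_sum_one, coeff_sum,
    coeff_monomial, sum_boole]

theorem sum_N {a b : Fin n → ℕ} (ha : StrictMono a) (hb : StrictMono b) : (∑ κ : Perm (Fin n), if ∀ i, (κ i).val ≤ a i then
    ((Perm.sign κ : ℤ) : ℂ) * ∑ κ' : Perm (Fin n), (if ∀ i, (κ' i).val ≤ b i then
      ((Perm.sign κ' : ℤ) : ℂ) * N (fun i => a i - κ i) (fun i => b i - κ' i) else 0) else 0) = if b = a then 1 else 0 := by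
  have h := congrArg (coeff (tf a)) (jacobi_trudi (X : Fin n → MvPolynomial (Fin n) ℂ) b)
  rw [alt_X, alt_X, sum_mul, coeff_sum, coeff_sum, sum_eq_single 1 (fun κ _ h1 => by
    rw [coeff_monomial, if_neg fun e => h1 ?_]
    have e' : b ∘ κ = a := Finsupp.equivFunOnFinite.symm.injective e
    obtain rfl : b = a := (hb.range_inj ha).1 (by rw [← e', κ.surjective.range_comp])
    exact Equiv.ext fun i => hb.injective (congrFun e' i)) (by simp)] at h
  refine Eq.trans (sum_congr rfl fun κ _ => ?_) (h.symm.trans (by simp [coeff_monomial]))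
  rw [coeff_monomial_mul', D_eq, coeff_sum]
  refine if_congr Iff.rfl (congrArg _ (sum_congr rfl fun κ' _ => ?_)) rfl
  split_ifs
  · rw [← map_intCast (C : ℂ →+* _), coeff_C_mul, show tf a - tf (Fin.val ∘ κ) = tf _ from Finsupp.ext fun _ => rfl, N]; rfl
  · rfl

section Perm

variable {ι κ α : Type*} [Fintype ι] [Fintype κ] [DecidableEq α]

/-- The cardinalities of the fibres. -/
def cnt (f : ι → α) (a : α) : ℕ := #{k | f k = a}

theorem exists_equiv {f : ι → α} {g : κ → α} (h : cnt f = cnt g) : ∃ σ : ι ≃ κ, ∀ k, g (σ k) = f k :=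
  ⟨ofFiberEquiv fun a => Fintype.equivOfCardEq (by simpa [Fintype.card_subtype, cnt] using congrFun h a), ofFiberEquiv_map _⟩

theorem cnt_eq {f : ι → α} {g : κ → α} (σ : ι ≃ κ) (h : ∀ k, g (σ k) = f k) : cnt f = cnt g :=
  funext fun a => card_equiv σ (by simp [h])

theorem sum_cnt_snd {β : Type*} [DecidableEq β] [Fintype β] (f : ι → α × β) (a : α) :
    ∑ b, cnt f (a, b) = cnt (fun k => (f k).1) a := by
  simp only [cnt, card_filter, Prod.ext_iff, ite_and]
  rw [sum_comm]; simp

theorem sum_cnt_fst {β : Type*} [DecidableEq β] [Fintype β] (f : ι → β × α) (a : α) :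
    ∑ b, cnt f (b, a) = cnt (fun k => (f k).2) a := by
  simp only [cnt, card_filter, Prod.ext_iff, and_comm (b := _ = a), ite_and]
  rw [sum_comm]; simp

/-- The Young subgroup of a labelling. -/
def Y {α : Type*} (b : ι → α) : Subgroup (Perm ι) where
  carrier := {σ | ∀ i, b (σ i) = b i}
  mul_mem' ha hb i := (ha _).trans (hb i)
  one_mem' _ := rfl
  inv_mem' {a} ha i := by simpa using (ha (a⁻¹ i)).symm

theorem card_reps {b c : ι → Fin n} {T : Finset (Perm ι)} (hT : IsDoubleCosetReps (Y b) (Y c) T) :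
    (T.card : ℂ) = N (cnt c) (cnt b) := by
  rw [N_eq, Nat.cast_inj]
  let p : Perm ι → ι → Fin n × Fin n := fun w k => (b k, c (w⁻¹ k))
  have key : ∀ w w', cnt (p w) = cnt (p w') ↔ ∃ σ ∈ Y b, ∃ τ ∈ Y c, w' = σ * w * τ := fun w w' => ⟨fun h => by
    obtain ⟨σ, hσ⟩ := exists_equiv h
    exact ⟨σ, fun i => congrArg Prod.fst (hσ i), (w'⁻¹ * σ * w)⁻¹, inv_mem fun i => by
      simpa [p] using congrArg Prod.snd (hσ (w i)), by group⟩, by
    rintro ⟨σ, hσ, τ, hτ, rfl⟩
    exact cnt_eq σ fun k => Prod.ext (hσ k) (by simpa [p] using inv_mem hτ (w⁻¹ k))⟩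
  refine card_bij (fun w _ i => tf fun j => cnt (p w) (i, j)) (fun w _ => ?_) (fun w hw w' hw' e => ?_) fun s hs => ?_
  · simp only [mem_filter, Fintype.mem_piFinset, mem_finsuppAntidiag, subset_univ, and_true]
    refine ⟨fun i => sum_cnt_snd _ i, Finsupp.ext fun j => ?_⟩
    rw [Finsupp.finsetSum_apply]
    exact (sum_cnt_fst _ j).trans (congrFun (cnt_eq w⁻¹ fun _ => rfl) j)
  · exact (hT w').unique ⟨hw, (key w w').1 (funext fun a => DFunLike.congr_fun (congrFun e a.1) a.2)⟩ ⟨hw', (key _ _).1 rfl⟩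
  · simp only [mem_filter, Fintype.mem_piFinset, mem_finsuppAntidiag, subset_univ, and_true] at hs
    have h1 : ∀ a, cnt (Sigma.fst : (Σ a : Fin n × Fin n, Fin (s a.1 a.2)) → _) a = s a.1 a.2 := fun a => by
      rw [cnt, card_filter, Fintype.sum_sigma, sum_eq_single a (fun _ _ h => by simp [h]) (by simp)]; simp
    obtain ⟨σ, hσ⟩ := exists_equiv (g := b) (funext fun i => ((sum_cnt_snd _ i).symm.trans (sum_congr rfl fun j _ => h1 _)).trans (hs.1 i))
    obtain ⟨τ, hτ⟩ := exists_equiv (g := c) (funext fun j => ((sum_cnt_fst _ j).symm.trans (sum_congr rfl fun i _ => h1 _)).trans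
      ((Finsupp.finsetSum_apply _ _ _).symm.trans (DFunLike.congr_fun hs.2 j)))
    obtain ⟨w, ⟨hw, h2⟩, -⟩ := hT (τ.symm.trans σ)
    refine ⟨w, hw, funext fun i => Finsupp.ext fun j => ?_⟩
    rw [← h1 (i, j), cnt_eq (g := p (τ.symm.trans σ)) σ fun k => Prod.ext (hσ k) (by simpa [p, Perm.inv_def] using hτ k), ← (key _ _).2 h2]
    rfl

end Perm

end CL.Flag
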