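/-
The permutation characters of `GL_n(q)` on partial flags and the unipotent characters.
-/
import Cfsg.Agent.Known.FlagSym
import Cfsg.Agent.Known.LieGL
import Cfsg.Prelude.Def_LinearParabolics
import Mathlib.LinearAlgebra.Matrix.GeneralLinearGroup.Card
import Mathlib.LinearAlgebra.Vandermonde

set_option autoImplicit false

namespace CL.Flag

open Cfsg Finset Equiv CL.Char CL.Chev CL.Chev.BN CL.Chev.St CL.Chev.GLB Matrix

variable {n : ℕ} {F : Type*} [Field F]

section Label

/-- Partial sums. -/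
def ps (μ : Fin n → ℕ) (j : Fin n) : ℕ := ∑ k ∈ univ.filter (· ≤ j), μ k

theorem ps_mono (μ : Fin n → ℕ) : Monotone (ps μ) := fun _ _ h =>
  sum_le_sum_of_subset fun _ hk => by simpa using (mem_filter.1 hk).2.trans h

theorem ps_eq (μ : Fin n → ℕ) (j : Fin n) : ps μ j = μ j + ∑ k ∈ Iio j, μ k := by
  rw [ps, filter_ge_eq_Iic, ← Iio_insert, sum_insert notMem_Iio_self]

theorem ps_injective : Function.Injective (ps (n := n)) := fun μ ν h => funext fun j => by
  induction j using WellFoundedLT.induction with | ind j ih =>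
  have := congrFun h j
  rwa [ps_eq, ps_eq, sum_congr rfl fun k hk => ih k (mem_Iio.1 hk), add_left_inj] at this

theorem ps_cnt {ι : Type*} [Fintype ι] (b : ι → Fin n) (j : Fin n) : ps (cnt b) j = #{i | b i ≤ j} := by
  simp only [ps, cnt, card_filter]
  rw [sum_comm]; simp

theorem lt_compLabel {μ : Fin n → ℕ} {i k : Fin n} : k.val < compLabel μ i ↔ ps μ k ≤ i :=
  ⟨fun h => by_contra fun e => h.not_ge ((card_le_card fun j hj => mem_Iio.2 (lt_of_not_ge fun e' =>
    e ((ps_mono μ e').trans (mem_filter.1 hj).2))).trans_eq (Fin.card_Iio k)),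
    fun h => (Fin.card_Iic k).symm.trans_le (card_le_card fun j hj =>
      mem_filter.2 ⟨mem_univ _, (ps_mono μ (mem_Iic.1 hj)).trans h⟩)⟩

variable {μ : Fin n → ℕ} (h : ∑ i, μ i = n)

/-- The block labels as indices of the composition. -/
def lab (i : Fin n) : Fin n := ⟨compLabel μ i, lt_of_not_ge fun e => by
  have h1 := (lt_compLabel (μ := μ) (i := i) (k := ⟨n - 1, by have := i.pos; omega⟩)).1 (by have := i.pos; simp only; omega)
  rw [ps, filter_true_of_mem fun k _ => Fin.le_def.2 (by simp only; omega), h] at h1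
  omega⟩

theorem lab_le {i k : Fin n} : lab h i ≤ k ↔ i < ps μ k := by
  rw [← not_lt, ← not_le (a := ps μ k), ← lt_compLabel]; rfl

theorem lab_mono : Monotone (lab h) := fun _ _ e => (lab_le h).2 (lt_of_le_of_lt e ((lab_le h).1 le_rfl))

theorem cnt_lab : cnt (lab h) = μ := ps_injective (funext fun k => by
  simp only [ps_cnt, lab_le, Fin.card_filter_val_lt]
  exact min_eq_right ((sum_le_sum_of_subset (filter_subset _ _)).trans h.le))

theorem parabolicGL_eq : parabolicGL n F μ = par F (lab h) := rfl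

theorem youngSubgroup_eq : youngSubgroup μ = Y (lab h) := Subgroup.ext fun _ => forall_congr' fun _ =>
  (Fin.ext_iff (a := lab h _) (b := lab h _)).symm

end Label

/-- The `q`-integers. -/
def Q (q r : ℕ) : ℕ := ∑ l ∈ range r, q ^ l

/-- The `q`-factorials. -/
def Qf (q r : ℕ) : ℕ := ∏ j ∈ range r, Q q (j + 1)

theorem pow_sub_pow {q a b : ℕ} (hq : 1 ≤ q) (h : b ≤ a) : q ^ a - q ^ b = q ^ b * (q - 1) * Q q (a - b) := by
  rw [mul_assoc, mul_comm (q - 1), Q, geom_sum_mul_of_one_le hq, Nat.mul_sub, ← pow_add, add_tsub_cancel_of_le h, mul_one]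

/-- Splitting off the last vector of an adapted independent family. -/
def liEquiv {V : Type*} [AddCommGroup V] [Module F V] {k : ℕ} (W : Fin (k + 1) → Submodule F V) :
    {s : Fin (k + 1) → V // LinearIndependent F s ∧ ∀ j, s j ∈ W j} ≃
      Σ s : {s : Fin k → V // LinearIndependent F s ∧ ∀ j, s j ∈ W j.castSucc},
        ((W (Fin.last k) : Set V) \ Submodule.span F (Set.range s.1) : Set V) where
  toFun s := have h := linearIndependent_finSnoc.1 (show LinearIndependent F
      (Fin.snoc (Fin.init s.1) (s.1 (Fin.last k)) : Fin (k + 1) → V) by rw [Fin.snoc_init_self]; exact s.2.1)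
    ⟨⟨Fin.init s.1, h.1, fun _ => s.2.2 _⟩, s.1 (Fin.last k), s.2.2 _, h.2⟩
  invFun s := ⟨Fin.snoc s.1.1 s.2.1, linearIndependent_finSnoc.2 ⟨s.1.2.1, s.2.2.2⟩,
    Fin.lastCases (by simpa using s.2.2.1) (by simpa using s.1.2.2)⟩
  left_inv s := Subtype.ext (Fin.snoc_init_self s.1)
  right_inv s := Sigma.subtype_ext (Subtype.ext (by simp)) (by simp)

theorem card_li {V : Type*} [AddCommGroup V] [Module F V] [Finite V] {k : ℕ} {W : Fin k → Submodule F V} (hW : Monotone W) :
    Nat.card {s : Fin k → V // LinearIndependent F s ∧ ∀ j, s j ∈ W j} = ∏ j, (Nat.card (W j) - Nat.card F ^ j.val) := by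
  induction k with
  | zero => exact Nat.card_eq_one_iff_unique.2 ⟨inferInstance, ⟨⟨Fin.elim0, linearIndependent_empty_type, fun j => j.elim0⟩⟩⟩
  | succ k ih =>
    have := Fintype.ofFinite {s : Fin k → V // LinearIndependent F s ∧ ∀ j, s j ∈ W j.castSucc}
    rw [Fin.prod_univ_castSucc, Nat.card_congr (liEquiv W), Nat.card_sigma,
      sum_congr rfl (g := fun _ => Nat.card (W (Fin.last k)) - Nat.card F ^ k) fun s _ => ?_, sum_const, card_univ,
      ← Nat.card_eq_fintype_card, ih fun _ _ h => hW (Fin.castSucc_le_castSucc_iff.2 h)]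
    · rfl
    rw [Nat.card_coe_set_eq, Set.ncard_sdiff (Submodule.span_le.2 (by rintro _ ⟨j, rfl⟩; exact hW (Fin.le_last _) (s.2.2 j))),
      ← Nat.card_coe_set_eq, ← Nat.card_coe_set_eq, SetLike.coe_sort_coe, SetLike.coe_sort_coe,
      Module.natCard_eq_pow_finrank (K := F) (V := Submodule.span F _), finrank_span_eq_card s.2.1, Fintype.card_fin]

variable {b c : Fin n → Fin n}

variable (F b) in
/-- The standard flag. -/
noncomputable def std (k : Fin n) : Submodule F (Fin n → F) := Pi.spanSubset F {i | b i ≤ k}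

theorem mem_std {k : Fin n} {v : Fin n → F} : v ∈ std F b k ↔ ∀ i, k < b i → v i = 0 := by
  simp [std, Pi.mem_spanSubset_iff]

theorem std_mono : Monotone (std F b) := fun _ _ h _ hv => mem_std.2 fun i hi => mem_std.1 hv i (h.trans_lt hi)

theorem finrank_std (k : Fin n) : Module.finrank F (std F b k) = ps (cnt b) k := by
  rw [std, Pi.dim_spanSubset, ps_cnt, ← Set.ncard_coe_finset]; simp

theorem lt_ps (hb : Monotone b) (j : Fin n) : j < ps (cnt b) (b j) :=
  ps_cnt b _ ▸ (Fin.card_Iic j).symm.trans_le (card_le_card fun i hi => mem_filter.2 ⟨mem_univ _, hb (mem_Iic.1 hi)⟩)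

theorem prod_Q (hb : Monotone b) (q : ℕ) : ∏ j, Q q (ps (cnt b) (b j) - j) = ∏ k, Qf q (cnt b k) := by
  rw [← prod_fiberwise univ b]
  refine prod_congr rfl fun k _ => ?_
  have h1 : ∀ j ∈ univ.filter (b · = k), ps (cnt b) k - j - 1 ∈ range (cnt b k) ∧ j < ps (cnt b) k := fun j hj => by
    obtain rfl := (mem_filter.1 hj).2
    have h2 : ∑ k ∈ Iio (b j), cnt b k ≤ j := by
      rw [← Fin.card_Iio j]
      exact (card_biUnion (fun _ _ _ _ e => disjoint_filter.2 fun _ _ e' e'' => e (e'.symm.trans e''))).ge.trans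
        (card_le_card fun i hi => mem_Iio.2 (hb.reflect_lt (by simpa using hi)))
    have := lt_ps hb j
    have := ps_eq (cnt b) (b j)
    exact ⟨mem_range.2 (by omega), lt_ps hb j⟩
  have h2 : Set.InjOn (fun j : Fin n => ps (cnt b) k - j - 1) (univ.filter (b · = k)) := fun i hi j hj e => Fin.ext (by
    have := (h1 i hi).2; have := (h1 j hj).2; simp only at e; omega)
  exact prod_nbij _ (fun j hj => (h1 j hj).1) h2 (surjOn_of_injOn_of_card_le _ (fun j hj => (h1 j hj).1) h2 (card_range _).le)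
    fun j hj => by rw [(mem_filter.1 hj).2, Nat.sub_add_cancel (Nat.sub_pos_of_lt (h1 j hj).2)]

theorem index_par [Fintype F] (hb : Monotone b) :
    (par F b).index * ∏ k, Qf (Fintype.card F) (cnt b k) = Qf (Fintype.card F) n := by
  have hq := Fintype.one_lt_card (α := F)
  have h1 : Nat.card (par F b) = ∏ j, (Fintype.card F ^ ps (cnt b) (b j) - Fintype.card F ^ j.val) := by
    rw [Nat.card_congr (((equiv_GL_linearindependent n).subtypeEquiv (q := fun s => ∀ j, s.1 j ∈ std F b (b j)) fun g =>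
      mem_par.trans (forall_comm.trans (forall_congr' fun j => mem_std.symm))).trans
        (subtypeSubtypeEquivSubtypeInter _ fun s : Fin n → Fin n → F => ∀ j, s j ∈ std F b (b j))), card_li (std_mono.comp hb)]
    simp only [Function.comp, Module.natCard_eq_pow_finrank (K := F) (V := std F b _), finrank_std, Nat.card_eq_fintype_card]
  have h2 := (par F b).index_mul_card
  rw [h1, card_GL_field, prod_congr rfl fun j _ => pow_sub_pow hq.le (lt_ps hb j).le,
    prod_congr rfl fun j _ => pow_sub_pow hq.le j.2.le, prod_mul_distrib, prod_mul_distrib (g := fun j : Fin n => Q _ _), prod_Q hb,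
    mul_left_comm, Fin.prod_univ_eq_prod_range (fun j => Q _ (n - j))] at h2
  rw [mul_left_cancel₀ (prod_ne_zero_iff.2 fun j _ => mul_ne_zero (by positivity) (by omega)) h2, Qf, ← prod_range_reflect]
  exact prod_congr rfl fun j hj => congrArg _ (by have := mem_range.1 hj; omega)

theorem pm_mem_par {ι : Type*} [Fintype ι] [DecidableEq ι] {b : ι → Fin n} {σ : Perm ι} : pm F σ ∈ par F b ↔ σ ∈ Y b := by
  have h : ∀ σ, pm F σ ∈ par F b ↔ ∀ j, b (σ j) ≤ b j := fun σ => by
    simpa using pm_mul_dg_mem_par (F := F) (w := σ) (d := 1) (b := b)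
  exact ⟨fun e j => le_antisymm ((h _).1 e j) ((congrArg b (σ.symm_apply_apply j)).ge.trans ((h _).1 (map_inv (pm F) σ ▸ inv_mem e) (σ j))),
    fun e => (h _).2 fun j => (e j).le⟩

theorem reps_par [DecidableEq (GL (Fin n) F)] (hb : Monotone b) (hc : Monotone c) {T : Finset (Perm (Fin n))}
    (hT : IsDoubleCosetReps (Y b) (Y c) T) : IsDoubleCosetReps (par F b) (par F c) (T.image (pm F)) := fun g => by
  have h1 : par F id ≤ par F b := par_mono fun _ _ => hb.reflect_lt
  have h2 : par F id ≤ par F c := par_mono fun _ _ => hc.reflect_lt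
  obtain ⟨w, hw⟩ := exists_mem_cell (P := (glBN (Fin n) F).P) g
  obtain ⟨⟨_, w, d, rfl⟩, rfl⟩ := mk_surjective _ w
  obtain ⟨t, ⟨ht, σ, hσ, τ, hτ, rfl⟩, h3⟩ := hT w
  refine ⟨_, ⟨mem_image_of_mem _ ht, ?_⟩, ?_⟩
  · obtain ⟨x, hx, y, hy, rfl⟩ := mem_cell_mk.1 hw
    exact ⟨_, mul_mem (h1 hx) (pm_mem_par.2 hσ), _, mul_mem (mul_mem (pm_mem_par.2 hτ) (dg_mem_par d)) (h2 hy), by simp [mul_assoc]⟩
  rintro _ ⟨h4, x, hx, y, hy, rfl⟩
  obtain ⟨s, hs, rfl⟩ := mem_image.1 h4
  have hJ := eq_cellSubgroup_of_le (P := (glBN (Fin n) F).P) h1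
  have hK := eq_cellSubgroup_of_le (P := (glBN (Fin n) F).P) h2
  obtain ⟨u, hu, h5⟩ := exists_mul_mem_cell_left (hJ.le hx) (self_mem_cell (P := (glBN (Fin n) F).P) ⟨_, pm_mem_mono s⟩)
  obtain ⟨v, hv, h6⟩ := exists_mul_mem_cell_right h5 (hK.le hy)
  obtain ⟨⟨_, u, e, rfl⟩, rfl⟩ := mk_surjective _ u
  obtain ⟨⟨_, v, e', rfl⟩, rfl⟩ := mk_surjective _ v
  have h7 := eq_of_mem_cell h6 hw
  rw [← map_mul, ← map_mul, mk_eq_iff] at h7
  refine congrArg _ (h3 s ⟨hs, u, pm_mem_par.1 ((mul_mem_cancel_right (dg_mem_par e)).1 (hJ.ge (coe_mem_cellSubgroup_iff.2 hu))),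
    v, pm_mem_par.1 ((mul_mem_cancel_right (dg_mem_par e')).1 (hK.ge (coe_mem_cellSubgroup_iff.2 hv))),
    (inv_mul_eq_one.1 (eq_one_of_pm_mem (F := F) ?_)).symm⟩)
  convert mul_mem (mul_mem (dg_mem_par (e ∘ (s * v) * e')) h7) (inv_mem (dg_mem_par d)) using 1
  have := dg_mul_pm (F := F) e (s * v)
  rw [map_mul] at this
  simp only [map_mul, map_inv, Subgroup.coe_mul, Subgroup.coe_inv, ← inv_mul_eq_iff_eq_mul.2 this]
  group

theorem inner_fpc {G : Type*} [Group G] [Fintype G] {K H : Subgroup G} {T : Finset G} (hT : IsDoubleCosetReps K H T) :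
    classInner (fixedPointCharacter K) (fixedPointCharacter H) = T.card := by
  have := fun t => Fintype.ofFinite (mackeySub H K t)
  rw [fpc_eq_indFun, fpc_eq_indFun, classInner_indFun_indFun hT (fun _ _ => rfl) fun _ _ => rfl]
  simp [classInner]

section Inner

variable {μ ν : Fin n → ℕ}

theorem inner_young (hμ : ∑ i, μ i = n) (hν : ∑ i, ν i = n) :
    classInner (fixedPointCharacter (youngSubgroup μ)) (fixedPointCharacter (youngSubgroup ν)) = N ν μ := by
  obtain ⟨T, -, hT⟩ := exists_isDoubleCosetReps (Y (lab hμ)) (Y (lab hν))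
  rw [youngSubgroup_eq hμ, youngSubgroup_eq hν, inner_fpc hT, card_reps hT, cnt_lab, cnt_lab]

theorem inner_par [Fintype (GL (Fin n) F)] (hμ : ∑ i, μ i = n) (hν : ∑ i, ν i = n) :
    classInner (fixedPointCharacter (parabolicGL n F μ)) (fixedPointCharacter (parabolicGL n F ν)) = N ν μ := by
  classical
  obtain ⟨T, -, hT⟩ := exists_isDoubleCosetReps (Y (lab hμ)) (Y (lab hν))
  rw [parabolicGL_eq hμ, parabolicGL_eq hν, inner_fpc (reps_par (lab_mono hμ) (lab_mono hν) hT),
    card_image_of_injective _ fun _ _ e => inv_mul_eq_one.1 (eq_one_of_pm_mem (F := F) (by simp [e])), card_reps hT, cnt_lab, cnt_lab]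

theorem sum_sub (h : ∑ i, ν i = n) {κ : Perm (Fin n)} (hκ : ∀ i, (κ i).val ≤ ν i + i) : ∑ i, (ν i + i - κ i) = n := by
  rw [sum_tsub_distrib _ fun i _ => hκ i, sum_add_distrib, h, Equiv.sum_comp κ Fin.val, Nat.add_sub_cancel]

theorem unip_eq (ν : Fin n → ℕ) : unipotentCharacterGL n F ν = ∑ κ : Perm (Fin n),
    ((if ∀ i, (κ i).val ≤ ν i + i then Perm.sign κ else 0 : ℤ) : ℂ) •
      fixedPointCharacter (parabolicGL n F fun i => ν i + i - κ i) := by
  funext g
  simp [unipotentCharacterGL, ite_apply]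

theorem inner_unip [Fintype (GL (Fin n) F)] (h : Monotone ν) (hν : ∑ i, ν i = n) (h' : Monotone μ) (hμ : ∑ i, μ i = n) :
    classInner (unipotentCharacterGL n F μ) (unipotentCharacterGL n F ν) = if μ = ν then 1 else 0 := by
  have h1 := sum_N (h.add_strictMono Fin.val_strictMono) (h'.add_strictMono Fin.val_strictMono)
  rw [unip_eq, unip_eq, classInner_sum_right', if_congr (add_left_inj Fin.val).symm rfl rfl]
  refine Eq.trans (sum_congr rfl fun κ _ => ?_) h1
  rw [classInner_smul_right, classInner_sum_left, map_intCast]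
  split_ifs with h2
  · refine congrArg _ (sum_congr rfl fun κ' _ => ?_)
    split_ifs with h3
    · rw [classInner_smul_left, inner_par (sum_sub hμ h3) (sum_sub hν h2)]
    · simp [classInner]
  · simp

end Inner

theorem Q_sub {R : Type*} [CommRing R] (q : ℕ) {a m : ℕ} (h : m ≤ a) : (Q q a : R) - Q q m = q ^ m * Q q (a - m) := by
  obtain ⟨k, rfl⟩ := Nat.exists_eq_add_of_le h
  simp [Q, sum_range_add, mul_sum, pow_add]

theorem Qf_mul {R : Type*} [CommRing R] (q : ℕ) {a k : ℕ} (h : k ≤ a) :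
    (q : R) ^ k.choose 2 * Qf q a = Qf q (a - k) * ∏ m ∈ range k, ((Q q a : R) - Q q m) := by
  induction k with
  | zero => simp
  | succ k ih =>
    rw [prod_range_succ, Q_sub q (by omega : k ≤ a), Nat.choose_succ_succ', Nat.choose_one_right, pow_add, mul_assoc, ih (by omega),
      show a - k = a - (k + 1) + 1 by omega, Qf, Qf, prod_range_succ]
    push_cast; ring

theorem sum_choose_two (n : ℕ) : ∑ i : Fin n, i.val.choose 2 = n * (n - 1) * (n - 2) / 6 := by
  have h : ∑ i ∈ range n, i.choose 2 = n.choose 3 := by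
    induction n with
    | zero => rfl
    | succ n ih => rw [sum_range_succ, ih, Nat.choose_succ_succ', add_comm]
  rw [Fin.sum_univ_eq_sum_range (·.choose 2), h, Nat.choose_eq_descFactorial_div_factorial]
  simp [Nat.descFactorial, Nat.factorial, mul_comm, mul_left_comm]

theorem degree {R : Type*} [CommRing R] [Nontrivial R] [Fintype F] {ν : Fin n → ℕ} (hν : ∑ i, ν i = n) :
    (∑ κ : Perm (Fin n), if ∀ i, (κ i).val ≤ ν i + i then ((Perm.sign κ : ℤ) : R) *
      (parabolicGL n F fun i => ν i + i - κ i).index else 0) * (Fintype.card F : R) ^ (n * (n - 1) * (n - 2) / 6) *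
        ∏ i, (Qf (Fintype.card F) (ν i + i) : R) = Qf (Fintype.card F) n *
          ∏ i, ∏ j with i < j, ((Q (Fintype.card F) (ν j + j) : R) - Q (Fintype.card F) (ν i + i)) := by
  simp only [filter_lt_eq_Ioi]
  rw [← det_vandermonde fun i : Fin n => (Q (Fintype.card F) (ν i + i) : R), det_eval_matrixOfPolynomials_eq_det_vandermonde _
    (fun k => ∏ m ∈ range k, (Polynomial.X - Polynomial.C (Q (Fintype.card F) m : R)))
    (fun k => by rw [Polynomial.natDegree_finsetProd_X_sub_C_eq_card, card_range])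
    fun k => Polynomial.monic_prod_X_sub_C _ _, ← det_transpose, det_apply', mul_assoc, sum_mul, mul_sum]
  refine sum_congr rfl fun κ _ => ?_
  simp only [transpose_apply, of_apply, Polynomial.eval_prod, Polynomial.eval_sub, Polynomial.eval_X, Polynomial.eval_C]
  split_ifs with h
  · have h1 := index_par (F := F) (lab_mono (sum_sub hν h))
    rw [cnt_lab, ← parabolicGL_eq] at h1
    rw [← sum_choose_two, ← Equiv.sum_comp κ, ← prod_pow_eq_pow_sum, ← prod_mul_distrib, prod_congr rfl fun i _ => Qf_mul _ (h i),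
      prod_mul_distrib, ← h1]
    push_cast; ring
  · obtain ⟨i, hi⟩ := not_forall.1 h
    rw [prod_eq_zero (f := fun i => ∏ m ∈ range (κ i), _) (mem_univ i) (prod_eq_zero (mem_range.2 (not_le.1 hi)) (sub_self _))]
    simp

theorem unip_one [Fintype F] (ν : Fin n → ℕ) : unipotentCharacterGL n F ν 1 = ∑ κ : Perm (Fin n), if ∀ i, (κ i).val ≤ ν i + i then
    ((Perm.sign κ : ℤ) : ℂ) * (parabolicGL n F fun i => ν i + i - κ i).index else 0 := by
  simp only [unipotentCharacterGL, fpc_one]

theorem isIrr_unip [Fintype F] {ν : Fin n → ℕ} (h : Monotone ν) (hν : ∑ i, ν i = n) :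
    IsIrrCharacter (GL (Fin n) F) (unipotentCharacterGL n F ν) := by
  have := Fintype.ofFinite (GL (Fin n) F)
  refine IsGeneralizedCharacter.isIrrCharacter_of_norm_one (unip_eq (F := F) ν ▸ isGeneralizedCharacter_sum _ _ fun _ _ =>
    (isCharacter_fpc _).isGeneralizedCharacter.intCast_smul _) ((inner_unip h hν h hν).trans (if_pos rfl)) ?_
  have h1 := degree (R := ℝ) (F := F) hν
  have h2 : (0 : ℝ) < Fintype.card F := by exact_mod_cast Fintype.card_pos
  have h3 : ∀ r, (0 : ℝ) < Qf (Fintype.card F) r := fun r => by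
    exact_mod_cast prod_pos fun j _ => sum_pos (fun _ _ => pow_pos Fintype.card_pos _) (by simp)
  refine (nonneg_of_mul_nonneg_left (nonneg_of_mul_nonneg_left (h1.ge.trans' (mul_nonneg (h3 n).le (prod_nonneg fun i _ =>
    prod_nonneg fun j hj => sub_nonneg.2 (Nat.cast_le.2 (sum_le_sum_of_subset (range_mono (add_le_add (h (mem_filter.1 hj).2.le)
      (mem_filter.1 hj).2.le))))))) (prod_pos fun i _ => h3 _)) (pow_pos h2 _)).trans_eq ?_
  simp [unip_one, apply_ite Complex.re]

end CL.Flag
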