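/-
The 5-part of the multiplier of Co2 (generated by tools/pc/gm.py).
-/
import Cfsg.Agent.Known.GCo2

set_option autoImplicit false
set_option maxRecDepth 100000
set_option linter.all false

namespace CL.Pc.GCo2
open Cfsg CL.Spor

namespace P5
noncomputable def WT : ℕ := 0x58e3cf38924b2ca3061c51470440430c20830009a669e72081c51861850a28a38a0820861841d9250f3cd40e40a2c92cb2862061820840441020c0aa69a46a081c49861458a38c3104022041041080000000000000000000000000000000000000000
def relT : ℕ := 0x3000000c00000000000030c30c200000000000000000000000000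
def dT : ℕ := 0xe4
def eT : ℕ := 0x3c20410308200000
def D : Data :=
  ⟨5, 3, 16777216, 266305, 5, 12, 14, 58, 2, fun i j => tget 26 0x3ffffff relT (tri i j), 10, 4, 1,
    fun k l => tget 2 3 dT (Nat.add (Nat.mul 4 k) l), fun k l => tget 20 0xfffff eT (Nat.add (Nat.mul 4 k) l)⟩
def S : Fin2 :=
  ⟨26, 5, [0, 0x201, 0x501, 0x405],
    [0, 0, 0, 0, 0, 0, 0, 0x20000, 0x10200, 4],
    []⟩
def r0 : List RelC := [⟨0, 2, 0x1041041, 0x901⟩, ⟨1, 0x43, 0xc1, 0x80200704⟩, ⟨1, 0x83, 0xc2, 0x702⟩]
def rels : List RelC := (r0 ++ [])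
noncomputable def W (i : ℕ) : ℕ := tget 161 0x1ffffffffffffffffffffffffffffffffffffffff WT i
def ch : List (ℕ × ℕ × List ℕ) := [(0x12, 4600, [3, 2]), (0, 4600, [1])]
theorem r0_ok : allL (chkRel D) r0 = true := by decide +kernel
theorem g1 : goalsChk D S (rels.map (·.s)) 1 3 = true := by decide +kernel
theorem w1 : rowsChk D (eqB (lazyA A 28 W) (D.n + D.NF) 7 [49, 2727, 1005, 4556, 2879, 3212, 3452]) 1 3 = true := by decide +kernel
theorem f0 : fusChk D (eqB (lazyA A 28 W) (D.n + D.NF) 7 [49, 2727, 1005, 4556, 2879, 3212, 3452]) 0 = true := by decide +kernel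
theorem ch_ok : chainChk (lazyA A 28 W) D.n 7 4 ch [] (D.p ^ D.n) = true := by decide +kernel
theorem params : Params D S rels 0 :=
  ⟨(by norm_num : Nat.Prime 5), by decide +kernel, by decide +kernel, by decide +kernel, by decide +kernel,
    by decide +kernel, by decide +kernel, by decide +kernel, by decide +kernel, by decide +kernel,
    by decide +kernel, by decide +kernel⟩
theorem checks : Checks D S rels :=
  ⟨by decide +kernel, allL_app r0_ok (allL_end), cover_step g1 (cover_end (by decide)), by decide +kernel⟩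
universe u
variable {G : Type u} {X : Type*} [Group G] [MulAction G X] {pt : ℕ → X} {x : ℕ → G}
theorem bound (h : Ful pt x) : PBound G 5 0 :=
  h.pbound params checks (cover_step w1 (cover_end (by decide))) (show ∀ k < 1, _ from below_step f0 (below_end)) ch_ok (by decide +kernel)
end P5

end CL.Pc.GCo2
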