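/-
The 5-part of the multiplier of Co3 (generated by tools/pc/gm.py).
-/
import Cfsg.Agent.Known.GCo3

set_option autoImplicit false
set_option maxRecDepth 100000
set_option linter.all false

namespace CL.Pc.GCo3
open Cfsg CL.Spor

namespace P5
noncomputable def WT : ℕ := 0x1138f3903092c92451c61c20c304402ca2881c71c61849829040c30418220400164514d23cc28c24c1861870830c20e479a81a51451628a40a40a2821841042000000000000000000000000000000000
def relT : ℕ := 0x3000030000000000c30c200000000000000000000
def dT : ℕ := 0xe4
def eT : ℕ := 0x3c2081041030c104100000000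
def D : Data :=
  ⟨5, 3, 16777216, 266305, 5, 12, 14, 53, 2, fun i j => tget 20 0xfffff relT (tri i j), 10, 4, 1,
    fun k l => tget 2 3 dT (Nat.add (Nat.mul 4 k) l), fun k l => tget 32 0xffffffff eT (Nat.add (Nat.mul 4 k) l)⟩
def S : Fin2 :=
  ⟨26, 5, [0, 0x201, 0x501, 0x40f],
    [0, 0, 0, 0, 0, 0, 0, 0x200, 0x40400, 2],
    []⟩
def r0 : List RelC := [⟨0, 2, 0x1041041, 0x902⟩, ⟨1, 0x43, 0xc1, 0x702⟩, ⟨1, 0x83, 0xc2, 0x80100703⟩]
def rels : List RelC := (r0 ++ [])
noncomputable def W (i : ℕ) : ℕ := tget 131 0x7ffffffffffffffffffffffffffffffff WT i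
def ch : List (ℕ × ℕ × List ℕ) := [(0, 552, [3, 2]), (1, 552, [1])]
theorem r0_ok : allL (chkRel D) r0 = true := by decide +kernel
theorem g1 : goalsChk D S (rels.map (·.s)) 1 3 = true := by decide +kernel
theorem w1 : rowsChk D (eqB (lazyA A 23 W) (D.n + D.NF) 8 [32, 544, 33, 211, 220, 278, 120]) 1 3 = true := by decide +kernel
theorem f0 : fusChk D (eqB (lazyA A 23 W) (D.n + D.NF) 8 [32, 544, 33, 211, 220, 278, 120]) 0 = true := by decide +kernel
theorem ch_ok : chainChk (lazyA A 23 W) D.n 8 4 ch [] (D.p ^ D.n) = true := by decide +kernel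
theorem params : Params D S rels 0 :=
  ⟨(by norm_num : Nat.Prime 5), by decide +kernel, by decide +kernel, by decide +kernel, by decide +kernel,
    by decide +kernel, by decide +kernel, by decide +kernel, by decide +kernel, by decide +kernel,
    by decide +kernel, by decide +kernel⟩
theorem checks : Checks D S rels :=
  ⟨by decide +kernel, allL_app r0_ok (allL_end), cover_step g1 (cover_end (by decide)), by decide +kernel⟩
universe u
variable {G : Type u} {X : Type*} [Group G] [MulAction G X] {pt : ℕ → X} {x : ℕ → G}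
theorem bound (h : Ful pt x) : PBound G 5 0 :=
  h.pbound params checks (cover_step w1 (cover_end (by decide))) (show ∀ k < 1, _ from below_step f0 (below_end)) ch_ok (by decide +kernel)
end P5

end CL.Pc.GCo3
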