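/-
The commutator subgroup of the presented group Fi24 consists of the words of even length.
-/
import Cfsg.Agent.Known.PcLab
import Cfsg.Agent.Known.PcLite
import Cfsg.Agent.Spor.Fi24Model

set_option autoImplicit false
set_option linter.constructorNameAsVariable false

namespace CL.Pc.GFi24
open Cfsg Cfsg.Spor CL.Fi24P

theorem even_eq : (FreeGroup.lift fun a : Fi24.Gen => FreeGroup.of a * FreeGroup.of .l).range.map
    (PresentedGroup.mk _) = commutator Fi24 := by
  have h1 : ∀ x, mk (.of x) * mk Fi24.l ∈ (FreeGroup.lift fun a : Fi24.Gen => FreeGroup.of a * FreeGroup.of .l).range.map mk :=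
    fun x => ⟨_, ⟨.of x, rfl⟩, by rw [FreeGroup.lift_apply_of, map_mul]⟩
  have hl : mk Fi24.l * mk Fi24.l = 1 := by rw [← pow_two]; exact Fi24P.sq .l
  have h2 : (FreeGroup.lift fun a : Fi24.Gen => FreeGroup.of a * FreeGroup.of .l).range.map mk ≤ commutator Fi24 := by
    rintro _ ⟨_, ⟨x, rfl⟩, rfl⟩
    induction x using FreeGroup.induction_on with
    | C1 => simp
    | of b => rw [FreeGroup.lift_apply_of, map_mul]; exact mul_l_mem b
    | inv_of b ih => rw [map_inv, map_inv]; exact inv_mem ih
    | mul u v hu hv => rw [map_mul, map_mul]; exact mul_mem hu hv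
  refine le_antisymm h2 fun y hy => (two_cosets (S := gens) (fun x _ => h1 x) ?_ y (top ▸ trivial)).resolve_left
    fun h => l_not_mem ((Subgroup.mul_mem_cancel_left _ hy).1 (h2 h))
  rintro _ ⟨_, ⟨x, rfl⟩, rfl⟩
  induction x using FreeGroup.induction_on with
  | C1 => rw [map_one, map_one, mul_one, hl]; exact one_mem _
  | of b =>
    have := inv_mem (h1 b)
    rw [mul_inv_rev, l_inv, inv_eq_of_mul_eq_one_left ((pow_two _).symm.trans (Fi24P.sq b))] at this
    rwa [FreeGroup.lift_apply_of, map_mul, mul_assoc, mul_assoc, hl, mul_one]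
  | inv_of b ih =>
    have := inv_mem ih
    rwa [mul_inv_rev, mul_inv_rev, l_inv, ← mul_assoc, ← map_inv, ← map_inv] at this
  | mul u v hu hv =>
    have := mul_mem hu hv
    rwa [mul_assoc, ← mul_assoc (mk Fi24.l) (mk Fi24.l * _), ← mul_assoc (mk Fi24.l) (mk Fi24.l), hl, one_mul,
      ← mul_assoc, mul_assoc (mk Fi24.l), ← map_mul mk, ← map_mul (FreeGroup.lift _)] at this

theorem letter_not_mem (c : ℕ) (h1 : 0 < c) (h2 : c ≤ 12) : certX mk LB0 c ∉ commutator Fi24 := by
  have key : ∀ x, mk (.of x) ∉ commutator Fi24 := fun x h =>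
    l_not_mem ((Subgroup.mul_mem_cancel_left _ h).1 (mul_l_mem x))
  interval_cases c <;> exact key _

end CL.Pc.GFi24
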