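/-
A light model of the Fischer group Fi24 from the coset table on 306936 points.
-/
import Cfsg.Agent.Known.GFi24E

set_option autoImplicit false

namespace CL.Pc.GFi24
open Cfsg CL.Fi24P

/-- The tables. -/
noncomputable def A : ℕ → ℕ → ℕ := certA TC.Fi24A.cert

/-- The simple group. -/
abbrev K : Subgroup Spor.Fi24 := commutator Spor.Fi24

theorem cardK : Nat.card K = 1255205709190661721292800 := card'

theorem memK (f u : ℕ) (h1 : lettersIn 0 12 f u = true) (h2 : evenW f u = true) : evW (certX mk LB0) u ∈ K :=
  mem_of_evenW index_commutator letter_not_mem f u h1 h2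

theorem lite : ∃ v : ℕ → Spor.Fi24 ⧸ H, Lite v 306936 A 12 [0, 2, 6, 12, 24, 51, 113, 249, 510, 964, 116, 254] (certX mk LB0) :=
  Lite.ofCert (KL := wds gens) (invol := gens) TC.Fi24A.valid hR rfl rfl top index_H base (by decide +kernel)

end CL.Pc.GFi24
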