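/-
The 2-part of the multiplier of Fi24: checks (generated by tools/pc/gm.py).
-/
import Cfsg.Agent.Known.GFi24P2A

set_option autoImplicit false
set_option maxRecDepth 100000
set_option linter.all false
set_option Elab.async false

namespace CL.Pc.GFi24
open Cfsg CL.Spor

namespace P2
theorem r0_ok : allL (chkRel D) r0 = true := by decide +kernel
theorem r1_ok : allL (chkRel D) r1 = true := by decide +kernel
theorem r2_ok : allL (chkRel D) r2 = true := by decide +kernel
theorem g1 : goalsChk D S (rels.map (·.s)) 1 10 = true := by decide +kernel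
theorem g11 : goalsChk D S (rels.map (·.s)) 11 4 = true := by decide +kernel
theorem g15 : goalsChk D S (rels.map (·.s)) 15 3 = true := by decide +kernel
theorem g18 : goalsChk D S (rels.map (·.s)) 18 3 = true := by decide +kernel
theorem g21 : goalsChk D S (rels.map (·.s)) 21 1 = true := by decide +kernel
theorem w1 : rowsChk D (eqB (lazyA A 137 W) (D.n + D.NF) 14 [0, 2, 6, 12, 24, 51, 113, 249, 510, 964, 116, 254]) 1 4 = true := by decide +kernel
theorem w5 : rowsChk D (eqB (lazyA A 137 W) (D.n + D.NF) 14 [0, 2, 6, 12, 24, 51, 113, 249, 510, 964, 116, 254]) 5 2 = true := by decide +kernel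
theorem w7 : rowsChk D (eqB (lazyA A 137 W) (D.n + D.NF) 14 [0, 2, 6, 12, 24, 51, 113, 249, 510, 964, 116, 254]) 7 1 = true := by decide +kernel
theorem w8 : rowsChk D (eqB (lazyA A 137 W) (D.n + D.NF) 14 [0, 2, 6, 12, 24, 51, 113, 249, 510, 964, 116, 254]) 8 1 = true := by decide +kernel
theorem w9 : rowsChk D (eqB (lazyA A 137 W) (D.n + D.NF) 14 [0, 2, 6, 12, 24, 51, 113, 249, 510, 964, 116, 254]) 9 1 = true := by decide +kernel
theorem w10 : rowsChk D (eqB (lazyA A 137 W) (D.n + D.NF) 14 [0, 2, 6, 12, 24, 51, 113, 249, 510, 964, 116, 254]) 10 1 = true := by decide +kernel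
theorem w11 : rowsChk D (eqB (lazyA A 137 W) (D.n + D.NF) 14 [0, 2, 6, 12, 24, 51, 113, 249, 510, 964, 116, 254]) 11 1 = true := by decide +kernel
theorem w12 : rowsChk D (eqB (lazyA A 137 W) (D.n + D.NF) 14 [0, 2, 6, 12, 24, 51, 113, 249, 510, 964, 116, 254]) 12 1 = true := by decide +kernel
end P2

end CL.Pc.GFi24
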