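/-
The 2-part of the multiplier of Fi24 (generated by tools/pc/gm.py).
-/
import Cfsg.Agent.Known.GFi24P2K0
import Cfsg.Agent.Known.GFi24P2K1

set_option autoImplicit false
set_option maxRecDepth 100000
set_option linter.all false
set_option Elab.async false

namespace CL.Pc.GFi24
open Cfsg CL.Spor

namespace P2
theorem params : Params D S rels 0 :=
  ⟨(by norm_num : Nat.Prime 2), by decide +kernel, by decide +kernel, by decide +kernel, by decide +kernel,
    by decide +kernel, by decide +kernel, by decide +kernel, by decide +kernel, by decide +kernel,
    by decide +kernel, by decide +kernel⟩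
theorem checks : Checks D S rels :=
  ⟨by decide +kernel, allL_app r0_ok (allL_app r1_ok (allL_app r2_ok (allL_end))), cover_step g1 (cover_step g11 (cover_step g15 (cover_step g18 (cover_step g21 (cover_end (by decide)))))), by decide +kernel⟩
theorem bound : PBound K 2 0 :=
  lite.elim fun _ h => h.pbound cardK memK params checks (cover_step w1 (cover_step w5 (cover_step w7 (cover_step w8 (cover_step w9 (cover_step w10 (cover_step w11 (cover_step w12 (cover_step w13 (cover_step w14 (cover_step w15 (cover_step w16 (cover_step w17 (cover_step w18 (cover_step w19 (cover_step w20 (cover_step w21 (cover_end (by decide))))))))))))))))))) (show ∀ k < 5, _ from below_step f4 (below_step f3 (below_step f2 (below_step f1 (below_step f0 (below_end)))))) ch_ok (by decide +kernel)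
end P2

end CL.Pc.GFi24
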