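/-
The 3-part of the multiplier of Fi24: checks (generated by tools/pc/gm.py).
-/
import Cfsg.Agent.Known.GFi24P3A

set_option autoImplicit false
set_option maxRecDepth 100000
set_option linter.all false
set_option Elab.async false

namespace CL.Pc.GFi24
open Cfsg CL.Spor

namespace P3
theorem r0_ok : allL (chkRel D) r0 = true := by decide +kernel
theorem r1_ok : allL (chkRel D) r1 = true := by decide +kernel
theorem r2_ok : allL (chkRel D) r2 = true := by decide +kernel
theorem r3_ok : allL (chkRel D) r3 = true := by decide +kernel
theorem r4_ok : allL (chkRel D) r4 = true := by decide +kernel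
theorem r5_ok : allL (chkRel D) r5 = true := by decide +kernel
theorem r6_ok : allL (chkRel D) r6 = true := by decide +kernel
theorem r7_ok : allL (chkRel D) r7 = true := by decide +kernel
theorem r8_ok : allL (chkRel D) r8 = true := by decide +kernel
theorem r9_ok : allL (chkRel D) r9 = true := by decide +kernel
end P3

end CL.Pc.GFi24
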