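/-
The 3-part of the multiplier of Fi24: checks (generated by tools/pc/gm.py).
-/
import Cfsg.Agent.Known.GFi24P3A

set_option autoImplicit false
set_option maxRecDepth 100000
set_option linter.all false
set_option Elab.async false

namespace CL.Pc.GFi24
open Cfsg CL.Spor

namespace P3
theorem w10 : rowsChk D (eqB (lazyA A 155 W) (D.n + D.NF) 25 [0, 2, 6, 12, 24, 51, 113, 249, 510, 964, 116, 254]) 10 1 = true := by decide +kernel
theorem w11 : rowsChk D (eqB (lazyA A 155 W) (D.n + D.NF) 25 [0, 2, 6, 12, 24, 51, 113, 249, 510, 964, 116, 254]) 11 1 = true := by decide +kernel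
theorem w12 : rowsChk D (eqB (lazyA A 155 W) (D.n + D.NF) 25 [0, 2, 6, 12, 24, 51, 113, 249, 510, 964, 116, 254]) 12 1 = true := by decide +kernel
theorem w13 : rowsChk D (eqB (lazyA A 155 W) (D.n + D.NF) 25 [0, 2, 6, 12, 24, 51, 113, 249, 510, 964, 116, 254]) 13 1 = true := by decide +kernel
theorem w14 : rowsChk D (eqB (lazyA A 155 W) (D.n + D.NF) 25 [0, 2, 6, 12, 24, 51, 113, 249, 510, 964, 116, 254]) 14 1 = true := by decide +kernel
theorem w15 : rowsChk D (eqB (lazyA A 155 W) (D.n + D.NF) 25 [0, 2, 6, 12, 24, 51, 113, 249, 510, 964, 116, 254]) 15 1 = true := by decide +kernel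
theorem w16 : rowsChk D (eqB (lazyA A 155 W) (D.n + D.NF) 25 [0, 2, 6, 12, 24, 51, 113, 249, 510, 964, 116, 254]) 16 1 = true := by decide +kernel
end P3

end CL.Pc.GFi24
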