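/-
The 3-part of the multiplier of Fi24 (generated by tools/pc/gm.py).
-/
import Cfsg.Agent.Known.GFi24P3K0
import Cfsg.Agent.Known.GFi24P3K1
import Cfsg.Agent.Known.GFi24P3K2
import Cfsg.Agent.Known.GFi24P3K3

set_option autoImplicit false
set_option maxRecDepth 100000
set_option linter.all false
set_option Elab.async false

namespace CL.Pc.GFi24
open Cfsg CL.Spor

namespace P3
theorem params : Params D S rels 1 :=
  ⟨(by norm_num : Nat.Prime 3), by decide +kernel, by decide +kernel, by decide +kernel, by decide +kernel,
    by decide +kernel, by decide +kernel, by decide +kernel, by decide +kernel, by decide +kernel,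
    by decide +kernel, by decide +kernel⟩
theorem checks : Checks D S rels :=
  ⟨by decide +kernel, allL_app r0_ok (allL_app r1_ok (allL_app r2_ok (allL_app r3_ok (allL_app r4_ok (allL_app r5_ok (allL_app r6_ok (allL_app r7_ok (allL_app r8_ok (allL_app r9_ok (allL_end)))))))))), cover_step g1 (cover_step g11 (cover_step g15 (cover_end (by decide)))), by decide +kernel⟩
theorem bound : PBound K 3 1 :=
  lite.elim fun _ h => h.pbound cardK memK params checks (cover_step w1 (cover_step w4 (cover_step w5 (cover_step w6 (cover_step w7 (cover_step w8 (cover_step w9 (cover_step w10 (cover_step w11 (cover_step w12 (cover_step w13 (cover_step w14 (cover_step w15 (cover_step w16 (cover_end (by decide)))))))))))))))) (show ∀ k < 3, _ from below_step f2 (below_step f1 (below_step f0 (below_end)))) ch_ok (by decide +kernel)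
end P3

end CL.Pc.GFi24
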