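/-
A presentation of G23 (generated by tools/pc/gm.py).
-/
import Cfsg.Agent.Known.GG23
import Cfsg.Agent.Known.GG23L1
import Cfsg.Agent.Known.GG23L2
import Cfsg.Agent.Known.GG23L3

set_option autoImplicit false
set_option maxRecDepth 100000
set_option linter.all false

namespace CL.Pc.GG23
open Cfsg CL.Spor

noncomputable def rs0 : List (ℕ × ℕ) := [(0x309309, 0), (0x2c924b249, 0), (0xb2cb2c9249, 0), (0x2871c7188205, 0), (0xc147187145205, 0), (0x2c52c8205, 0), (0x73052861c5, 0), (0xb14828c1c5, 0), (0xa286247245, 0), (0xb14c287245, 0), (0x249249249, 0), (0xc1cb147285, 0), (0x182104102, 0), (0x2030440430c2101, 0), (0x1041, 0), (0x3061c1141, 0), (0x2880ca281, 0), (0x1871471442c1, 0), (0x24c308202283, 0), (0xa2cb1c62032c2, 0), (0xb2451480482c3, 0), (0x93061c3084101101, 0), (0x81, 0), (0x103, 0), (0x185, 0), (0x207, 0), (0x289, 0), (0x30b, 0)]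
noncomputable def rs : List (ℕ × ℕ) := (rs0 ++ [])
noncomputable def p1 : PLev := ⟨8190, [1, 2, 3, 4, 5, 6, 7, 8, 9, 10, 11, 12], TC.GG23L1.invL, TC.GG23L1.rels, TC.GG23L1.subs, [5, 6, 7, 8, 9, 10, 11, 12], 364⟩
noncomputable def p2 : PLev := ⟨8160, [5, 6, 7, 8, 9, 10, 11, 12], TC.GG23L2.invL, TC.GG23L2.rels, TC.GG23L2.subs, [9, 10, 11, 12], 243⟩
noncomputable def p3 : PLev := ⟨7680, [9, 10, 11, 12], TC.GG23L3.invL, TC.GG23L3.rels, TC.GG23L3.subs, [], 48⟩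
theorem rs0_ok : allL (fun p : ℕ × ℕ => eqB A 12 12 [0, 121, 24] p.1 p.2) rs0 = true := by decide +kernel
theorem rs_ok : ∀ p ∈ rs, (fun p : ℕ × ℕ => eqB A 12 12 [0, 121, 24] p.1 p.2) p = true :=
  allL_app rs0_ok (allL_end)
theorem p1_ok : p1.Valid := ⟨_, TC.GG23L1.valid, TC.GG23L1.cert_N.le⟩
theorem p2_ok : p2.Valid := ⟨_, TC.GG23L2.valid, TC.GG23L2.cert_N.le⟩
theorem p3_ok : p3.Valid := ⟨_, TC.GG23L3.valid, TC.GG23L3.cert_N.le⟩
universe u
theorem pres : PresBound.{u} rs 12 4245696 :=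
  presBound_of (f := 2) (defs := []) (vs := [p1, p2, p3]) (valid_cons p1_ok (valid_cons p2_ok (valid_cons p3_ok (valid_nil)))) (by decide +kernel)

end CL.Pc.GG23
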