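/-
The 5-part of the multiplier of J2 (generated by tools/pc/gm.py).
-/
import Cfsg.Agent.Known.GJ2

set_option autoImplicit false
set_option maxRecDepth 100000
set_option linter.all false

namespace CL.Pc.GJ2
open Cfsg CL.Spor

namespace P5
noncomputable def WT : ℕ := 0x92851451c62020c10c10c3000000000000014718618400000092871481410410440000000000000000000000
def relT : ℕ := 0x200
def dT : ℕ := 0x24
def eT : ℕ := 0x206082080000
def D : Data :=
  ⟨5, 2, 16777216, 266305, 5, 11, 9, 16, 1, fun i j => tget 2 3 relT (tri i j), 6, 3, 1,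
    fun k l => tget 2 3 dT (Nat.add (Nat.mul 3 k) l), fun k l => tget 19 0x7ffff eT (Nat.add (Nat.mul 3 k) l)⟩
def S : Fin2 :=
  ⟨24, 5, [0, 0x201, 0x501],
    [0, 0, 0, 0, 3, 0],
    []⟩
def r0 : List RelC := [⟨1, 0x42, 0x81, 0x403⟩]
def rels : List RelC := (r0 ++ [])
noncomputable def W (i : ℕ) : ℕ := tget 88 0xffffffffffffffffffffff WT i
def ch : List (ℕ × ℕ × List ℕ) := [(0, 1575, [2, 1])]
theorem r0_ok : allL (chkRel D) r0 = true := by decide +kernel
theorem g1 : goalsChk D S (rels.map (·.s)) 1 2 = true := by decide +kernel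
theorem w1 : rowsChk D (eqB (lazyA A 16 W) (D.n + D.NF) 6 [301, 506, 1231, 533]) 1 2 = true := by decide +kernel
theorem f0 : fusChk D (eqB (lazyA A 16 W) (D.n + D.NF) 6 [301, 506, 1231, 533]) 0 = true := by decide +kernel
theorem ch_ok : chainChk (lazyA A 16 W) D.n 6 4 ch [] (D.p ^ D.n) = true := by decide +kernel
theorem params : Params D S rels 0 :=
  ⟨(by norm_num : Nat.Prime 5), by decide +kernel, by decide +kernel, by decide +kernel, by decide +kernel,
    by decide +kernel, by decide +kernel, by decide +kernel, by decide +kernel, by decide +kernel,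
    by decide +kernel, by decide +kernel⟩
theorem checks : Checks D S rels :=
  ⟨by decide +kernel, allL_app r0_ok (allL_end), cover_step g1 (cover_end (by decide)), by decide +kernel⟩
universe u
variable {G : Type u} {X : Type*} [Group G] [MulAction G X] {pt : ℕ → X} {x : ℕ → G}
theorem bound (h : Ful pt x) : PBound G 5 0 :=
  h.pbound params checks (cover_step w1 (cover_end (by decide))) (show ∀ k < 1, _ from below_step f0 (below_end)) ch_ok (by decide +kernel)
end P5

end CL.Pc.GJ2
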