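/-
A presentation of M12 (generated by tools/pc/gm.py).
-/
import Cfsg.Agent.Known.GM12
import Cfsg.Agent.Known.GM12L1
import Cfsg.Agent.Known.GM12L2
import Cfsg.Agent.Known.GM12L3
import Cfsg.Agent.Known.GM12L4
import Cfsg.Agent.Known.GM12L5

set_option autoImplicit false
set_option maxRecDepth 100000
set_option linter.all false

namespace CL.Pc.GM12
open Cfsg CL.Spor

noncomputable def rs0 : List (ℕ × ℕ) := [(0x451, 0), (0x492, 0), (0x491491491, 0), (0x44e40e, 0), (0x48f34d, 0), (0xf3cf, 0), (0xd34d34d, 0), (0x38c30a, 0), (0x40c24b, 0), (0x44c3c9, 0), (0xc349349, 0), (0xa145, 0), (0xc1471c7, 0), (0x387387, 0), (0xe3c73c5, 0), (0x20d4051c5, 0), (0x9249, 0), (0x40644d205, 0), (0x181, 0), (0x204082104, 0), (0x40c10c284, 0), (0x113491c3403, 0), (0x3c9307104243, 0), (0x3470cd1c3, 0), (0x44d206109343, 0), (0x81, 0), (0x103, 0), (0x185, 0), (0x207, 0), (0x289, 0), (0x30b, 0), (0x38d,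 0), (0x40f, 0)]
noncomputable def rs : List (ℕ × ℕ) := (rs0 ++ [])
noncomputable def p1 : PLev := ⟨524286, [1, 2, 3, 4, 5, 6, 7, 8, 9, 10, 11, 12, 13, 14, 15, 16, 17, 18], TC.GM12L1.invL, TC.GM12L1.rels, TC.GM12L1.subs, [5, 6, 7, 8, 9, 10, 11, 12, 13, 14, 15, 16, 17, 18], 12⟩
noncomputable def p2 : PLev := ⟨524256, [5, 6, 7, 8, 9, 10, 11, 12, 13, 14, 15, 16, 17, 18], TC.GM12L2.invL, TC.GM12L2.rels, TC.GM12L2.subs, [9, 10, 11, 12, 13, 14, 15, 16, 17, 18], 12⟩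
noncomputable def p3 : PLev := ⟨523776, [9, 10, 11, 12, 13, 14, 15, 16, 17, 18], TC.GM12L3.invL, TC.GM12L3.rels, TC.GM12L3.subs, [13, 14, 15, 16, 17, 18], 11⟩
noncomputable def p4 : PLev := ⟨516096, [13, 14, 15, 16, 17, 18], TC.GM12L4.invL, TC.GM12L4.rels, TC.GM12L4.subs, [17, 18], 10⟩
noncomputable def p5 : PLev := ⟨393216, [17, 18], TC.GM12L5.invL, TC.GM12L5.rels, TC.GM12L5.subs, [], 6⟩
theorem rs0_ok : allL (fun p : ℕ × ℕ => eqB A 18 9 [0, 5, 1, 2, 4] p.1 p.2) rs0 = true := by decide +kernel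
theorem rs_ok : ∀ p ∈ rs, (fun p : ℕ × ℕ => eqB A 18 9 [0, 5, 1, 2, 4] p.1 p.2) p = true :=
  allL_app rs0_ok (allL_end)
theorem p1_ok : p1.Valid := ⟨_, TC.GM12L1.valid, TC.GM12L1.cert_N.le⟩
theorem p2_ok : p2.Valid := ⟨_, TC.GM12L2.valid, TC.GM12L2.cert_N.le⟩
theorem p3_ok : p3.Valid := ⟨_, TC.GM12L3.valid, TC.GM12L3.cert_N.le⟩
theorem p4_ok : p4.Valid := ⟨_, TC.GM12L4.valid, TC.GM12L4.cert_N.le⟩
theorem p5_ok : p5.Valid := ⟨_, TC.GM12L5.valid, TC.GM12L5.cert_N.le⟩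
universe u
theorem pres : PresBound.{u} rs 18 95040 :=
  presBound_of (f := 2) (defs := []) (vs := [p1, p2, p3, p4, p5]) (valid_cons p1_ok (valid_cons p2_ok (valid_cons p3_ok (valid_cons p4_ok (valid_cons p5_ok (valid_nil)))))) (by decide +kernel)

end CL.Pc.GM12
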