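/-
A cover of M12 (generated by tools/pc/gm.py).
-/
import Cfsg.Agent.Known.GM12R

set_option autoImplicit false
set_option maxRecDepth 100000
set_option linter.all false

namespace CL.Pc.GM12
open Cfsg CL.Spor

namespace C2
noncomputable def n0 : PG.Net := .cons 12 0x4b5 (.cons 6 0x30030 (.cons 3 0x86086 (.cons 1 0x240240 (.cons 1 0x490490 (.cons 1 0x208208 (.cons 3 0x4004 (.cons 6 0x2002 (.nil))))))))
noncomputable def n1 : PG.Net := .cons 12 0x1f4 (.cons 6 0x2c02c (.cons 3 0x1c61c6 (.cons 1 0x48048 (.cons 1 0x492492 (.cons 1 0x201201 (.cons 3 0x184184 (.cons 6 0x4004 (.nil))))))))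
noncomputable def n2 : PG.Net := .cons 12 0x4b5 (.cons 6 0x30030 (.cons 3 0x86086 (.cons 1 0x240240 (.cons 1 0x490490 (.cons 1 0x208208 (.cons 3 0x4004 (.cons 6 0x2002 (.nil))))))))
noncomputable def n3 : PG.Net := .cons 12 0x305 (.cons 3 0x144144 (.cons 1 0x208208 (.cons 1 0x490490 (.cons 1 0x200200 (.cons 3 0x182182 (.cons 6 0x24024 (.nil)))))))
noncomputable def n4 : PG.Net := .cons 12 0x83e (.cons 6 0x3e03e (.cons 3 0xc00c0 (.cons 1 0x8008 (.cons 1 0x90090 (.cons 1 0x208208 (.cons 3 0x80080 (.cons 6 0x1a01a (.nil))))))))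
noncomputable def n5 : PG.Net := .cons 12 0x99c (.cons 6 0x38038 (.cons 3 0x180180 (.cons 1 0x8008 (.cons 1 0x412412 (.cons 1 0x208208 (.cons 3 0x6006 (.cons 6 0x8008 (.nil))))))))
noncomputable def n6 : PG.Net := .cons 12 0xa00 (.cons 6 0x22022 (.cons 3 0x100100 (.cons 1 0x40040 (.cons 1 0x492492 (.cons 1 0x200200 (.cons 3 0x100100 (.cons 6 0x30030 (.nil))))))))
noncomputable def n7 : PG.Net := .cons 12 0x880 (.cons 6 0x8008 (.cons 3 0x80080 (.cons 1 0x8008 (.cons 1 0x490490 (.cons 1 0x48048 (.cons 3 0x84084 (.cons 6 0xa00a (.nil))))))))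
noncomputable def n8 : PG.Net := .cons 12 0xa50 (.cons 6 0x14014 (.cons 3 0x80080 (.cons 1 0x200200 (.cons 1 0x412412 (.cons 1 0x240240 (.cons 3 0x80080 (.cons 6 0x14014 (.nil))))))))
noncomputable def n9 : PG.Net := .cons 12 0x950 (.cons 6 0x1c01c (.cons 3 0x102102 (.cons 1 0x40040 (.cons 1 0x482482 (.cons 1 0x48048 (.cons 3 0x102102 (.cons 6 0x8008 (.nil))))))))
noncomputable def n10 : PG.Net := .cons 12 0xfff (.nil)
noncomputable def lmT : ℕ := 0xa4a0f7358b525073148310400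
noncomputable def ns : List PG.Net := [n0, n1, n2, n3, n4, n5, n6, n7, n8, n9, n10]
noncomputable def lm (i : ℕ) : ℕ := tget 5 0x1f lmT i
noncomputable def zs : List ℕ := [0, 0, 0, 0, 0, 0, 0, 0, 0, 0, 0, 0, 0, 0, 0, 0, 0, 0x13, 0, 0, 0x13, 0, 0, 0x13, 0, 0, 0, 0, 0, 0, 0, 0, 0]
noncomputable def ab0 : ℕ × ℕ := (0x206101, 0x40b285)
noncomputable def RL : List (ℕ × ℕ) := ((18 + 1) * ones 2, 0) :: covRels rs zs [ab0] 18
theorem c0_0 : allL (netRel 24 5 3 ns lm (18 + 1) 19 0) (RL) = true := by decide +kernel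
theorem RL_ok : ∀ t < 1, ∀ p ∈ RL, netRel 24 5 3 ns lm (18 + 1) 19 t p = true :=
  below_step ((allL_iff _ _).1 c0_0) (below_end)
universe u
variable {G : Type u} {X : Type*} [Group G] [MulAction G X] {pt : ℕ → X} {x : ℕ → G}
theorem cover (h : Ful pt x) : Cover G (Multiplicative (ZMod 2)) :=
  h.cover1 pres (by decide) rs_ok (i := 0) (by decide +kernel) (by decide +kernel) RL_ok
end C2

end CL.Pc.GM12
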