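/-
A presentation of M22 (generated by tools/pc/gm.py).
-/
import Cfsg.Agent.Known.GM22
import Cfsg.Agent.Known.GM22L1
import Cfsg.Agent.Known.GM22L2
import Cfsg.Agent.Known.GM22L3
import Cfsg.Agent.Known.GM22L4
import Cfsg.Agent.Known.GM22L5

set_option autoImplicit false
set_option maxRecDepth 100000
set_option linter.all false

namespace CL.Pc.GM22
open Cfsg CL.Spor

noncomputable def rs0 : List (ℕ × ℕ) := [(0x134d3, 0), (0x143d1, 0), (0xd34d, 0), (0xf3cf, 0), (0x11451, 0), (0x40d40d, 0), (0x48d48d, 0), (0x4cd4cd, 0), (0xe2c924b, 0), (0x1028b24c28c, 0), (0x1224b24c24c, 0), (0xb2cb, 0), (0x50b44b, 0), (0x48e2502c9, 0), (0xa148, 0), (0x3062051c5, 0), (0x5145, 0), (0x485485, 0), (0x4c72501c5, 0), (0x48f48f, 0), (0x2ca28d249, 0), (0x48a4c82c7, 0), (0x181, 0), (0x80c2101101104, 0), (0xb10c503301, 0), (0x32d31084c1, 0), (0x143444c7403, 0), (0x1082c450e1c1, 0), (0x38b208401,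 0), (0x34b34b, 0), (0x3cd2d2249, 0), (0x2c32c32c3, 0), (0x4c94082c7, 0), (0x24f288501, 0), (0x81, 0), (0x103, 0), (0x185, 0), (0x207, 0), (0x289, 0), (0x30b, 0), (0x38d, 0), (0x40f, 0), (0x491, 0), (0x513, 0)]
noncomputable def rs : List (ℕ × ℕ) := (rs0 ++ [])
noncomputable def p1 : PLev := ⟨2097150, [1, 2, 3, 4, 5, 6, 7, 8, 9, 10, 11, 12, 13, 14, 15, 16, 17, 18, 19, 20], TC.GM22L1.invL, TC.GM22L1.rels, TC.GM22L1.subs, [5, 6, 7, 8, 9, 10, 11, 12, 13, 14, 15, 16, 17, 18, 19, 20], 22⟩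
noncomputable def p2 : PLev := ⟨2097120, [5, 6, 7, 8, 9, 10, 11, 12, 13, 14, 15, 16, 17, 18, 19, 20], TC.GM22L2.invL, TC.GM22L2.rels, TC.GM22L2.subs, [9, 10, 11, 12, 13, 14, 15, 16, 17, 18, 19, 20], 21⟩
noncomputable def p3 : PLev := ⟨2096640, [9, 10, 11, 12, 13, 14, 15, 16, 17, 18, 19, 20], TC.GM22L3.invL, TC.GM22L3.rels, TC.GM22L3.subs, [13, 14, 15, 16, 17, 18, 19, 20], 20⟩
noncomputable def p4 : PLev := ⟨2088960, [13, 14, 15, 16, 17, 18, 19, 20], TC.GM22L4.invL, TC.GM22L4.rels, TC.GM22L4.subs, [19, 20], 16⟩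
noncomputable def p5 : PLev := ⟨1572864, [19, 20], TC.GM22L5.invL, TC.GM22L5.rels, TC.GM22L5.subs, [], 3⟩
theorem rs0_ok : allL (fun p : ℕ × ℕ => eqB A 20 10 [0, 1, 2, 3, 4, 5] p.1 p.2) rs0 = true := by decide +kernel
theorem rs_ok : ∀ p ∈ rs, (fun p : ℕ × ℕ => eqB A 20 10 [0, 1, 2, 3, 4, 5] p.1 p.2) p = true :=
  allL_app rs0_ok (allL_end)
theorem p1_ok : p1.Valid := ⟨_, TC.GM22L1.valid, TC.GM22L1.cert_N.le⟩
theorem p2_ok : p2.Valid := ⟨_, TC.GM22L2.valid, TC.GM22L2.cert_N.le⟩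
theorem p3_ok : p3.Valid := ⟨_, TC.GM22L3.valid, TC.GM22L3.cert_N.le⟩
theorem p4_ok : p4.Valid := ⟨_, TC.GM22L4.valid, TC.GM22L4.cert_N.le⟩
theorem p5_ok : p5.Valid := ⟨_, TC.GM22L5.valid, TC.GM22L5.cert_N.le⟩
universe u
theorem pres : PresBound.{u} rs 20 443520 :=
  presBound_of (f := 2) (defs := []) (vs := [p1, p2, p3, p4, p5]) (valid_cons p1_ok (valid_cons p2_ok (valid_cons p3_ok (valid_cons p4_ok (valid_cons p5_ok (valid_nil)))))) (by decide +kernel)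

end CL.Pc.GM22
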