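/-
A cover of McL: checks (generated by tools/pc/gm.py).
-/
import Cfsg.Agent.Known.GMcLC3A

set_option autoImplicit false
set_option maxRecDepth 100000
set_option linter.all false

namespace CL.Pc.GMcL
open Cfsg CL.Spor

namespace C3
theorem c13_2 : allL (netRel 73728 17 0 ns lm (23 + 1) 37 13) (PG.takeL 15 (PG.dropL 16 (PG.dropL 37 (RL)))) = true := by decide +kernel
theorem c13_3 : allL (netRel 73728 17 0 ns lm (23 + 1) 37 13) (PG.dropL 15 (PG.dropL 16 (PG.dropL 37 (RL)))) = true := by decide +kernel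
theorem c14_0 : allL (netRel 73728 17 0 ns lm (23 + 1) 37 14) (PG.takeL 37 (RL)) = true := by decide +kernel
theorem c14_1 : allL (netRel 73728 17 0 ns lm (23 + 1) 37 14) (PG.takeL 16 (PG.dropL 37 (RL))) = true := by decide +kernel
theorem c14_2 : allL (netRel 73728 17 0 ns lm (23 + 1) 37 14) (PG.takeL 15 (PG.dropL 16 (PG.dropL 37 (RL)))) = true := by decide +kernel
theorem c14_3 : allL (netRel 73728 17 0 ns lm (23 + 1) 37 14) (PG.dropL 15 (PG.dropL 16 (PG.dropL 37 (RL)))) = true := by decide +kernel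
theorem c15_0 : allL (netRel 73728 17 0 ns lm (23 + 1) 37 15) (PG.takeL 37 (RL)) = true := by decide +kernel
theorem c15_1 : allL (netRel 73728 17 0 ns lm (23 + 1) 37 15) (PG.takeL 16 (PG.dropL 37 (RL))) = true := by decide +kernel
theorem c15_2 : allL (netRel 73728 17 0 ns lm (23 + 1) 37 15) (PG.takeL 15 (PG.dropL 16 (PG.dropL 37 (RL)))) = true := by decide +kernel
theorem c15_3 : allL (netRel 73728 17 0 ns lm (23 + 1) 37 15) (PG.dropL 15 (PG.dropL 16 (PG.dropL 37 (RL)))) = true := by decide +kernel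
theorem c16_0 : allL (netRel 73728 17 0 ns lm (23 + 1) 37 16) (PG.takeL 37 (RL)) = true := by decide +kernel
theorem c16_1 : allL (netRel 73728 17 0 ns lm (23 + 1) 37 16) (PG.takeL 16 (PG.dropL 37 (RL))) = true := by decide +kernel
theorem c16_2 : allL (netRel 73728 17 0 ns lm (23 + 1) 37 16) (PG.takeL 15 (PG.dropL 16 (PG.dropL 37 (RL)))) = true := by decide +kernel
theorem c16_3 : allL (netRel 73728 17 0 ns lm (23 + 1) 37 16) (PG.dropL 15 (PG.dropL 16 (PG.dropL 37 (RL)))) = true := by decide +kernel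
end C3

end CL.Pc.GMcL
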