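/-
The 2-part of the multiplier of Psl32 (generated by tools/pc/gm.py).
-/
import Cfsg.Agent.Known.GPsl32

set_option autoImplicit false
set_option maxRecDepth 100000
set_option linter.all false

namespace CL.Pc.GPsl32
open Cfsg CL.Spor

namespace P2
noncomputable def WT : ℕ := 0xe20a00100040000
def relT : ℕ := 0x3030000c200000000
def dT : ℕ := 0
def eT : ℕ := 0
def D : Data :=
  ⟨2, 3, 64, 1, 4, 12, 10, 13, 3, fun i j => tget 8 0xff relT (tri i j), 10, 1, 0,
    fun k l => tget 1 1 dT (Nat.add (Nat.mul 1 k) l), fun k l => tget 1 1 eT (Nat.add (Nat.mul 1 k) l)⟩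
def S : Fin2 :=
  ⟨25, 2, [0, 0x201, 0x501, 0x406],
    [0, 0, 0, 0, 0, 0, 0, 0x103030003, 0x300000000, 0x301020003],
    [(0x801, 2, 0x300)]⟩
def r0 : List RelC := [⟨0, 3, 0x41, 0x702⟩, ⟨0, 3, 0x82, 0x802⟩, ⟨0, 2, 0x41, 0x9030070300402⟩, ⟨0, 2, 0x42, 0x9010080100402⟩]
def rels : List RelC := (r0 ++ [])
noncomputable def W (i : ℕ) : ℕ := tget 15 0x7fff WT i
def ch : List (ℕ × ℕ × List ℕ) := [(5, 7, [1]), (1, 7, [3, 2])]
theorem r0_ok : allL (chkRel D) r0 = true := by decide +kernel
theorem g1 : goalsChk D S (rels.map (·.s)) 1 3 = true := by decide +kernel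
theorem w1 : rowsChk D (eqB (lazyA A 4 W) (D.n + D.NF) 4 [0, 1, 3]) 1 3 = true := by decide +kernel
theorem ch_ok : chainChk (lazyA A 4 W) D.n 4 1 ch [] (D.p ^ D.n) = true := by decide +kernel
theorem params : Params D S rels 1 :=
  ⟨(by norm_num : Nat.Prime 2), by decide +kernel, by decide +kernel, by decide +kernel, by decide +kernel,
    by decide +kernel, by decide +kernel, by decide +kernel, by decide +kernel, by decide +kernel,
    by decide +kernel, by decide +kernel⟩
theorem checks : Checks D S rels :=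
  ⟨by decide +kernel, allL_app r0_ok (allL_end), cover_step g1 (cover_end (by decide)), by decide +kernel⟩
universe u
variable {G : Type u} {X : Type*} [Group G] [MulAction G X] {pt : ℕ → X} {x : ℕ → G}
theorem bound (h : Ful pt x) : PBound G 2 1 :=
  h.pbound params checks (cover_step w1 (cover_end (by decide))) (show ∀ k < 0, _ from below_end) ch_ok (by decide +kernel)
end P2

end CL.Pc.GPsl32
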