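/-
A presentation of Psl32 (generated by tools/pc/gm.py).
-/
import Cfsg.Agent.Known.GPsl32
import Cfsg.Agent.Known.GPsl32L1
import Cfsg.Agent.Known.GPsl32L2
import Cfsg.Agent.Known.GPsl32L3

set_option autoImplicit false
set_option maxRecDepth 100000
set_option linter.all false

namespace CL.Pc.GPsl32
open Cfsg CL.Spor

noncomputable def rs0 : List (ℕ × ℕ) := [(0x1c7, 0), (0x208, 0), (0x207207, 0), (0x1c5106, 0), (0x8105105, 0), (0x104, 0), (0x5145, 0), (0x102043, 0), (0x182043042082, 0), (0x41, 0), (0x142142, 0), (0x7043181, 0), (0x7203042, 0), (0xc2, 0), (0x185, 0)]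
noncomputable def rs : List (ℕ × ℕ) := (rs0 ++ [])
noncomputable def p1 : PLev := ⟨510, [1, 2, 3, 4, 5, 6, 7, 8], TC.GPsl32L1.invL, TC.GPsl32L1.rels, TC.GPsl32L1.subs, [4, 5, 6, 7, 8], 7⟩
noncomputable def p2 : PLev := ⟨496, [4, 5, 6, 7, 8], TC.GPsl32L2.invL, TC.GPsl32L2.rels, TC.GPsl32L2.subs, [7, 8], 6⟩
noncomputable def p3 : PLev := ⟨384, [7, 8], TC.GPsl32L3.invL, TC.GPsl32L3.rels, TC.GPsl32L3.subs, [], 4⟩
theorem rs0_ok : allL (fun p : ℕ × ℕ => eqB A 8 9 [0, 1, 3] p.1 p.2) rs0 = true := by decide +kernel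
theorem rs_ok : ∀ p ∈ rs, (fun p : ℕ × ℕ => eqB A 8 9 [0, 1, 3] p.1 p.2) p = true :=
  allL_app rs0_ok (allL_end)
theorem p1_ok : p1.Valid := ⟨_, TC.GPsl32L1.valid, TC.GPsl32L1.cert_N.le⟩
theorem p2_ok : p2.Valid := ⟨_, TC.GPsl32L2.valid, TC.GPsl32L2.cert_N.le⟩
theorem p3_ok : p3.Valid := ⟨_, TC.GPsl32L3.valid, TC.GPsl32L3.cert_N.le⟩
universe u
theorem pres : PresBound.{u} rs 8 168 :=
  presBound_of (f := 2) (defs := []) (vs := [p1, p2, p3]) (valid_cons p1_ok (valid_cons p2_ok (valid_cons p3_ok (valid_nil)))) (by decide +kernel)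

end CL.Pc.GPsl32
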