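/-
A cover of Psl32 (generated by tools/pc/gm.py).
-/
import Cfsg.Agent.Known.GPsl32R

set_option autoImplicit false
set_option maxRecDepth 100000
set_option linter.all false

namespace CL.Pc.GPsl32
open Cfsg CL.Spor

namespace C2
noncomputable def n0 : PG.Net := .cons 8 0x96 (.cons 4 0xd0d (.cons 2 0x2020 (.cons 1 0x1111 (.cons 2 0x202 (.cons 4 0x202 (.nil))))))
noncomputable def n1 : PG.Net := .cons 8 0x12 (.cons 4 0xf0f (.cons 2 0x3131 (.cons 1 0x1414 (.cons 2 0x2222 (.cons 4 0xe0e (.nil))))))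
noncomputable def n2 : PG.Net := .cons 8 0x5c (.cons 2 0x303 (.cons 1 0x5555 (.nil)))
noncomputable def n3 : PG.Net := .cons 8 0x44 (.cons 4 0xe0e (.cons 2 0x2222 (.cons 1 0x1414 (.cons 2 0x202 (.cons 4 0xa0a (.nil))))))
noncomputable def n4 : PG.Net := .cons 8 0x9a (.cons 4 0x303 (.cons 2 0x2020 (.cons 1 0x4444 (.cons 2 0x202 (.cons 4 0xc0c (.nil))))))
noncomputable def n5 : PG.Net := .cons 8 0xc3 (.cons 4 0x707 (.cons 2 0x2020 (.cons 1 0x1111 (.cons 2 0x202 (.cons 4 0x808 (.nil))))))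
noncomputable def n6 : PG.Net := .cons 8 0xff (.nil)
noncomputable def lmT : ℕ := 0xca87643200
noncomputable def ns : List PG.Net := [n0, n1, n2, n3, n4, n5, n6]
noncomputable def lm (i : ℕ) : ℕ := tget 4 0xf lmT i
noncomputable def zs : List ℕ := [9, 9, 9, 9, 9, 9, 0, 9, 0, 9, 9, 9, 9, 0, 0]
noncomputable def ab0 : ℕ × ℕ := (0x7105, 4)
noncomputable def RL : List (ℕ × ℕ) := ((8 + 1) * ones 2, 0) :: covRels rs zs [ab0] 8
theorem c0_0 : allL (netRel 16 4 2 ns lm (8 + 1) 11 0) (RL) = true := by decide +kernel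
theorem RL_ok : ∀ t < 1, ∀ p ∈ RL, netRel 16 4 2 ns lm (8 + 1) 11 t p = true :=
  below_step ((allL_iff _ _).1 c0_0) (below_end)
universe u
variable {G : Type u} {X : Type*} [Group G] [MulAction G X] {pt : ℕ → X} {x : ℕ → G}
theorem cover (h : Ful pt x) : Cover G (Multiplicative (ZMod 2)) :=
  h.cover1 pres (by decide) rs_ok (i := 0) (by decide +kernel) (by decide +kernel) RL_ok
end C2

end CL.Pc.GPsl32
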