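/-
Bounds for the multiplier of Psu62 (generated by tools/pc/gm.py).
-/
import Cfsg.Agent.Known.GPsu62P2
import Cfsg.Agent.Known.GPsu62P3

set_option autoImplicit false
set_option maxRecDepth 100000
set_option linter.all false

namespace CL.Pc.GPsu62
open Cfsg CL.Spor

universe u
variable {G : Type u} {X : Type*} [Group G] [MulAction G X] {pt : ℕ → X} {x : ℕ → G}
theorem bounds (h : Ful pt x) : Bounds G [(2, 2), (3, 1), (5, 0), (7, 0), (11, 0)] :=
  have := h.fin
  .cons (by norm_num) (P2.bound h) (.cons (by norm_num) (P3.bound h) (.cons' h.card (by norm_num) (by decide) (.cons' h.card (by norm_num) (by decide) (.cons' h.card (by norm_num) (by decide) (.nil)))))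

end CL.Pc.GPsu62
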