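/-
The tables of Psu62 agree with a model (generated by tools/pc/gm.py).
-/
import Cfsg.Agent.Known.GPsu62
import Cfsg.Agent.Known.PcPG
import Cfsg.Agent.Spor.StdU62

set_option autoImplicit false
set_option maxRecDepth 100000
set_option linter.all false

namespace CL.Pc.GPsu62
open Cfsg CL.Spor

def L : List (ℕ × ℕ) := [(1, 0), (3, 2)]
theorem pg_0 : allR (pgChk A CL.Std.U62.ns L) 0 693 = true := by decide +kernel
theorem pg_ok : ∀ i, 0 ≤ i → i < 693 → pgChk A CL.Std.U62.ns L i = true :=
  allR_step pg_0 (allR_end (by decide))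
theorem mask_ok : maskIn 10 L = true := by decide +kernel
noncomputable abbrev H := PG.subW CL.Std.U62.gs1 [[0], [2]]
theorem input : Inp H (PG.eF CL.Std.U62.P.n) :=
  Input.ofSubW CL.Std.U62.c1.good CL.Std.U62.c1.inj CL.Std.U62.ub (by decide +kernel) pg_ok

end CL.Pc.GPsu62
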