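/-
Two-generation of the groups `Ω`: the core argument and odd dimension.
-/
import Cfsg.Agent.Cls.OSpec2
import Cfsg.Agent.Cls.OrthExt
import Cfsg.Agent.Known.RegSp2

set_option autoImplicit false

open Module QuadraticMap CL.Known

namespace CL.Cls

theorem mem_zpowers_mul_of_coprime {G : Type*} [Group G] {x y : G} (h : Commute x y) {m n : ℕ} (hc : m.Coprime n)
    (hx : x ^ m = 1) (hy : y ^ n = 1) : x ∈ Subgroup.zpowers (x * y) := by
  refine ⟨n * Nat.gcdB m n, ?_⟩
  have e := Nat.gcd_eq_gcd_ab m n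
  rw [hc.gcd_eq_one, Nat.cast_one] at e
  have e' : (n : ℤ) * Nat.gcdB m n = 1 - m * Nat.gcdA m n := by linear_combination -e
  change (x * y) ^ _ = x
  rw [h.mul_zpow, zpow_mul y, zpow_natCast, hy, one_zpow, mul_one, e', zpow_sub, zpow_mul, zpow_natCast, hx]
  simp

variable {F V : Type*} [Field F] [AddCommGroup V] [Module F V] {Q : QuadraticForm F V}

/-- `Ω(Q)` is generated by two of its elements. -/
def TwoGen (Q : QuadraticForm F V) : Prop :=
  ∃ a ∈ commutator (OG Q), ∃ b ∈ commutator (OG Q), ∀ H : Subgroup (OG Q), a ∈ H → b ∈ H → commutator (OG Q) ≤ H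

theorem TwoGen.congr {V' : Type*} [AddCommGroup V'] [Module F V'] {Q' : QuadraticForm F V'} (h : TwoGen Q)
    (e : OG Q ≃* OG Q') : TwoGen Q' := by
  obtain ⟨a, ha, b, hb, h⟩ := h
  refine ⟨e a, (mem_commutator_congr e a).2 ha, e b, (mem_commutator_congr e b).2 hb, fun H h1 h2 x hx => ?_⟩
  have := h (H.comap e.toMonoidHom) h1 h2 ((mem_commutator_congr e (e.symm x)).1 (by simpa using hx))
  simpa using this

theorem TwoGen.pomega {ι : Type} [Fintype ι] [DecidableEq ι] {Q : QuadraticForm F (ι → F)} (h : TwoGen Q) :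
    ∃ a b : Cfsg.POmega F ⇑Q, Subgroup.closure ({a, b} : Set (Cfsg.POmega F ⇑Q)) = ⊤ := by
  obtain ⟨a, ha, b, hb, h⟩ := h
  let π : commutator (OG Q) →* Cfsg.POmega F ⇑Q := (pomegaEquiv Q).symm.toMonoidHom.comp (QuotientGroup.mk' _)
  have hπ : Function.Surjective π := (pomegaEquiv Q).symm.surjective.comp (QuotientGroup.mk'_surjective _)
  refine ⟨π ⟨a, ha⟩, π ⟨b, hb⟩, eq_top_iff.2 fun x _ => ?_⟩
  obtain ⟨y, rfl⟩ := hπ x
  obtain ⟨z, hz, e⟩ := h (((Subgroup.closure {π ⟨a, ha⟩, π ⟨b, hb⟩}).comap π).map (Subgroup.subtype _))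
    ⟨⟨a, ha⟩, Subgroup.subset_closure (by simp), rfl⟩ ⟨⟨b, hb⟩, Subgroup.subset_closure (by simp), rfl⟩ y.2
  obtain rfl : z = y := Subtype.ext e
  exact hz

theorem eq_one_of_fix4 {e f x y : V} (h1 : IsHyp Q e f) (h2 : IsHyp Q x y) (hx : x ∈ hypC Q ⊤ e f)
    (hy : y ∈ hypC Q ⊤ e f) {g : OG Q} (he : g.1 e = e) (hf : g.1 f = f) (hx' : g.1 x = x) (hy' : g.1 y = y)
    (hz : ∀ z ∈ hypC Q (hypC Q ⊤ e f) x y, g.1 z = z) : g = 1 := OG.ext' fun v => by
  have h := hz _ (h2.proj_mem hx hy (h1.proj_mem (x := v) trivial trivial trivial))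
  simp only [map_sub, map_smul, he, hf, hx', hy'] at h
  simpa using h

theorem eich_npow {u v : V} (hu : Q u = 0) (huv : polar Q u v = 0) (n : ℕ) : eich Q u v ^ n = eich Q u ((n : F) • v) := by
  induction n with
  | zero => simp [eich_zero_right]
  | succ n ih => rw [pow_succ, ih, eich_mul hu (by rw [polar_smul_right, huv, smul_zero]) huv, Nat.cast_succ, add_smul,
      one_smul]

variable [Finite F] [FiniteDimensional F V]

/-- An element of order prime to `p` of the `SL₂` centralising the long root element `eich e x`. -/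
theorem exists_comm_move (hQ : (polarBilin Q).Nondegenerate) (h5 : 5 ≤ finrank F V) {e f x : V} (h1 : IsHyp Q e f)
    (hx : x ∈ hypC Q ⊤ e f) (h0 : x ≠ 0) (hq : Q x = 0) : ∃ w ∈ commutator (OG Q), ∃ n : ℕ, (ringChar F).Coprime n ∧
      w ^ n = 1 ∧ w.1 e = x ∧ Commute (eich Q e x) w := by
  obtain ⟨y, hy, h2⟩ := ((ndon_top hQ).hypC h1 trivial trivial).exists_hyp hx h0 hq
  obtain ⟨-, ex, fx⟩ := mem_hypC.1 hx
  obtain ⟨-, ey, fy⟩ := mem_hypC.1 hy
  have xe : polar Q x e = 0 := by rw [polar_comm, ex]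
  have xf : polar Q x f = 0 := by rw [polar_comm, fx]
  have ye : polar Q y e = 0 := by rw [polar_comm, ey]
  have yf : polar Q y f = 0 := by rw [polar_comm, fy]
  have ey' : polar Q e (-y) = 0 := by rw [polar_neg_right, ey, neg_zero]
  obtain ⟨X, hX⟩ : ∃ X, X = eich Q e (-y) := ⟨_, rfl⟩
  obtain ⟨Y, hY⟩ : ∃ Y, Y = eich Q x f := ⟨_, rfl⟩
  have Xe : X.1 e = e := by rw [hX, eich_app_self]
  have Xx : X.1 x = x - e := by
    rw [hX, eich_app_of_perp h1.left ey' ex, polar_neg_left, h2.polar_eq']; module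
  have Xf : X.1 f = f + y := by
    rw [hX, eich_app h1.left ey', polar_neg_left, yf, h1.polar_eq, QuadraticMap.map_neg, h2.right]; module
  have Xy : X.1 y = y := by
    rw [hX, eich_app_of_polar ey (by rw [polar_neg_left, h2.polar_right, neg_zero])]
  have Ye : Y.1 e = e + x := by rw [hY, eich_app_of_perp hq xf xe, h1.polar_eq', one_smul]
  have Yx : Y.1 x = x := by rw [hY, eich_app_self]
  have Yf : Y.1 f = f := by rw [hY, eich_app_of_polar xf h1.polar_right]
  have Yy : Y.1 y = y - f := by rw [hY, eich_app hq xf, fy, h2.polar_eq, h1.right]; module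
  have hz : ∀ z ∈ hypC Q (hypC Q ⊤ e f) x y, X.1 z = z ∧ Y.1 z = z := fun z hz => by
    obtain ⟨hz, xz, yz⟩ := mem_hypC.1 hz
    obtain ⟨-, ez, fz⟩ := mem_hypC.1 hz
    exact ⟨by rw [hX, eich_app_of_polar ez (by rw [polar_neg_left, yz, neg_zero])], by rw [hY, eich_app_of_polar xz fz]⟩
  have XC : X ∈ commutator (OG Q) := hX ▸ eich_mem_commutator hQ h5 _ _
  have YC : Y ∈ commutator (OG Q) := hY ▸ eich_mem_commutator hQ h5 _ _
  have sw : eich Q x (-e) = eich Q e x := by
    rw [← eich_swap hq h1.left xe]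
  have cm : ∀ w : OG Q, eich Q (w.1 e) (w.1 x) = eich Q e x → Commute (eich Q e x) w := fun w hw => by
    rw [← eich_conj, mul_inv_eq_iff_eq_mul] at hw
    exact hw.symm
  have hp := CharP.char_is_prime F (ringChar F)
  by_cases h2' : (2 : F) = 0
  · have n2 : ∀ v : V, -v = v := fun v => by
      rw [neg_eq_iff_add_eq_zero, ← two_smul F, h2', zero_smul]
    have we : (X * Y).1 e = x := by rw [OG.mul_app, Ye, map_add, Xe, Xx]; abel
    have wx : (X * Y).1 x = x - e := by rw [OG.mul_app, Yx, Xx]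
    have wf : (X * Y).1 f = f + y := by rw [OG.mul_app, Yf, Xf]
    have wy : (X * Y).1 y = -f := by rw [OG.mul_app, Yy, map_sub, Xf, Xy]; abel
    refine ⟨X * Y, mul_mem XC YC, 3, by rw [ringChar_eq_two_of_two_eq_zero h2']; norm_num, ?_, we, cm _ ?_⟩
    · have wz : ∀ z ∈ hypC Q (hypC Q ⊤ e f) x y, (X * Y).1 z = z := fun z h => by
        rw [OG.mul_app, (hz z h).2, (hz z h).1]
      generalize X * Y = w at we wx wf wy wz
      refine eq_one_of_fix4 h1 h2 hx hy ?_ ?_ ?_ ?_ fun z h => ?_ <;>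
        simp only [pow_succ, pow_zero, one_mul, OG.mul_app, we, wx, wf, wy, map_sub, map_add, map_neg]
      · rw [sub_sub_cancel_left, n2]
      · conv_rhs => rw [← n2 f]
        abel
      · conv_rhs => rw [← n2 x]
        abel
      · conv_rhs => rw [← n2 y]
        abel
      · rw [wz z h, wz z h, wz z h]
    · rw [we, wx, ← sw, ← eich_add_smul (v := -e) hq (by rw [polar_neg_right, xe, neg_zero]) 1]
      congr 1; module
  · have we : (X * Y * X).1 e = x := by rw [OG.mul_app, OG.mul_app, Xe, Ye, map_add, Xe, Xx]; abel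
    have wx : (X * Y * X).1 x = -e := by
      rw [OG.mul_app, OG.mul_app, Xx, map_sub, Yx, Ye, map_sub, map_add, Xe]; abel
    have wf : (X * Y * X).1 f = y := by
      rw [OG.mul_app, OG.mul_app, Xf, map_add, Yf, Yy, map_add, map_sub, Xy]; abel
    have wy : (X * Y * X).1 y = -f := by rw [OG.mul_app, OG.mul_app, Xy, Yy, map_sub, Xf, Xy]; abel
    refine ⟨X * Y * X, mul_mem (mul_mem XC YC) XC, 2 ^ 2, Nat.Coprime.pow_right _
      ((Nat.coprime_primes hp Nat.prime_two).2 (ringChar_ne_two_of_two_ne_zero h2')), ?_, we, cm _ (by rw [we, wx, sw])⟩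
    have wz : ∀ z ∈ hypC Q (hypC Q ⊤ e f) x y, (X * Y * X).1 z = z := fun z h => by
      rw [OG.mul_app, OG.mul_app, (hz z h).1, (hz z h).2, (hz z h).1]
    generalize X * Y * X = w at we wx wf wy wz
    refine eq_one_of_fix4 h1 h2 hx hy ?_ ?_ ?_ ?_ fun z h => ?_ <;>
      simp only [show 2 ^ 2 = 4 from rfl, pow_succ, pow_zero, one_mul, OG.mul_app, we, wx, wf, wy, map_neg, neg_neg]
    rw [wz z h, wz z h, wz z h, wz z h]

/-- The core of the two-generation argument. -/
theorem twoGen_of (hQ : (polarBilin Q).Nondegenerate) (h5 : 5 ≤ finrank F V) {e f x : V} (h1 : IsHyp Q e f)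
    (hx : x ∈ hypC Q ⊤ e f) (h0 : x ≠ 0) (hq : Q x = 0) {a : OG Q} (ha : a ∈ commutator (OG Q))
    (hA : ∀ A : AddSubgroup V, x ∈ A → (∀ g ∈ Subgroup.zpowers a, ∀ c : F, g.1 e = c • e → ∀ v ∈ A, c • g.1 v ∈ A) →
      ∀ v ∈ hypC Q ⊤ e f, v ∈ A) : TwoGen Q := by
  obtain ⟨w, hw, n, hn, wn, we, hc⟩ := exists_comm_move hQ h5 h1 hx h0 hq
  obtain ⟨-, ex, fx⟩ := mem_hypC.1 hx
  have rp : eich Q e x ^ ringChar F = 1 := by rw [eich_npow h1.left ex, ringChar.Nat.cast_ringChar, zero_smul, eich_zero_right]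
  refine ⟨a, ha, eich Q e x * w, mul_mem (eich_mem_commutator hQ h5 _ _) hw, fun H aH bH => ?_⟩
  have rH : eich Q e x ∈ H := (Subgroup.zpowers_le.2 bH) (mem_zpowers_mul_of_coprime hc hn rp wn)
  have wH : w ∈ H := by simpa using mul_mem (inv_mem rH) bH
  have aH' := Subgroup.zpowers_le.2 aH
  have hE : ∀ v, polar Q e v = 0 → v ∈ eichAdd H h1.left := fun v hv => by
    have h := hA (eichAdd H h1.left) ⟨ex, rH⟩ (fun g hg c hc v hv => app_mem_eichAdd' (aH' hg) hv h1.left hc) _
      (h1.proj_mem (x := v) trivial trivial trivial)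
    rw [hv, zero_smul, sub_zero] at h
    simpa using add_mem h (smul_self_mem_eichAdd (polar Q f v))
  have hX : ∀ v, polar Q x v = 0 → v ∈ eichAdd H hq := fun v hv => by
    have h := app_mem_eichAdd' wH (hE ((w⁻¹).1 v) (by rw [← OG.polar_app w, we, OG.app_inv_app, hv])) hq
      (c := 1) (by rw [we, one_smul])
    rwa [one_smul, OG.app_inv_app] at h
  by_cases hm : ∃ g ∈ Subgroup.zpowers a, polar Q x (g.1 x) ≠ 0
  · obtain ⟨g, hg, hm⟩ := hm
    exact commutator_le_of_eichAdd_of_move hQ (by omega) hX (aH' hg) hm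
  · push Not at hm
    let A : AddSubgroup V :=
      { carrier := {v | ∀ g ∈ Subgroup.zpowers a, polar Q x (g.1 v) = 0}
        add_mem' := fun h h' g hg => by rw [map_add, polar_add_right, h g hg, h' g hg, add_zero]
        zero_mem' := fun g _ => by rw [map_zero, polar_zero_right]
        neg_mem' := fun h g hg => by rw [map_neg, polar_neg_right, h g hg, neg_zero] }
    refine absurd ((ndon_top hQ).hypC h1 trivial trivial x hx fun v hv => ?_) h0
    refine hA A hm (fun g hg c _ v hv k hk => ?_) v hv 1 (one_mem _)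
    rw [map_smul, polar_smul_right, ← OG.mul_app, hv _ (mul_mem hk hg), smul_zero]

omit [Finite F] in
theorem le_finrank_of_nil (N : End F V) (e : ℕ) : ∀ (U : Submodule F V) (x : V), x ∈ U → (∀ u ∈ U, N u ∈ U) →
    (∀ u ∈ U, (N ^ (e + 1)) u = 0) → (N ^ e) x ≠ 0 → e + 1 ≤ finrank F U := by
  induction e with
  | zero =>
    intro U x hx _ _ h
    exact Submodule.one_le_finrank_iff.2 fun e => h (by rw [e] at hx; simpa using hx)
  | succ e ih =>
    intro U x hx hN h1 h2
    have h3 : U.map N ≤ U := by rintro _ ⟨u, hu, rfl⟩; exact hN u hu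
    have := ih (U.map N) (N x) ⟨x, hx, rfl⟩ (fun u hu => ⟨u, h3 hu, rfl⟩)
      (by rintro _ ⟨u, hu, rfl⟩; rw [← End.mul_apply, ← pow_succ, h1 u hu]) (by rwa [← End.mul_apply, ← pow_succ])
    have h4 : U.map N < U := lt_of_le_of_ne h3 fun h => by
      obtain ⟨u, hu, rfl⟩ : x ∈ U.map N := h.symm ▸ hx
      exact h2 (by rw [← End.mul_apply, ← pow_succ, h1 u hu])
    have := Submodule.finrank_lt_finrank_of_lt h4
    omega

/-- Odd dimension. -/
theorem twoGen_odd (hQ : (polarBilin Q).Nondegenerate) (h2 : (2 : F) ≠ 0) (h5 : 5 ≤ finrank F V)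
    (ho : Odd (finrank F V)) : TwoGen Q := by
  obtain ⟨e, -, f, -, h1⟩ := (ndon_top hQ).exists_isHyp (by rw [finrank_top]; omega)
  have hW := (ndon_top hQ).hypC h1 trivial trivial
  have hd := finrank_hypC (W := ⊤) h1 trivial trivial
  rw [finrank_top] at hd
  obtain ⟨k, hk⟩ := ho
  have := Fintype.ofFinite F
  obtain ⟨t, t1, t2, v, hv, t3⟩ := regOn_of_le hQ (e := 2 * (k - 1)) (Or.inl ⟨h2, by simp⟩) hW (by omega)
  obtain ⟨N, hN⟩ : ∃ N, N = (t.1 : End F V) - 1 := ⟨_, rfl⟩
  rw [← hN] at t2 t3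
  obtain ⟨x, hx, hq, hNx⟩ : ∃ x ∈ hypC Q ⊤ e f, Q x = 0 ∧ (N ^ (2 * (k - 1))) x ≠ 0 := by
    by_contra h
    push Not at h
    obtain ⟨a, ha, a', ha', haa⟩ := hW.exists_isHyp (by omega)
    refine t3 ?_
    rw [singular_induction (P := fun x => (N ^ (2 * (k - 1))) x = 0) haa ha ha' h
      (fun x _ y _ hx hy => by rw [map_add, hx, hy, add_zero]) hv, polar_zero_right]
  have tW : t ∈ movIn Q (hypC Q ⊤ e f) := fun z => t1 (mem_resid.2 ⟨z, rfl⟩)
  have te : t.1 e = e := movIn_app_of_mem_operp hQ tW (mem_operp'.2 fun w hw => (mem_hypC.1 hw).2.1)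
  have tf : t.1 f = f := movIn_app_of_mem_operp hQ tW (mem_operp'.2 fun w hw => (mem_hypC.1 hw).2.2)
  obtain ⟨l, l0, hl, -⟩ := RegU.exists_powGen_sq (F := F)
  have l2 := pow_ne_zero 2 l0
  obtain ⟨s, hs⟩ : ∃ s, s = hypTorus Q e f (l ^ 2) := ⟨_, rfl⟩
  have sa := fun z => hs ▸ hypTorus_app h1 l2 z
  have st : Commute s t := OG.ext' fun z => by
    rw [OG.mul_app, OG.mul_app, sa, sa, map_add, map_add, map_smul, map_smul, te, tf, ← OG.polar_app t f z,
      ← OG.polar_app t e z, te, tf]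
  have hp := CharP.char_is_prime F (ringChar F)
  have : Fact (ringChar F).Prime := ⟨hp⟩
  obtain ⟨n, -, hn⟩ := FiniteField.card F (ringChar F)
  have sq : s ^ (Fintype.card F - 1) = 1 := by
    have : ∀ i z, (s ^ i).1 z = z + (((l ^ 2) ^ i - 1) * polar Q f z) • e + ((((l ^ 2) ^ i)⁻¹ - 1) * polar Q e z) • f := by
      intro i
      induction i with
      | zero => simp
      | succ i ih =>
        intro z
        rw [pow_succ', OG.mul_app, ih, sa, pow_succ' (l ^ 2), mul_inv]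
        simp only [polar_add_right, polar_smul_right, h1.polar_left, h1.polar_right, h1.polar_eq, h1.polar_eq']
        match_scalars <;> ring
    exact OG.ext' fun z => by rw [this, FiniteField.pow_card_sub_one_eq_one _ l2]; simp
  obtain ⟨j, tp⟩ : ∃ j, t ^ ringChar F ^ j = 1 := by
    refine ⟨2 * (k - 1) + 1, Subtype.ext (LinearEquiv.toLinearMap_injective ?_)⟩
    have : CharP (End F V) (ringChar F) := by
      have : Nontrivial V := Module.nontrivial_of_finrank_pos (R := F) (by omega)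
      exact charP_of_injective_algebraMap (algebraMap F (End F V)).injective _
    have := sub_pow_char_pow_of_commute (ringChar F) (2 * (k - 1) + 1) (Commute.one_right (t.1 : End F V))
    rw [← hN, pow_eq_zero_of_le (Nat.lt_pow_self hp.one_lt).le t2, one_pow, eq_comm, sub_eq_zero, ← ogEnd_apply,
      ← map_pow] at this
    exact this
  have cop : (Fintype.card F - 1).Coprime (ringChar F ^ j) := by
    refine Nat.Coprime.pow_right _ (Nat.Coprime.symm ((Nat.Prime.coprime_iff_not_dvd hp).2 fun h => ?_))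
    have h3 : ringChar F ∣ Fintype.card F := hn ▸ dvd_pow_self _ n.ne_zero
    have := Fintype.card_pos (α := F)
    exact hp.one_lt.ne' (Nat.dvd_one.1 ((Nat.dvd_add_right h).1 (by rwa [Nat.sub_add_cancel this])))
  have hs' := mem_zpowers_mul_of_coprime st cop sq tp
  have ht' := mem_zpowers_mul_of_coprime st.symm cop.symm tp sq
  rw [← st.eq] at ht'
  refine twoGen_of hQ h5 h1 hx (by rintro rfl; simp at hNx) hq (a := s * t) (mul_mem (hs ▸ hypTorus_mem_commutator hQ h1 l2
    ⟨l, pow_two l⟩) (mem_commutator_of_odd hQ h2 (Odd.pow (hp.odd_of_ne_two (ringChar_ne_two_of_two_ne_zero h2))) tp))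
    fun A hxA hA => ?_
  let U : Submodule F V :=
    { carrier := {v | v ∈ hypC Q ⊤ e f ∧ v ∈ A}
      add_mem' := fun h h' => ⟨add_mem h.1 h'.1, add_mem h.2 h'.2⟩
      zero_mem' := ⟨zero_mem _, zero_mem _⟩
      smul_mem' := fun c v h => ⟨Submodule.smul_mem _ _ h.1, RegU.eq_top_of_powGen hl
        (A.comap (LinearMap.toSpanSingleton F V v).toAddMonoidHom) (fun a ha => by
          have := hA s hs' (l ^ 2) (hs ▸ hypTorus_app_left h1 l2) _ ha
          change l ^ 2 • s.1 (a • v) ∈ A at this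
          rw [map_smul, hs, hypTorus_app_of_polar (mem_hypC.1 h.1).2.1 (mem_hypC.1 h.1).2.2, smul_smul] at this
          exact this) (a := 1) (by simpa using h.2) one_ne_zero c⟩ }
  have hU : U = hypC Q ⊤ e f := Submodule.eq_of_le_of_finrank_le (fun v h => h.1) (by
    have := le_finrank_of_nil N (2 * (k - 1)) U x ⟨hx, hxA⟩ (fun u hu => ⟨hN ▸ tW u, by
      have := hA t ht' 1 (by rw [te, one_smul]) u hu.2
      rw [one_smul] at this
      exact hN ▸ sub_mem this hu.2⟩) (fun u _ => by rw [t2]; rfl) hNx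
    omega)
  exact fun v hv => (hU.ge hv).2

end CL.Cls
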