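/-
Two-generation of the groups `Ω`: even dimension.
-/
import Cfsg.Agent.Known.Gen2O1
import Cfsg.Agent.Cls.OrthOrder

set_option autoImplicit false

open Module QuadraticMap CL.Known Polynomial

namespace CL.Cls

variable {F : Type*} [Field F]

section
variable {W : Type*} [AddCommGroup W] [Module F W] {Q : QuadraticForm F W}

/-- Extend an isometry by the identity on a hyperbolic plane. -/
def hypLift (t : OG Q) : OG (hypAdd Q) :=
  ⟨(LinearEquiv.refl F F).prodCongr ((LinearEquiv.refl F F).prodCongr t.1), fun p => by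
    simp [hypAdd_apply, OG.map_app]⟩

theorem hypLift_app (t : OG Q) (p : F × F × W) : (hypLift t).1 p = (p.1, p.2.1, t.1 p.2.2) := rfl

theorem twoGen_hypAdd [Finite F] [FiniteDimensional F W] (hQ : (polarBilin Q).Nondegenerate) (h3 : 3 ≤ finrank F W)
    (t : OG Q) {x : W} (h0 : x ≠ 0) (hq : Q x = 0)
    (hA : ∀ A : AddSubgroup W, x ∈ A → (∀ v ∈ A, t.1 (t.1 v) ∈ A) → ∀ v, v ∈ A) : TwoGen (hypAdd Q) := by
  have hQ' := nondeg_iff.2 (hypAdd_nondeg (nondeg_iff.1 hQ))
  have hd : finrank F (F × F × W) = 2 + finrank F W := by simp [Module.finrank_prod]; omega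
  have h1 : IsHyp (hypAdd Q) (1, 0, 0) (0, 1, 0) := ⟨by simp, by simp, by simp [polar_hypAdd]⟩
  refine twoGen_of hQ' (by omega) h1 (x := (0, 0, x)) (mem_hypC.2 ⟨trivial, by simp [polar_hypAdd], by simp [polar_hypAdd]⟩)
    (by simpa using h0) (by simpa using hq) (a := hypLift t * hypLift t) ?_ fun A hx hA' v hv => ?_
  · rw [mem_commutator_OG_iff hQ' (Or.inr (by omega)), map_mul, map_mul]
    exact ⟨Int.units_mul_self _, Int.units_mul_self _⟩
  · obtain ⟨a, b, w⟩ := v
    obtain ⟨-, h2, h3⟩ := mem_hypC.1 hv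
    simp only [polar_hypAdd, one_mul, zero_mul, add_zero, polar_zero_left, zero_add] at h2 h3
    subst h2 h3
    refine hA (A.comap ((AddMonoidHom.inr F (F × W)).comp (AddMonoidHom.inr F W))) hx (fun v hv => ?_) w
    have := hA' _ (Subgroup.mem_zpowers _) 1 (by simp [hypLift_app]) _ hv
    rw [one_smul] at this
    exact this

end

variable {K : Type*} [Field K] [Algebra F K]

/-- Multiplication by a non-zero element. -/
noncomputable def mulEq (F : Type*) [Field F] [Algebra F K] {c : K} (hc : c ≠ 0) : K ≃ₗ[F] K :=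
  DistribMulAction.toLinearEquiv F K (Units.mk0 c hc)

theorem mulEq_app {c : K} (hc : c ≠ 0) (x : K) : mulEq F hc x = c * x := rfl

theorem not_conj_inv [Finite K] {p : ℕ} [hp : Fact p.Prime] [Algebra (ZMod p) K] (h3 : 3 ≤ finrank (ZMod p) K) {γ : K}
    (h0 : γ ≠ 0) (h : ∀ n : ℕ, γ ^ n = 1 → Nat.card K - 1 ∣ n) : aeval (γ ^ 2) (minpoly (ZMod p) ((γ⁻¹) ^ 2)) ≠ 0 := by
  intro e
  obtain ⟨σ, hσ⟩ := minpoly.exists_algEquiv_of_root (IsAlgebraic.of_finite _ _) e
  have := Fintype.ofFinite K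
  obtain ⟨⟨i, hi⟩, rfl⟩ := (FiniteField.bijective_frobeniusAlgEquivOfAlgebraic_pow (ZMod p) K).2 σ
  simp only [AlgEquiv.coe_pow, FiniteField.coe_frobeniusAlgEquivOfAlgebraic_iterate, ZMod.card] at hσ
  have h1 := h (2 * (p ^ i + 1)) (by rw [pow_mul, pow_succ, hσ]; field_simp)
  obtain ⟨n, hn⟩ : ∃ n, finrank (ZMod p) K = n + 1 := ⟨_, (Nat.sub_add_cancel (by omega)).symm⟩
  rw [Module.natCard_eq_pow_finrank (K := ZMod p), Nat.card_zmod, hn, pow_succ] at h1
  have h2 := hp.out.two_le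
  have h4 : p ^ i ≤ p ^ n := Nat.pow_le_pow_right (by omega) (by omega)
  have h5 : p ^ 2 ≤ p ^ n := Nat.pow_le_pow_right (by omega) (by omega)
  generalize p ^ i = P at h1 h4
  generalize p ^ n = R at h1 h4 h5
  rcases h2.eq_or_lt with rfl | h2
  · have : (R * 2 - 1).Coprime 2 := Nat.coprime_two_right.2 ⟨R - 1, by omega⟩
    have := Nat.le_of_dvd (by omega) (this.dvd_of_dvd_mul_left h1)
    omega
  · have := Nat.le_of_dvd (by omega) h1
    have : R * 3 ≤ R * p := Nat.mul_le_mul_left _ h2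
    have : 3 ^ 2 ≤ p ^ 2 := Nat.pow_le_pow_left h2 _
    omega

variable [Fintype F]

theorem twoGen_plus_aux [Finite K] {k : ℕ} (hm : 3 ≤ k) (hk : finrank F K = k) : TwoGen (qfPlus (k + 1) F) := by
  obtain ⟨p, _⟩ := CharP.exists F
  have hp : Fact p.Prime := ⟨CharP.char_is_prime F p⟩
  have : CharP K p := charP_of_injective_algebraMap (algebraMap F K).injective p
  let _ := ZMod.algebra K p
  let Q : QuadraticForm F (K × K) := LinearMap.BilinMap.toQuadraticMap
    ((Algebra.traceForm F K).compl₁₂ (LinearMap.fst F K K) (LinearMap.snd F K K))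
  have Qa : ∀ v, Q v = Algebra.trace F K (v.1 * v.2) := fun v => rfl
  have Qp : ∀ u v, polar Q u v = Algebra.trace F K (u.1 * v.2) + Algebra.trace F K (u.2 * v.1) := fun u v => by
    simp only [polar, Qa, Prod.fst_add, Prod.snd_add, mul_add, add_mul, map_add, mul_comm v.1 u.2]; ring
  have nd : ∀ x : K, (∀ y, Algebra.trace F K (x * y) = 0) → x = 0 := (traceForm_nondegenerate F K).1
  have hQ : (polarBilin Q).Nondegenerate := nondeg_iff.2 fun x h =>
    Prod.ext (nd _ fun y => by simpa [Qp] using h (0, y)) (nd _ fun y => by simpa [Qp] using h (y, 0))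
  obtain ⟨γ, g0, -, hγ⟩ := exists_field_gen K
  let t : OG Q := ⟨(mulEq F g0).prodCongr (mulEq F (inv_ne_zero g0)), fun v => by
    rw [Qa, Qa]; congr 1; change γ * v.1 * (γ⁻¹ * v.2) = _; field_simp⟩
  have ta : ∀ v, t.1 (t.1 v) = (γ ^ 2 * v.1, γ⁻¹ ^ 2 * v.2) := fun v => by
    change (γ * (γ * v.1), γ⁻¹ * (γ⁻¹ * v.2)) = _; congr 1 <;> ring
  obtain ⟨y, hy, y0⟩ := exists_mem_ne_zero_of_finrank_pos (W := LinearMap.ker (Algebra.trace F K)) (by
    have := LinearMap.finrank_range_add_finrank_ker (Algebra.trace F K)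
    have := (LinearMap.range (Algebra.trace F K)).finrank_le
    rw [Module.finrank_self] at this
    omega)
  have hd : finrank F (K × K) = 2 * k := by rw [Module.finrank_prod, hk]; ring
  have hG := twoGen_hypAdd hQ (by omega) t (x := (1, y)) (by simp) (by simpa [Qa] using hy) fun A hx hA => by
    have hP : ∀ P : (ZMod p)[X], (aeval (γ ^ 2) P, aeval (γ⁻¹ ^ 2) P * y) ∈ A := fun P => by
      induction P using Polynomial.induction_on' with
      | add P P' h h' => simpa [add_mul] using add_mem h h'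
      | monomial n c =>
        have : ((γ ^ 2) ^ n, (γ⁻¹ ^ 2) ^ n * y) ∈ A := by
          induction n with
          | zero => simpa using hx
          | succ n ih => simpa [ta, pow_succ', mul_assoc] using hA _ ih
        obtain ⟨c, rfl⟩ := ZMod.natCast_zmod_surjective c
        simpa [aeval_monomial, mul_assoc] using nsmul_mem this c
    have h3 : 3 ≤ finrank (ZMod p) K := by
      obtain ⟨n, -, hn⟩ := FiniteField.card F p
      have h := Module.natCard_eq_pow_finrank (K := ZMod p) (V := K)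
      rw [Module.natCard_eq_pow_finrank (K := F), Nat.card_zmod, Nat.card_eq_fintype_card, hn, ← pow_mul, hk] at h
      rw [← Nat.pow_right_injective hp.out.two_le h]
      have := n.pos
      nlinarith
    have h1 : ∀ x, (x, 0) ∈ A := RegU.eq_top_of_powGen (powGen_pow g0 hγ two_pos (Or.inl le_rfl))
      (A.comap (AddMonoidHom.inl K K)) (fun a ha => by simpa [ta] using hA _ ha)
      (by have := hP (minpoly (ZMod p) (γ⁻¹ ^ 2)); rwa [minpoly.aeval, zero_mul] at this) (not_conj_inv h3 g0 hγ)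
    have h2 : ∀ x, (0, x) ∈ A := RegU.eq_top_of_powGen
      (powGen_pow (inv_ne_zero g0) (fun n hn => hγ n (by rwa [inv_pow, inv_eq_one] at hn)) two_pos (Or.inl le_rfl))
      (A.comap (AddMonoidHom.inr K K)) (fun a ha => by simpa [ta] using hA _ ha)
      (by simpa using sub_mem hx (h1 1)) y0
    exact fun v => by simpa using add_mem (h1 v.1) (h2 v.2)
  let ι : (F × K) →ₗ[F] F × F × K × K := (LinearMap.id).prodMap ((LinearMap.inr F F _).comp (LinearMap.inl F K K))
  obtain ⟨e, he⟩ := exists_equiv_qfPlus (nondeg_iff.2 (hypAdd_nondeg (nondeg_iff.1 hQ))) (m := k + 1)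
    (by simp [Module.finrank_prod, hk]; omega) ⟨LinearMap.range ι, by
      rw [LinearMap.finrank_range_of_inj (fun a b h => by simpa [ι, Prod.ext_iff] using h), Module.finrank_prod, hk,
        Module.finrank_self, add_comm], by rintro _ ⟨a, rfl⟩; simp [ι, Qa]⟩
  exact hG.congr (OG.congr e he)

theorem twoGen_minus_aux {L : Type*} [Field L] [Algebra F L] [Finite L] {k : ℕ} (hm : 3 ≤ k + 1)
    (hk : finrank F L = 2 * (k + 1)) {a b : F}
    (hab : ∀ z₁ z₂ : F, z₁ ^ 2 + a * z₁ * z₂ + b * z₂ ^ 2 = 0 → z₁ = 0 ∧ z₂ = 0) : TwoGen (qfMinus (k + 1) F a b) := by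
  obtain ⟨p, _⟩ := CharP.exists F
  have hp : Fact p.Prime := ⟨CharP.char_is_prime F p⟩
  obtain ⟨M, hM⟩ : ∃ M, M = Nat.card F ^ (k + 1) := ⟨_, rfl⟩
  have hL : Nat.card L = M * M := by rw [Module.natCard_eq_pow_finrank (K := F), hk, hM]; ring
  have q2 : 2 ≤ Nat.card F := Finite.one_lt_card
  have M8 : 8 ≤ M := hM ▸ (Nat.pow_le_pow_left q2 3).trans (Nat.pow_le_pow_right (by omega) hm)
  obtain ⟨φ, hφ⟩ : ∃ φ : L ≃ₐ[F] L, ∀ x, φ x = x ^ M :=
    ⟨FiniteField.frobeniusAlgEquivOfAlgebraic F L ^ (k + 1), fun x => by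
      rw [AlgEquiv.coe_pow, FiniteField.coe_frobeniusAlgEquivOfAlgebraic_iterate, hM, Nat.card_eq_fintype_card]⟩
  have := Fintype.ofFinite L
  have φ2 : ∀ x, φ (φ x) = x := fun x => by
    rw [hφ, hφ, ← pow_mul, ← hL, Nat.card_eq_fintype_card, FiniteField.pow_card]
  obtain ⟨γ, g0, -, hγ⟩ := exists_field_gen L
  have e1 : M * M - 1 = (M - 1) * (M + 1) := by
    obtain ⟨M, rfl⟩ : ∃ N, M = N + 1 := ⟨M - 1, by omega⟩
    exact Nat.sub_eq_of_eq_add (by simp only [Nat.add_sub_cancel]; ring)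
  obtain ⟨ω, hω⟩ : ∃ ω, ω = γ ^ (M - 1) := ⟨_, rfl⟩
  have w0 : ω ≠ 0 := hω ▸ pow_ne_zero _ g0
  have w1 : ∀ n, ω ^ n = 1 → M + 1 ∣ n := fun n hn => by
    rw [hω, ← pow_mul] at hn
    have := hγ _ hn
    rw [hL, e1] at this
    exact Nat.dvd_of_mul_dvd_mul_left (by omega) this
  have w2 : ω ^ (M + 1) = 1 := by
    rw [hω, ← pow_mul, ← e1, ← hL, Nat.card_eq_fintype_card, FiniteField.pow_card_sub_one_eq_one _ g0]
  have w3 : ω * φ ω = 1 := by rw [hφ, ← pow_succ', w2]
  obtain ⟨c, hc⟩ : ∃ c, c + φ c ≠ 0 := by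
    by_contra h
    push Not at h
    have h1 := h 1
    have h2 := h ω
    rw [map_one] at h1
    have := Nat.le_of_dvd two_pos (w1 2 (by linear_combination ω * h2 - w3 - h1))
    omega
  let Q : QuadraticForm F L := LinearMap.BilinMap.toQuadraticMap
    ((Algebra.traceForm F L).compl₁₂ (LinearMap.mulLeft F c) φ.toLinearMap)
  have Qa : ∀ v, Q v = Algebra.trace F L (c * v * φ v) := fun v => rfl
  have Qp : ∀ u v, polar Q u v = Algebra.trace F L ((c + φ c) * u * φ v) := fun u v => by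
    have := Algebra.trace_eq_of_algEquiv φ (c * v * φ u)
    rw [map_mul φ, map_mul φ, φ2] at this
    simp only [polar, Qa, mul_add, add_mul, map_add, ← this]
    rw [mul_right_comm (φ c) u]; ring
  have hQ : (polarBilin Q).Nondegenerate := nondeg_iff.2 fun x h => by
    have := (traceForm_nondegenerate F L).1 ((c + φ c) * x) fun y => by
      have := h (φ y)
      rwa [Qp, φ2] at this
    exact (mul_eq_zero.1 this).resolve_left hc
  have Qw : ∀ v, Q (ω * v) = Q v := fun v => by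
    rw [Qa, Qa, map_mul φ]; congr 1; linear_combination c * v * φ v * w3
  let t : OG Q := ⟨mulEq F w0, Qw⟩
  obtain ⟨x, x0, hx⟩ := exists_singular_of_three_le Q (by omega)
  obtain ⟨n, -, hn⟩ := FiniteField.card F p
  have : CharP L p := charP_of_injective_algebraMap (algebraMap F L).injective p
  have pg : PowGen (ω ^ 2) := by
    by_contra h
    obtain ⟨d, d1, d2, d3⟩ := exists_frobenius_fixed p h
    have h5 : 2 ≤ p ^ d := hp.out.two_le.trans (Nat.le_self_pow (by omega) p)
    have h6 : p ^ d ≤ M := by rw [hL, ← pow_two] at d2; exact (Nat.pow_le_pow_iff_left two_ne_zero).1 d2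
    have h7 := w1 (2 * (p ^ d - 1)) (by
      rw [pow_mul]
      exact mul_right_cancel₀ (pow_ne_zero 2 w0) (by rw [← pow_succ, Nat.sub_add_cancel (by omega), d3, one_mul]))
    obtain ⟨u, hu⟩ := h7
    have : u = 1 := by
      rcases u with _ | _ | u
      · omega
      · rfl
      · have : (M + 1) * 2 ≤ (M + 1) * (u + 1 + 1) := Nat.mul_le_mul_left _ (by omega)
        omega
    subst this
    have h8 : p ^ 2 ∣ M := by
      rw [hM, Nat.card_eq_fintype_card, hn, ← pow_mul]
      exact pow_dvd_pow _ (by have := n.pos; nlinarith)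
    have h9 : 2 * p ^ d = M + 3 := by omega
    have h3 : p = 3 := (Nat.prime_dvd_prime_iff_eq hp.out Nat.prime_three).1
      ((Nat.dvd_add_right ((dvd_pow_self p two_ne_zero).trans h8)).1 (h9 ▸ (dvd_pow_self p (by omega)).mul_left 2))
    subst h3
    rcases d1.eq_or_lt with rfl | d1
    · omega
    · have : 3 ^ 2 ∣ 3 ^ d := pow_dvd_pow 3 d1
      omega
  have hG := twoGen_hypAdd hQ (by omega) t x0 hx fun A hx hA => RegU.eq_top_of_powGen pg A
    (fun v hv => by rw [pow_two, mul_assoc]; exact hA v hv) hx x0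
  rcases exists_equiv_qfPlus_or_qfMinus hQ (m := k) (by omega) hab with ⟨e, he⟩ | ⟨e, he⟩
  · exfalso
    let G := Subgroup.zpowers (Units.mk0 ω w0)
    have hGc : Nat.card G = M + 1 := by
      rw [Nat.card_zpowers]
      exact Nat.dvd_antisymm (orderOf_dvd_of_pow_eq_one (Units.ext (by simpa using w2)))
        (w1 _ ((Units.val_pow_eq_pow_val (Units.mk0 ω w0) _).symm.trans (by rw [pow_orderOf_eq_one]; rfl)))
    let S : SubMulAction G L :=
      { carrier := {v | v ≠ 0 ∧ Q v = 0}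
        smul_mem' := fun g v hv => ⟨mul_ne_zero g.1.ne_zero hv.1, by
          obtain ⟨g, hg⟩ := g
          obtain ⟨i, rfl⟩ := (mem_powers_iff_mem_zpowers.2 hg)
          change Q (((Units.mk0 ω w0 ^ i : Lˣ) : L) * v) = 0
          clear hg
          induction i with
          | zero => simpa using hv.2
          | succ i ih => rwa [pow_succ', Units.val_mul, mul_assoc, Units.val_mk0, Qw]⟩ }
    have h1 := Nat.card_congr (MulAction.selfEquivOrbitsQuotientProd (G := G) (X := S) fun v =>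
      (Subgroup.eq_bot_iff_forall _).2 fun g hg => Subtype.ext (Units.ext
        (mul_right_cancel₀ v.2.1 ((congrArg Subtype.val hg).trans (one_mul _).symm))))
    have h2 : Nat.card {v // Q v = 0} = Nat.card S + 1 := by
      rw [← Finite.card_option]
      classical
      exact Nat.card_congr ((Equiv.optionSubtypeNe (⟨0, map_zero Q⟩ : {v // Q v = 0})).symm.trans (Equiv.optionCongr
        ⟨fun v => ⟨v.1.1, fun h => v.2 (Subtype.ext h), v.1.2⟩, fun v => ⟨⟨v.1, v.2.2⟩, fun h => v.2.1 (congrArg Subtype.val h)⟩,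
          fun _ => rfl, fun _ => rfl⟩))
    have h3 := card_zeros_quadFormPlus (F := F) (k + 1)
    rw [← Nat.card_congr (e.toEquiv.subtypeEquiv (p := fun v => Q v = 0) fun v => by rw [← he]; rfl), h2, h1,
      Nat.card_prod, hGc, ← Nat.card_eq_fintype_card, ← hM, Nat.add_sub_cancel] at h3
    obtain ⟨R, hR⟩ : ∃ R, R = Nat.card F ^ k := ⟨_, rfl⟩
    rw [pow_succ, ← hR] at hM
    rw [← hR] at h3
    have R4 : 4 ≤ R := hR ▸ (Nat.pow_le_pow_left q2 2).trans (Nat.pow_le_pow_right (by omega) (by omega))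
    generalize Nat.card (Quotient _) = u at h3
    obtain ⟨M, rfl⟩ : ∃ N, M = N + 1 := ⟨M - 1, by omega⟩
    rw [Nat.add_sub_cancel] at h3
    have h4 : M + 2 ∣ 2 * (R + 1) := (Nat.dvd_add_right (Dvd.intro_left u rfl)).1 ⟨R + 1, by nlinarith⟩
    obtain ⟨v, hv⟩ := h4
    have h5 : R * 2 ≤ R * Nat.card F := Nat.mul_le_mul_left _ q2
    rcases v with _ | _ | v
    · omega
    · rcases q2.eq_or_lt with h | h
      · rw [← h] at hM; omega
      · have : R * 3 ≤ R * Nat.card F := Nat.mul_le_mul_left _ h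
        omega
    · have : (M + 2) * 2 ≤ (M + 2) * (v + 1 + 1) := Nat.mul_le_mul_left _ (by omega)
      omega
  · refine hG.congr (OG.congr (((LinearEquiv.refl F F).prodCongr ((LinearEquiv.refl F F).prodCongr
      (e.trans (minusCoord k a b)))).trans ((hypNSucc k).symm.trans (minusCoord (k + 1) a b).symm)) fun v => ?_)
    rw [← hypN_minusCoord, LinearEquiv.trans_apply, LinearEquiv.trans_apply, LinearEquiv.apply_symm_apply,
      ← hypAdd_hypNSucc, LinearEquiv.apply_symm_apply, hypAdd_apply, hypAdd_apply, ← he, ← hypN_minusCoord]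
    rfl

theorem twoGen_plus {m : ℕ} (hm : 4 ≤ m) : TwoGen (qfPlus m F) := by
  obtain ⟨k, rfl⟩ : ∃ k, m = k + 1 := ⟨m - 1, by omega⟩
  have : NeZero k := ⟨by omega⟩
  obtain ⟨p, _⟩ := CharP.exists F
  have : Fact p.Prime := ⟨CharP.char_is_prime F p⟩
  exact twoGen_plus_aux (by omega) (FiniteField.finrank_extension F p k)

theorem twoGen_minus {m : ℕ} (hm : 3 ≤ m) {a b : F}
    (hab : ∀ z₁ z₂ : F, z₁ ^ 2 + a * z₁ * z₂ + b * z₂ ^ 2 = 0 → z₁ = 0 ∧ z₂ = 0) : TwoGen (qfMinus m F a b) := by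
  obtain ⟨k, rfl⟩ : ∃ k, m = k + 1 := ⟨m - 1, by omega⟩
  have : NeZero (2 * (k + 1)) := ⟨by omega⟩
  obtain ⟨p, _⟩ := CharP.exists F
  have : Fact p.Prime := ⟨CharP.char_is_prime F p⟩
  exact twoGen_minus_aux hm (FiniteField.finrank_extension F p _) hab

end CL.Cls
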