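import Mathlib
import Cfsg.Agent.Known.LSWeight

/-!
# Counting engine for the minimal permutation degrees of the classical groups

* `Pairing A B`: a left-separating bicharacter `A × B → ℂ`; annihilators and their orders.
* `Act A Ω`: an action of an additive group; stabilisers, orbits, and the multiplicity
  `mult P Φ l` = number of orbits in `Φ` whose stabiliser is killed by `l`;
  `|A| * ∑ l, mult Φ l = |B| * |Φ|`.
* `index_dvd_ncard_mul_index`: a `P`-invariant subset of `G ⧸ H` has `[G:H] ∣ |Φ| [G:P]`.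
-/

namespace CL.MinDeg

/-- A bicharacter `A × B → ℂ` which separates the points of `A`. -/
structure Pairing (A B : Type*) [AddCommGroup A] [AddCommGroup B] where
  /-- the underlying function -/
  χ : A → B → ℂ
  add_left : ∀ x y l, χ (x + y) l = χ x l * χ y l
  add_right : ∀ x l l', χ x (l + l') = χ x l * χ x l'
  zero_left : ∀ l, χ 0 l = 1
  zero_right : ∀ x, χ x 0 = 1
  sep : ∀ x, (∀ l, χ x l = 1) → x = 0

/-- The pairing `ψ (β x l)` attached to a form `β` with values in a field. -/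
def Pairing.ofForm {A B F : Type*} [AddCommGroup A] [AddCommGroup B] [Field F]
    (ψ : AddChar F ℂ) (β : A → B → F)
    (h1 : ∀ x y l, β (x + y) l = β x l + β y l) (h2 : ∀ x l l', β x (l + l') = β x l + β x l')
    (h3 : ∀ x, (∀ l, ψ (β x l) = 1) → x = 0) : Pairing A B where
  χ x l := ψ (β x l)
  add_left x y l := by rw [h1, AddChar.map_add_eq_mul]
  add_right x l l' := by rw [h2, AddChar.map_add_eq_mul]
  zero_left l := by
    have : β 0 l = 0 := by
      have := h1 0 0 l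
      rw [add_zero] at this
      exact left_eq_add.1 this
    rw [this, AddChar.map_zero_eq_one]
  zero_right x := by
    have : β x 0 = 0 := by
      have := h2 x 0 0
      rw [add_zero] at this
      exact left_eq_add.1 this
    rw [this, AddChar.map_zero_eq_one]
  sep := h3

@[simp] theorem Pairing.ofForm_χ {A B F : Type*} [AddCommGroup A] [AddCommGroup B] [Field F]
    (ψ : AddChar F ℂ) (β : A → B → F) (h1 h2 h3) (x : A) (l : B) :
    (Pairing.ofForm ψ β h1 h2 h3).χ x l = ψ (β x l) := rfl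

namespace Pairing

variable {A B : Type*} [AddCommGroup A] [AddCommGroup B] (P : Pairing A B)

theorem neg_left_mul (x : A) (l : B) : P.χ (-x) l * P.χ x l = 1 := by
  rw [← P.add_left, neg_add_cancel, P.zero_left]

theorem neg_right_mul (x : A) (l : B) : P.χ x (-l) * P.χ x l = 1 := by
  rw [← P.add_right, neg_add_cancel, P.zero_right]

theorem χ_ne_zero (x : A) (l : B) : P.χ x l ≠ 0 := fun h => by
  have := P.neg_left_mul x l
  rw [h, mul_zero] at this
  exact zero_ne_one this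

/-- The annihilator in `B` of a subgroup of `A`. -/
def ann (S : AddSubgroup A) : AddSubgroup B where
  carrier := {l | ∀ x ∈ S, P.χ x l = 1}
  zero_mem' := fun x _ => P.zero_right x
  add_mem' := fun {l l'} h h' x hx => by rw [P.add_right, h x hx, h' x hx, mul_one]
  neg_mem' := fun {l} h x hx => by
    have := P.neg_right_mul x l
    rwa [h x hx, mul_one] at this

/-- The annihilator in `A` of a subgroup of `B`. -/
def ann' (X : AddSubgroup B) : AddSubgroup A where
  carrier := {x | ∀ l ∈ X, P.χ x l = 1}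
  zero_mem' := fun l _ => P.zero_left l
  add_mem' := fun {x y} h h' l hl => by rw [P.add_left, h l hl, h' l hl, mul_one]
  neg_mem' := fun {x} h l hl => by
    have := P.neg_left_mul x l
    rwa [h l hl, mul_one] at this

theorem mem_ann {S : AddSubgroup A} {l : B} : l ∈ P.ann S ↔ ∀ x ∈ S, P.χ x l = 1 := Iff.rfl

theorem mem_ann' {X : AddSubgroup B} {x : A} : x ∈ P.ann' X ↔ ∀ l ∈ X, P.χ x l = 1 := Iff.rfl

theorem ann_anti {S S' : AddSubgroup A} (h : S ≤ S') : P.ann S' ≤ P.ann S :=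
  fun _ hl x hx => hl x (h hx)

theorem ann_bot : P.ann ⊥ = ⊤ := by
  ext l
  simp only [mem_ann, AddSubgroup.mem_bot, AddSubgroup.mem_top, iff_true]
  rintro x rfl
  exact P.zero_left l

/-- A multiplicative function on a finite additive group sums to `0` unless it is trivial. -/
theorem sum_eq_zero_of_mul {C : Type*} [AddCommGroup C] [Fintype C] (f : C → ℂ)
    (hf : ∀ x y, f (x + y) = f x * f y) {c : C} (hc : f c ≠ 1) : ∑ x, f x = 0 := by
  have h : ∑ x, f x = f c * ∑ x, f x := by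
    rw [Finset.mul_sum]
    refine (Fintype.sum_equiv (Equiv.addLeft c) _ _ fun x => ?_).symm
    simp [hf]
  have : (1 - f c) * ∑ x, f x = 0 := by rw [sub_mul, one_mul, ← h, sub_self]
  exact (mul_eq_zero.1 this).resolve_left (sub_ne_zero.2 hc.symm)

theorem card_mul_card_ann [Finite A] [Finite B] (S : AddSubgroup A) :
    Nat.card S * Nat.card (P.ann S) = Nat.card B := by
  classical
  have := Fintype.ofFinite A
  have := Fintype.ofFinite B
  have h1 : ∑ x : S, ∑ l : B, P.χ x l = Nat.card B := by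
    rw [Finset.sum_eq_single (0 : S)]
    · simp [P.zero_left]
    · intro x _ hx
      have : ¬ ∀ l, P.χ x l = 1 := fun h => hx (Subtype.ext (P.sep x h))
      push Not at this
      obtain ⟨l, hl⟩ := this
      exact sum_eq_zero_of_mul _ (P.add_right x) hl
    · simp
  have h2 : ∀ l : B, ∑ x : S, P.χ x l = if l ∈ P.ann S then (Nat.card S : ℂ) else 0 := by
    intro l
    split_ifs with h
    · rw [Finset.sum_congr rfl fun (x : S) _ => h x x.2]
      simp
    · have : ¬ ∀ x : S, P.χ x l = 1 := fun h' => h fun x hx => h' ⟨x, hx⟩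
      push Not at this
      obtain ⟨c, hc⟩ := this
      exact sum_eq_zero_of_mul (fun x : S => P.χ x l) (fun x y => P.add_left x y l) hc
  rw [Finset.sum_comm, Finset.sum_congr rfl fun l _ => h2 l, ← Finset.sum_filter,
    Finset.sum_const, nsmul_eq_mul] at h1
  have h3 : (Finset.univ.filter fun l => l ∈ P.ann S).card = Nat.card (P.ann S) := by
    rw [Nat.card_eq_fintype_card, Fintype.card_subtype]
  rw [h3] at h1
  exact_mod_cast (mul_comm _ _).trans h1

/-- Double annihilator. -/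
theorem ann'_ann [Finite A] [Finite B] (S : AddSubgroup A) : P.ann' (P.ann S) = S := by
  have hle : S ≤ P.ann' (P.ann S) := fun x hx l hl => hl x hx
  have h : P.ann (P.ann' (P.ann S)) = P.ann S :=
    le_antisymm (P.ann_anti hle) fun l hl x hx => hx l hl
  have h1 := P.card_mul_card_ann S
  have h2 := P.card_mul_card_ann (P.ann' (P.ann S))
  rw [h, ← h1] at h2
  have h3 := Nat.eq_of_mul_eq_mul_right Nat.card_pos h2
  exact (AddSubgroup.eq_of_le_of_card_ge hle h3.le).symm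

theorem mem_of_forall_ann [Finite A] [Finite B] {S : AddSubgroup A} {x : A}
    (h : ∀ l ∈ P.ann S, P.χ x l = 1) : x ∈ S := by
  rw [← P.ann'_ann S]
  exact h

theorem ann_injective [Finite A] [Finite B] : Function.Injective P.ann := fun S S' h => by
  rw [← P.ann'_ann S, h, P.ann'_ann]

theorem eq_bot_of_ann_eq_top [Finite A] [Finite B] {S : AddSubgroup A} (h : P.ann S = ⊤) :
    S = ⊥ := P.ann_injective (h.trans P.ann_bot.symm)

end Pairing

/-- An action of an additive group, as a bundled object. -/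
structure Act (A Ω : Type*) [AddCommGroup A] where
  /-- the action map -/
  act : A → Ω → Ω
  act_zero : ∀ ω, act 0 ω = ω
  act_add : ∀ x y ω, act (x + y) ω = act x (act y ω)

/-- The action through a homomorphism into a group acting on `Ω`. -/
def Act.ofHom {A G : Type*} (Ω : Type*) [AddCommGroup A] [Group G] [MulAction G Ω] (a : A → G)
    (ha : ∀ x y, a (x + y) = a x * a y) : Act A Ω where
  act x ω := a x • ω
  act_zero ω := by rw [CL.LS.a_zero ha, one_smul]
  act_add x y ω := by rw [ha, mul_smul]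

@[simp] theorem Act.ofHom_act {A G Ω : Type*} [AddCommGroup A] [Group G] [MulAction G Ω]
    (a : A → G) (ha) (x : A) (ω : Ω) : (Act.ofHom Ω a ha).act x ω = a x • ω := rfl

namespace Act

variable {A B Ω : Type*} [AddCommGroup A] [AddCommGroup B] (T : Act A Ω)

theorem act_neg_act (x : A) (ω : Ω) : T.act (-x) (T.act x ω) = ω := by
  rw [← T.act_add, neg_add_cancel, T.act_zero]

theorem act_act_neg (x : A) (ω : Ω) : T.act x (T.act (-x) ω) = ω := by
  rw [← T.act_add, add_neg_cancel, T.act_zero]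

theorem act_comm (x y : A) (ω : Ω) : T.act x (T.act y ω) = T.act y (T.act x ω) := by
  rw [← T.act_add, ← T.act_add, add_comm]

theorem act_injective (x : A) : Function.Injective (T.act x) := fun ω ω' h => by
  rw [← T.act_neg_act x ω, h, T.act_neg_act]

/-- The stabiliser of a point. -/
def stab (ω : Ω) : AddSubgroup A where
  carrier := {x | T.act x ω = ω}
  zero_mem' := T.act_zero ω
  add_mem' := fun {x y} hx hy => by
    change T.act (x + y) ω = ω
    rw [T.act_add, hy, hx]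
  neg_mem' := fun {x} hx => by
    change T.act (-x) ω = ω
    conv_lhs => rw [← show T.act x ω = ω from hx]
    exact T.act_neg_act x ω

theorem mem_stab {ω : Ω} {x : A} : x ∈ T.stab ω ↔ T.act x ω = ω := Iff.rfl

/-- The orbit of a point. -/
def orb (ω : Ω) : Set Ω := Set.range fun x => T.act x ω

theorem mem_orb {ω ω' : Ω} : ω' ∈ T.orb ω ↔ ∃ x, T.act x ω = ω' := Iff.rfl

theorem self_mem_orb (ω : Ω) : ω ∈ T.orb ω := ⟨0, T.act_zero ω⟩

theorem act_mem_orb (x : A) (ω : Ω) : T.act x ω ∈ T.orb ω := ⟨x, rfl⟩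

theorem orb_act (x : A) (ω : Ω) : T.orb (T.act x ω) = T.orb ω := by
  ext ω'
  constructor
  · rintro ⟨y, rfl⟩
    exact ⟨y + x, T.act_add _ _ _⟩
  · rintro ⟨y, rfl⟩
    refine ⟨y - x, ?_⟩
    change T.act (y - x) (T.act x ω) = T.act y ω
    rw [← T.act_add, sub_add_cancel]

theorem orb_eq_iff {ω ω' : Ω} : T.orb ω' = T.orb ω ↔ ω' ∈ T.orb ω :=
  ⟨fun h => h ▸ T.self_mem_orb ω', by rintro ⟨x, rfl⟩; exact T.orb_act x ω⟩

theorem stab_act (x : A) (ω : Ω) : T.stab (T.act x ω) = T.stab ω := by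
  ext y
  rw [mem_stab, mem_stab, T.act_comm]
  exact (T.act_injective x).eq_iff

theorem stab_eq_of_mem_orb {ω ω' : Ω} (h : ω' ∈ T.orb ω) : T.stab ω' = T.stab ω := by
  obtain ⟨x, rfl⟩ := h
  exact T.stab_act x ω

theorem stab_eq_of_orb_eq {ω ω' : Ω} (h : T.orb ω' = T.orb ω) : T.stab ω' = T.stab ω :=
  T.stab_eq_of_mem_orb (T.orb_eq_iff.1 h)

theorem ncard_orb_mul [Finite A] (ω : Ω) :
    (T.orb ω).ncard * Nat.card (T.stab ω) = Nat.card A := by
  let : AddAction A Ω :=
    { vadd := T.act, zero_vadd := T.act_zero, add_vadd := T.act_add }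
  have h := AddAction.index_stabilizer A ω
  have h2 : AddAction.stabilizer A ω = T.stab ω := rfl
  have h3 : AddAction.orbit A ω = T.orb ω := rfl
  rw [h2, h3] at h
  rw [← h, AddSubgroup.index_mul_card]

theorem orb_finite [Finite A] (ω : Ω) : (T.orb ω).Finite := Set.finite_range _

theorem ncard_orb_pos [Finite A] (ω : Ω) : 0 < (T.orb ω).ncard :=
  (Set.ncard_pos (T.orb_finite ω)).2 ⟨ω, T.self_mem_orb ω⟩

/-- The characters which are trivial on the stabiliser of `ω`. -/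
def X (P : Pairing A B) (ω : Ω) : AddSubgroup B := P.ann (T.stab ω)

variable (P : Pairing A B)

theorem mem_X {ω : Ω} {l : B} : l ∈ T.X P ω ↔ ∀ x, T.act x ω = ω → P.χ x l = 1 := Iff.rfl

theorem X_act (x : A) (ω : Ω) : T.X P (T.act x ω) = T.X P ω := by
  rw [X, X, T.stab_act]

theorem X_eq_of_orb_eq {ω ω' : Ω} (h : T.orb ω' = T.orb ω) : T.X P ω' = T.X P ω := by
  rw [X, X, T.stab_eq_of_orb_eq h]

theorem act_eq_of_forall_X [Finite A] [Finite B] {ω : Ω} {x : A}
    (h : ∀ l ∈ T.X P ω, P.χ x l = 1) : T.act x ω = ω :=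
  P.mem_of_forall_ann (S := T.stab ω) h

theorem card_mul_card_X [Finite A] [Finite B] (ω : Ω) :
    Nat.card A * Nat.card (T.X P ω) = Nat.card B * (T.orb ω).ncard := by
  rw [← T.ncard_orb_mul ω, ← P.card_mul_card_ann (T.stab ω), X]
  ring

/-- A set of points is invariant. -/
def Inv (Φ : Set Ω) : Prop := ∀ x, ∀ ω ∈ Φ, T.act x ω ∈ Φ

theorem inv_univ : T.Inv Set.univ := fun _ _ _ => trivial

theorem Inv.orb_subset {T : Act A Ω} {Φ : Set Ω} (h : T.Inv Φ) {ω : Ω} (hω : ω ∈ Φ) :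
    T.orb ω ⊆ Φ := by
  rintro _ ⟨x, rfl⟩
  exact h x ω hω

/-- The number of orbits in an invariant set, as a sum of reciprocals of orbit lengths. -/
theorem ncard_image_orb [Finite A] (s : Finset Ω) (hs : T.Inv s) :
    ((T.orb '' s).ncard : ℚ) = ∑ ω ∈ s, ((T.orb ω).ncard : ℚ)⁻¹ := by
  classical
  rw [← Finset.sum_fiberwise_of_maps_to (t := s.image T.orb) (g := T.orb)
    (fun x hx => Finset.mem_image_of_mem _ hx)]
  rw [← Finset.coe_image, Set.ncard_coe_finset, Finset.card_eq_sum_ones, Nat.cast_sum]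
  refine Finset.sum_congr rfl fun O hO => ?_
  obtain ⟨ω, hω, rfl⟩ := Finset.mem_image.1 hO
  rw [Finset.sum_congr rfl (g := fun _ => ((T.orb ω).ncard : ℚ)⁻¹)
    fun ω' h => by rw [(Finset.mem_filter.1 h).2], Finset.sum_const, nsmul_eq_mul]
  have : ((s.filter fun ω' => T.orb ω' = T.orb ω : Finset Ω) : Set Ω) = T.orb ω := by
    ext ω'
    simp only [Finset.coe_filter, Set.mem_ofPred_eq, T.orb_eq_iff]
    exact ⟨fun h => h.2, fun h => ⟨hs.orb_subset hω h, h⟩⟩
  rw [← Set.ncard_coe_finset, this, mul_inv_cancel₀ (by exact_mod_cast (T.ncard_orb_pos ω).ne')]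
  simp

/-- The number of orbits inside `Φ` whose stabiliser is killed by `l`. -/
noncomputable def mult (Φ : Set Ω) (l : B) : ℕ := (T.orb '' {ω | ω ∈ Φ ∧ l ∈ T.X P ω}).ncard

/-- The basic count. -/
theorem card_mul_sum_mult [Finite A] [Fintype B] [Finite Ω] {Φ : Set Ω} (hΦ : T.Inv Φ) :
    Nat.card A * ∑ l, T.mult P Φ l = Nat.card B * Φ.ncard := by
  classical
  have := Fintype.ofFinite Ω
  have h1 : ∀ l, (T.mult P Φ l : ℚ) =
      ∑ ω ∈ Φ.toFinset, if l ∈ T.X P ω then ((T.orb ω).ncard : ℚ)⁻¹ else 0 := by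
    intro l
    rw [← Finset.sum_filter, ← T.ncard_image_orb]
    · rw [mult]
      congr 3
      ext ω
      simp
    · intro x ω hω
      simp only [Finset.coe_filter, Set.mem_toFinset, Set.mem_ofPred_eq] at hω ⊢
      exact ⟨hΦ x ω hω.1, by rw [T.X_act]; exact hω.2⟩
  have h2 : (Nat.card A : ℚ) * ∑ l, (T.mult P Φ l : ℚ) = Nat.card B * Φ.ncard := by
    rw [Finset.sum_congr rfl fun l _ => h1 l, Finset.sum_comm, Finset.mul_sum,
      Finset.sum_congr rfl (g := fun _ => (Nat.card B : ℚ)), Finset.sum_const, nsmul_eq_mul,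
      Set.ncard_eq_toFinset_card', mul_comm]
    intro ω _
    rw [← Finset.sum_filter, Finset.sum_const, nsmul_eq_mul]
    have h3 : (Finset.univ.filter fun l => l ∈ T.X P ω).card = Nat.card (T.X P ω) := by
      rw [Nat.card_eq_fintype_card, Fintype.card_subtype]
    have h4 : (Nat.card A : ℚ) * Nat.card (T.X P ω) = Nat.card B * (T.orb ω).ncard := by
      exact_mod_cast T.card_mul_card_X P ω
    have h5 : ((T.orb ω).ncard : ℚ) ≠ 0 := by exact_mod_cast (T.ncard_orb_pos ω).ne'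
    rw [h3, ← mul_assoc, h4, mul_assoc, mul_inv_cancel₀ h5, mul_one]
  exact_mod_cast h2

/-- The basic count when `|A| = |B|`. -/
theorem sum_mult [Finite A] [Fintype B] [Finite Ω] (hAB : Nat.card A = Nat.card B) {Φ : Set Ω}
    (hΦ : T.Inv Φ) : ∑ l, T.mult P Φ l = Φ.ncard := by
  have h := T.card_mul_sum_mult P hΦ
  rw [hAB] at h
  exact Nat.eq_of_mul_eq_mul_left Nat.card_pos h

/-- Values of an orbit invariant `ι` on points with `l ∈ X ω` bound the multiplicity below. -/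
theorem ncard_le_mult [Finite Ω] {Φ : Set Ω} {l : B} {I : Type*} (ι : Ω → I)
    (hι : ∀ x ω, ι (T.act x ω) = ι ω) (S : Set I)
    (h : ∀ i ∈ S, ∃ ω ∈ Φ, l ∈ T.X P ω ∧ ι ω = i) : S.ncard ≤ T.mult P Φ l := by
  classical
  rcases S.eq_empty_or_nonempty with rfl | ⟨i₀, -⟩
  · simp
  refine le_trans ?_ (Set.ncard_image_le (f := fun O : Set Ω =>
    if hO : O.Nonempty then ι hO.some else i₀) (Set.toFinite _))
  refine Set.ncard_le_ncard (fun i hi => ?_) (Set.toFinite _)
  obtain ⟨ω, hω, hl, rfl⟩ := h i hi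
  refine ⟨T.orb ω, ⟨ω, ⟨hω, hl⟩, rfl⟩, ?_⟩
  have hne : (T.orb ω).Nonempty := ⟨ω, T.self_mem_orb ω⟩
  obtain ⟨x, hx⟩ := hne.some_mem
  simp only [dif_pos hne]
  rw [← hx, hι]

/-- Distinct annihilators through `l` bound the multiplicity below. -/
theorem ncard_X_le_mult [Finite Ω] {Φ : Set Ω} {l : B} (S : Set (AddSubgroup B))
    (h : ∀ Y ∈ S, l ∈ Y ∧ ∃ ω ∈ Φ, T.X P ω = Y) : S.ncard ≤ T.mult P Φ l :=
  T.ncard_le_mult P (T.X P) (T.X_act P) S fun Y hY => by
    obtain ⟨hl, ω, hω, rfl⟩ := h Y hY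
    exact ⟨ω, hω, hl, rfl⟩

theorem one_le_mult [Finite Ω] {Φ : Set Ω} {l : B} {ω : Ω} (hω : ω ∈ Φ) (hl : l ∈ T.X P ω) :
    1 ≤ T.mult P Φ l :=
  (Set.ncard_pos (Set.toFinite _)).2 ⟨_, ω, ⟨hω, hl⟩, rfl⟩

theorem two_le_mult [Finite Ω] {Φ : Set Ω} {l : B} {ω ω' : Ω} (hω : ω ∈ Φ) (hω' : ω' ∈ Φ)
    (hl : l ∈ T.X P ω) (hl' : l ∈ T.X P ω') (hne : ω' ∉ T.orb ω) : 2 ≤ T.mult P Φ l := by
  rw [mult, Nat.succ_le_iff, Set.one_lt_ncard (Set.toFinite _)]
  exact ⟨_, ⟨ω', ⟨hω', hl'⟩, rfl⟩, _, ⟨ω, ⟨hω, hl⟩, rfl⟩, fun h => hne (T.orb_eq_iff.1 h)⟩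

theorem mem_orb_of_mult_le_one [Finite Ω] {Φ : Set Ω} {l : B} (h : T.mult P Φ l ≤ 1) {ω ω' : Ω}
    (hω : ω ∈ Φ) (hω' : ω' ∈ Φ) (hl : l ∈ T.X P ω) (hl' : l ∈ T.X P ω') : ω' ∈ T.orb ω := by
  by_contra hne
  have := T.two_le_mult P hω hω' hl hl' hne
  omega

theorem exists_of_mult_pos {Φ : Set Ω} {l : B} (h : 0 < T.mult P Φ l) :
    ∃ ω ∈ Φ, l ∈ T.X P ω := by
  obtain ⟨_, ω, hω, -⟩ := Set.nonempty_of_ncard_ne_zero h.ne'
  exact ⟨ω, hω⟩

theorem mult_mono [Finite Ω] {Φ Φ' : Set Ω} (h : Φ ⊆ Φ') (l : B) :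
    T.mult P Φ l ≤ T.mult P Φ' l :=
  Set.ncard_le_ncard (Set.image_mono fun _ hω => ⟨h hω.1, hω.2⟩) (Set.toFinite _)

theorem mult_le_mult_zero [Finite Ω] (Φ : Set Ω) (l : B) : T.mult P Φ l ≤ T.mult P Φ 0 :=
  Set.ncard_le_ncard (Set.image_mono fun _ hω => ⟨hω.1, zero_mem _⟩) (Set.toFinite _)

theorem mult_zero (Φ : Set Ω) : T.mult P Φ 0 = (T.orb '' Φ).ncard := by
  rw [mult]
  congr 2
  ext ω
  simp

/-- Transport of multiplicities along a map which respects the orbits. -/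
theorem mult_le_of_map {A' B' Ω' : Type*} [AddCommGroup A'] [AddCommGroup B'] [Finite Ω']
    (T' : Act A' Ω') (P' : Pairing A' B') (f : Ω → Ω')
    (hf : ∀ ω ω', f ω' ∈ T'.orb (f ω) → ω' ∈ T.orb ω) {Φ : Set Ω} {Φ' : Set Ω'} {l : B} {l' : B'}
    (h : ∀ ω ∈ Φ, l ∈ T.X P ω → f ω ∈ Φ' ∧ l' ∈ T'.X P' (f ω)) :
    T.mult P Φ l ≤ T'.mult P' Φ' l' := by
  classical
  rw [mult, mult]
  refine Set.ncard_le_ncard_of_injOn (fun O =>
    if hO : O ∈ T.orb '' {ω | ω ∈ Φ ∧ l ∈ T.X P ω} then T'.orb (f hO.choose) else ∅)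
    (fun O hO => ?_) (fun O hO O' hO' he => ?_) (Set.toFinite _)
  · simp only [dif_pos hO]
    exact ⟨_, h _ hO.choose_spec.1.1 hO.choose_spec.1.2, rfl⟩
  · simp only [dif_pos hO, dif_pos hO'] at he
    rw [← hO.choose_spec.2, ← hO'.choose_spec.2]
    exact T.orb_eq_iff.2 (hf _ _ (T'.orb_eq_iff.1 he))

/-- A permutation `f` normalising the action, with `σ - 1` onto, fixes a point in every orbit
it preserves. -/
theorem exists_fixed_of_mem_orb (f : Ω → Ω) (σ : A → A)
    (hf : ∀ x ω, f (T.act x ω) = T.act (σ x) (f ω)) (hσ : ∀ y, ∃ x, σ x + y = x) {ω : Ω}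
    (h : f ω ∈ T.orb ω) : ∃ ω' ∈ T.orb ω, f ω' = ω' := by
  obtain ⟨y, hy⟩ := h
  obtain ⟨x, hx⟩ := hσ y
  refine ⟨T.act x ω, ⟨x, rfl⟩, ?_⟩
  rw [hf, ← show T.act y ω = f ω from hy, ← T.act_add, hx]

/-- Orbits through pairwise inequivalent points have total size at most `|Φ|`. -/
theorem sum_ncard_orb_le [Finite Ω] {Φ : Set Ω} (hΦ : T.Inv Φ) {I : Type*} (s : Finset I)
    (r : I → Ω) (hr : ∀ i ∈ s, r i ∈ Φ) (hinj : ∀ i ∈ s, ∀ j ∈ s, r j ∈ T.orb (r i) → i = j) :
    ∑ i ∈ s, (T.orb (r i)).ncard ≤ Φ.ncard := by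
  classical
  have := Fintype.ofFinite Ω
  have h := Finset.card_biUnion (s := s) (t := fun i => (T.orb (r i)).toFinset) (by
    intro i hi j hj hne
    rw [Function.onFun, Finset.disjoint_left]
    intro ω h1 h2
    rw [Set.mem_toFinset, ← T.orb_eq_iff] at h1 h2
    exact hne (hinj i hi j hj (T.orb_eq_iff.1 (h2.symm.trans h1))))
  rw [Finset.sum_congr rfl fun i _ => Set.ncard_eq_toFinset_card' (T.orb (r i)), ← h,
    Set.ncard_eq_toFinset_card']
  refine Finset.card_le_card fun ω hω => ?_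
  obtain ⟨i, hi, h1⟩ := Finset.mem_biUnion.1 hω
  exact Set.mem_toFinset.2 (hΦ.orb_subset (hr i hi) (Set.mem_toFinset.1 h1))

end Act

section Groups

variable {G : Type*} [Group G]

theorem ncard_preimage_mk (H : Subgroup G) (S : Set (G ⧸ H)) :
    ((QuotientGroup.mk : G → G ⧸ H) ⁻¹' S).ncard = Nat.card H * S.ncard := by
  rw [← Nat.card_coe_set_eq, Nat.card_congr (QuotientGroup.preimageMkEquivSubgroupProdSet H S),
    Nat.card_prod, Nat.card_coe_set_eq]

/-- A `P`-invariant set `Φ` of cosets of `H` satisfies `[G:H] ∣ |Φ| [G:P]`. -/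
theorem index_dvd_ncard_mul_index [Finite G] (H P : Subgroup G) (Φ : Set (G ⧸ H))
    (hΦ : ∀ g ∈ P, ∀ ω ∈ Φ, g • ω ∈ Φ) : H.index ∣ Φ.ncard * P.index := by
  set Ψ : Set G := ((QuotientGroup.mk : G → G ⧸ H) ⁻¹' Φ)⁻¹ with hΨ
  have h1 : Ψ.ncard = Nat.card H * Φ.ncard := by
    rw [hΨ, Set.ncard_inv, ncard_preimage_mk]
  have h2 : Ψ = (QuotientGroup.mk : G → G ⧸ P) ⁻¹' ((QuotientGroup.mk : G → G ⧸ P) '' Ψ) := by
    refine Set.Subset.antisymm (Set.subset_preimage_image _ _) ?_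
    rintro g ⟨g', hg', he⟩
    have hP : g'⁻¹ * g ∈ P := QuotientGroup.eq.1 he
    have := hΦ _ (P.inv_mem hP) _ hg'
    change ((g⁻¹ : G) : G ⧸ H) ∈ Φ
    rwa [MulAction.Quotient.smul_mk, smul_eq_mul, mul_inv_rev, inv_inv, mul_assoc,
      mul_inv_cancel, mul_one] at this
  have h3 : Nat.card P ∣ Nat.card H * Φ.ncard := by
    rw [← h1, h2, ncard_preimage_mk]
    exact dvd_mul_right _ _
  have h4 : Nat.card H * H.index ∣ Nat.card H * (Φ.ncard * P.index) := by
    rw [H.card_mul_index, ← P.card_mul_index, ← mul_assoc]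
    exact Nat.mul_dvd_mul_right h3 _
  exact Nat.dvd_of_mul_dvd_mul_left Nat.card_pos h4

/-- If `G` fixes every coset of `H` then `H = ⊤`. -/
theorem eq_top_of_smul_one (H : Subgroup G) (h : ∀ g : G, g • ((1 : G) : G ⧸ H) = (1 : G)) :
    H = ⊤ := by
  rw [eq_top_iff]
  intro g _
  have := h g⁻¹
  rw [MulAction.Quotient.smul_mk, smul_eq_mul, mul_one, QuotientGroup.eq, inv_inv,
    mul_one] at this
  exact this

/-- Lower bounds for indices pass to quotients. -/
theorem le_index_of_surjective {K : Type*} [Group K] (π : G →* K) (hπ : Function.Surjective π)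
    {N : ℕ} (h : ∀ H : Subgroup G, H ≠ ⊤ → N ≤ H.index) (H : Subgroup K) (hH : H ≠ ⊤) :
    N ≤ H.index := by
  rw [← Subgroup.index_comap_of_surjective H hπ]
  refine h _ fun h' => hH ?_
  rw [← Subgroup.map_comap_eq_self_of_surjective hπ H, h', Subgroup.map_top_of_surjective _ hπ]

theorem index_map_of_ker_le {K : Type*} [Group K] (π : G →* K) (hπ : Function.Surjective π)
    {H : Subgroup G} (hH : π.ker ≤ H) : (H.map π).index = H.index := by
  rw [Subgroup.index_map, sup_eq_left.2 hH, MonoidHom.range_eq_top.2 hπ, Subgroup.index_top,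
    mul_one]

/-- The minimal degree statement passes to the quotient by the centre. -/
theorem minDeg_quotient_center {N : ℕ} (h : ∀ H : Subgroup G, H ≠ ⊤ → N ≤ H.index)
    (h' : ∃ H : Subgroup G, Subgroup.center G ≤ H ∧ H.index = N) :
    (∀ H : Subgroup (G ⧸ Subgroup.center G), H ≠ ⊤ → N ≤ H.index) ∧
      ∃ H : Subgroup (G ⧸ Subgroup.center G), H.index = N := by
  refine ⟨le_index_of_surjective _ (QuotientGroup.mk'_surjective _) h, ?_⟩
  obtain ⟨H, hH, hN⟩ := h'
  exact ⟨H.map (QuotientGroup.mk' _), by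
    rw [index_map_of_ker_le _ (QuotientGroup.mk'_surjective _) (by rwa [QuotientGroup.ker_mk']),
      hN]⟩

/-- To bound indices below it suffices to show that small transitive actions have a global
fixed point. -/
theorem le_index_of_action [Finite G] {N : ℕ}
    (h : ∀ H : Subgroup G, Nat.card (G ⧸ H) < N → ∃ ω : G ⧸ H, ∀ g : G, g • ω = ω)
    (H : Subgroup G) (hH : H ≠ ⊤) : N ≤ H.index := by
  by_contra hlt
  obtain ⟨ω, hω⟩ := h H (by rw [← Subgroup.index_eq_card]; omega)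
  refine hH (eq_top_of_smul_one H fun g => ?_)
  obtain ⟨k, hk⟩ := MulAction.exists_smul_eq G ω ((1 : G) : G ⧸ H)
  rw [← hk, ← mul_smul, hω, hω]

end Groups

end CL.MinDeg
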