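import Cfsg.Agent.Known.MinDeg0

/-!
# Counting with labelled partitions

A version of the multiplicity count of `MinDeg0` for an arbitrary partition of `Ω` into classes
(for instance the orbits of a non-abelian group), each class carrying a set of labels whose size
is proportional to the size of the class.
-/

namespace CL.MinDeg

/-- A partition of `Ω`, given by the class of each point. -/
structure Parts (Ω : Type*) where
  /-- the class of a point -/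
  cl : Ω → Set Ω
  self_mem : ∀ ω, ω ∈ cl ω
  eq_of_mem : ∀ {ω ω'}, ω' ∈ cl ω → cl ω' = cl ω

namespace Parts

variable {Ω I : Type*} (R : Parts Ω)

theorem cl_eq_iff {ω ω' : Ω} : R.cl ω' = R.cl ω ↔ ω' ∈ R.cl ω :=
  ⟨fun h => h ▸ R.self_mem ω', R.eq_of_mem⟩

theorem mem_symm {ω ω' : Ω} (h : ω' ∈ R.cl ω) : ω ∈ R.cl ω' :=
  R.cl_eq_iff.1 (R.eq_of_mem h).symm

/-- A union of classes. -/
def Inv (Φ : Set Ω) : Prop := ∀ ω ∈ Φ, R.cl ω ⊆ Φ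

theorem inv_univ : R.Inv Set.univ := fun _ _ => Set.subset_univ _

theorem ncard_cl_pos [Finite Ω] (ω : Ω) : 0 < (R.cl ω).ncard :=
  (Set.ncard_pos (Set.toFinite _)).2 ⟨ω, R.self_mem ω⟩

theorem ncard_image_cl [Finite Ω] (s : Finset Ω) (hs : R.Inv s) :
    ((R.cl '' s).ncard : ℚ) = ∑ ω ∈ s, ((R.cl ω).ncard : ℚ)⁻¹ := by
  classical
  rw [← Finset.sum_fiberwise_of_maps_to (t := s.image R.cl) (g := R.cl)
    (fun x hx => Finset.mem_image_of_mem _ hx)]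
  rw [← Finset.coe_image, Set.ncard_coe_finset, Finset.card_eq_sum_ones, Nat.cast_sum]
  refine Finset.sum_congr rfl fun O hO => ?_
  obtain ⟨ω, hω, rfl⟩ := Finset.mem_image.1 hO
  rw [Finset.sum_congr rfl (g := fun _ => ((R.cl ω).ncard : ℚ)⁻¹)
    fun ω' h => by rw [(Finset.mem_filter.1 h).2], Finset.sum_const, nsmul_eq_mul]
  have : ((s.filter fun ω' => R.cl ω' = R.cl ω : Finset Ω) : Set Ω) = R.cl ω := by
    ext ω'
    simp only [Finset.coe_filter, Set.mem_ofPred_eq, R.cl_eq_iff]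
    exact ⟨fun h => h.2, fun h => ⟨hs ω hω h, h⟩⟩
  rw [← Set.ncard_coe_finset, this, mul_inv_cancel₀ (by exact_mod_cast (R.ncard_cl_pos ω).ne')]
  simp

/-- If all classes in `Φ` have at most `k` points then `|Φ| ≤ k * #classes`. -/
theorem ncard_le_mul [Finite Ω] {Φ : Set Ω} (hΦ : R.Inv Φ) {k : ℕ}
    (h : ∀ ω ∈ Φ, (R.cl ω).ncard ≤ k) : Φ.ncard ≤ k * (R.cl '' Φ).ncard := by
  classical
  have := Fintype.ofFinite Ω
  have h1 := R.ncard_image_cl Φ.toFinset (by simpa using hΦ)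
  rw [Set.coe_toFinset] at h1
  have h2 : (Φ.ncard : ℚ) ≤ k * (R.cl '' Φ).ncard := by
    rw [h1, Finset.mul_sum, Set.ncard_eq_toFinset_card', Finset.card_eq_sum_ones, Nat.cast_sum]
    refine Finset.sum_le_sum fun ω hω => ?_
    have h3 : (0 : ℚ) < (R.cl ω).ncard := by exact_mod_cast R.ncard_cl_pos ω
    rw [← div_eq_mul_inv, le_div_iff₀ h3, Nat.cast_one, one_mul]
    exact_mod_cast h ω (Set.mem_toFinset.1 hω)
  exact_mod_cast h2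

variable (Y : Ω → Set I)

/-- The number of classes inside `Φ` carrying the label `i`. -/
noncomputable def mu (Φ : Set Ω) (i : I) : ℕ := (R.cl '' {ω | ω ∈ Φ ∧ i ∈ Y ω}).ncard

theorem sum_mu [Finite Ω] [Fintype I] (hY : ∀ ω, ∀ ω' ∈ R.cl ω, Y ω' = Y ω) {k : ℕ}
    (hk : ∀ ω, (Y ω).ncard = k * (R.cl ω).ncard) {Φ : Set Ω} (hΦ : R.Inv Φ) :
    ∑ i, R.mu Y Φ i = k * Φ.ncard := by
  classical
  have := Fintype.ofFinite Ω
  have h1 : ∀ i, (R.mu Y Φ i : ℚ) =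
      ∑ ω ∈ Φ.toFinset, if i ∈ Y ω then ((R.cl ω).ncard : ℚ)⁻¹ else 0 := by
    intro i
    rw [← Finset.sum_filter, ← R.ncard_image_cl]
    · rw [mu]
      congr 3
      ext ω
      simp
    · intro ω hω ω' hω'
      simp only [Finset.coe_filter, Set.mem_toFinset, Set.mem_ofPred_eq] at hω ⊢
      exact ⟨hΦ ω hω.1 hω', by rw [hY ω ω' hω']; exact hω.2⟩
  have h2 : ∑ i, (R.mu Y Φ i : ℚ) = k * Φ.ncard := by
    rw [Finset.sum_congr rfl fun i _ => h1 i, Finset.sum_comm,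
      Finset.sum_congr rfl (g := fun _ => (k : ℚ)), Finset.sum_const, nsmul_eq_mul,
      Set.ncard_eq_toFinset_card', mul_comm]
    intro ω _
    rw [← Finset.sum_filter, Finset.sum_const, nsmul_eq_mul]
    have h3 : (Finset.univ.filter fun i => i ∈ Y ω).card = (Y ω).ncard := by
      rw [← Set.ncard_coe_finset]
      congr 1
      ext i
      simp
    have h5 : ((R.cl ω).ncard : ℚ) ≠ 0 := by exact_mod_cast (R.ncard_cl_pos ω).ne'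
    rw [h3, hk, Nat.cast_mul, mul_assoc, mul_inv_cancel₀ h5, mul_one]
  exact_mod_cast h2

/-- Values of a class invariant bound the multiplicity below. -/
theorem ncard_le_mu [Finite Ω] {Φ : Set Ω} {i : I} {J : Type*} (ι : Ω → J)
    (hι : ∀ ω, ∀ ω' ∈ R.cl ω, ι ω' = ι ω) (S : Set J)
    (h : ∀ j ∈ S, ∃ ω ∈ Φ, i ∈ Y ω ∧ ι ω = j) : S.ncard ≤ R.mu Y Φ i := by
  classical
  rcases S.eq_empty_or_nonempty with rfl | ⟨j₀, -⟩
  · simp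
  refine le_trans ?_ (Set.ncard_image_le (f := fun O : Set Ω =>
    if hO : O.Nonempty then ι hO.some else j₀) (Set.toFinite _))
  refine Set.ncard_le_ncard (fun j hj => ?_) (Set.toFinite _)
  obtain ⟨ω, hω, hl, rfl⟩ := h j hj
  refine ⟨R.cl ω, ⟨ω, ⟨hω, hl⟩, rfl⟩, ?_⟩
  have hne : (R.cl ω).Nonempty := ⟨ω, R.self_mem ω⟩
  simp only [dif_pos hne]
  exact hι ω _ hne.some_mem

theorem one_le_mu [Finite Ω] {Φ : Set Ω} {i : I} {ω : Ω} (hω : ω ∈ Φ) (hl : i ∈ Y ω) :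
    1 ≤ R.mu Y Φ i :=
  (Set.ncard_pos (Set.toFinite _)).2 ⟨_, ω, ⟨hω, hl⟩, rfl⟩

theorem two_le_mu [Finite Ω] {Φ : Set Ω} {i : I} {ω ω' : Ω} (hω : ω ∈ Φ) (hω' : ω' ∈ Φ)
    (hl : i ∈ Y ω) (hl' : i ∈ Y ω') (hne : ω' ∉ R.cl ω) : 2 ≤ R.mu Y Φ i := by
  rw [mu, Nat.succ_le_iff, Set.one_lt_ncard (Set.toFinite _)]
  exact ⟨_, ⟨ω', ⟨hω', hl'⟩, rfl⟩, _, ⟨ω, ⟨hω, hl⟩, rfl⟩, fun h => hne (R.cl_eq_iff.1 h)⟩

theorem three_le_mu [Finite Ω] {Φ : Set Ω} {i : I} {ω₁ ω₂ ω₃ : Ω} (h₁ : ω₁ ∈ Φ) (h₂ : ω₂ ∈ Φ)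
    (h₃ : ω₃ ∈ Φ) (l₁ : i ∈ Y ω₁) (l₂ : i ∈ Y ω₂) (l₃ : i ∈ Y ω₃) (n₁₂ : ω₂ ∉ R.cl ω₁)
    (n₁₃ : ω₃ ∉ R.cl ω₁) (n₂₃ : ω₃ ∉ R.cl ω₂) : 3 ≤ R.mu Y Φ i := by
  rw [mu, Nat.succ_le_iff, Set.two_lt_ncard (Set.toFinite _)]
  exact ⟨_, ⟨ω₁, ⟨h₁, l₁⟩, rfl⟩, _, ⟨ω₂, ⟨h₂, l₂⟩, rfl⟩, _, ⟨ω₃, ⟨h₃, l₃⟩, rfl⟩,
    fun h => n₁₂ (R.cl_eq_iff.1 h.symm), fun h => n₁₃ (R.cl_eq_iff.1 h.symm),
    fun h => n₂₃ (R.cl_eq_iff.1 h.symm)⟩

theorem mem_cl_of_mu_le_one [Finite Ω] {Φ : Set Ω} {i : I} (h : R.mu Y Φ i ≤ 1) {ω ω' : Ω}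
    (hω : ω ∈ Φ) (hω' : ω' ∈ Φ) (hl : i ∈ Y ω) (hl' : i ∈ Y ω') : ω' ∈ R.cl ω := by
  by_contra hne
  have := R.two_le_mu Y hω hω' hl hl' hne
  omega

theorem exists_of_mu_pos {Φ : Set Ω} {i : I} (h : 0 < R.mu Y Φ i) : ∃ ω ∈ Φ, i ∈ Y ω := by
  obtain ⟨_, ω, hω, -⟩ := Set.nonempty_of_ncard_ne_zero h.ne'
  exact ⟨ω, hω⟩

theorem exists_two_of_two_le [Finite Ω] {Φ : Set Ω} {i : I} (h : 2 ≤ R.mu Y Φ i) :
    ∃ ω ∈ Φ, ∃ ω' ∈ Φ, i ∈ Y ω ∧ i ∈ Y ω' ∧ ω' ∉ R.cl ω := by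
  rw [mu, Nat.succ_le_iff, Set.one_lt_ncard (Set.toFinite _)] at h
  obtain ⟨_, ⟨ω, h1, rfl⟩, _, ⟨ω', h2, rfl⟩, hne⟩ := h
  exact ⟨ω, h1.1, ω', h2.1, h1.2, h2.2, fun h => hne (R.eq_of_mem h).symm⟩

theorem mu_le_mu [Finite Ω] {Φ Φ' : Set Ω} {i i' : I}
    (h : ∀ ω ∈ Φ, i ∈ Y ω → ω ∈ Φ' ∧ i' ∈ Y ω) : R.mu Y Φ i ≤ R.mu Y Φ' i' :=
  Set.ncard_le_ncard (Set.image_mono fun ω hω => h ω hω.1 hω.2) (Set.toFinite _)

theorem mu_eq_ncard {Φ : Set Ω} {i : I} (h : ∀ ω ∈ Φ, i ∈ Y ω) :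
    R.mu Y Φ i = (R.cl '' Φ).ncard := by
  rw [mu]
  congr 2
  ext ω
  exact ⟨fun h' => h'.1, fun h' => ⟨h', h ω h'⟩⟩

/-- Transport of multiplicities along a map which respects the classes. -/
theorem mu_le_of_map {Ω' I' : Type*} [Finite Ω'] (R' : Parts Ω') (Y' : Ω' → Set I') (f : Ω → Ω')
    (hf : ∀ ω ω', f ω' ∈ R'.cl (f ω) → ω' ∈ R.cl ω) {Φ : Set Ω} {Φ' : Set Ω'} {i : I} {i' : I'}
    (h : ∀ ω ∈ Φ, i ∈ Y ω → f ω ∈ Φ' ∧ i' ∈ Y' (f ω)) : R.mu Y Φ i ≤ R'.mu Y' Φ' i' := by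
  classical
  rw [mu, mu]
  refine Set.ncard_le_ncard_of_injOn (fun O =>
    if hO : O ∈ R.cl '' {ω | ω ∈ Φ ∧ i ∈ Y ω} then R'.cl (f hO.choose) else ∅)
    (fun O hO => ?_) (fun O hO O' hO' he => ?_) (Set.toFinite _)
  · simp only [dif_pos hO]
    exact ⟨_, h _ hO.choose_spec.1.1 hO.choose_spec.1.2, rfl⟩
  · simp only [dif_pos hO, dif_pos hO'] at he
    rw [← hO.choose_spec.2, ← hO'.choose_spec.2]
    exact R.cl_eq_iff.2 (hf _ _ (R'.cl_eq_iff.1 he))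

end Parts

/-- The pairing `ψ (x y)` on a field. -/
noncomputable def mulPairing {F : Type*} [Field F] {ψ : AddChar F ℂ} (hψ : ψ ≠ 1) : Pairing F F :=
  Pairing.ofForm ψ (fun x y => x * y) add_mul mul_add fun _ h =>
    CL.LS.eq_zero_of_forall_psi hψ fun t => by rw [mul_comm]; exact h t

/-- If the stabiliser of a point of a transitive `G`-set fixes a point of a second `G`-set then
the orbit of the latter is no larger. -/
theorem ncard_orbit_le_card {G Ω X : Type*} [Group G] [MulAction G Ω] [MulAction G X] [Finite Ω]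
    [MulAction.IsPretransitive G Ω] (ω : Ω) (x : X) (h : ∀ g : G, g • ω = ω → g • x = x) :
    (MulAction.orbit G x).ncard ≤ Nat.card Ω := by
  rw [← MulAction.index_stabilizer, ← MulAction.index_stabilizer_of_transitive G ω]
  have : (MulAction.stabilizer G ω).FiniteIndex := ⟨by
    rw [MulAction.index_stabilizer_of_transitive]
    have : Nonempty Ω := ⟨ω⟩
    exact Nat.card_pos.ne'⟩
  exact Subgroup.index_antitone h

end CL.MinDeg
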