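/-
Counting engine for minimal permutation degrees: annihilators for a perfect pairing of finite abelian groups,
orbits of an abelian group, fibre counting and double counting.
-/
import Cfsg.Agent.Base

set_option autoImplicit false
set_option linter.unusedSectionVars false

open Finset

namespace CL.MinD

/-- A perfect pairing of two additive groups with values in `ℂ`. -/
structure Pairing (E' E : Type*) [AddCommGroup E'] [AddCommGroup E] where
  χ : E' → E → ℂ
  add_left : ∀ a a' b, χ (a + a') b = χ a b * χ a' b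
  add_right : ∀ a b b', χ a (b + b') = χ a b * χ a b'
  zero_left : ∀ b, χ 0 b = 1
  zero_right : ∀ a, χ a 0 = 1
  nd_left : ∀ a, (∀ b, χ a b = 1) → a = 0
  nd_right : ∀ b, (∀ a, χ a b = 1) → b = 0

namespace Pairing

variable {E' E : Type*} [AddCommGroup E'] [AddCommGroup E] (P : Pairing E' E)

/-- The flipped pairing. -/
def flip : Pairing E E' where
  χ b a := P.χ a b
  add_left b b' a := P.add_right a b b'
  add_right b a a' := P.add_left a a' b
  zero_left := P.zero_right
  zero_right := P.zero_left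
  nd_left := P.nd_right
  nd_right := P.nd_left

/-- The annihilator of a subgroup. -/
def ann (S : AddSubgroup E) : AddSubgroup E' where
  carrier := {a | ∀ b ∈ S, P.χ a b = 1}
  zero_mem' b _ := P.zero_left b
  add_mem' {a a'} ha ha' b hb := by rw [P.add_left, ha b hb, ha' b hb, mul_one]
  neg_mem' {a} ha b hb := by
    have h := P.add_left a (-a) b
    rw [add_neg_cancel, P.zero_left, ha b hb, one_mul] at h
    exact h.symm

variable {P}

theorem mem_ann {S : AddSubgroup E} {a : E'} : a ∈ P.ann S ↔ ∀ b ∈ S, P.χ a b = 1 := Iff.rfl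

theorem ann_anti {S T : AddSubgroup E} (h : S ≤ T) : P.ann T ≤ P.ann S := fun _ ha b hb => ha b (h hb)

theorem le_ann_ann (S : AddSubgroup E) : S ≤ P.flip.ann (P.ann S) := fun b hb _ ha => ha b hb

theorem ann_top : P.ann ⊤ = ⊥ :=
  eq_bot_iff.2 fun a ha => (AddSubgroup.mem_bot).2 (P.nd_left a fun b => ha b trivial)

theorem ann_bot : P.ann ⊥ = ⊤ :=
  eq_top_iff.2 fun a _ b hb => by rw [AddSubgroup.mem_bot.1 hb, P.zero_right]

variable (P) [Finite E'] [Finite E]

theorem card_mul_card_ann (S : AddSubgroup E) : Nat.card S * Nat.card (P.ann S) = Nat.card E' := by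
  classical
  have := Fintype.ofFinite E'
  have := Fintype.ofFinite E
  have h1 : ∀ b : S, ∑ a : E', P.χ a b = if b = 0 then (Fintype.card E' : ℂ) else 0 := by
    intro b
    let ψ : AddChar E' ℂ :=
      { toFun := fun a => P.χ a b, map_zero_eq_one' := P.zero_left b, map_add_eq_mul' := fun a a' => P.add_left a a' b }
    have h := AddChar.sum_eq_ite ψ
    change ∑ a : E', ψ a = _
    rw [h]
    by_cases hb : b = 0
    · rw [if_pos hb, if_pos]
      ext a
      change P.χ a b = 1
      rw [hb]; exact P.zero_right a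
    · rw [if_neg hb, if_neg]
      intro h0
      apply hb
      apply Subtype.ext
      apply P.nd_right
      intro a
      exact DFunLike.congr_fun h0 a
  have h2 : ∀ a : E', ∑ b : S, P.χ a b = if a ∈ P.ann S then (Fintype.card S : ℂ) else 0 := by
    intro a
    let ψ : AddChar S ℂ :=
      { toFun := fun b => P.χ a b, map_zero_eq_one' := P.zero_right a,
        map_add_eq_mul' := fun b b' => P.add_right a b b' }
    have h := AddChar.sum_eq_ite ψ
    change ∑ b : S, ψ b = _
    rw [h]
    by_cases ha : a ∈ P.ann S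
    · rw [if_pos ha, if_pos]
      ext b
      exact ha b b.2
    · rw [if_neg ha, if_neg]
      intro h0
      exact ha fun b hb => DFunLike.congr_fun h0 ⟨b, hb⟩
  have h3 : ∑ b : S, ∑ a : E', P.χ a b = ∑ a : E', ∑ b : S, P.χ a b := Finset.sum_comm
  simp only [h1, h2, Finset.sum_ite_eq', Finset.mem_univ, if_true] at h3
  rw [← Finset.sum_filter, Finset.sum_const, nsmul_eq_mul] at h3
  have h4 : (univ.filter (· ∈ P.ann S)).card = Nat.card (P.ann S) := by
    rw [Nat.card_eq_fintype_card, Fintype.card_subtype]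
  rw [h4] at h3
  rw [Nat.card_eq_fintype_card (α := E'), Nat.card_eq_fintype_card (α := S), mul_comm]
  exact_mod_cast h3.symm

include P in
theorem card_eq : Nat.card E = Nat.card E' := by
  have h := P.card_mul_card_ann ⊤
  rwa [ann_top, AddSubgroup.card_bot, mul_one, AddSubgroup.card_top] at h

theorem ann_ann (S : AddSubgroup E) : P.flip.ann (P.ann S) = S := by
  symm
  apply AddSubgroup.eq_of_le_of_card_ge (le_ann_ann S)
  have h1 := P.card_mul_card_ann S
  have h2 := P.flip.card_mul_card_ann (P.ann S)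
  rw [P.card_eq, ← h1, mul_comm] at h2
  exact (Nat.eq_of_mul_eq_mul_right Nat.card_pos h2).le

theorem ann_injective : Function.Injective P.ann := fun S T h => by
  rw [← P.ann_ann S, h, P.ann_ann]

theorem ann_eq_bot_iff {S : AddSubgroup E} : P.ann S = ⊥ ↔ S = ⊤ := by
  rw [← ann_top (P := P), P.ann_injective.eq_iff]

theorem ann_eq_top_iff {S : AddSubgroup E} : P.ann S = ⊤ ↔ S = ⊥ := by
  rw [← ann_bot (P := P), P.ann_injective.eq_iff]

theorem mem_of_ann {S : AddSubgroup E} {b : E} (h : ∀ a ∈ P.ann S, P.χ a b = 1) : b ∈ S := by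
  rw [← P.ann_ann S]; exact h

end Pairing

/-- A nontrivial additive character of a finite field. -/
theorem exists_addChar (F : Type*) [Field F] [Finite F] :
    ∃ ψ : AddChar F ℂ, ∀ a : F, (∀ c : F, ψ (c * a) = 1) → a = 0 := by
  classical
  have := Fintype.ofFinite F
  have h : (1 : F) ≠ 0 := one_ne_zero
  obtain ⟨ψ, hψ⟩ := (AddChar.exists_apply_ne_zero (α := F) (a := 1)).2 h
  refine ⟨ψ, fun a ha => by_contra fun h0 => hψ ?_⟩
  have := ha a⁻¹
  rwa [inv_mul_cancel₀ h0] at this

section Orbit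

variable {E G Ω : Type*} [AddCommGroup E] [Group G] [MulAction G Ω]

/-- The stabiliser of a point in an additive group mapping homomorphically into `G`. -/
def stab (a : E → G) (ha : ∀ x y, a (x + y) = a x * a y) (ω : Ω) : AddSubgroup E where
  carrier := {e | a e • ω = ω}
  zero_mem' := by
    have h := ha 0 0
    rw [add_zero, left_eq_mul] at h
    change a 0 • ω = ω
    rw [h, one_smul]
  add_mem' {x y} hx hy := by
    change a (x + y) • ω = ω
    rw [ha, mul_smul, hy, hx]
  neg_mem' {x} hx := by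
    have h := ha 0 0
    rw [add_zero, left_eq_mul] at h
    have h' := ha (-x) x
    rw [neg_add_cancel, h] at h'
    change a (-x) • ω = ω
    have hx' : a x • ω = ω := hx
    conv_lhs => rw [← hx', ← mul_smul, ← h', one_smul]

variable {a : E → G} {ha : ∀ x y, a (x + y) = a x * a y}

theorem mem_stab {ω : Ω} {e : E} : e ∈ stab a ha ω ↔ a e • ω = ω := Iff.rfl

include ha in
theorem hom_zero : a 0 = 1 := by
  have h := ha 0 0
  rwa [add_zero, left_eq_mul] at h

theorem stab_smul (e : E) (ω : Ω) : stab a ha (a e • ω) = stab a ha ω := by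
  ext x
  rw [mem_stab, mem_stab, ← mul_smul, ← ha, add_comm, ha, mul_smul, smul_left_cancel_iff]

theorem smul_eq_smul_iff {ω : Ω} {x y : E} : a x • ω = a y • ω ↔ x - y ∈ stab a ha ω := by
  rw [mem_stab, ← smul_left_cancel_iff (a y) (x := a (x - y) • ω), ← mul_smul, ← ha, add_sub_cancel]

variable (a ha) in
theorem ncard_orb_mul [Finite E] (ω : Ω) :
    (Set.range fun e => a e • ω).ncard * Nat.card (stab a ha ω) = Nat.card E := by
  rw [AddSubgroup.card_eq_card_quotient_mul_card_addSubgroup (stab a ha ω)]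
  congr 1
  have hl : ∀ x y : E, (QuotientAddGroup.leftRel (stab a ha ω)) x y → a x • ω = a y • ω := by
    intro x y h
    rw [QuotientAddGroup.leftRel_apply] at h
    symm
    rw [smul_eq_smul_iff (ha := ha)]
    rwa [neg_add_eq_sub] at h
  let φ : E ⧸ stab a ha ω → Ω := Quotient.lift (fun e => a e • ω) hl
  have hφ : Function.Injective φ := by
    intro x y
    induction x using QuotientAddGroup.induction_on
    induction y using QuotientAddGroup.induction_on
    intro h
    rw [QuotientAddGroup.eq, neg_add_eq_sub, ← smul_eq_smul_iff (ha := ha)]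
    exact h.symm
  have hr : (Set.range fun e => a e • ω) = Set.range φ := by
    ext z
    constructor
    · rintro ⟨e, rfl⟩; exact ⟨(e : E ⧸ stab a ha ω), rfl⟩
    · rintro ⟨x, rfl⟩
      induction x using QuotientAddGroup.induction_on with
      | H e => exact ⟨e, rfl⟩
  rw [hr, Set.ncard_range_of_injective hφ]

theorem ncard_orb_eq_card_ann {E' : Type*} [AddCommGroup E'] [Finite E'] [Finite E] (P : Pairing E' E) (ω : Ω) :
    (Set.range fun e => a e • ω).ncard = Nat.card (P.ann (stab a ha ω)) := by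
  have h1 := ncard_orb_mul a ha ω
  rw [P.card_eq, ← P.card_mul_card_ann (stab a ha ω), mul_comm] at h1
  exact Nat.eq_of_mul_eq_mul_left Nat.card_pos h1

end Orbit

section Fibres

variable {Ω α β : Type*}

theorem sum_ncard_fib_le {Φ : Set Ω} (hΦ : Φ.Finite) (φ : Ω → α) (T : Finset α) :
    ∑ t ∈ T, {ω ∈ Φ | φ ω = t}.ncard ≤ Φ.ncard := by
  classical
  rw [Set.ncard_eq_toFinset_card Φ hΦ]
  have h : ∀ t, {ω ∈ Φ | φ ω = t}.ncard = (hΦ.toFinset.filter (φ · = t)).card := by
    intro t
    rw [← Set.ncard_coe_finset]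
    congr 1
    ext ω; simp
  simp only [h]
  have h2 := Finset.sum_card_fiberwise_eq_card_filter hΦ.toFinset T φ
  calc _ = _ := by convert h2
    _ ≤ _ := Finset.card_filter_le _ _

theorem sum_le_ncard {Φ : Set Ω} (hΦ : Φ.Finite) (φ : Ω → α) (T : Finset α) (w : α → ℕ)
    (hw : ∀ t ∈ T, w t ≤ {ω ∈ Φ | φ ω = t}.ncard) : ∑ t ∈ T, w t ≤ Φ.ncard :=
  (Finset.sum_le_sum hw).trans (sum_ncard_fib_le hΦ φ T)

open Classical in
/-- Weighted double counting. -/
theorem card_mul_le_sum (𝒜 : Finset α) (X : Finset β) (R : α → β → Prop) (w : α → ℕ) (m : ℕ)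
    (h : ∀ x ∈ X, m ≤ ∑ A ∈ 𝒜.filter (R · x), w A) :
    X.card * m ≤ ∑ A ∈ 𝒜, w A * (X.filter (R A)).card := by
  calc X.card * m = ∑ x ∈ X, m := by rw [Finset.sum_const, smul_eq_mul]
    _ ≤ ∑ x ∈ X, ∑ A ∈ 𝒜.filter (R · x), w A := Finset.sum_le_sum h
    _ = ∑ x ∈ X, ∑ A ∈ 𝒜, if R A x then w A else 0 := by simp only [Finset.sum_filter]
    _ = ∑ A ∈ 𝒜, ∑ x ∈ X, if R A x then w A else 0 := Finset.sum_comm
    _ = _ := by
      refine Finset.sum_congr rfl fun A _ => ?_
      rw [← Finset.sum_filter, Finset.sum_const, smul_eq_mul, mul_comm]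

open Classical in
theorem card_filter_mem_succ_le {E : Type*} [AddCommGroup E] [Finite E] (A : AddSubgroup E) (X : Finset E)
    (h0 : (0 : E) ∉ X) : (X.filter (· ∈ A)).card + 1 ≤ Nat.card A := by
  have h1 : (0 : E) ∉ X.filter (· ∈ A) := fun h => h0 (Finset.mem_filter.1 h).1
  rw [← Finset.card_insert_of_notMem h1, ← Set.ncard_coe_finset]
  change _ ≤ Nat.card (A : Set E)
  rw [Nat.card_coe_set_eq]
  apply Set.ncard_le_ncard _ (Set.toFinite _)
  intro x hx
  rcases Finset.mem_insert.1 (Finset.mem_coe.1 hx) with rfl | hx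
  · exact A.zero_mem
  · exact (Finset.mem_filter.1 hx).2

open Classical in
/-- If every element of `X` lies in at least `m` members of a family of subgroups. -/
theorem card_mul_add_le_sum {E : Type*} [AddCommGroup E] [Finite E] (𝒜 : Finset (AddSubgroup E)) (X : Finset E)
    (h0 : (0 : E) ∉ X) (m : ℕ) (h : ∀ x ∈ X, m ≤ (𝒜.filter (x ∈ ·)).card) :
    X.card * m + 𝒜.card ≤ ∑ A ∈ 𝒜, Nat.card A := by
  have h1 := card_mul_le_sum 𝒜 X (fun A x => x ∈ A) (fun _ => 1) m fun x hx => by
    rw [← Finset.card_eq_sum_ones]; convert h x hx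
  simp only [one_mul] at h1
  calc X.card * m + 𝒜.card ≤ ∑ A ∈ 𝒜, (X.filter (· ∈ A)).card + ∑ A ∈ 𝒜, 1 := by
        rw [← Finset.card_eq_sum_ones]; exact Nat.add_le_add_right (by convert h1) _
    _ = ∑ A ∈ 𝒜, ((X.filter (· ∈ A)).card + 1) := Finset.sum_add_distrib.symm
    _ ≤ _ := Finset.sum_le_sum fun A _ => card_filter_mem_succ_le A X h0

end Fibres

section Nested

variable {E E' G Ω : Type*} [AddCommGroup E] [AddCommGroup E'] [Finite E] [Finite E'] [Group G] [MulAction G Ω]
  {a : E → G} {ha : ∀ x y, a (x + y) = a x * a y}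

/-- The fibre of `ω ↦ ann (stab ω)` through `ω` contains the orbit of `ω`. -/
theorem card_ann_le_fib (P : Pairing E' E) {Φ : Set Ω} (hΦ : Φ.Finite) (hinv : ∀ e, ∀ ω ∈ Φ, a e • ω ∈ Φ)
    {ω : Ω} (hω : ω ∈ Φ) :
    Nat.card (P.ann (stab a ha ω)) ≤ {ω' ∈ Φ | P.ann (stab a ha ω') = P.ann (stab a ha ω)}.ncard := by
  rw [← ncard_orb_eq_card_ann P ω]
  apply Set.ncard_le_ncard _ (hΦ.subset fun _ h => h.1)
  rintro _ ⟨e, rfl⟩
  exact ⟨hinv e ω hω, by rw [stab_smul]⟩

/-- If an abelian group acts on a nonempty finite set and every element of `Y` annihilates some stabiliser,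
the set has more than `|Y|` points. -/
theorem card_succ_le_of_ann (P : Pairing E' E) {Φ : Set Ω} (hΦ : Φ.Finite) (hne : Φ.Nonempty)
    (hinv : ∀ e, ∀ ω ∈ Φ, a e • ω ∈ Φ) (Y : Finset E') (h0 : (0 : E') ∉ Y)
    (hY : ∀ y ∈ Y, ∃ ω ∈ Φ, y ∈ P.ann (stab a ha ω)) : Y.card + 1 ≤ Φ.ncard := by
  classical
  let 𝒜 : Finset (AddSubgroup E') := hΦ.toFinset.image fun ω => P.ann (stab a ha ω)
  have h1 := card_mul_add_le_sum 𝒜 Y h0 1 fun y hy => by
    obtain ⟨ω, hω, h⟩ := hY y hy
    exact Finset.card_pos.2 ⟨_, Finset.mem_filter.2 ⟨Finset.mem_image_of_mem _ (hΦ.mem_toFinset.2 hω), h⟩⟩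
  have h2 := sum_le_ncard hΦ (fun ω => P.ann (stab a ha ω)) 𝒜 (fun A => Nat.card A) fun A hA => by
    obtain ⟨ω, hω, rfl⟩ := Finset.mem_image.1 hA
    exact card_ann_le_fib P hΦ hinv (hΦ.mem_toFinset.1 hω)
  have h3 : 1 ≤ 𝒜.card := by
    obtain ⟨ω, hω⟩ := hne
    exact Finset.card_pos.2 ⟨_, Finset.mem_image_of_mem _ (hΦ.mem_toFinset.2 hω)⟩
  omega

end Nested

section Index

variable {G : Type*} [Group G]

/-- Reduction of a lower bound for indices in a quotient to actions without fixed points. -/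
theorem le_index_of_action [Finite G] {K : Type*} [Group K] (π : G →* K) (hπ : Function.Surjective π) {M : ℕ}
    (h : ∀ H : Subgroup G, H ≠ ⊤ → M ≤ H.index) (H : Subgroup K) (hH : H ≠ ⊤) : M ≤ H.index := by
  rw [← Subgroup.index_comap_of_surjective H hπ]
  apply h
  intro h0
  apply hH
  rw [eq_top_iff]
  intro k _
  obtain ⟨g, rfl⟩ := hπ k
  have : g ∈ H.comap π := by rw [h0]; trivial
  exact this

theorem exists_index_of_ker_le {K : Type*} [Group K] (π : G →* K) (hπ : Function.Surjective π) (H : Subgroup G)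
    (hH : π.ker ≤ H) : ∃ H' : Subgroup K, H'.index = H.index :=
  ⟨H.map π, Subgroup.index_map_eq H hπ hH⟩

theorem stabilizer_ne_top_quot {H : Subgroup G} (hH : H ≠ ⊤) (ω : G ⧸ H) : MulAction.stabilizer G ω ≠ ⊤ := by
  intro h
  apply hH
  induction ω using QuotientGroup.induction_on with
  | H g =>
    rw [eq_top_iff]
    intro x _
    have h1 : g * x * g⁻¹ ∈ MulAction.stabilizer G (g : G ⧸ H) := by rw [h]; trivial
    rw [MulAction.mem_stabilizer_iff, MulAction.Quotient.smul_mk, QuotientGroup.eq] at h1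
    simpa [mul_assoc] using H.inv_mem h1

end Index

end CL.MinD
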