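/-
Minimal degrees of orthogonal groups, I: counting vectors of a given length and auxiliary geometry.
-/
import Cfsg.Agent.Known.MinDegCnt
import Cfsg.Agent.Cls.OrthMaxSubMat
import Cfsg.Agent.Cls.OrthCount

set_option autoImplicit false
set_option linter.unusedSectionVars false

open QuadraticMap Module CL.Cls

namespace CL.MinD

variable {F V : Type*} [Field F] [Fintype F] [AddCommGroup V] [Module F V] [FiniteDimensional F V]
  {Q : QuadraticForm F V}

theorem finite_space (F V : Type*) [Field F] [Fintype F] [AddCommGroup V] [Module F V] [FiniteDimensional F V] :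
    Finite V := Module.finite_of_finite F

theorem card_sub (W : Submodule F V) : Nat.card W = Fintype.card F ^ finrank F W := by
  rw [Module.natCard_eq_pow_finrank (K := F), Nat.card_eq_fintype_card]

theorem card_space : Nat.card V = Fintype.card F ^ finrank F V := by
  rw [Module.natCard_eq_pow_finrank (K := F), Nat.card_eq_fintype_card]

theorem card_toAddSubgroup (W : Submodule F V) : Nat.card W.toAddSubgroup = Fintype.card F ^ finrank F W :=
  card_sub W

/-- The number of vectors of `W` with given value of `Q`. -/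
noncomputable def nv (Q : QuadraticForm F V) (W : Submodule F V) (c : F) : ℕ := {v | v ∈ W ∧ Q v = c}.ncard

theorem nv_top (c : F) : nv Q ⊤ c = Nat.card {v // Q v = c} := by
  unfold nv
  simp only [Submodule.mem_top, true_and]
  rfl

theorem nv_restrict (W : Submodule F V) (c : F) : nv (Q.restrict W) ⊤ c = nv Q W c := by
  unfold nv
  rw [← Set.ncard_image_of_injective _ W.subtype_injective]
  congr 1
  ext v
  constructor
  · rintro ⟨w, hw, rfl⟩; exact ⟨w.2, hw.2⟩
  · rintro ⟨h1, h2⟩; exact ⟨⟨v, h1⟩, ⟨trivial, h2⟩, rfl⟩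

theorem one_le_nv_zero (W : Submodule F V) : 1 ≤ nv Q W 0 := by
  have := finite_space F V
  exact (Set.ncard_pos (Set.toFinite _)).2 ⟨0, W.zero_mem, map_zero Q⟩

theorem nv_hypC {W : Submodule F V} {e f : V} (h : IsHyp Q e f) (he : e ∈ W) (hf : f ∈ W) (c : F) :
    nv Q W c = Fintype.card F * nv Q (hypC Q W e f) c +
      (Fintype.card F - 1) * Fintype.card F ^ finrank F (hypC Q W e f) := by
  have := finite_space F V
  have h1 := card_zeros_hyp_add (F := F) 1 (W := hypC Q W e f) (fun w => Q w - c)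
  rw [pow_one, Nat.sub_self, pow_zero, one_mul, card_sub] at h1
  have h2 : Nat.card {w : hypC Q W e f // Q w - c = 0} = nv Q (hypC Q W e f) c := by
    rw [← nv_restrict, nv_top]
    exact Nat.card_congr (Equiv.subtypeEquivRight fun w => sub_eq_zero)
  rw [← h2, ← h1]
  unfold nv
  rw [← Nat.card_coe_set_eq]
  refine Nat.card_congr
    { toFun := fun v => ⟨(fun _ => polar Q f v.1, fun _ => polar Q e v.1,
        ⟨v.1 - polar Q f v.1 • e - polar Q e v.1 • f, h.proj_mem he hf v.2.1⟩), ?_⟩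
      invFun := fun p => ⟨p.1.1 0 • e + p.1.2.1 0 • f + p.1.2.2, ?_, ?_⟩
      left_inv := fun v => Subtype.ext (by simp)
      right_inv := fun p => ?_ }
  · have hw := mem_hypC.1 (h.proj_mem he hf v.2.1)
    have h3 := h.map_comb_add (polar Q f v.1) (polar Q e v.1) hw.2.1 hw.2.2
    have h4 : polar Q f v.1 • e + polar Q e v.1 • f + (v.1 - polar Q f v.1 • e - polar Q e v.1 • f) = v.1 := by
      abel
    rw [h4, v.2.2] at h3
    simp only [Finset.univ_unique, Finset.sum_singleton]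
    linear_combination -h3
  · exact W.add_mem (W.add_mem (W.smul_mem _ he) (W.smul_mem _ hf)) (hypC_le p.1.2.2.2)
  · have hw := mem_hypC.1 p.1.2.2.2
    have h3 := p.2
    simp only [Finset.univ_unique, Finset.sum_singleton, Fin.default_eq_zero] at h3
    rw [h.map_comb_add _ _ hw.2.1 hw.2.2]
    linear_combination h3
  · obtain ⟨⟨a, b, w⟩, hp⟩ := p
    have hw := mem_hypC.1 w.2
    have h3 : polar Q f (a 0 • e + b 0 • f + w) = a 0 := by
      simp [polar_add_right, polar_smul_right, h.polar_eq', h.polar_right, hw.2.2]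
    have h4 : polar Q e (a 0 • e + b 0 • f + w) = b 0 := by
      simp [polar_add_right, polar_smul_right, h.polar_eq, h.polar_left, hw.2.1]
    apply Subtype.ext
    refine Prod.ext (funext fun i => ?_) (Prod.ext (funext fun i => ?_) (Subtype.ext ?_))
    · rw [Subsingleton.elim i 0]; exact h3
    · rw [Subsingleton.elim i 0]; exact h4
    · change a 0 • e + b 0 • f + (w : V) - polar Q f (a 0 • e + b 0 • f + w) • e -
        polar Q e (a 0 • e + b 0 • f + w) • f = w
      rw [h3, h4]; abel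

theorem nv_ge_step {W : Submodule F V} (hW : NDon Q W) {k : ℕ} (hk : finrank F W = k + 2) (h1 : 1 ≤ k) (c : F) :
    ∃ W' : Submodule F V, NDon Q W' ∧ finrank F W' = k ∧
      nv Q W c = Fintype.card F * nv Q W' c + (Fintype.card F - 1) * Fintype.card F ^ k := by
  obtain ⟨e, he, f, hf, h⟩ := hW.exists_isHyp (by omega)
  have h2 := finrank_hypC h he hf
  have h3 : finrank F (hypC Q W e f) = k := by omega
  exact ⟨_, hW.hypC h he hf, h3, by rw [nv_hypC h he hf, h3]⟩

theorem nv_ge_two {W : Submodule F V} (hW : NDon Q W) {k t : ℕ} (hk : finrank F W = k + 5)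
    (ht : Fintype.card F = t + 1) (c : F) : t * (t + 1) ^ (k + 3) + t * (t + 1) ^ (k + 2) ≤ nv Q W c := by
  obtain ⟨W', hW', hk', h⟩ := nv_ge_step hW (k := k + 3) hk (by omega) c
  obtain ⟨W'', -, -, h'⟩ := nv_ge_step hW' (k := k + 1) hk' (by omega) c
  rw [h, h', ht, Nat.add_sub_cancel]
  nlinarith [Nat.zero_le ((t + 1) * ((t + 1) * nv Q W'' c)), pow_succ (t + 1) (k + 1)]

theorem nv_zero_ge_two {W : Submodule F V} (hW : NDon Q W) {k t : ℕ} (hk : finrank F W = k + 5)
    (ht : Fintype.card F = t + 1) :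
    t * (t + 1) ^ (k + 3) + t * (t + 1) ^ (k + 2) + (t + 1) ^ 2 ≤ nv Q W 0 := by
  obtain ⟨W', hW', hk', h⟩ := nv_ge_step hW (k := k + 3) hk (by omega) 0
  obtain ⟨W'', -, -, h'⟩ := nv_ge_step hW' (k := k + 1) hk' (by omega) 0
  rw [h, h', ht, Nat.add_sub_cancel]
  have := one_le_nv_zero (Q := Q) W''
  nlinarith [Nat.mul_le_mul_left ((t + 1) * (t + 1)) this, pow_succ (t + 1) (k + 1)]

theorem nv_zero_ge_three {W : Submodule F V} (hW : NDon Q W) {k t : ℕ} (hk : finrank F W = k + 7)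
    (ht : Fintype.card F = t + 1) :
    t * (t + 1) ^ (k + 5) + t * (t + 1) ^ (k + 4) + t * (t + 1) ^ (k + 3) + 1 ≤ nv Q W 0 := by
  obtain ⟨W', hW', hk', h⟩ := nv_ge_step hW (k := k + 5) hk (by omega) 0
  have h' := nv_zero_ge_two hW' (k := k) hk' ht
  rw [h, ht, Nat.add_sub_cancel]
  have h3 := Nat.mul_le_mul_left (t + 1) h'
  have h4 : 1 ≤ (t + 1) * (t + 1) ^ 2 := Nat.succ_le_of_lt (by positivity)
  nlinarith [pow_succ (t + 1) (k + 3), pow_succ (t + 1) (k + 2)]

theorem exists_card_eq_succ : ∃ t, 1 ≤ t ∧ Fintype.card F = t + 1 :=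
  ⟨Fintype.card F - 1, by have := Fintype.one_lt_card (α := F); omega,
    by have := Fintype.one_lt_card (α := F); omega⟩

theorem three_le_card (h2 : (2 : F) ≠ 0) : 3 ≤ Fintype.card F := by
  by_contra h
  have h1 := Fintype.one_lt_card (α := F)
  have h3 : Fintype.card F = 2 := by omega
  apply h2
  have := FiniteField.cast_card_eq_zero F
  rwa [h3] at this

/-- `2 q^r ≤ σ (q² + 1)` for `r ≥ 6`. -/
theorem two_pow_le_sing {W : Submodule F V} (hW : NDon Q W) (h6 : 6 ≤ finrank F W) :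
    2 * Fintype.card F ^ finrank F W ≤ (nv Q W 0 - 1) * (Fintype.card F ^ 2 + 1) := by
  obtain ⟨t, ht1, ht⟩ := exists_card_eq_succ (F := F)
  rcases h6.eq_or_lt with h | h
  · have h1 := nv_zero_ge_two hW (k := 1) h.symm ht
    rw [← h, ht]
    have h2 : t * (t + 1) ^ 4 + t * (t + 1) ^ 3 + t * (t + 2) ≤ nv Q W 0 - 1 := by
      have : (t + 1) ^ 2 = t * (t + 2) + 1 := by ring
      norm_num at h1
      omega
    refine le_trans ?_ (Nat.mul_le_mul_right _ h2)
    rcases ht1.eq_or_lt with rfl | ht2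
    · norm_num
    · have h3 : 2 * (t + 1) ^ 6 ≤ t * (t + 1) ^ 6 := Nat.mul_le_mul_right _ ht2
      nlinarith [Nat.zero_le (t * (t + 1) ^ 4), Nat.zero_le ((t * (t + 1) ^ 3 + t * (t + 2)) * ((t + 1) ^ 2 + 1))]
  · obtain ⟨k, hk⟩ : ∃ k, finrank F W = k + 7 := ⟨finrank F W - 7, by omega⟩
    have h1 := nv_zero_ge_three hW hk ht
    rw [hk, ht]
    have h2 : t * (t + 1) ^ (k + 5) + t * (t + 1) ^ (k + 4) + t * (t + 1) ^ (k + 3) ≤ nv Q W 0 - 1 := by omega
    refine le_trans ?_ (Nat.mul_le_mul_right _ h2)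
    obtain ⟨a, ha⟩ : ∃ a, a = (t + 1) ^ (k + 3) := ⟨_, rfl⟩
    have e1 : (t + 1) ^ (k + 7) = a * (t + 1) ^ 4 := by rw [ha, ← pow_add]
    have e2 : (t + 1) ^ (k + 5) = a * (t + 1) ^ 2 := by rw [ha, ← pow_add]
    have e3 : (t + 1) ^ (k + 4) = a * (t + 1) := by rw [ha, ← pow_succ]
    rw [e1, e2, e3, ← ha]
    have h3 : 2 * (t + 1) ^ 4 ≤ t * ((t + 1) ^ 2 + (t + 1) + 1) * ((t + 1) ^ 2 + 1) := by
      rcases ht1.eq_or_lt with rfl | ht2
      · norm_num
      · have h3 : 2 * (t + 1) ^ 4 ≤ t * (t + 1) ^ 4 := Nat.mul_le_mul_right _ ht2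
        nlinarith [Nat.zero_le (t * (t + 1) ^ 2), Nat.zero_le (t * (t + 2) * ((t + 1) ^ 2 + 1))]
    nlinarith [Nat.mul_le_mul_left a h3]

/-- `2 q^r ≤ σ ((q - 1) q^(r-4) + 1)`. -/
theorem two_pow_le_sing' {W : Submodule F V} (hW : NDon Q W) {k : ℕ} (hk : finrank F W = k + 5)
    (h5 : k = 0 → (2 : F) ≠ 0) :
    2 * Fintype.card F ^ finrank F W ≤
      (nv Q W 0 - 1) * ((Fintype.card F - 1) * Fintype.card F ^ (k + 1) + 1) := by
  obtain ⟨t, ht1, ht⟩ := exists_card_eq_succ (F := F)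
  rcases Nat.eq_zero_or_pos k with rfl | hk0
  · have h1 := nv_zero_ge_two hW hk ht
    have h3 := three_le_card (h5 rfl)
    rw [hk, ht, Nat.add_sub_cancel]
    have h2 : t * (t + 1) ^ 3 + t * (t + 1) ^ 2 + t * (t + 2) ≤ nv Q W 0 - 1 := by
      have : (t + 1) ^ 2 = t * (t + 2) + 1 := by ring
      norm_num at h1
      omega
    refine le_trans ?_ (Nat.mul_le_mul_right _ h2)
    obtain ⟨s, rfl⟩ : ∃ s, t = s + 2 := ⟨t - 2, by omega⟩
    norm_num
    ring_nf
    nlinarith [Nat.zero_le s, Nat.zero_le (s ^ 2), Nat.zero_le (s ^ 3), Nat.zero_le (s ^ 4), Nat.zero_le (s ^ 5),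
      Nat.zero_le (s ^ 6)]
  · refine (two_pow_le_sing hW (by omega)).trans (Nat.mul_le_mul_left _ (Nat.succ_le_succ ?_))
    rw [ht, Nat.add_sub_cancel]
    calc (t + 1) ^ 2 ≤ (t + 1) ^ (k + 1) := Nat.pow_le_pow_right (by omega) (by omega)
      _ ≤ _ := Nat.le_mul_of_pos_left _ ht1

section Geometry

theorem exists_polar_of_not_mem_span (hQ : (polarBilin Q).Nondegenerate) {x a : V}
    (ha : a ∉ Submodule.span F {x}) (c : F) : ∃ y, polar Q x y = 0 ∧ polar Q y a = c := by
  obtain ⟨y, hy, h⟩ := exists_polar_eq_one_of_not_mem hQ ha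
  rw [operp_span_singleton, mem_perp] at hy
  exact ⟨c • y, by rw [polar_smul_right, hy, smul_zero], by
    rw [polar_smul_left, polar_comm, h, smul_eq_mul, mul_one]⟩

theorem exists_hyp_perp (hQ : (polarBilin Q).Nondegenerate) {y s : V} (hs : Q s = 0) (hys : polar Q y s = 0)
    (hsy : s ∉ Submodule.span F {y}) : ∃ s', IsHyp Q s s' ∧ polar Q y s' = 0 := by
  obtain ⟨u, hu, hu'⟩ := exists_polar_of_not_mem_span hQ hsy 1
  rw [polar_comm] at hu'
  refine ⟨u - Q u • s, ⟨hs, ?_, ?_⟩, ?_⟩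
  · rw [Cls.map_sub', Cls.map_smul', hs, polar_smul_right, polar_comm, hu']; simp
  · rw [polar_sub_right, polar_smul_right, polar_self', hs, hu']; simp
  · rw [polar_sub_right, polar_smul_right, hu, hys]; simp

/-- Singular vectors span `y^⊥`. -/
theorem exists_singular_perp_not (hQ : (polarBilin Q).Nondegenerate) (h5 : 5 ≤ finrank F V) {y a : V}
    (ha : a ∉ Submodule.span F {y}) : ∃ e, Q e = 0 ∧ polar Q y e = 0 ∧ polar Q e a ≠ 0 := by
  have h4 : 4 ≤ finrank F (perp Q y) := by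
    have := finrank_le_finrank_inf_perp_succ (Q := Q) ⊤ y
    rw [top_inf_eq, finrank_top] at this
    omega
  obtain ⟨s, hs, hqs, hsy⟩ := exists_singular_not_mem_span (Q := Q) h4 y
  obtain ⟨s', h, hs'⟩ := exists_hyp_perp hQ hqs (mem_perp.1 hs) hsy
  obtain ⟨u, hu, hu'⟩ := exists_polar_of_not_mem_span hQ ha 1
  by_contra hc
  push Not at hc
  have := singular_induction (W := perp Q y) h hs (mem_perp.2 hs') (P := fun x => polar Q x a = 0)
    (fun x hx hq => hc x hq (mem_perp.1 hx))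
    (fun x _ z _ h1 h2 => by rw [polar_add_left, h1, h2, add_zero]) (mem_perp.2 hu)
  rw [hu'] at this
  exact one_ne_zero this

theorem NDon_exists_singular_not {W : Submodule F V} (hW : NDon Q W) (h3 : 3 ≤ finrank F W) {y : V} (hy : y ∈ W)
    (hy0 : y ≠ 0) : ∃ e ∈ W, ∃ f ∈ W, IsHyp Q e f ∧ polar Q e y ≠ 0 := by
  obtain ⟨s, hs, s', hs', h⟩ := hW.exists_isHyp h3
  obtain ⟨u, hu, hu'⟩ := hW.exists_polar_ne_zero hy hy0
  have : ∃ e ∈ W, Q e = 0 ∧ polar Q e y ≠ 0 := by
    by_contra hc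
    push Not at hc
    have := singular_induction (W := W) h hs hs' (P := fun x => polar Q x y = 0) hc
      (fun x _ z _ h1 h2 => by rw [polar_add_left, h1, h2, add_zero]) hu
    exact hu' (by rw [polar_comm, this])
  obtain ⟨e, he, hq, hey⟩ := this
  obtain ⟨f, hf, hef⟩ := hW.exists_hyp he (by rintro rfl; simp at hey) hq
  exact ⟨e, he, f, hf, hef, hey⟩

theorem eich_eq_eich_proj {e f y : V} (h : IsHyp Q e f) (hy : polar Q e y = 0) :
    y - polar Q f y • e ∈ hypC Q ⊤ e f ∧ eich Q e (y - polar Q f y • e) = eich Q e y := by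
  refine ⟨?_, ?_⟩
  · have := h.proj_mem (W := ⊤) trivial trivial (x := y) trivial
    rwa [hy, zero_smul, sub_zero] at this
  · rw [sub_eq_add_neg, ← neg_smul, eich_add_smul h.left hy]

/-- The pairing given by the polar form on a nondegenerate subspace. -/
noncomputable def polPair (ψ : AddChar F ℂ) (hψ : ∀ a : F, (∀ c : F, ψ (c * a) = 1) → a = 0) {W : Submodule F V}
    (hW : NDon Q W) : Pairing W W where
  χ a b := ψ (polar Q (a : V) b)
  add_left a a' b := by rw [Submodule.coe_add, polar_add_left, AddChar.map_add_eq_mul]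
  add_right a b b' := by rw [Submodule.coe_add, polar_add_right, AddChar.map_add_eq_mul]
  zero_left b := by simp
  zero_right b := by simp
  nd_left a ha := Subtype.ext (hW a a.2 fun y hy => hψ _ fun c => by
    have := ha ⟨c • y, W.smul_mem c hy⟩
    rwa [polar_smul_right, smul_eq_mul] at this)
  nd_right a ha := Subtype.ext (hW a a.2 fun y hy => hψ _ fun c => by
    have := ha ⟨c • y, W.smul_mem c hy⟩
    rwa [polar_smul_left, smul_eq_mul, polar_comm] at this)

theorem mem_ann_polPair {ψ : AddChar F ℂ} {hψ : ∀ a : F, (∀ c : F, ψ (c * a) = 1) → a = 0} {W : Submodule F V}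
    {hW : NDon Q W} {S : AddSubgroup W} {a : W} :
    a ∈ (polPair ψ hψ hW).ann S ↔ ∀ b ∈ S, ψ (polar Q (a : V) b) = 1 := Iff.rfl

end Geometry

end CL.MinD
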