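/-
Minimal degrees of orthogonal groups, II: small invariant families of additive subgroups of a quadratic space.
-/
import Cfsg.Agent.Known.MinDegO1
import Cfsg.Agent.Cls.OrthSimple

set_option autoImplicit false
set_option linter.unusedSectionVars false

open QuadraticMap Module CL.Cls
open scoped Pointwise

namespace CL.MinD

variable {F V : Type*} [Field F] [Fintype F] [AddCommGroup V] [Module F V] [FiniteDimensional F V]
  {Q : QuadraticForm F V}

section General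

variable {Γ : Subgroup (V ≃ₗ[F] V)} {𝒜 : Finset (AddSubgroup V)}

/-- A family of additive subgroups invariant under a linear group. -/
def Inv (Γ : Subgroup (V ≃ₗ[F] V)) (𝒜 : Finset (AddSubgroup V)) : Prop := ∀ g ∈ Γ, ∀ A ∈ 𝒜, g • A ∈ 𝒜

/-- The total size of a family of additive subgroups. -/
noncomputable def wt {E : Type*} [AddCommGroup E] (𝒜 : Finset (AddSubgroup E)) : ℕ := ∑ A ∈ 𝒜, Nat.card A

/-- The subgroup lies in a subspace of dimension at most one. -/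
def IsLine (F : Type*) [Field F] [Module F V] (A : AddSubgroup V) : Prop := ∃ y, ∀ a ∈ A, a ∈ Submodule.span F {y}

theorem app_mem_smul {g : V ≃ₗ[F] V} {A : AddSubgroup V} {x : V} : g x ∈ g • A ↔ x ∈ A :=
  AddSubgroup.smul_mem_pointwise_smul_iff (a := g)

theorem mem_smul_iff {g : V ≃ₗ[F] V} {A : AddSubgroup V} {x : V} : x ∈ g • A ↔ ∃ a ∈ A, g a = x :=
  AddSubgroup.mem_smul_pointwise_iff_exists x g A

theorem card_smul (g : V ≃ₗ[F] V) (A : AddSubgroup V) : Nat.card ↥(g • A) = Nat.card A :=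
  (Nat.card_congr (g.toEquiv.subtypeEquiv fun _ => app_mem_smul.symm)).symm

theorem app_mem_of_smul_eq {g : V ≃ₗ[F] V} {A : AddSubgroup V} (h : g • A = A) {x : V} (hx : x ∈ A) : g x ∈ A := by
  rw [← h]; exact app_mem_smul.2 hx

theorem smul_eq_of_app_mem {g : V ≃ₗ[F] V} {A : AddSubgroup V} (h : ∀ x ∈ A, g x ∈ A) : g • A = A := by
  have := finite_space F V
  apply AddSubgroup.eq_of_le_of_card_ge _ (card_smul g A).ge
  intro x hx
  obtain ⟨a, ha, rfl⟩ := mem_smul_iff.1 hx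
  exact h a ha

theorem smul_ne_top {g : V ≃ₗ[F] V} {A : AddSubgroup V} (h : A ≠ ⊤) : g • A ≠ ⊤ := fun h' =>
  h (eq_top_iff.2 fun x _ => app_mem_smul.1 (by rw [h']; trivial))

theorem smul_ne_bot {g : V ≃ₗ[F] V} {A : AddSubgroup V} (h : A ≠ ⊥) : g • A ≠ ⊥ := fun h' =>
  h (eq_bot_iff.2 fun x hx => by
    have := app_mem_smul (g := g).2 hx
    rw [h', AddSubgroup.mem_bot] at this
    exact AddSubgroup.mem_bot.2 (g.map_eq_zero_iff.1 this))

theorem IsLine.smul {A : AddSubgroup V} (h : IsLine F A) (g : V ≃ₗ[F] V) : IsLine F (g • A) := by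
  obtain ⟨y, hy⟩ := h
  refine ⟨g y, fun a ha => ?_⟩
  obtain ⟨b, hb, rfl⟩ := mem_smul_iff.1 ha
  obtain ⟨c, rfl⟩ := Submodule.mem_span_singleton.1 (hy b hb)
  exact Submodule.mem_span_singleton.2 ⟨c, by rw [map_smul]⟩

theorem not_isLine_smul {A : AddSubgroup V} (h : ¬ IsLine F A) (g : V ≃ₗ[F] V) : ¬ IsLine F (g • A) := fun h' =>
  h (by simpa using h'.smul g⁻¹)

theorem IsLine.card_le {A : AddSubgroup V} (h : IsLine F A) : Nat.card A ≤ Fintype.card F := by
  have := finite_space F V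
  obtain ⟨y, hy⟩ := h
  have h1 : A ≤ (Submodule.span F {y}).toAddSubgroup := hy
  refine (AddSubgroup.card_le_of_le h1).trans ?_
  rw [card_toAddSubgroup]
  calc _ ≤ Fintype.card F ^ 1 := Nat.pow_le_pow_right Fintype.card_pos (by simpa using finrank_span_le_card ({y} : Set V))
    _ = _ := pow_one _

theorem smul_toAddSubgroup (g : V ≃ₗ[F] V) (U : Submodule F V) :
    g • U.toAddSubgroup = (U.map (g : V →ₗ[F] V)).toAddSubgroup := by
  ext x; rw [mem_smul_iff]; rfl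

open Classical in
/-- Classical subfamily. -/
noncomputable def sub {α : Type*} (𝒜 : Finset α) (p : α → Prop) : Finset α := 𝒜.filter p

theorem mem_sub {α : Type*} {𝒜 : Finset α} {p : α → Prop} {A : α} : A ∈ sub 𝒜 p ↔ A ∈ 𝒜 ∧ p A := by
  classical
  unfold sub
  convert Finset.mem_filter

theorem sub_subset {α : Type*} (𝒜 : Finset α) (p : α → Prop) : sub 𝒜 p ⊆ 𝒜 := fun _ h => (mem_sub.1 h).1

theorem Inv.sub (h : Inv Γ 𝒜) (p : AddSubgroup V → Prop) (hp : ∀ g ∈ Γ, ∀ A ∈ 𝒜, p A → p (g • A)) :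
    Inv Γ (sub 𝒜 p) := fun g hg A hA =>
  mem_sub.2 ⟨h g hg A (mem_sub.1 hA).1, hp g hg A (mem_sub.1 hA).1 (mem_sub.1 hA).2⟩

theorem wt_mono {E : Type*} [AddCommGroup E] {𝒜 ℬ : Finset (AddSubgroup E)} (h : 𝒜 ⊆ ℬ) : wt 𝒜 ≤ wt ℬ :=
  Finset.sum_le_sum_of_subset h

open Classical in
theorem Inv.sum_thru_le (h : Inv Γ 𝒜) {g : V ≃ₗ[F] V} (hg : g ∈ Γ) (x : V) (w : AddSubgroup V → ℕ)
    (hw : ∀ A, w (g • A) = w A) : ∑ A ∈ 𝒜.filter (x ∈ ·), w A ≤ ∑ A ∈ 𝒜.filter (g x ∈ ·), w A := by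
  rw [← Finset.sum_congr rfl fun A _ => hw A,
    ← Finset.sum_image (g := fun A => g • A) fun _ _ _ _ h => MulAction.injective g h]
  apply Finset.sum_le_sum_of_subset
  intro B hB
  obtain ⟨A, hA, rfl⟩ := Finset.mem_image.1 hB
  exact Finset.mem_filter.2 ⟨h g hg A (Finset.mem_filter.1 hA).1, app_mem_smul.2 (Finset.mem_filter.1 hA).2⟩

open Classical in
theorem Inv.thru_le (h : Inv Γ 𝒜) {g : V ≃ₗ[F] V} (hg : g ∈ Γ) (x : V) :
    (𝒜.filter (x ∈ ·)).card ≤ (𝒜.filter (g x ∈ ·)).card := by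
  simpa using h.sum_thru_le hg x (fun _ => 1) fun _ => rfl

open Classical in
theorem Inv.cover (h : Inv Γ 𝒜) (X : Finset V) (h0 : (0 : V) ∉ X) {x : V} (hX : ∀ y ∈ X, ∃ g ∈ Γ, g x = y) {m : ℕ}
    (hm : m ≤ (𝒜.filter (x ∈ ·)).card) : X.card * m + 𝒜.card ≤ wt 𝒜 := by
  have := finite_space F V
  refine card_mul_add_le_sum 𝒜 X h0 m fun y hy => ?_
  obtain ⟨g, hg, rfl⟩ := hX y hy
  exact hm.trans (h.thru_le hg x)

open Classical in
/-- The members through `x` contain an orbit of an additive group fixing `x`. -/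
theorem Inv.orb_subset (h : Inv Γ 𝒜) {E : Type*} (a : E → V ≃ₗ[F] V) (haΓ : ∀ z, a z ∈ Γ) {x : V}
    (hx : ∀ z, a z x = x) {A : AddSubgroup V} (hA : A ∈ 𝒜) (hxA : x ∈ A) :
    (Set.range fun z => a z • A) ⊆ ↑(𝒜.filter (x ∈ ·)) := by
  rintro _ ⟨z, rfl⟩
  refine Finset.mem_coe.2 (Finset.mem_filter.2 ⟨h _ (haΓ z) A hA, ?_⟩)
  rw [← hx z]; exact app_mem_smul.2 hxA

theorem sim_polar {g : V ≃ₗ[F] V} {d : F} (h : ∀ w, Q (g w) = d * Q w) (u v : V) :
    polar Q (g u) (g v) = d * polar Q u v := by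
  simp only [polar, ← map_add, h]; ring

theorem sim_conj_eich {g : V ≃ₗ[F] V} {d : F} (hd : d ≠ 0) (h : ∀ w, Q (g w) = d * Q w) {x y : V} (hgx : g x = x)
    (hx : Q x = 0) (hxy : polar Q x y = 0) : g * (eich Q x y).1 = (eich Q x (d⁻¹ • g y)).1 * g := by
  have h1 : ∀ w, polar Q x (g w) = d * polar Q x w := fun w => by rw [← sim_polar h, hgx]
  ext w
  rw [LinearEquiv.mul_apply, LinearEquiv.mul_apply, eich_app hx hxy,
    eich_app hx (by rw [polar_smul_right, h1, hxy]; simp), polar_smul_left, sim_polar h, h1, Cls.map_smul', h]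
  simp only [map_add, map_sub, map_smul, hgx, smul_eq_mul, smul_smul]
  field_simp

end General

/-- The linear groups induced by a Levi factor on the unipotent radical. -/
structure Setup (Q : QuadraticForm F V) (Γ : Subgroup (V ≃ₗ[F] V)) : Prop where
  nd : (polarBilin Q).Nondegenerate
  eich_mem : ∀ u x, (eich Q u x).1 ∈ Γ
  tor : ∀ e f, IsHyp Q e f → ∀ c : F, c ≠ 0 → ∃ g ∈ Γ, g e = e ∧ (∀ w, Q (g w) = c ^ 2 * Q w) ∧
    ∀ w, polar Q e w = 0 → polar Q f w = 0 → g w = c • w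
  sim : ∀ g ∈ Γ, ∃ c : F, c ≠ 0 ∧ ∀ w, Q (g w) = c ^ 2 * Q w

theorem eich_add_hom {e : V} (he : Q e = 0) {W : Submodule F V} (hW : ∀ z ∈ W, polar Q e z = 0) (z z' : W) :
    (eich Q e ((z + z' : W) : V)).1 = (eich Q e z).1 * (eich Q e z').1 := by
  rw [Submodule.coe_add, ← eich_mul he (hW _ z.2) (hW _ z'.2)]; rfl

open Classical in
theorem card_sing [Fintype V] : (Finset.univ.filter fun v : V => Q v = 0 ∧ v ≠ 0).card = nv Q ⊤ 0 - 1 := by
  unfold nv
  rw [← Set.ncard_sdiff_singleton_of_mem (a := 0) (s := {v | v ∈ (⊤ : Submodule F V) ∧ Q v = 0})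
    ⟨trivial, map_zero Q⟩, ← Set.ncard_coe_finset]
  congr 1
  ext v; simp

open Classical in
theorem card_val [Fintype V] (c : F) : (Finset.univ.filter fun v : V => Q v = c).card = nv Q ⊤ c := by
  unfold nv
  rw [← Set.ncard_coe_finset]
  congr 1
  ext v; simp

namespace Setup

variable {Γ : Subgroup (V ≃ₗ[F] V)} {𝒜 : Finset (AddSubgroup V)} (S : Setup Q Γ) {k : ℕ}
  (hk : finrank F V = k + 5)
include S hk

theorem trans {x y : V} (hx : x ≠ 0) (hy : y ≠ 0) (h : Q x = Q y) : ∃ g ∈ Γ, g x = y := by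
  obtain ⟨g, hg, hgx⟩ := exists_EG_app_eq S.nd (by omega) hx hy h
  have : EG Q ≤ Γ.comap (OG Q).subtype := EG_le fun u v _ _ => S.eich_mem u v
  exact ⟨g.1, this hg, hgx⟩

theorem trans' {x y : V} (hx : x ≠ 0) (hy : y ≠ 0) {c : F} (hc : c ≠ 0) (h : Q y = c ^ 2 * Q x) :
    ∃ g ∈ Γ, g x = y := by
  obtain ⟨e, -, f, -, hef⟩ := (ndon_top S.nd).exists_isHyp (by rw [finrank_top]; omega)
  obtain ⟨g, hg, -, h1, -⟩ := S.tor e f hef c hc
  obtain ⟨g', hg', h2⟩ := S.trans hk (x := g x) (by simpa using hx) hy (by rw [h1, h])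
  exact ⟨g' * g, Γ.mul_mem hg' hg, h2⟩

open Classical in
theorem cover_sing (hI : Inv Γ 𝒜) {x : V} (hx : x ≠ 0) (hq : Q x = 0) {m : ℕ}
    (hm : m ≤ (𝒜.filter (x ∈ ·)).card) : (nv Q ⊤ 0 - 1) * m + 𝒜.card ≤ wt 𝒜 := by
  have := finite_space F V
  have := Fintype.ofFinite V
  rw [← card_sing]
  refine hI.cover _ (by simp) (fun y hy => ?_) hm
  have hy' := (Finset.mem_filter.1 hy).2
  exact S.trans hk hx hy'.2 (by rw [hq, hy'.1])

/-- A large orbit of the stabiliser of `x` on `x^⊥ / x`. -/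
theorem exists_orbit {x x' : V} (h : IsHyp Q x x') {y : V} (hy : y ∈ hypC Q ⊤ x x') (hy0 : y ≠ 0) :
    ∃ Y : Finset V, Y.card = (Fintype.card F - 1) * Fintype.card F ^ (k + 1) ∧ ∀ y' ∈ Y, y' ≠ 0 ∧
      ∃ g ∈ Γ, ∃ c : F, c ≠ 0 ∧ g x = x ∧ g y = y' ∧ (∀ w, Q (g w) = c ^ 2 * Q w) ∧
        ∀ w, g w ∈ hypC Q ⊤ x x' ↔ w ∈ hypC Q ⊤ x x' := by
  classical
  have := finite_space F V
  have hW := (ndon_top S.nd).hypC h trivial trivial
  have hd := finrank_hypC (W := ⊤) h trivial trivial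
  rw [finrank_top] at hd
  obtain ⟨e, he, f, hf, hef, hey⟩ := NDon_exists_singular_not hW (by omega) hy hy0
  have hd' := finrank_hypC hef he hf
  have := Fintype.ofFinite (hypC Q (hypC Q ⊤ x x') e f)
  let φ : Fˣ × hypC Q (hypC Q ⊤ x x') e f → V := fun p => (p.1 : F) • (eich Q e p.2).1 y
  have hp : ∀ p, polar Q e (φ p) = p.1 * polar Q e y := by
    intro p
    rw [polar_smul_right, OG.polar_app_right, eich_inv hef.left (mem_hypC.1 p.2.2).2.1, eich_app_self, smul_eq_mul]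
  have hφ : Function.Injective φ := by
    rintro ⟨c, z⟩ ⟨c', z'⟩ hh
    have h1 : c = c' := Units.ext (mul_right_cancel₀ hey (by rw [← hp (c, z), ← hp (c', z'), hh]))
    subst h1
    have h2 : (eich Q e z).1 y = (eich Q e z').1 y := smul_right_injective V c.ne_zero hh
    have hz := mem_hypC.1 z.2
    have hz' := mem_hypC.1 z'.2
    rw [eich_app hef.left hz.2.1, eich_app hef.left hz'.2.1] at h2
    have h3 := congrArg (polar Q f) h2
    simp only [polar_add_right, polar_sub_right, polar_smul_right, hz.2.2, hz'.2.2, hef.polar_eq', smul_eq_mul] at h3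
    have h4 : polar Q e y • ((z : V) - z') = 0 := by
      linear_combination (norm := module) -h2 + (congrArg (· • e) h3)
    rw [Prod.mk.injEq]
    exact ⟨rfl, Subtype.ext (sub_eq_zero.1 ((smul_eq_zero.1 h4).resolve_left hey))⟩
  refine ⟨Finset.univ.image φ, ?_, fun y' hy' => ?_⟩
  · rw [Finset.card_image_of_injective _ hφ, Finset.card_univ, Fintype.card_prod, Fintype.card_units,
      ← Nat.card_eq_fintype_card (α := hypC _ _ _ _), card_sub]
    congr 2; omega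
  · obtain ⟨⟨c, z⟩, -, rfl⟩ := Finset.mem_image.1 hy'
    refine ⟨fun h0 => ?_, ?_⟩
    · have := hp (c, z)
      rw [h0, polar_zero_right] at this
      exact mul_ne_zero c.ne_zero hey this.symm
    obtain ⟨g, hg, h1, h2, h3⟩ := S.tor x x' h c c.ne_zero
    have hz := hypC_le z.2
    have hmov := eich_mem_movIn (Q := Q) he hz
    have hx : (eich Q e z).1 x = x :=
      eich_app_of_polar (by rw [polar_comm]; exact (mem_hypC.1 he).2.1) (by rw [polar_comm]; exact (mem_hypC.1 hz).2.1)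
    have hm : ∀ w ∈ hypC Q ⊤ x x', (g * (eich Q e z).1) w = (c : F) • (eich Q e z).1 w := fun w hw =>
      h3 _ (mem_hypC.1 (movIn_app_mem hmov hw)).2.1 (mem_hypC.1 (movIn_app_mem hmov hw)).2.2
    refine ⟨g * (eich Q e z).1, Γ.mul_mem hg (S.eich_mem e z), c, c.ne_zero, by rw [LinearEquiv.mul_apply, hx, h1],
      hm y hy, fun w => by rw [LinearEquiv.mul_apply, h2, OG.map_app], fun w => ?_⟩
    have h4 : (g * (eich Q e z).1) • (hypC Q ⊤ x x').toAddSubgroup = (hypC Q ⊤ x x').toAddSubgroup :=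
      smul_eq_of_app_mem fun w hw => by
        rw [hm w hw]; exact Submodule.smul_mem _ _ (movIn_app_mem hmov hw)
    have h5 := app_mem_smul (g := g * (eich Q e z).1) (A := (hypC Q ⊤ x x').toAddSubgroup) (x := w)
    rwa [h4] at h5

variable (h5 : k = 0 → (2 : F) ≠ 0) (hI : Inv Γ 𝒜) (hwt : wt 𝒜 < 2 * Fintype.card F ^ (k + 5))
include h5 hI hwt

theorem fix_of_sing {A : AddSubgroup V} (hA : A ∈ 𝒜) {x : V} (hxA : x ∈ A) (hx0 : x ≠ 0) (hx : Q x = 0) {y : V}
    (hy : polar Q x y = 0) : (eich Q x y).1 • A = A := by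
  classical
  have := finite_space F V
  by_contra hne
  obtain ⟨x', h⟩ := exists_hyp S.nd hx0 hx
  obtain ⟨ψ, hψ⟩ := exists_addChar F
  have hW := (ndon_top S.nd).hypC h trivial trivial
  let a : hypC Q ⊤ x x' → V ≃ₗ[F] V := fun z => (eich Q x z).1
  have ha : ∀ z z', a (z + z') = a z * a z' := eich_add_hom hx fun z hz => (mem_hypC.1 hz).2.1
  let P := polPair ψ hψ hW
  have h1 : P.ann (stab a ha A) ≠ ⊥ := by
    rw [Ne, P.ann_eq_bot_iff]
    intro h2
    obtain ⟨h3, h4⟩ := eich_eq_eich_proj h hy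
    have h5 : (⟨_, h3⟩ : hypC Q ⊤ x x') ∈ stab a ha A := by rw [h2]; trivial
    apply hne
    rw [← h4]; exact h5
  obtain ⟨y₀, hy₀, hy0⟩ := (AddSubgroup.nontrivial_iff_exists_ne_zero _).1 ((AddSubgroup.nontrivial_iff_ne_bot _).2 h1)
  obtain ⟨Y, hY, hY'⟩ := S.exists_orbit hk h y₀.2 (fun h0 => hy0 (Subtype.ext h0))
  have hYW : ∀ y' ∈ Y, y' ∈ hypC Q ⊤ x x' := fun y' hy' => by
    obtain ⟨-, g, -, c, -, -, rfl, -, h6⟩ := hY' y' hy'
    exact (h6 _).2 y₀.2
  have h2 := card_succ_le_of_ann (a := a) (ha := ha) P (Φ := ↑(𝒜.filter (x ∈ ·))) (Set.toFinite _)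
    ⟨A, Finset.mem_coe.2 (Finset.mem_filter.2 ⟨hA, hxA⟩)⟩
    (fun z B hB => by
      have hB' := Finset.mem_filter.1 (Finset.mem_coe.1 hB)
      exact hI.orb_subset a (fun z => S.eich_mem x z) (fun z => eich_app_self x z) hB'.1 hB'.2 ⟨z, rfl⟩)
    (Y.subtype (· ∈ hypC Q ⊤ x x')) (fun h0 => (hY' _ (Finset.mem_subtype.1 h0)).1 rfl) (fun y' hy' => by
      obtain ⟨-, g, hg, c, hc, h3, h4, h6, h7⟩ := hY' _ (Finset.mem_subtype.1 hy')
      refine ⟨g • A, Finset.mem_coe.2 (Finset.mem_filter.2 ⟨hI g hg A hA, ?_⟩), fun b hb => ?_⟩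
      · rw [← h3]; exact app_mem_smul.2 hxA
      · have hb' : c ^ 2 • g⁻¹ (b : V) ∈ hypC Q ⊤ x x' :=
          Submodule.smul_mem _ _ ((h7 _).1 (by simp))
        have h8 := sim_conj_eich (pow_ne_zero 2 hc) h6 h3 hx (mem_hypC.1 hb').2.1
        rw [map_smul, smul_smul, inv_mul_cancel₀ (pow_ne_zero 2 hc), one_smul] at h8
        have h9 : (⟨_, hb'⟩ : hypC Q ⊤ x x') ∈ stab a ha A := by
          rw [mem_stab, ← smul_left_cancel_iff g, ← mul_smul, h8, mul_smul]
          simpa using mem_stab.1 hb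
        have h10 := hy₀ _ h9
        change ψ (polar Q (y' : V) b) = 1
        change ψ (polar Q (y₀ : V) (c ^ 2 • g⁻¹ (b : V))) = 1 at h10
        rw [polar_smul_right, smul_eq_mul, ← sim_polar h6, h4] at h10
        simpa using h10)
  rw [Set.ncard_coe_finset, Finset.card_subtype, Finset.filter_true_of_mem hYW, hY] at h2
  have h3 := S.cover_sing hk hI hx0 hx h2
  have h4 := two_pow_le_sing' (ndon_top S.nd) (k := k) (by rw [finrank_top, hk]) h5
  rw [finrank_top, hk] at h4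
  omega

theorem smul_mem_of_perp {A : AddSubgroup V} (hA : A ∈ 𝒜) {x : V} (hxA : x ∈ A) (hx : Q x = 0) {a : V}
    (ha : a ∈ A) (hax : a ∉ Submodule.span F {x}) (hp : polar Q x a = 0) (c : F) : c • x ∈ A := by
  by_cases hx0 : x = 0
  · rw [hx0, smul_zero]; exact A.zero_mem
  obtain ⟨y, hy, hya⟩ := exists_polar_of_not_mem_span S.nd hax c
  have h1 := app_mem_of_smul_eq (S.fix_of_sing hk h5 hI hwt hA hxA hx0 hx hy) ha
  rw [eich_app_of_perp hx hy hp, hya] at h1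
  simpa using A.sub_mem h1 ha

theorem perp_le_of_not_perp {A : AddSubgroup V} (hA : A ∈ 𝒜) {x : V} (hxA : x ∈ A) (hx : Q x = 0) {a : V}
    (ha : a ∈ A) (hp : polar Q x a ≠ 0) {y : V} (hy : polar Q x y = 0) : y ∈ A := by
  have hx0 : x ≠ 0 := by rintro rfl; simp at hp
  have h1 : ∀ z, polar Q x z = 0 → ∃ c : F, z + c • x ∈ A := by
    intro z hz
    have hz' : polar Q x (-(polar Q x a)⁻¹ • z) = 0 := by rw [polar_smul_right, hz, smul_zero]
    have h2 := A.sub_mem (app_mem_of_smul_eq (S.fix_of_sing hk h5 hI hwt hA hxA hx0 hx hz') ha) ha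
    rw [eich_app hx hz'] at h2
    refine ⟨polar Q (-(polar Q x a)⁻¹ • z) a - Q (-(polar Q x a)⁻¹ • z) * polar Q x a, ?_⟩
    convert h2 using 1
    rw [smul_smul, mul_neg, mul_inv_cancel₀ hp]
    module
  have h4 : 4 ≤ finrank F (perp Q x) := by
    have := finrank_le_finrank_inf_perp_succ (Q := Q) ⊤ x
    rw [top_inf_eq, finrank_top] at this
    omega
  obtain ⟨s, hs, -, hsx⟩ := exists_singular_not_mem_span (Q := Q) h4 x
  obtain ⟨c, hc⟩ := h1 s (mem_perp.1 hs)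
  have h2 := S.smul_mem_of_perp hk h5 hI hwt hA hxA hx hc
    (fun h => hsx (by simpa using Submodule.sub_mem _ h (Submodule.smul_mem _ c (Submodule.mem_span_singleton_self x))))
    (by rw [polar_add_right, polar_smul_right, polar_self', hx, mem_perp.1 hs]; simp)
  obtain ⟨d, hd⟩ := h1 y hy
  simpa using A.sub_mem hd (h2 d)

theorem perp_of_sing {A : AddSubgroup V} (hA : A ∈ 𝒜) (hA' : A ≠ ⊤) {x : V} (hxA : x ∈ A) (hx : Q x = 0) {a : V}
    (ha : a ∈ A) : polar Q x a = 0 := by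
  by_contra hp
  have h1 := fun y => S.perp_le_of_not_perp hk h5 hI hwt hA hxA hx ha hp (y := y)
  have h4 : 4 ≤ finrank F (perp Q x) := by
    have := finrank_le_finrank_inf_perp_succ (Q := Q) ⊤ x
    rw [top_inf_eq, finrank_top] at this
    omega
  obtain ⟨s, hs, hqs, hsx⟩ := exists_singular_not_mem_span (Q := Q) h4 x
  obtain ⟨b, hb, hbs⟩ := exists_polar_of_not_mem_span S.nd hsx 1
  have h2 := fun y => S.perp_le_of_not_perp hk h5 hI hwt hA (h1 s (mem_perp.1 hs)) hqs (h1 b hb)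
    (by rw [polar_comm, hbs]; exact one_ne_zero) (y := y)
  apply hA'
  rw [eq_top_iff]
  intro w _
  have h3 := A.add_mem (h2 (w - polar Q s w • b) (by
    rw [polar_sub_right, polar_smul_right, polar_comm Q s b, hbs]; simp))
    (h1 (polar Q s w • b) (by rw [polar_smul_right, hb, smul_zero]))
  simpa using h3

end Setup

end CL.MinD
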