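/-
Minimal degrees of orthogonal groups, III: classification of the members of a small invariant family.
-/
import Cfsg.Agent.Known.MinDegO2

set_option autoImplicit false
set_option linter.unusedSectionVars false

open QuadraticMap Module CL.Cls
open scoped Pointwise

namespace CL.MinD

variable {F V : Type*} [Field F] [Fintype F] [AddCommGroup V] [Module F V] [FiniteDimensional F V]
  {Q : QuadraticForm F V}

/-- `A` is a totally singular subspace of dimension `j`. -/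
def TS (Q : QuadraticForm F V) (j : ℕ) (A : AddSubgroup V) : Prop :=
  ∃ U : Submodule F V, A = U.toAddSubgroup ∧ (∀ u ∈ U, Q u = 0) ∧ finrank F U = j

/-- The span of the singular vectors of `A`. -/
def sing (Q : QuadraticForm F V) (A : AddSubgroup V) : Submodule F V := Submodule.span F {a | a ∈ A ∧ Q a = 0}

theorem TS.card {j : ℕ} {A : AddSubgroup V} (h : TS Q j A) : Nat.card A = Fintype.card F ^ j := by
  obtain ⟨U, rfl, -, rfl⟩ := h
  exact card_toAddSubgroup U

theorem TS.smul {j : ℕ} {A : AddSubgroup V} (h : TS Q j A) {g : V ≃ₗ[F] V} {d : F} (hg : ∀ w, Q (g w) = d * Q w) :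
    TS Q j (g • A) := by
  obtain ⟨U, rfl, h1, rfl⟩ := h
  refine ⟨_, smul_toAddSubgroup g U, ?_, LinearEquiv.finrank_map_eq g U⟩
  rintro _ ⟨u, hu, rfl⟩
  change Q (g u) = 0
  rw [hg, h1 u hu, mul_zero]

theorem sing_smul (A : AddSubgroup V) {g : V ≃ₗ[F] V} {d : F} (hd : d ≠ 0) (hg : ∀ w, Q (g w) = d * Q w) :
    sing Q (g • A) = (sing Q A).map (g : V →ₗ[F] V) := by
  unfold sing
  rw [Submodule.map_span]
  congr 1
  ext x
  constructor
  · rintro ⟨h1, h2⟩
    obtain ⟨a, ha, rfl⟩ := mem_smul_iff.1 h1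
    rw [hg] at h2
    exact ⟨a, ⟨ha, (mul_eq_zero.1 h2).resolve_left hd⟩, rfl⟩
  · rintro ⟨a, ⟨h1, h2⟩, rfl⟩
    exact ⟨app_mem_smul.2 h1, by change Q (g a) = 0; rw [hg, h2, mul_zero]⟩

theorem card_le_four_of_aniso (h2 : Fintype.card F = 2) {A : AddSubgroup V} (hA : ∀ x ∈ A, Q x = 0 → x = 0) :
    Nat.card A ≤ 4 := by
  have h1 : ∀ c : F, c = 0 ∨ c = 1 := by
    intro c
    by_contra hc
    push Not at hc
    have := Fintype.two_lt_card_iff.2 ⟨0, 1, c, zero_ne_one, hc.1.symm, hc.2.symm⟩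
    omega
  let U : Submodule F V :=
    { A with
      smul_mem' := fun c x hx => by
        rcases h1 c with rfl | rfl
        · rw [zero_smul]; exact A.zero_mem
        · rw [one_smul]; exact hx }
  have h3 : finrank F U ≤ 2 := by
    by_contra h
    obtain ⟨x, hx, h0, hq⟩ := exists_singular_in_of_three_le Q U (by omega)
    exact h0 (hA x hx hq)
  change Nat.card U ≤ 4
  rw [card_sub, h2]
  exact Nat.pow_le_pow_right (n := 2) (by norm_num) h3

namespace Setup

variable {Γ : Subgroup (V ≃ₗ[F] V)} {𝒜 : Finset (AddSubgroup V)} (S : Setup Q Γ) {k : ℕ}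
  (hk : finrank F V = k + 5)
include S hk

open Classical in
theorem thru_aniso (hI : Inv Γ 𝒜) {A : AddSubgroup V} (hA : A ∈ 𝒜) (han : ∀ x ∈ A, Q x = 0 → x = 0) {y a : V}
    (hy : y ∈ A) (hy0 : y ≠ 0) (ha : a ∈ A) (hay : a ∉ Submodule.span F {y}) :
    ((2 : F) ≠ 0 → Fintype.card F ^ (k + 2) ≤ (𝒜.filter (y ∈ ·)).card) ∧
      Fintype.card F ^ (k + 1) ≤ (𝒜.filter (y ∈ ·)).card := by
  have := finite_space F V
  have hqy : Q y ≠ 0 := fun h => hy0 (han y hy h)
  obtain ⟨e, he, hye, hea⟩ := exists_singular_perp_not S.nd (by omega) hay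
  obtain ⟨f, hef, hyf⟩ := exists_hyp_perp S.nd he hye (fun h => by
    obtain ⟨c, rfl⟩ := Submodule.mem_span_singleton.1 h
    rw [Cls.map_smul'] at he
    have hc : c = 0 := by simpa [hqy] using he
    rw [hc] at hea; simp at hea)
  have hd := finrank_hypC hef (mem_perp.2 hye) (mem_perp.2 hyf)
  have hd' := finrank_le_finrank_inf_perp_succ (Q := Q) ⊤ y
  rw [top_inf_eq, finrank_top] at hd'
  let E := hypC Q (perp Q y) e f
  let α : E → V ≃ₗ[F] V := fun z => (eich Q e z).1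
  have hα : ∀ z z', α (z + z') = α z * α z' := eich_add_hom he fun z hz => (mem_hypC.1 hz).2.1
  have h1 := ncard_orb_mul α hα A
  have h2 := Set.ncard_le_ncard (hI.orb_subset α (fun z => S.eich_mem e z) (x := y) (fun z =>
    eich_app_of_polar (by rw [polar_comm, hye]) (by rw [polar_comm]; exact mem_perp.1 (hypC_le z.2))) hA hy)
  rw [Set.ncard_coe_finset] at h2
  have h3 : Fintype.card F ^ (k + 2) ≤ Nat.card E := by
    rw [card_sub]; exact Nat.pow_le_pow_right Fintype.card_pos (by change _ ≤ finrank F (hypC Q (perp Q y) e f); omega)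
  have hb : ∀ w ∈ stab α hα A, (eich Q e w).1 a - a ∈ A := fun w hw => A.sub_mem (app_mem_of_smul_eq hw ha) ha
  have hB : ∀ w ∈ stab α hα A, ∀ w' ∈ stab α hα A, polar Q (w' : V) w = 0 := by
    intro w hw w' hw'
    have hw1 := mem_hypC.1 w.2
    have hw2 := mem_hypC.1 w'.2
    have h4 : polar Q e ((eich Q e w).1 a - a) = 0 := polar_app_sub_of_fixed _ (eich_app_self e w) a
    have h5 := A.sub_mem (app_mem_of_smul_eq hw' (hb w hw)) (hb w hw)
    change (eich Q e w').1 _ - _ ∈ A at h5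
    rw [eich_app_of_perp he hw2.2.1 h4, add_sub_cancel_left] at h5
    have h6 := han _ h5 (by rw [Cls.map_smul', he, mul_zero])
    have h7 := (smul_eq_zero.1 h6).resolve_right hef.left_ne_zero
    rw [eich_app he hw1.2.1] at h7
    have h8 : polar Q (w' : V) e = 0 := by rw [polar_comm, hw2.2.1]
    simp only [polar_add_right, polar_sub_right, polar_smul_right, h8, smul_eq_mul] at h7
    have h9 : polar Q e a * polar Q (w' : V) w = 0 := by linear_combination -h7
    exact (mul_eq_zero.1 h9).resolve_left hea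
  have hQ : ∀ w ∈ stab α hα A, Q (w : V) = 0 → w = 0 := by
    intro w hw hq
    have hw1 := mem_hypC.1 w.2
    have h4 : (eich Q e w).1 a - a = polar Q (w : V) a • e - polar Q e a • (w : V) := by
      rw [eich_app he hw1.2.1, hq]; module
    have h5 := han _ (hb w hw) (by
      rw [h4, Cls.map_sub', Cls.map_smul', Cls.map_smul', he, hq, polar_smul_left, polar_smul_right, hw1.2.1]; simp)
    rw [h4] at h5
    have h6 := congrArg (polar Q f) h5
    simp only [polar_sub_right, polar_smul_right, hef.polar_eq', hw1.2.2, smul_eq_mul, polar_zero_right] at h6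
    have h7 : polar Q (w : V) a = 0 := by linear_combination h6
    rw [h7, zero_smul, zero_sub, neg_eq_zero] at h5
    exact Subtype.ext ((smul_eq_zero.1 h5).resolve_left hea)
  have hodd : (2 : F) ≠ 0 → Fintype.card F ^ (k + 2) ≤ (𝒜.filter (y ∈ ·)).card := by
    intro h2'
    have h4 : stab α hα A = ⊥ := eq_bot_iff.2 fun w hw => AddSubgroup.mem_bot.2 (hQ w hw (by
      have := hB w hw w hw
      rw [polar_self'] at this
      exact (mul_eq_zero.1 this).resolve_left h2'))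
    rw [h4, AddSubgroup.card_bot] at h1
    omega
  refine ⟨hodd, ?_⟩
  by_cases h2' : (2 : F) = 0
  · have h4 : Nat.card (stab α hα A) ≤ Fintype.card F := by
      rw [← Nat.card_eq_fintype_card]
      refine Nat.card_le_card_of_injective (fun w => Q (w.1 : V)) fun w w' hw => ?_
      apply Subtype.ext
      rw [← sub_eq_zero]
      apply hQ _ (AddSubgroup.sub_mem _ w.2 w'.2)
      have hw' : Q (w.1 : V) = Q (w'.1 : V) := hw
      rw [Submodule.coe_sub, Cls.map_sub', hB _ w'.2 _ w.2, hw']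
      linear_combination Q (w'.1 : V) * h2'
    have h5 : Fintype.card F ^ (k + 1) * Fintype.card F ≤ (𝒜.filter (y ∈ ·)).card * Fintype.card F := by
      rw [← pow_succ]
      exact h3.trans (h1 ▸ Nat.mul_le_mul h2 h4)
    exact Nat.le_of_mul_le_mul_right h5 Fintype.card_pos
  · exact (Nat.pow_le_pow_right Fintype.card_pos (by omega)).trans (hodd h2')

open Classical in
theorem thru_TS (hI : Inv Γ 𝒜) {i l : ℕ} (hr : k + 1 = i + l) (hT : ∀ A ∈ 𝒜, TS Q (i + 2) A) {A : AddSubgroup V}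
    (hA : A ∈ 𝒜) {x : V} (hxA : x ∈ A) (hx0 : x ≠ 0) : Fintype.card F ^ l + 1 ≤ (𝒜.filter (x ∈ ·)).card := by
  have := finite_space F V
  obtain ⟨U, rfl, hU, hdU⟩ := hT A hA
  obtain ⟨x', h⟩ := exists_hyp S.nd hx0 (hU x hxA)
  have hW := (ndon_top S.nd).hypC h trivial trivial
  have hd := finrank_hypC (W := ⊤) h trivial trivial
  rw [finrank_top] at hd
  have hd1 := finrank_inf_perp (W := U) (x := x') hxA (by rw [h.polar_eq']; exact one_ne_zero)
  obtain ⟨u, hu, hu0⟩ := exists_mem_ne_zero_of_finrank_pos (W := U ⊓ perp Q x') (by omega)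
  have huW : u ∈ hypC Q ⊤ x x' := mem_hypC.2 ⟨trivial, polar_eq_zero_of_singular hU x hxA u hu.1, hu.2⟩
  obtain ⟨e, he, f, hf, hef, heu⟩ := NDon_exists_singular_not hW (by omega) huW hu0
  have hd2 := finrank_inf_perp (W := U ⊓ perp Q x') (x := e) hu heu
  have hd3 := finrank_hypC hef he hf
  let E := hypC Q (hypC Q ⊤ x x') e f
  let α : E → V ≃ₗ[F] V := fun z => (eich Q e z).1
  have hα : ∀ z z', α (z + z') = α z * α z' := eich_add_hom hef.left fun z hz => (mem_hypC.1 hz).2.1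
  have h1 := ncard_orb_mul α hα U.toAddSubgroup
  have hfix : ∀ s ∈ hypC Q ⊤ x x', ∀ z ∈ hypC Q ⊤ x x', (eich Q s z).1 x = x := fun s hs z hz =>
    eich_app_of_polar (by rw [polar_comm]; exact (mem_hypC.1 hs).2.1) (by rw [polar_comm]; exact (mem_hypC.1 hz).2.1)
  have h2 := hI.orb_subset α (fun z => S.eich_mem e z) (x := x) (fun z => hfix e he z (hypC_le z.2)) hA hxA
  have h4 : Nat.card (stab α hα U.toAddSubgroup) ≤ Fintype.card F ^ i := by
    have h5 : finrank F ↥(U ⊓ perp Q x' ⊓ perp Q e) = i := by omega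
    rw [← h5, ← card_sub]
    refine Nat.card_le_card_of_injective (fun w => ⟨(eich Q e w.1).1 u - u, ⟨U.sub_mem (app_mem_of_smul_eq w.2 hu.1) hu.1,
      (mem_hypC.1 (eich_app_sub_mem e w.1 u he (hypC_le w.1.2))).2.2⟩,
      polar_app_sub_of_fixed _ (eich_app_self e w.1) u⟩) fun w w' hw => ?_
    have h6 : (eich Q e w.1).1 u = (eich Q e w'.1).1 u := sub_left_injective (congrArg Subtype.val hw)
    have hz := mem_hypC.1 w.1.2
    have hz' := mem_hypC.1 w'.1.2
    rw [eich_app hef.left hz.2.1, eich_app hef.left hz'.2.1] at h6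
    have h3 := congrArg (polar Q f) h6
    simp only [polar_add_right, polar_sub_right, polar_smul_right, hz.2.2, hz'.2.2, hef.polar_eq', smul_eq_mul] at h3
    have h4 : polar Q e u • ((w.1 : V) - w'.1) = 0 := by
      linear_combination (norm := module) -h6 + (congrArg (· • e) h3)
    exact Subtype.ext (Subtype.ext (sub_eq_zero.1 ((smul_eq_zero.1 h4).resolve_left heu)))
  have h5 : Fintype.card F ^ l ≤ (Set.range fun z => α z • U.toAddSubgroup).ncard := by
    have h6 : Nat.card E = Fintype.card F ^ l * Fintype.card F ^ i := by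
      rw [card_sub, ← pow_add]; congr 1; change finrank F (hypC Q (hypC Q ⊤ x x') e f) = _; omega
    exact Nat.le_of_mul_le_mul_right (h6 ▸ h1 ▸ Nat.mul_le_mul_left _ h4) (pow_pos Fintype.card_pos i)
  obtain ⟨s, hs, hqs, hsu, hse⟩ := hW.exists_singular_common (by omega) huW he hu0 hef.left_ne_zero (hU u hu.1) hef.left
  rw [polar_comm] at hsu hse
  have h6 := eich_app_eq (x := u) (y := (polar Q s u / polar Q s e) • e) hqs hsu
    (by rw [polar_smul_right, smul_eq_mul, div_mul_cancel₀ _ hse]) (by rw [Cls.map_smul', hef.left, hU u hu.1, mul_zero])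
  obtain ⟨g, hg⟩ : ∃ g, g = eich Q s ((polar Q s u)⁻¹ • (u - (polar Q s u / polar Q s e) • e)) := ⟨_, rfl⟩
  rw [← hg] at h6
  have hgx : g.1 x = x := hg ▸ hfix s hs _ (Submodule.smul_mem _ _ (Submodule.sub_mem _ huW (Submodule.smul_mem _ _ he)))
  have hB : g.1 • U.toAddSubgroup ∈ 𝒜 := hI _ (hg ▸ S.eich_mem _ _) _ hA
  have h7 : g.1 • U.toAddSubgroup ∉ Set.range fun z => α z • U.toAddSubgroup := by
    rintro ⟨z, hz⟩
    obtain ⟨U', hU', hU1, -⟩ := hT _ hB
    have h8 : (polar Q s u / polar Q s e) • e ∈ U' := by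
      change _ ∈ U'.toAddSubgroup
      rw [← hU', ← h6]; exact app_mem_smul.2 hu.1
    have h9 : (eich Q e z).1 u ∈ U' := by
      change _ ∈ U'.toAddSubgroup
      rw [← hU', ← hz]; exact app_mem_smul.2 hu.1
    have h10 := polar_eq_zero_of_singular hU1 _ h8 _ h9
    rw [polar_smul_left, OG.polar_app_right, eich_inv hef.left (mem_hypC.1 z.2).2.1, eich_app_self] at h10
    exact mul_ne_zero (div_ne_zero hsu hse) heu h10
  rw [← Set.ncard_coe_finset]
  refine le_trans ?_ (Set.ncard_le_ncard (s := insert (g.1 • U.toAddSubgroup) (Set.range fun z => α z • U.toAddSubgroup))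
    (Set.insert_subset (Finset.mem_coe.2 (Finset.mem_filter.2 ⟨hB, ?_⟩)) h2))
  · rw [Set.ncard_insert_of_notMem h7]; omega
  · rw [← hgx]; exact app_mem_smul.2 hxA

theorem card_TS (hI : Inv Γ 𝒜) {i l : ℕ} (hr : k + 1 = i + l) (hT : ∀ A ∈ 𝒜, TS Q (i + 2) A) (hne : 𝒜.Nonempty) :
    (nv Q ⊤ 0 - 1) * (Fintype.card F ^ l + 1) + 𝒜.card ≤ 𝒜.card * Fintype.card F ^ (i + 2) := by
  obtain ⟨A, hA⟩ := hne
  obtain ⟨U, rfl, hU, hdU⟩ := hT A hA
  obtain ⟨x, hx, hx0⟩ := exists_mem_ne_zero_of_finrank_pos (W := U) (by omega)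
  have h1 := S.cover_sing hk hI hx0 (hU x hx) (S.thru_TS hk hI hr hT hA hx hx0)
  have h2 : wt 𝒜 = 𝒜.card * Fintype.card F ^ (i + 2) := by
    unfold wt
    rw [Finset.sum_congr rfl fun A hA => (hT A hA).card, Finset.sum_const, smul_eq_mul]
  omega

theorem card_exc (hI : Inv Γ 𝒜) (hT : ∀ A ∈ 𝒜, TS Q (k + 2) A) (hne : 𝒜.Nonempty) :
    Fintype.card F ^ 3 + 1 ≤ 𝒜.card := by
  have h1 := S.card_TS hk hI (i := k) (l := 1) rfl hT hne
  obtain ⟨t, ht1, ht⟩ := exists_card_eq_succ (F := F)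
  have h2 := nv_zero_ge_two (ndon_top S.nd) (k := k) (by rw [finrank_top, hk]) ht
  rw [ht] at h1 ⊢
  obtain ⟨a, ha⟩ : ∃ a, a = (t + 1) ^ (k + 2) := ⟨_, rfl⟩
  have ha0 : 0 < a := by rw [ha]; positivity
  rw [pow_succ (t + 1) (k + 2), ← ha] at h2
  rw [← ha, pow_one] at h1
  have h3 : t * (a * (t + 1)) + t * a ≤ nv Q ⊤ 0 - 1 := by
    have : 1 ≤ (t + 1) ^ 2 := Nat.succ_le_of_lt (by positivity)
    omega
  have h4 := Nat.mul_le_mul_right (t + 1 + 1) h3
  have h5 : (t * (t + 2) * (t + 2)) * a ≤ 𝒜.card * a := by nlinarith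
  have h6 := Nat.le_of_mul_le_mul_right h5 ha0
  nlinarith [Nat.mul_le_mul ht1 ht1]

open Classical in
theorem line_cover (hI : Inv Γ 𝒜) {A : AddSubgroup V} (hA : A ∈ 𝒜) (hL : IsLine F A) {a : V} (ha : a ∈ A)
    (X : Finset V) (h0 : (0 : V) ∉ X) (hX : ∀ y ∈ X, ∃ g ∈ Γ, g a = y) :
    Fintype.card F * X.card ≤ (Fintype.card F - 1) * wt (sub 𝒜 (IsLine F)) := by
  have hI' := hI.sub (IsLine F) fun g _ A _ h => h.smul g
  have h1 := hI'.cover X h0 hX (m := 1)
    (Finset.card_pos.2 ⟨A, Finset.mem_filter.2 ⟨mem_sub.2 ⟨hA, hL⟩, ha⟩⟩)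
  have h2 : wt (sub 𝒜 (IsLine F)) ≤ (sub 𝒜 (IsLine F)).card * Fintype.card F :=
    Finset.sum_le_card_nsmul _ _ _ fun B hB => (mem_sub.1 hB).2.card_le
  obtain ⟨t, -, ht⟩ := exists_card_eq_succ (F := F)
  rw [ht] at h2 ⊢
  rw [Nat.add_sub_cancel]
  nlinarith

open Classical in
theorem line_sing (hI : Inv Γ 𝒜) {A : AddSubgroup V} (hA : A ∈ 𝒜) (hL : IsLine F A) {a : V} (ha : a ∈ A)
    (ha0 : a ≠ 0) (hq : Q a = 0) :
    Fintype.card F * (nv Q ⊤ 0 - 1) ≤ (Fintype.card F - 1) * wt (sub 𝒜 (IsLine F)) := by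
  have := finite_space F V
  have := Fintype.ofFinite V
  rw [← card_sing]
  refine S.line_cover hk hI hA hL ha _ (by simp) fun y hy => ?_
  have hy' := (Finset.mem_filter.1 hy).2
  exact S.trans hk ha0 hy'.2 (by rw [hq, hy'.1])

open Classical in
theorem line_nonsing (hI : Inv Γ 𝒜) {A : AddSubgroup V} (hA : A ∈ 𝒜) (hL : IsLine F A) {a : V} (ha : a ∈ A)
    (hq : Q a ≠ 0) {κ : ℕ} (hκ : κ = 2 ∨ (2 : F) = 0 ∧ κ = 1) :
    Fintype.card F * nv Q ⊤ (Q a) ≤ κ * wt (sub 𝒜 (IsLine F)) := by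
  have := finite_space F V
  have := Fintype.ofFinite V
  have ha0 : a ≠ 0 := by rintro rfl; exact hq (map_zero Q)
  let s : Finset (Fˣ × V) := Finset.univ ×ˢ Finset.univ.filter fun v : V => Q v = Q a
  let φ : Fˣ × V → V := fun p => (p.1 : F) • p.2
  have hs : ∀ p ∈ s, Q p.2 = Q a := fun p hp => (Finset.mem_filter.1 (Finset.mem_product.1 hp).2).2
  have hφ : ∀ p ∈ s, Q (φ p) = (p.1 : F) ^ 2 * Q a := fun p hp => by rw [Cls.map_smul', hs p hp]
  have h1 := S.line_cover hk hI hA hL ha (s.image φ) (fun h => by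
    obtain ⟨p, hp, h0⟩ := Finset.mem_image.1 h
    have := hφ p hp
    rw [h0, map_zero] at this
    exact mul_ne_zero (pow_ne_zero 2 p.1.ne_zero) hq this.symm) (fun y hy => by
    obtain ⟨p, hp, rfl⟩ := Finset.mem_image.1 hy
    refine S.trans' hk ha0 (fun h0 => ?_) p.1.ne_zero (hφ p hp)
    have := hφ p hp
    rw [h0, map_zero] at this
    exact mul_ne_zero (pow_ne_zero 2 p.1.ne_zero) hq this.symm)
  have h2 : s.card ≤ κ * (s.image φ).card := by
    refine Finset.card_le_mul_card_image s κ fun y hy => ?_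
    obtain ⟨p, hp, rfl⟩ := Finset.mem_image.1 hy
    have h3 : ∀ p' ∈ s.filter (φ · = φ p), p' = p ∨ p' = (-p.1, -p.2) := by
      intro p' hp'
      obtain ⟨h4, h5⟩ := Finset.mem_filter.1 hp'
      have h6 := hφ p' h4
      rw [h5, hφ p hp] at h6
      have h7 := sq_eq_sq_iff_eq_or_eq_neg.1 (mul_right_cancel₀ hq h6).symm
      change (p'.1 : F) • p'.2 = (p.1 : F) • p.2 at h5
      rcases h7 with h7 | h7
      · left
        rw [h7] at h5
        exact Prod.ext (Units.ext h7) (smul_right_injective V p.1.ne_zero h5)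
      · right
        rw [h7, neg_smul, ← smul_neg] at h5
        refine Prod.ext (Units.ext (by simpa using h7)) ?_
        have := smul_right_injective V p.1.ne_zero h5
        simp only at this ⊢
        rw [← this, neg_neg]
    rcases hκ with rfl | ⟨h2, rfl⟩
    · refine le_trans (Finset.card_le_card (t := {p, (-p.1, -p.2)}) fun p' hp' => ?_) Finset.card_le_two
      simpa using h3 p' hp'
    · refine le_trans (Finset.card_le_card (t := {p}) fun p' hp' => ?_) (Finset.card_singleton p).le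
      rcases h3 p' hp' with h | h
      · simpa using h
      · rw [h, Finset.mem_singleton]
        refine Prod.ext (Units.ext ?_) ?_
        · simp only [Units.val_neg]; linear_combination -(p.1 : F) * h2
        · simp only; linear_combination (norm := module) -(congrArg (· • p.2) h2)
  rw [Finset.card_product, Finset.card_univ, Fintype.card_units, card_val] at h2
  obtain ⟨t, ht1, ht⟩ := exists_card_eq_succ (F := F)
  rw [ht, Nat.add_sub_cancel] at h1 h2
  rw [ht]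
  refine Nat.le_of_mul_le_mul_left ?_ ht1
  nlinarith [Nat.mul_le_mul_left κ h1, Nat.mul_le_mul_left (t + 1) h2]

variable (h5 : k = 0 → (2 : F) ≠ 0) (hI : Inv Γ 𝒜) (hwt : wt 𝒜 < 2 * Fintype.card F ^ (k + 5))
include h5 hI hwt

theorem isLine_of_aniso {A : AddSubgroup V} (hA : A ∈ 𝒜) (han : ∀ x ∈ A, Q x = 0 → x = 0) : IsLine F A := by
  classical
  have := finite_space F V
  have := Fintype.ofFinite V
  by_contra hL
  unfold IsLine at hL
  push Not at hL
  obtain ⟨y, hy, hy0⟩ := hL 0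
  rw [Submodule.span_zero_singleton, Submodule.mem_bot] at hy0
  obtain ⟨a, ha, hay⟩ := hL y
  have hqy : Q y ≠ 0 := fun h => hy0 (han y hy h)
  have hI' := hI.sub (fun B => Nat.card B = Nat.card A) fun g _ B _ h => (card_smul g B).trans h
  obtain ⟨h1, h2⟩ := S.thru_aniso hk hI' (mem_sub.2 ⟨hA, rfl⟩) han hy hy0 ha hay
  have hc := fun m hm => hI'.cover (Finset.univ.filter fun v : V => Q v = Q y) (by simpa using hqy.symm) (x := y)
    (fun z hz => S.trans hk hy0 (by
      rintro rfl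
      exact hqy (by simpa using (Finset.mem_filter.1 hz).2.symm)) (Finset.mem_filter.1 hz).2.symm) (m := m) hm
  rw [card_val] at hc
  have h3 := wt_mono (sub_subset 𝒜 (fun B => Nat.card B = Nat.card A))
  obtain ⟨t, ht1, ht⟩ := exists_card_eq_succ (F := F)
  have h4 := nv_ge_two (ndon_top S.nd) (k := k) (by rw [finrank_top, hk]) ht (Q y)
  obtain ⟨b, hb⟩ : ∃ b, b = (t + 1) ^ k := ⟨_, rfl⟩
  have hb1 : 1 ≤ b := by rw [hb]; exact Nat.succ_le_of_lt (by positivity)
  by_cases h2' : (2 : F) = 0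
  · have hk1 : 1 ≤ k := Nat.pos_of_ne_zero fun h => h5 h h2'
    have hb2 : t + 1 ≤ b := by rw [hb]; exact Nat.le_self_pow (by omega) _
    have h6 := hc _ h2
    rw [ht] at h6 hwt
    simp only [pow_add, ← hb] at h4 h6 hwt
    have h7 := Nat.mul_le_mul_right (b * (t + 1) ^ 1) h4
    rcases ht1.eq_or_lt with rfl | ht2
    · have h8 : wt (sub 𝒜 fun B => Nat.card B = Nat.card A) =
          (sub 𝒜 fun B => Nat.card B = Nat.card A).card * Nat.card A := by
        unfold wt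
        rw [Finset.sum_congr rfl fun B hB => (mem_sub.1 hB).2, Finset.sum_const, smul_eq_mul]
      have h9 := Nat.mul_le_mul_left (sub 𝒜 fun B => Nat.card B = Nat.card A).card (card_le_four_of_aniso ht han)
      simp only [pow_one, one_mul, Nat.reduceAdd, Nat.reducePow] at h7 h6 hwt hb2
      nlinarith [Nat.mul_le_mul_left b hb2]
    · have h8 : 2 * (t + 1) ≤ t * (t + 2) := by nlinarith
      have h9 : 2 * (t + 1) ^ 2 ≤ t * (t + 2) * b := by nlinarith [Nat.mul_le_mul h8 hb2]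
      nlinarith [Nat.mul_le_mul_left (b * (t + 1) ^ 3) h9]
  · have h6 := hc _ (h1 h2')
    have h3' := three_le_card h2'
    rw [ht] at h6 hwt
    simp only [pow_add, ← hb] at h4 h6 hwt
    have h7 := Nat.mul_le_mul_right (b * (t + 1) ^ 2) h4
    have h8 : 2 * (t + 1) ≤ t * (t + 2) := by nlinarith
    have h9 : 2 * (t + 1) ≤ t * (t + 2) * b := by nlinarith [Nat.mul_le_mul h8 hb1]
    nlinarith [Nat.mul_le_mul_left (b * (t + 1) ^ 4) h9]

theorem mem_sing {A : AddSubgroup V} (hA : A ∈ 𝒜) (hA' : A ≠ ⊤) (hL : ¬ IsLine F A) {x : V} :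
    x ∈ sing Q A ↔ x ∈ A ∧ Q x = 0 := by
  refine ⟨fun hx => ?_, fun hx => Submodule.subset_span hx⟩
  induction hx using Submodule.span_induction with
  | mem x hx => exact hx
  | zero => exact ⟨A.zero_mem, map_zero Q⟩
  | add x y _ _ hx hy =>
    exact ⟨A.add_mem hx.1 hy.1, by rw [Cls.map_add', hx.2, hy.2, S.perp_of_sing hk h5 hI hwt hA hA' hx.1 hx.2 hy.1]; simp⟩
  | smul c x _ hx =>
    unfold IsLine at hL
    push Not at hL
    obtain ⟨a, ha, hax⟩ := hL x
    exact ⟨S.smul_mem_of_perp hk h5 hI hwt hA hx.1 hx.2 ha hax (S.perp_of_sing hk h5 hI hwt hA hA' hx.1 hx.2 ha) c,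
      by rw [Cls.map_smul', hx.2, mul_zero]⟩

theorem finrank_sing_ne_one {A : AddSubgroup V} (hA : A ∈ 𝒜) (hA' : A ≠ ⊤) (hL : ¬ IsLine F A) :
    finrank F (sing Q A) ≠ 1 := by
  classical
  have := finite_space F V
  have := Fintype.ofFinite V
  intro h1
  obtain ⟨x, hx, hx0⟩ := exists_mem_ne_zero_of_finrank_pos (W := sing Q A) (by omega)
  obtain ⟨hxA, hqx⟩ := (S.mem_sing hk h5 hI hwt hA hA' hL).1 hx
  have hFx : ∀ c : F, c • x ∈ A := fun c => ((S.mem_sing hk h5 hI hwt hA hA' hL).1 (Submodule.smul_mem _ c hx)).1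
  obtain ⟨x', h⟩ := exists_hyp S.nd hx0 hqx
  obtain ⟨a, ha, hax⟩ : ∃ a ∈ A, a ∉ Submodule.span F {x} := by
    by_contra hc
    push Not at hc
    exact hL ⟨x, hc⟩
  obtain ⟨hy, -⟩ := eich_eq_eich_proj h (S.perp_of_sing hk h5 hI hwt hA hA' hxA hqx ha)
  have hy0 : a - polar Q x' a • x ≠ 0 := fun h0 => hax (Submodule.mem_span_singleton.2 ⟨_, (sub_eq_zero.1 h0).symm⟩)
  obtain ⟨Y, hY, hY'⟩ := S.exists_orbit hk h hy hy0
  let p : AddSubgroup V → Prop := fun B => B ≠ ⊤ ∧ ¬ IsLine F B ∧ finrank F (sing Q B) = 1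
  have hI' := hI.sub p fun g hg B _ hB => ⟨smul_ne_top hB.1, not_isLine_smul hB.2.1 g, by
    obtain ⟨c, hc, hgc⟩ := S.sim g hg
    rw [sing_smul B (pow_ne_zero 2 hc) hgc, LinearEquiv.finrank_map_eq, hB.2.2]⟩
  have hAp : A ∈ sub 𝒜 p := mem_sub.2 ⟨hA, hA', hL, h1⟩
  have hYW : ∀ y ∈ Y, polar Q x' y = 0 := fun y hy' => by
    obtain ⟨-, g, -, c, -, -, rfl, -, h6⟩ := hY' y hy'
    exact (mem_hypC.1 ((h6 _).2 hy)).2.2
  let φ : V × F → V := fun z => z.1 + z.2 • x
  have hφ : ∀ z ∈ Y ×ˢ (Finset.univ : Finset F), polar Q x' (φ z) = z.2 := fun z hz => by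
    rw [polar_add_right, polar_smul_right, hYW _ (Finset.mem_product.1 hz).1, h.polar_eq']; simp
  have h2 := card_mul_add_le_sum ((sub 𝒜 p).filter (x ∈ ·)) ((Y ×ˢ (Finset.univ : Finset F)).image φ) (fun h0 => by
    obtain ⟨z, hz, h0⟩ := Finset.mem_image.1 h0
    have h3 := hφ z hz
    rw [h0, polar_zero_right] at h3
    apply (hY' _ (Finset.mem_product.1 hz).1).1
    simpa [φ, ← h3] using h0) 1 (fun y hy' => by
    obtain ⟨z, hz, rfl⟩ := Finset.mem_image.1 hy'
    obtain ⟨-, g, hg, c, -, h3, h4, -⟩ := hY' _ (Finset.mem_product.1 hz).1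
    refine Finset.card_pos.2 ⟨g • A, Finset.mem_filter.2 ⟨Finset.mem_filter.2 ⟨hI' g hg A hAp, ?_⟩, ?_⟩⟩
    · rw [← h3]; exact app_mem_smul.2 hxA
    · have h6 : φ z = g (a - polar Q x' a • x + z.2 • x) := by rw [map_add, h4, map_smul, h3]
      rw [h6]
      exact app_mem_smul.2 (A.add_mem (A.sub_mem ha (hFx _)) (hFx _)))
  rw [Finset.card_image_of_injOn (fun z hz z' hz' hh => by
    have h3 : z.2 = z'.2 := by rw [← hφ z hz, ← hφ z' hz', hh]
    refine Prod.ext ?_ h3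
    simpa [φ, h3] using hh), Finset.card_product, hY, Finset.card_univ] at h2
  have h3 : 1 ≤ ((sub 𝒜 p).filter (x ∈ ·)).card := Finset.card_pos.2 ⟨A, Finset.mem_filter.2 ⟨hAp, hxA⟩⟩
  have h4 := card_mul_le_sum (sub 𝒜 p) (Finset.univ.filter fun v : V => Q v = 0 ∧ v ≠ 0) (fun B v => v ∈ B)
    (fun B => Nat.card B) ((Fintype.card F - 1) * Fintype.card F ^ (k + 1) * Fintype.card F + 1) (fun y hy' => by
      have hy'' := (Finset.mem_filter.1 hy').2
      obtain ⟨g, hg, rfl⟩ := S.trans hk hx0 hy''.2 (by rw [hqx, hy''.1])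
      refine le_trans ?_ (hI'.sum_thru_le hg x (fun B => Nat.card B) (card_smul g))
      omega)
  have h6 : ∀ B ∈ sub 𝒜 p, Nat.card B * ((Finset.univ.filter fun v : V => Q v = 0 ∧ v ≠ 0).filter (· ∈ B)).card ≤
      Nat.card B * (Fintype.card F - 1) := by
    intro B hB
    obtain ⟨hB1, hB2, hB3, hB4⟩ := mem_sub.1 hB
    have h7 := card_filter_mem_succ_le (sing Q B).toAddSubgroup (Finset.univ.filter fun v : V => Q v = 0 ∧ v ≠ 0) (by simp)
    rw [card_toAddSubgroup, hB4, pow_one] at h7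
    refine Nat.mul_le_mul_left _ (le_trans (Finset.card_le_card fun v hv => ?_) (Nat.le_sub_one_of_lt h7))
    obtain ⟨h8, h9⟩ := Finset.mem_filter.1 hv
    exact Finset.mem_filter.2 ⟨h8, (S.mem_sing hk h5 hI hwt hB1 hB2 hB3).2 ⟨h9, (Finset.mem_filter.1 h8).2.1⟩⟩
  have h7 := h4.trans (Finset.sum_le_sum h6)
  rw [← Finset.sum_mul, card_sing] at h7
  have h8 := wt_mono (sub_subset 𝒜 p)
  have h9 := two_pow_le_sing' (ndon_top S.nd) (k := k) (by rw [finrank_top, hk]) h5
  rw [finrank_top, hk] at h9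
  obtain ⟨t, ht1, ht⟩ := exists_card_eq_succ (F := F)
  change _ ≤ wt (sub 𝒜 p) * _ at h7
  rw [ht, Nat.add_sub_cancel] at h7 h9
  rw [ht] at hwt
  obtain ⟨b, hb⟩ : ∃ b, b = t * (t + 1) ^ (k + 1) := ⟨_, rfl⟩
  have hb1 : t ≤ b := by rw [hb]; exact Nat.le_mul_of_pos_right _ (by positivity)
  rw [← hb] at h7 h9
  have h10 : (b + 1) * t ≤ b * (t + 1) + 1 := by nlinarith
  have h11 := Nat.mul_le_mul_left (nv Q ⊤ 0 - 1) h10
  have h12 : (nv Q ⊤ 0 - 1) * (b + 1) * t ≤ wt (sub 𝒜 p) * t := by nlinarith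
  have h13 := Nat.le_of_mul_le_mul_right h12 ht1
  omega

theorem classify {A : AddSubgroup V} (hA : A ∈ 𝒜) : A = ⊤ ∨ IsLine F A ∨ (k ≤ 1 ∧ TS Q (k + 2) A) := by
  classical
  have := finite_space F V
  by_cases hA' : A = ⊤
  · exact Or.inl hA'
  by_cases hL : IsLine F A
  · exact Or.inr (Or.inl hL)
  refine Or.inr (Or.inr ?_)
  have h0 : finrank F (sing Q A) ≠ 0 := by
    intro h0
    refine hL (S.isLine_of_aniso hk h5 hI hwt hA fun x hx hq => ?_)
    have := (S.mem_sing hk h5 hI hwt hA hA' hL).2 ⟨hx, hq⟩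
    rwa [Submodule.finrank_eq_zero.1 h0, Submodule.mem_bot] at this
  have h1 := S.finrank_sing_ne_one hk h5 hI hwt hA hA' hL
  obtain ⟨i, hi⟩ : ∃ i, finrank F (sing Q A) = i + 2 := ⟨finrank F (sing Q A) - 2, by omega⟩
  have hsA : ∀ u ∈ sing Q A, Q u = 0 := fun u hu => ((S.mem_sing hk h5 hI hwt hA hA' hL).1 hu).2
  have h2 := two_mul_finrank_le_of_singular S.nd hsA
  obtain ⟨l, hl⟩ : ∃ l, k + 1 = i + l := ⟨k + 1 - i, by omega⟩
  let p : AddSubgroup V → Prop := fun B => B ≠ ⊤ ∧ ¬ IsLine F B ∧ finrank F (sing Q B) = i + 2 ∧ Nat.card B = Nat.card A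
  have hI' := hI.sub p fun g hg B _ hB => ⟨smul_ne_top hB.1, not_isLine_smul hB.2.1 g, by
    obtain ⟨c, hc, hgc⟩ := S.sim g hg
    rw [sing_smul B (pow_ne_zero 2 hc) hgc, LinearEquiv.finrank_map_eq, hB.2.2.1], (card_smul g B).trans hB.2.2.2⟩
  let 𝒰 := (sub 𝒜 p).image fun B => (sing Q B).toAddSubgroup
  have hU : Inv Γ 𝒰 := by
    intro g hg U hU
    obtain ⟨B, hB, rfl⟩ := Finset.mem_image.1 hU
    obtain ⟨c, hc, hgc⟩ := S.sim g hg
    rw [smul_toAddSubgroup, ← sing_smul B (pow_ne_zero 2 hc) hgc]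
    exact Finset.mem_image_of_mem _ (hI' g hg B hB)
  have hT : ∀ U ∈ 𝒰, TS Q (i + 2) U := by
    intro U hU
    obtain ⟨B, hB, rfl⟩ := Finset.mem_image.1 hU
    obtain ⟨hB1, hB2, hB3, hB4, -⟩ := mem_sub.1 hB
    exact ⟨_, rfl, fun u hu => ((S.mem_sing hk h5 hI hwt hB1 hB2 hB3).1 hu).2, hB4⟩
  have hne : 𝒰.Nonempty := ⟨_, Finset.mem_image_of_mem _ (mem_sub.2 ⟨hA, hA', hL, hi, rfl⟩)⟩
  have h3 : 𝒰.card * Nat.card A ≤ wt 𝒜 := by
    refine le_trans ?_ (wt_mono (sub_subset 𝒜 p))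
    unfold wt
    rw [Finset.sum_congr rfl fun B hB => (mem_sub.1 hB).2.2.2.2, Finset.sum_const, smul_eq_mul]
    exact Nat.mul_le_mul_right _ Finset.card_image_le
  have hle : (sing Q A).toAddSubgroup ≤ A := fun u hu => ((S.mem_sing hk h5 hI hwt hA hA' hL).1 hu).1
  have h4 := AddSubgroup.card_le_of_le hle
  rw [card_toAddSubgroup, hi] at h4
  have hl1 : l ≤ 1 := by
    by_contra hl2
    have h6 := S.card_TS hk hU hl hT hne
    have h7 := two_pow_le_sing (ndon_top S.nd) (by rw [finrank_top]; omega)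
    rw [finrank_top, hk] at h7
    have h8 : Fintype.card F ^ 2 ≤ Fintype.card F ^ l := Nat.pow_le_pow_right Fintype.card_pos (by omega)
    nlinarith [Nat.mul_le_mul_left 𝒰.card h4, Nat.mul_le_mul_left (nv Q ⊤ 0 - 1) h8]
  obtain rfl : i = k := by omega
  refine ⟨by omega, _, ?_, hsA, hi⟩
  by_contra hne'
  have h6 := S.card_exc hk hU hT hne
  obtain ⟨d, hd⟩ := AddSubgroup.card_dvd_of_le hle
  rw [card_toAddSubgroup, hi] at hd
  have h7 : d ≠ 1 := by
    rintro rfl
    exact hne' (AddSubgroup.eq_of_le_of_card_ge hle (by rw [card_toAddSubgroup, hi, hd, mul_one])).symm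
  have h8 : d ≠ 0 := by
    rintro rfl
    exact Nat.card_pos.ne' (hd.trans (mul_zero _))
  have h9 : Fintype.card F ^ (i + 5) = Fintype.card F ^ 3 * Fintype.card F ^ (i + 2) := by rw [← pow_add]; congr 1; omega
  have h10 : 2 ≤ d := by omega
  rw [hd] at h3
  nlinarith [Nat.mul_le_mul h6 (Nat.mul_le_mul_left (Fintype.card F ^ (i + 2)) h10), Nat.zero_le (Fintype.card F ^ (i + 2))]

end Setup

end CL.MinD
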