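/-
Minimal degrees of orthogonal groups, IV: the geometry of Eichler transformations inside a subgroup.
-/
import Cfsg.Agent.Known.MinDegO3
import Cfsg.Agent.Cls.QuadFamilies

set_option autoImplicit false
set_option linter.unusedSectionVars false

open QuadraticMap Module CL.Cls

namespace CL.MinD

variable {F V : Type*} [Field F] [Fintype F] [AddCommGroup V] [Module F V] [FiniteDimensional F V]
  {Q : QuadraticForm F V} {H : Subgroup (OG Q)}

/-- The largest subspace of `v^⊥` all of whose Eichler transformations with centre `v` lie in `H`. -/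
def Kc (H : Subgroup (OG Q)) (v : V) : Submodule F V where
  carrier := {x | polar Q v x = 0 ∧ ∀ c : F, eich Q v (c • x) ∈ H}
  zero_mem' := ⟨polar_zero_right _ _, fun c => by rw [smul_zero, eich_zero_right]; exact H.one_mem⟩
  add_mem' {x y} hx hy := ⟨by rw [polar_add_right, hx.1, hy.1, add_zero], fun c => by
    by_cases hv : Q v = 0
    · rw [smul_add, ← eich_mul hv (by rw [polar_smul_right, hx.1, smul_zero]) (by rw [polar_smul_right, hy.1, smul_zero])]
      exact H.mul_mem (hx.2 c) (hy.2 c)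
    · rw [eich_of_not fun h => hv h.1]; exact H.one_mem⟩
  smul_mem' c x hx := ⟨by rw [polar_smul_right, hx.1, smul_zero], fun d => by rw [smul_smul]; exact hx.2 _⟩

/-- All Eichler transformations with centre `v` lie in `H`. -/
def Fix (H : Subgroup (OG Q)) (v : V) : Prop := ∀ x, polar Q v x = 0 → eich Q v x ∈ H

/-- Only the trivial Eichler transformation with centre `v` lies in `H`. -/
def Reg (H : Subgroup (OG Q)) (v : V) : Prop := ∀ x, polar Q v x = 0 → eich Q v x ∈ H → x ∈ Submodule.span F {v}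

/-- Hyperplane type. -/
def Lin (H : Subgroup (OG Q)) (v w : V) : Prop :=
  polar Q v w = 0 ∧ w ∉ Submodule.span F {v} ∧ Kc H v = perp Q v ⊓ perp Q w

/-- Exceptional type. -/
def Exc (H : Subgroup (OG Q)) (v : V) (X : Submodule F V) : Prop :=
  (∀ x ∈ X, Q x = 0) ∧ v ∈ X ∧ finrank F X + 4 = finrank F V ∧ finrank F X ≤ 4 ∧
    ∀ x, polar Q v x = 0 → (eich Q v x ∈ H ↔ x ∈ operp Q X)

theorem mem_Kc {v x : V} : x ∈ Kc H v ↔ polar Q v x = 0 ∧ ∀ c : F, eich Q v (c • x) ∈ H := Iff.rfl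

theorem eich_mem_of_Kc {v x : V} (h : x ∈ Kc H v) : eich Q v x ∈ H := by simpa using h.2 1

theorem self_mem_Kc {v : V} (hv : Q v = 0) : v ∈ Kc H v :=
  ⟨by rw [polar_self', hv, mul_zero], fun c => by rw [eich_smul_self]; exact H.one_mem⟩

theorem Kc_symm {u v : V} (hu : Q u = 0) (hv : Q v = 0) (h : u ∈ Kc H v) : v ∈ Kc H u := by
  have h1 : polar Q u v = 0 := by rw [polar_comm, h.1]
  refine ⟨h1, fun c => ?_⟩
  rw [← eich_smul_left hu h1, eich_swap hv (by rw [Cls.map_smul', hu, mul_zero]) (by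
    rw [polar_smul_right, h.1, smul_zero]), ← neg_smul]
  exact h.2 _

theorem app_mem_Kc {H' : Subgroup (OG Q)} {g : OG Q} (hg : ∀ x ∈ H, g * x * g⁻¹ ∈ H') {v x : V} (h : x ∈ Kc H v) :
    g.1 x ∈ Kc H' (g.1 v) :=
  ⟨by rw [OG.polar_app, h.1], fun c => by rw [← map_smul, ← eich_conj]; exact hg _ (h.2 c)⟩

theorem conj_mem_of_mem {g : OG Q} (hg : g ∈ H) : ∀ x ∈ H, g * x * g⁻¹ ∈ H :=
  fun _ hx => H.mul_mem (H.mul_mem hg hx) (H.inv_mem hg)

theorem app_mem_Kc_of_fix {g : OG Q} (hg : g ∈ H) {v x : V} (hv : g.1 v = v) (h : x ∈ Kc H v) : g.1 x ∈ Kc H v := by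
  have := app_mem_Kc (conj_mem_of_mem hg) h
  rwa [hv] at this

theorem Kc_smul {v : V} (hv : Q v = 0) {c : F} (hc : c ≠ 0) : Kc H (c • v) = Kc H v := by
  ext x
  rw [mem_Kc, mem_Kc, polar_smul_left, smul_eq_zero_iff_right hc]
  refine and_congr_right fun h => ⟨fun h' d => ?_, fun h' d => ?_⟩
  · have := h' (c⁻¹ * d)
    rwa [eich_smul_left hv (by rw [polar_smul_right, h, smul_zero]), smul_smul, ← mul_assoc, mul_inv_cancel₀ hc,
      one_mul] at this
  · rw [eich_smul_left hv (by rw [polar_smul_right, h, smul_zero]), smul_smul]; exact h' _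

theorem Fix.app {H' : Subgroup (OG Q)} {g : OG Q} (hg : ∀ x ∈ H, g * x * g⁻¹ ∈ H') {v : V} (h : Fix H v) :
    Fix H' (g.1 v) := fun x hx => by
  have := hg _ (h (g⁻¹.1 x) (by rwa [← OG.polar_app_left]))
  rwa [eich_conj, OG.app_inv_app] at this

theorem Fix.smul {v : V} (h : Fix H v) (hv : Q v = 0) (c : F) : Fix H (c • v) := fun x hx => by
  by_cases hc : c = 0
  · rw [hc, zero_smul, eich_zero_left]; exact H.one_mem
  rw [polar_smul_left, smul_eq_zero_iff_right hc] at hx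
  rw [eich_smul_left hv hx]
  exact h _ (by rw [polar_smul_right, hx, smul_zero])

theorem Exc.Kc_eq {v : V} {X : Submodule F V} (h : Exc H v X) : Kc H v = operp Q X := by
  ext x
  refine ⟨fun hx => (h.2.2.2.2 x hx.1).1 (eich_mem_of_Kc hx), fun hx => ⟨hx v h.2.1, fun c => ?_⟩⟩
  exact (h.2.2.2.2 _ (Submodule.smul_mem _ c hx v h.2.1)).2 (Submodule.smul_mem _ c hx)

section Nondeg

variable (hQ : (polarBilin Q).Nondegenerate)
include hQ

theorem Exc.finrank_Kc {v : V} {X : Submodule F V} (h : Exc H v X) : finrank F (Kc H v) = 4 := by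
  have := finrank_add_finrank_operp hQ X
  rw [h.Kc_eq]; have := h.2.2.1; omega

theorem Lin.finrank_Kc {v w : V} (h : Lin H v w) (hv : v ≠ 0) : finrank F (Kc H v) + 2 = finrank F V := by
  obtain ⟨y, hy, hyw⟩ := exists_polar_of_not_mem_span hQ h.2.1 1
  obtain ⟨z, hz⟩ := exists_polar_ne_zero hQ hv
  have h1 := finrank_inf_perp (W := ⊤) (x := v) (y := z) trivial hz
  have h2 := finrank_inf_perp (W := perp Q v) (x := w) (y := y) hy (by rw [polar_comm, hyw]; exact one_ne_zero)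
  rw [top_inf_eq, finrank_top] at h1
  rw [h.2.2]; omega

theorem Lin.mem_operp {v w : V} (h : Lin H v w) {x : V} : x ∈ operp Q (Kc H v) ↔ ∃ a b : F, a • v + b • w = x := by
  have h1 : perp Q v ⊓ perp Q w = operp Q (Submodule.span F {v, w}) := by
    ext y
    rw [Cls.mem_operp, Submodule.mem_inf, mem_perp, mem_perp]
    refine ⟨fun hy z hz => ?_, fun hy => ⟨hy v (Submodule.subset_span (by simp)), hy w (Submodule.subset_span (by simp))⟩⟩
    obtain ⟨a, b, rfl⟩ := Submodule.mem_span_pair.1 hz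
    rw [polar_add_left, polar_smul_left, polar_smul_left, hy.1, hy.2]; simp
  rw [h.2.2, h1, operp_operp hQ, Submodule.mem_span_pair]

theorem finrank_Kc_add_le {u v : V} (hu : Q u = 0) (hv : Q v = 0) (huv : polar Q v u = 0) (h : u ∉ Kc H v) :
    finrank F (Kc H u) + finrank F (Kc H v) ≤ finrank F V := by
  have h' : v ∉ Kc H u := fun h1 => h (Kc_symm hv hu h1)
  have h1 := finrank_sup_span_singleton_of_notMem (Kc H v ⊓ perp Q u) (x := u) fun hh => h hh.1
  have h2 := finrank_sup_span_singleton_of_notMem (Kc H u ⊓ perp Q v) (x := v) fun hh => h' hh.1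
  have h3 := finrank_le_finrank_inf_perp_succ (Q := Q) (Kc H v) u
  have h4 := finrank_le_finrank_inf_perp_succ (Q := Q) (Kc H u) v
  have h5 := finrank_add_finrank_operp hQ (Kc H v ⊓ perp Q u ⊔ Submodule.span F {u})
  have h6 : Kc H u ⊓ perp Q v ⊔ Submodule.span F {v} ≤ operp Q (Kc H v ⊓ perp Q u ⊔ Submodule.span F {u}) := by
    intro y hy x hx
    obtain ⟨y₁, hy₁, y₂, hy₂, rfl⟩ := Submodule.mem_sup.1 hy
    obtain ⟨x₁, hx₁, x₂, hx₂, rfl⟩ := Submodule.mem_sup.1 hx
    obtain ⟨a, rfl⟩ := Submodule.mem_span_singleton.1 hy₂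
    obtain ⟨b, rfl⟩ := Submodule.mem_span_singleton.1 hx₂
    have h7 : polar Q x₁ y₁ = 0 := by
      by_contra h8
      have h9 := app_mem_Kc_of_fix (eich_mem_of_Kc hx₁.1) (v := u)
        (eich_app_of_polar huv (by rw [polar_comm]; exact hx₁.2)) hy₁.1
      rw [eich_app_of_perp hv hx₁.1.1 hy₁.2] at h9
      exact h' ((Submodule.smul_mem_iff _ h8).1 ((Submodule.add_mem_iff_right _ hy₁.1).1 h9))
    have h8 : polar Q x₁ v = 0 := by rw [polar_comm]; exact hx₁.1.1
    have h9 : polar Q u v = 0 := by rw [polar_comm]; exact huv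
    change polar Q (x₁ + b • u) (y₁ + a • v) = 0
    simp only [polar_add_left, polar_add_right, polar_smul_left, polar_smul_right, h7, h8, h9, hy₁.1.1, smul_zero,
      add_zero]
  have h7 := Submodule.finrank_mono h6
  omega

theorem exists_not_mem_Kc (h5 : 5 ≤ finrank F V) {v : V} (hv : ¬ Fix H v) :
    ∃ u, Q u = 0 ∧ polar Q v u = 0 ∧ u ∉ Kc H v := by
  have h1 : ∃ a ∈ operp Q (Kc H v), a ∉ Submodule.span F {v} := by
    by_contra hc
    push Not at hc
    have h2 := operp_anti (Q := Q) (show operp Q (Kc H v) ≤ _ from hc)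
    rw [operp_operp hQ, operp_span_singleton] at h2
    exact hv fun x hx => eich_mem_of_Kc (h2 hx)
  obtain ⟨a, ha, hav⟩ := h1
  obtain ⟨u, hu, huv, hua⟩ := exists_singular_perp_not hQ h5 hav
  exact ⟨u, hu, huv, fun h => hua (ha u h)⟩

/-- If no singular point is regular or fixed, the dimension is `8` and the exceptional type occurs. -/
theorem exc_of_no_reg (h7 : 7 ≤ finrank F V)
    (h : ∀ v, v ≠ 0 → Q v = 0 → ¬ Fix H v ∧ ((∃ w, Lin H v w) ∨ ∃ X, Exc H v X)) :
    finrank F V = 8 ∧ ∃ v X, v ≠ 0 ∧ Exc H v X := by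
  obtain ⟨v, -, hv0, hv⟩ := exists_singular_in_of_three_le Q ⊤ (by rw [finrank_top]; omega)
  obtain ⟨u, hu, huv, hK⟩ := exists_not_mem_Kc hQ (by omega) (h v hv0 hv).1
  have hu0 : u ≠ 0 := by rintro rfl; exact hK (Submodule.zero_mem _)
  have h1 := finrank_Kc_add_le hQ hu hv huv hK
  rcases (h v hv0 hv).2 with ⟨w, hw⟩ | ⟨X, hX⟩ <;> rcases (h u hu0 hu).2 with ⟨w', hw'⟩ | ⟨X', hX'⟩
  · have := hw.finrank_Kc hQ hv0; have := hw'.finrank_Kc hQ hu0; omega
  · have := hw.finrank_Kc hQ hv0; have := hX'.finrank_Kc hQ; omega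
  · have := hX.finrank_Kc hQ; have := hw'.finrank_Kc hQ hu0; omega
  · have := hX.finrank_Kc hQ; have := hX'.finrank_Kc hQ; have := hX.2.2.1; have := hX.2.2.2.1
    exact ⟨by omega, v, X, hv0, hX⟩

theorem app_mem_operp_Kc {g : OG Q} (hg : g ∈ H) {v x : V} (hv : g.1 v = v) (h : x ∈ operp Q (Kc H v)) :
    g.1 x ∈ operp Q (Kc H v) := fun y hy => by
  change polar Q y (g.1 x) = 0
  rw [OG.polar_app_right]
  refine h _ (app_mem_Kc_of_fix (H.inv_mem hg) ?_ hy)
  conv_lhs => rw [← hv, OG.inv_app_app]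

theorem operp_Kc_eq_of_mem (h : ∀ v, v ≠ 0 → Q v = 0 → Reg H v ∨ ∃ w, Lin H v w ∧ Q w = 0) {v w : V} (hv0 : v ≠ 0)
    (hv : Q v = 0) (hw : Lin H v w) (hqw : Q w = 0) {a : V} (ha : a ∈ operp Q (Kc H v)) (ha0 : a ≠ 0) :
    operp Q (Kc H a) = operp Q (Kc H v) := by
  obtain ⟨α, β, hab⟩ := (hw.mem_operp hQ).1 ha
  by_cases hβ : β = 0
  · rw [hβ, zero_smul, add_zero] at hab
    rw [← hab, Kc_smul hv (by rintro rfl; exact ha0 (by rw [← hab, zero_smul]))]
  have hqa : Q a = 0 := by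
    rw [← hab, Cls.map_add', Cls.map_smul', Cls.map_smul', polar_smul_left, polar_smul_right, hv, hqw, hw.1]; simp
  have haK : a ∈ Kc H v := by
    rw [hw.2.2, ← hab]
    refine ⟨mem_perp.2 ?_, mem_perp.2 ?_⟩
    · rw [polar_add_right, polar_smul_right, polar_smul_right, polar_self', hv, hw.1]; simp
    · rw [polar_add_right, polar_smul_right, polar_smul_right, polar_self', hqw, polar_comm, hw.1]; simp
  have hvK := Kc_symm hqa hv haK
  have hva : v ∉ Submodule.span F {a} := by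
    intro h1
    obtain ⟨c, hc⟩ := Submodule.mem_span_singleton.1 h1
    have hc0 : c ≠ 0 := by rintro rfl; exact hv0 (by rw [← hc, zero_smul])
    refine hw.2.1 (Submodule.mem_span_singleton.2 ⟨(c * β)⁻¹ * (1 - c * α), ?_⟩)
    rw [← hab] at hc
    rw [mul_smul, inv_smul_eq_iff₀ (mul_ne_zero hc0 hβ)]
    linear_combination (norm := module) -hc
  obtain ⟨w', hw', -⟩ := (h a ha0 hqa).resolve_left fun hr => hva (hr v hvK.1 (eich_mem_of_Kc hvK))
  have hw'L : w' ∈ operp Q (Kc H a) := (hw'.mem_operp hQ).2 ⟨0, 1, by simp⟩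
  have haL : a ∈ operp Q (Kc H a) := (hw'.mem_operp hQ).2 ⟨1, 0, by simp⟩
  have hd : finrank F (operp Q (Kc H a)) = finrank F (operp Q (Kc H v)) := by
    have := finrank_add_finrank_operp hQ (Kc H a)
    have := finrank_add_finrank_operp hQ (Kc H v)
    have := hw.finrank_Kc hQ hv0
    have := hw'.finrank_Kc hQ ha0
    omega
  by_cases hvL : v ∈ operp Q (Kc H a)
  · refine (Submodule.eq_of_le_of_finrank_eq (fun x hx => ?_) hd.symm).symm
    obtain ⟨s, t, rfl⟩ := (hw.mem_operp hQ).1 hx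
    have h1 : w = β⁻¹ • (a - α • v) := by rw [eq_inv_smul_iff₀ hβ, ← hab]; abel
    rw [h1]
    exact Submodule.add_mem _ (Submodule.smul_mem _ _ hvL) (Submodule.smul_mem _ _ (Submodule.smul_mem _ _
      (Submodule.sub_mem _ haL (Submodule.smul_mem _ _ hvL))))
  · refine Submodule.eq_of_le_of_finrank_eq (fun x hx => ?_) hd
    obtain ⟨s, t, rfl⟩ := (hw'.mem_operp hQ).1 hx
    refine Submodule.add_mem _ (Submodule.smul_mem _ _ ha) (Submodule.smul_mem _ _ fun x hx => ?_)
    by_contra h1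
    have h2 := app_mem_operp_Kc hQ (eich_mem_of_Kc hx) (v := a) (eich_app_of_polar haK.1 (ha x hx)) hw'L
    rw [eich_app_of_perp hv hx.1 (hw'L v hvK)] at h2
    exact hvL ((Submodule.smul_mem_iff _ h1).1 ((Submodule.add_mem_iff_right _ hw'L).1 h2))

/-- The hyperplane type with a totally singular line cannot occur together with regular points only. -/
theorem reg_of_reg_or_lin (h7 : 7 ≤ finrank F V) (h : ∀ v, v ≠ 0 → Q v = 0 → Reg H v ∨ ∃ w, Lin H v w ∧ Q w = 0)
    {v : V} (hv0 : v ≠ 0) (hv : Q v = 0) : Reg H v := by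
  by_contra hr
  obtain ⟨w, hw, hqw⟩ := (h v hv0 hv).resolve_left hr
  obtain ⟨C, hC⟩ := Submodule.exists_isCompl (operp Q (Kc H v))
  have h1 := Submodule.finrank_add_eq_of_isCompl hC
  have h2 := finrank_add_finrank_operp hQ (Kc H v)
  have h3 := hw.finrank_Kc hQ hv0
  have h4 := Submodule.finrank_sup_add_finrank_inf_eq (Kc H v) C
  have h5 := Submodule.finrank_le (Kc H v ⊔ C)
  obtain ⟨u, hu, hu0, hqu⟩ := exists_singular_in_of_three_le Q (Kc H v ⊓ C) (by omega)
  have huL : u ∉ operp Q (Kc H v) := fun h6 => hu0 (Submodule.disjoint_def.1 hC.disjoint u h6 hu.2)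
  have hvL : v ∈ operp Q (Kc H v) := (hw.mem_operp hQ).2 ⟨1, 0, by simp⟩
  have hvK := Kc_symm hqu hv hu.1
  obtain ⟨w', hw', hqw'⟩ := (h u hu0 hqu).resolve_left fun hr => by
    obtain ⟨c, hc⟩ := Submodule.mem_span_singleton.1 (hr v hvK.1 (eich_mem_of_Kc hvK))
    have hc0 : c ≠ 0 := by rintro rfl; exact hv0 (by rw [← hc, zero_smul])
    exact huL ((Submodule.smul_mem_iff _ hc0).1 (hc ▸ hvL))
  have hw'L : w' ∈ operp Q (Kc H u) := (hw'.mem_operp hQ).2 ⟨0, 1, by simp⟩
  have huL' : u ∈ operp Q (Kc H u) := (hw'.mem_operp hQ).2 ⟨1, 0, by simp⟩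
  by_cases hvL' : v ∈ operp Q (Kc H u)
  · exact huL (operp_Kc_eq_of_mem hQ h hu0 hqu hw' hqw' hvL' hv0 ▸ huL')
  have h6 : ∀ x ∈ Kc H v, polar Q x u = 0 → polar Q x w' = 0 := by
    intro x hx hxu
    by_contra h1
    have h2 := app_mem_operp_Kc hQ (eich_mem_of_Kc hx) (v := u) (eich_app_of_polar hu.1.1 hxu) hw'L
    rw [eich_app_of_perp hv hx.1 (hw'L v hvK)] at h2
    exact hvL' ((Submodule.smul_mem_iff _ h1).1 ((Submodule.add_mem_iff_right _ hw'L).1 h2))
  obtain ⟨x₀, hx₀, hx₀u⟩ := exists_polar_eq_one_of_not_mem hQ huL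
  rw [operp_operp hQ] at hx₀
  rw [polar_comm] at hx₀u
  have h8 : w' - polar Q x₀ w' • u ∈ operp Q (Kc H v) := by
    intro x hx
    have h9 := h6 (x - polar Q x u • x₀) (Submodule.sub_mem _ hx (Submodule.smul_mem _ _ hx₀))
      (by rw [polar_sub_left, polar_smul_left, hx₀u]; simp)
    change polar Q x _ = 0
    rw [polar_sub_left, polar_smul_left] at h9
    rw [polar_sub_right, polar_smul_right]
    simp only [smul_eq_mul] at h9 ⊢
    linear_combination h9
  have h9 : w' - polar Q x₀ w' • u ≠ 0 := fun h0 =>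
    hw'.2.1 (Submodule.mem_span_singleton.2 ⟨_, (sub_eq_zero.1 h0).symm⟩)
  have h10 := operp_Kc_eq_of_mem hQ h hu0 hqu hw' hqw' (Submodule.sub_mem _ hw'L (Submodule.smul_mem _ _ huL')) h9
  rw [operp_Kc_eq_of_mem hQ h hv0 hv hw hqw h8 h9] at h10
  exact huL (h10 ▸ huL')

/-- The span of the singular vectors whose Eichler groups lie in `H`. -/
def UFix (H : Subgroup (OG Q)) : Submodule F V := Submodule.span F {v | Q v = 0 ∧ Fix H v}

theorem mem_UFix (h4 : 4 ≤ finrank F V) (hH : ¬ commutator (OG Q) ≤ H) {v : V} : v ∈ UFix H ↔ Q v = 0 ∧ Fix H v := by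
  refine ⟨fun hx => ?_, fun hx => Submodule.subset_span hx⟩
  induction hx using Submodule.span_induction with
  | mem x hx => exact hx
  | zero => exact ⟨map_zero Q, fun x _ => by rw [eich_zero_left]; exact H.one_mem⟩
  | add x y _ _ hx hy =>
    have h1 : polar Q x y = 0 := by
      by_contra h1
      have h2 : IsHyp Q x ((polar Q x y)⁻¹ • y) :=
        ⟨hx.1, by rw [Cls.map_smul', hy.1, mul_zero], by rw [polar_smul_right, smul_eq_mul, inv_mul_cancel₀ h1]⟩
      have h3 : ∀ a, Fix H a → ∀ z, eich Q a z ∈ H := fun a ha z => by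
        by_cases hz : polar Q a z = 0
        · exact ha z hz
        · rw [eich_of_not fun h => hz h.2]; exact H.one_mem
      exact hH (commutator_le_of_pair hQ h4 h2 (h3 _ hx.2) (h3 _ (hy.2.smul hy.1 _)))
    refine ⟨by rw [Cls.map_add', hx.1, hy.1, h1]; simp, ?_⟩
    by_cases h2 : y ∈ Submodule.span F {x}
    · obtain ⟨c, rfl⟩ := Submodule.mem_span_singleton.1 h2
      have := hx.2.smul hx.1 (1 + c)
      rwa [add_smul, one_smul] at this
    · obtain ⟨z, hz, hzy⟩ := exists_polar_of_not_mem_span hQ h2 1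
      have := hy.2.app (conj_mem_of_mem (hx.2 z hz))
      rwa [eich_app_of_perp hx.1 hz h1, hzy, one_smul, add_comm] at this
  | smul c x _ hx => exact ⟨by rw [Cls.map_smul', hx.1, mul_zero], hx.2.smul hx.1 c⟩

theorem exists_not_reg_of_UFix (h5 : 5 ≤ finrank F V) (hH : ¬ commutator (OG Q) ≤ H) (h2 : 2 ≤ finrank F (UFix H)) :
    ∃ v, v ≠ 0 ∧ Q v = 0 ∧ ¬ Fix H v ∧ ¬ Reg H v ∧ finrank F (Kc H v) ≤ finrank F (UFix H) := by
  have hU := fun v => mem_UFix hQ (by omega) hH (v := v)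
  obtain ⟨u, hu, hu0⟩ := exists_mem_ne_zero_of_finrank_pos (W := UFix H) (by omega)
  obtain ⟨v, huv⟩ := exists_hyp hQ hu0 ((hU u).1 hu).1
  have hts := polar_eq_zero_of_singular fun x hx => ((hU x).1 hx).1
  have hvU : v ∉ UFix H := fun h => one_ne_zero (huv.polar_eq.symm.trans (hts u hu v h))
  have h3 := finrank_inf_perp (W := UFix H) (x := v) hu (by rw [huv.polar_eq']; exact one_ne_zero)
  refine ⟨v, huv.symm.left_ne_zero, huv.right, fun h => hvU ((hU v).2 ⟨huv.right, h⟩), fun hr => ?_, ?_⟩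
  · obtain ⟨u₀, hu₀, hu₀0⟩ := exists_mem_ne_zero_of_finrank_pos (W := UFix H ⊓ perp Q v) (by omega)
    obtain ⟨h4, h6⟩ := (hU u₀).1 hu₀.1
    have h7 : u₀ ∈ Kc H v := Kc_symm huv.right h4 ⟨by rw [polar_comm]; exact hu₀.2, fun c => h6 _ (by
      rw [polar_smul_right, polar_comm, mem_perp.1 hu₀.2, smul_zero])⟩
    obtain ⟨c, hc⟩ := Submodule.mem_span_singleton.1 (hr u₀ h7.1 (eich_mem_of_Kc h7))
    have hc0 : c ≠ 0 := by rintro rfl; exact hu₀0 (by rw [← hc, zero_smul])
    exact hvU ((Submodule.smul_mem_iff _ hc0).1 (hc ▸ hu₀.1))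
  · rw [← h3, ← finrank_sup_span_singleton_of_notMem (UFix H ⊓ perp Q v) (x := v) fun h => hvU h.1]
    refine Submodule.finrank_mono fun x hx => ?_
    have h4 := (hU _).2 ⟨(OG.map_app _ u).trans huv.left, ((hU u).1 hu).2.app (conj_mem_of_mem (eich_mem_of_Kc hx))⟩
    rw [eich_app huv.right hx.1, huv.polar_eq'] at h4
    have h6 : x = (u - (u + polar Q x u • v - (1 : F) • x - (Q x * 1) • v)) + (polar Q x u - Q x) • v := by module
    rw [h6]
    refine Submodule.add_mem_sup ⟨Submodule.sub_mem _ hu h4, mem_perp.2 ?_⟩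
      (Submodule.smul_mem _ _ (Submodule.mem_span_singleton_self v))
    simp [polar_sub_right, polar_add_right, polar_smul_right, huv.polar_right, hx.1]

end Nondeg

end CL.MinD
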