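/-
Minimal degrees of orthogonal groups, V: a subgroup supplementing the unipotent radical of a point
stabiliser contains a nontrivial Eichler transformation.
-/
import Cfsg.Agent.Known.MinDegO4
import Cfsg.Agent.Cls.OrthMaxPair

set_option autoImplicit false
set_option linter.unusedSectionVars false

open QuadraticMap Module CL.Cls

namespace CL.MinD

variable {F V : Type*} [Field F] [Fintype F] [AddCommGroup V] [Module F V] [FiniteDimensional F V]
  {Q : QuadraticForm F V} {H : Subgroup (OG Q)}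

theorem eich_shift {e u y : V} (he : Q e = 0) (hu : Q u = 0) (heu : polar Q e u = 0) (hey : polar Q e y = 0)
    (huy : polar Q u y = 0) (c t : F) :
    eich Q (u + c • e) (y + t • e) = eich Q e (c • y + (c * Q y - t) • u) * eich Q u y := by
  have hue : polar Q u e = 0 := by rw [polar_comm, heu]
  have hye : polar Q y e = 0 := by rw [polar_comm, hey]
  have hyu : polar Q y u = 0 := by rw [polar_comm, huy]
  have hee : polar Q e e = 0 := by rw [polar_self', he, mul_zero]
  have huu : polar Q u u = 0 := by rw [polar_self', hu, mul_zero]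
  have h1 : Q (u + c • e) = 0 := by rw [Cls.map_add', Cls.map_smul', polar_smul_right, hu, he, hue]; simp
  have h2 : polar Q (u + c • e) (y + t • e) = 0 := by
    simp [polar_add_left, polar_add_right, polar_smul_left, polar_smul_right, hue, hey, huy, hee]
  have h3 : polar Q e (c • y + (c * Q y - t) • u) = 0 := by simp [polar_add_right, polar_smul_right, hey, heu]
  have h4 : Q (y + t • e) = Q y := by rw [Cls.map_add', Cls.map_smul', polar_smul_right, he, hye]; simp
  have h5 : Q (c • y + (c * Q y - t) • u) = c ^ 2 * Q y := by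
    rw [Cls.map_add', Cls.map_smul', Cls.map_smul', polar_smul_left, polar_smul_right, hu, hyu]; simp
  refine OG.ext' fun x => ?_
  rw [OG.mul_app, eich_app h1 h2, eich_app he h3, eich_app hu huy, h4, h5]
  simp only [polar_add_left, polar_add_right, polar_sub_right, polar_smul_left, polar_smul_right, hey, heu, hyu, huy,
    huu, polar_self', smul_eq_mul]
  module

theorem mul_eich_of_fix {g : OG Q} {e : V} (hg : g.1 e = e) (x : V) : g * eich Q e x = eich Q e (g.1 x) * g := by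
  have := eich_conj g e x
  rw [hg] at this
  rw [← this, inv_mul_cancel_right]

theorem app_mem_hypC {g : OG Q} {e f x : V} (he : g.1 e = e) (hf : g.1 f = f) (hx : x ∈ hypC Q ⊤ e f) :
    g.1 x ∈ hypC Q ⊤ e f :=
  mem_hypC.2 ⟨trivial, by rw [← he, OG.polar_app, (mem_hypC.1 hx).2.1], by rw [← hf, OG.polar_app, (mem_hypC.1 hx).2.2]⟩

theorem exists_smul_of_perp {W : Submodule F V} (hW : NDon Q W) {y z : V} (hy : y ∈ W) (hy0 : y ≠ 0) (hz : z ∈ W)
    (h : ∀ w ∈ W, polar Q y w = 0 → polar Q z w = 0) : ∃ c : F, z = c • y := by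
  obtain ⟨y', hy', hyy'⟩ := hW.exists_polar_eq hy hy0 1
  refine ⟨polar Q z y', sub_eq_zero.1 (hW _ (W.sub_mem hz (W.smul_mem _ hy)) fun w hw => ?_)⟩
  have h1 := h (w - polar Q y w • y') (W.sub_mem hw (W.smul_mem _ hy'))
    (by rw [polar_sub_right, polar_smul_right, hyy']; simp)
  rw [polar_sub_right, polar_smul_right] at h1
  rw [polar_sub_left, polar_smul_left]
  simp only [smul_eq_mul] at h1 ⊢
  linear_combination h1

/-- The data of the cocycle argument. -/
structure Coc (H : Subgroup (OG Q)) (e f u u' : V) (φ : V → V) : Prop where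
  nd : (polarBilin Q).Nondegenerate
  reg : ∀ v, v ≠ 0 → Q v = 0 → Reg H v
  hef : IsHyp Q e f
  huu : IsHyp Q u u'
  hu : u ∈ hypC Q ⊤ e f
  hu' : u' ∈ hypC Q ⊤ e f
  tr : ∀ g ∈ commutator (OG Q), ∃ x ∈ hypC Q ⊤ e f, eich Q e x * g ∈ H
  mem : ∀ y, φ y ∈ hypC Q ⊤ e f
  lift : ∀ y, eich Q e (φ y) * eich Q u y ∈ H

namespace Coc

variable {e f u u' : V} {φ : V → V} (C : Coc H e f u u' φ)
include C

theorem uniq {g : OG Q} {x x' : V} (hx : x ∈ hypC Q ⊤ e f) (hx' : x' ∈ hypC Q ⊤ e f) (h : eich Q e x * g ∈ H)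
    (h' : eich Q e x' * g ∈ H) : x = x' := by
  have h1 := H.mul_mem h (H.inv_mem h')
  have h2 := mem_hypC.1 hx
  have h3 := mem_hypC.1 hx'
  rw [mul_inv_rev, mul_assoc, mul_inv_cancel_left, eich_inv C.hef.left h3.2.1,
    eich_mul C.hef.left h2.2.1 (by rw [polar_neg_right, h3.2.1, neg_zero])] at h1
  obtain ⟨c, hc⟩ := Submodule.mem_span_singleton.1 (C.reg e C.hef.left_ne_zero C.hef.left _
    (by rw [polar_add_right, polar_neg_right, h2.2.1, h3.2.1]; simp) h1)
  have h4 := congrArg (polar Q f) hc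
  rw [polar_smul_right, C.hef.polar_eq', polar_add_right, polar_neg_right, h2.2.2, h3.2.2] at h4
  simp only [smul_eq_mul, mul_one, neg_zero, add_zero] at h4
  rw [h4, zero_smul] at hc
  exact add_neg_eq_zero.1 hc.symm

theorem eich_fix {y : V} (hy : y ∈ hypC Q (hypC Q ⊤ e f) u u') : (eich Q u y).1 e = e ∧ (eich Q u y).1 f = f := by
  have h1 := mem_hypC.1 (hypC_le hy)
  have h2 := mem_hypC.1 C.hu
  exact ⟨eich_app_of_polar (by rw [polar_comm, h2.2.1]) (by rw [polar_comm, h1.2.1]),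
    eich_app_of_polar (by rw [polar_comm, h2.2.2]) (by rw [polar_comm, h1.2.2])⟩

theorem map_add {y y' : V} (hy : y ∈ hypC Q (hypC Q ⊤ e f) u u') (hy' : y' ∈ hypC Q (hypC Q ⊤ e f) u u') :
    φ (y + y') = φ y + (eich Q u y).1 (φ y') := by
  have h1 := app_mem_hypC (C.eich_fix hy).1 (C.eich_fix hy).2 (C.mem y')
  refine C.uniq (C.mem _) (Submodule.add_mem _ (C.mem y) h1) (C.lift _) ?_
  have h2 := H.mul_mem (C.lift y) (C.lift y')
  rwa [mul_assoc, ← mul_assoc (eich Q u y), mul_eich_of_fix (C.eich_fix hy).1, mul_assoc, ← mul_assoc,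
    eich_mul C.hef.left (mem_hypC.1 (C.mem y)).2.1 (mem_hypC.1 h1).2.1,
    eich_mul C.huu.left (mem_hypC.1 hy).2.1 (mem_hypC.1 hy').2.1] at h2

theorem map_zero : φ 0 = 0 := by
  refine C.uniq (C.mem _) (Submodule.zero_mem _) (C.lift _) ?_
  rw [eich_zero_right, eich_zero_right, one_mul]; exact H.one_mem

theorem comm_eq {y y' : V} (hy : y ∈ hypC Q (hypC Q ⊤ e f) u u') (hy' : y' ∈ hypC Q (hypC Q ⊤ e f) u u') :
    (polar Q y (φ y') - Q y * polar Q u (φ y')) • u - polar Q u (φ y') • y =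
      (polar Q y' (φ y) - Q y' * polar Q u (φ y)) • u - polar Q u (φ y) • y' := by
  have h1 := C.map_add hy hy'
  rw [add_comm, C.map_add hy' hy, eich_app C.huu.left (mem_hypC.1 hy).2.1,
    eich_app C.huu.left (mem_hypC.1 hy').2.1] at h1
  linear_combination (norm := module) -h1

theorem comm_eq' {y y' : V} (hy : y ∈ hypC Q (hypC Q ⊤ e f) u u') (hy' : y' ∈ hypC Q (hypC Q ⊤ e f) u u') :
    polar Q y (φ y') - Q y * polar Q u (φ y') = polar Q y' (φ y) - Q y' * polar Q u (φ y) := by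
  have h1 := congrArg (polar Q u') (C.comm_eq hy hy')
  simpa [polar_sub_right, polar_smul_right, C.huu.polar_eq', (mem_hypC.1 hy).2.2, (mem_hypC.1 hy').2.2] using h1

variable (h6 : 6 ≤ finrank F V)
include h6

theorem finrank_eq : finrank F (hypC Q (hypC Q ⊤ e f) u u') + 4 = finrank F V := by
  have h1 := finrank_hypC C.huu C.hu C.hu'
  have h2 := finrank_hypC (W := ⊤) C.hef trivial trivial
  rw [finrank_top] at h2
  omega

theorem polar_u {y : V} (hy : y ∈ hypC Q (hypC Q ⊤ e f) u u') : polar Q u (φ y) = 0 := by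
  obtain ⟨y', hy', hyy'⟩ := exists_mem_not_mem_span (W := hypC Q (hypC Q ⊤ e f) u u')
    (by have := C.finrank_eq h6; omega) y
  have h1 := C.comm_eq hy hy'
  rw [C.comm_eq' hy hy', sub_right_inj] at h1
  by_contra h2
  exact hyy' ((Submodule.smul_mem_iff _ h2).1 (h1 ▸ Submodule.smul_mem _ _ (Submodule.mem_span_singleton_self y)))

theorem polar_symm {y y' : V} (hy : y ∈ hypC Q (hypC Q ⊤ e f) u u') (hy' : y' ∈ hypC Q (hypC Q ⊤ e f) u u') :
    polar Q y (φ y') = polar Q y' (φ y) := by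
  simpa [C.polar_u h6 hy, C.polar_u h6 hy'] using C.comm_eq' hy hy'

theorem polar_self_eq (h2 : (2 : F) = 0) {y : V} (hy : y ∈ hypC Q (hypC Q ⊤ e f) u u') : polar Q y (φ y) = 0 := by
  have h1 := C.map_add hy hy
  rw [← two_smul F y, h2, zero_smul, C.map_zero, eich_app_of_perp C.huu.left (mem_hypC.1 hy).2.1 (C.polar_u h6 hy),
    ← add_assoc, ← two_smul F, h2, zero_smul, zero_add] at h1
  exact (smul_eq_zero.1 h1.symm).resolve_right C.huu.left_ne_zero

theorem false_of_eigen {y : V} (hy : y ∈ hypC Q (hypC Q ⊤ e f) u u') (hy0 : y ≠ 0)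
    (h : ∀ w ∈ hypC Q (hypC Q ⊤ e f) u u', polar Q y w = 0 → polar Q w (φ y) = 0) : False := by
  have hW := ((ndon_top C.nd).hypC C.hef trivial trivial).hypC C.huu C.hu C.hu'
  have h1 := C.huu.proj_mem C.hu C.hu' (C.mem y)
  rw [C.polar_u h6 hy, zero_smul, sub_zero] at h1
  obtain ⟨μ, hμ⟩ := exists_smul_of_perp hW hy hy0 h1 fun w hw hyw => by
    rw [polar_sub_left, polar_smul_left, (mem_hypC.1 hw).2.1, polar_comm, h w hw hyw]; simp
  have h2 := mem_hypC.1 (hypC_le hy)
  have h3 := mem_hypC.1 C.hu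
  have h4 := mem_hypC.1 C.hu'
  have h5 := C.lift y
  have h7 : φ y = μ • y + (μ * Q y - (μ * Q y - polar Q u' (φ y))) • u := by
    rw [← hμ, sub_sub_cancel, sub_add_cancel]
  rw [h7, ← eich_shift C.hef.left C.huu.left h3.2.1 h2.2.1 (mem_hypC.1 hy).2.1] at h5
  have h8 : polar Q u' (u + μ • e) = 1 := by
    rw [polar_add_right, polar_smul_right, C.huu.polar_eq', polar_comm, h4.2.1]; simp
  have hue : polar Q u e = 0 := by rw [polar_comm, h3.2.1]
  obtain ⟨a, ha⟩ := Submodule.mem_span_singleton.1 (C.reg _ (by rintro h0; rw [h0] at h8; simp at h8)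
    (by rw [Cls.map_add', Cls.map_smul', polar_smul_right, C.huu.left, C.hef.left, hue]; simp) _
    (by simp [polar_add_left, polar_add_right, polar_smul_left, polar_smul_right, hue, h2.2.1, (mem_hypC.1 hy).2.1,
      C.hef.polar_left]) h5)
  have h9 := congrArg (polar Q u') ha
  rw [polar_smul_right, h8, polar_add_right, polar_smul_right, (mem_hypC.1 hy).2.2, polar_comm _ u' e, h4.2.1] at h9
  simp only [smul_eq_mul, mul_one, mul_zero, add_zero] at h9
  rw [h9, zero_smul] at ha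
  have h10 := congrArg (polar Q f) ha
  rw [polar_zero_right, polar_add_right, polar_smul_right, h2.2.2, C.hef.polar_eq', zero_add, smul_eq_mul,
    mul_one] at h10
  rw [← h10, zero_smul, add_zero] at ha
  exact hy0 ha.symm

omit h6 in
theorem conj_eq {g : OG Q} (hg : g ∈ commutator (OG Q)) (he : g.1 e = e) (hf : g.1 f = f) (hu : g.1 u = u) :
    ∃ c : F, ∀ y ∈ hypC Q (hypC Q ⊤ e f) u u', g.1 y = y → ∃ s : F, φ y = g.1 (φ y) + c • y + s • u := by
  obtain ⟨x, hx, h⟩ := C.tr g hg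
  refine ⟨polar Q u x, fun y hy hgy => ⟨Q y * polar Q u x - polar Q y x, ?_⟩⟩
  have h1 := app_mem_hypC he hf (C.mem y)
  have h2 := app_mem_hypC (C.eich_fix hy).1 (C.eich_fix hy).2 (Submodule.neg_mem _ hx)
  have h3 := H.mul_mem (H.mul_mem h (C.lift y)) (H.inv_mem h)
  have h4 : g * eich Q u y * g⁻¹ = eich Q u y := by rw [eich_conj, hu, hgy]
  have h5 : eich Q e x * g * (eich Q e (φ y) * eich Q u y) * (eich Q e x * g)⁻¹ =
      eich Q e x * eich Q e (g.1 (φ y)) * (g * eich Q u y * g⁻¹ * (eich Q e x)⁻¹) := by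
    rw [mul_assoc (eich Q e x) g, ← mul_assoc g, mul_eich_of_fix he]; group
  have hx1 := (mem_hypC.1 hx).2.1
  rw [h5, h4, eich_inv C.hef.left hx1, mul_eich_of_fix (C.eich_fix hy).1, ← mul_assoc,
    eich_mul C.hef.left hx1 (mem_hypC.1 h1).2.1, eich_mul C.hef.left (by
      rw [polar_add_right, hx1, (mem_hypC.1 h1).2.1, add_zero]) (mem_hypC.1 h2).2.1] at h3
  have h6 := C.uniq (C.mem y) (Submodule.add_mem _ (Submodule.add_mem _ hx h1) h2) (C.lift y) h3
  rw [_root_.map_neg, eich_app C.huu.left (mem_hypC.1 hy).2.1] at h6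
  linear_combination (norm := module) h6

theorem perp_of_pair {a b : V} (ha : a ∈ hypC Q (hypC Q ⊤ e f) u u') (hb : b ∈ hypC Q (hypC Q ⊤ e f) u u')
    (hqa : Q a ≠ 0) (hab : Q b = Q a) (hind : ∀ s t : F, s • a = t • b → s = 0 ∧ t = 0) {y₀ z₀ : V}
    (hy₀ : y₀ ∈ hypC Q (hypC Q ⊤ e f) u u') (hz₀ : z₀ ∈ hypC Q (hypC Q ⊤ e f) u u') (h1 : polar Q a y₀ = 0)
    (h2 : polar Q b y₀ = 0) (h3 : polar Q a z₀ = 0) (h4 : polar Q b z₀ = 0) (h5 : polar Q y₀ z₀ ≠ 0) {y : V}
    (hy : y ∈ hypC Q (hypC Q ⊤ e f) u u') (hay : polar Q a y = 0) (hby : polar Q b y = 0) :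
    polar Q a (φ y) = 0 ∧ polar Q b (φ y) = 0 := by
  have hfix : ∀ x, polar Q a x = 0 → polar Q b x = 0 → (refl Q a * refl Q b).1 x = x := fun x hx hx' => by
    rw [OG.mul_app, refl_app_of_polar hx', refl_app_of_polar hx]
  have ha1 := mem_hypC.1 ha
  have hb1 := mem_hypC.1 hb
  have ha2 := mem_hypC.1 ha1.1
  have hb2 := mem_hypC.1 hb1.1
  have hfu : (refl Q a * refl Q b).1 u' = u' := hfix _ (by rw [polar_comm, ha1.2.2]) (by rw [polar_comm, hb1.2.2])
  obtain ⟨c, hc⟩ := C.conj_eq (refl_mul_refl_mem_commutator C.nd hqa (hab ▸ hqa) (by rw [hab]))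
    (hfix _ (by rw [polar_comm, ha2.2.1]) (by rw [polar_comm, hb2.2.1]))
    (hfix _ (by rw [polar_comm, ha2.2.2]) (by rw [polar_comm, hb2.2.2]))
    (hfix _ (by rw [polar_comm, ha1.2.1]) (by rw [polar_comm, hb1.2.1]))
  have hc0 : c = 0 := by
    obtain ⟨s, hs⟩ := hc y₀ hy₀ (hfix _ h1 h2)
    have h7 := congrArg (polar Q z₀) hs
    rw [polar_add_right, polar_add_right, polar_smul_right, polar_smul_right, polar_comm _ z₀ u, (mem_hypC.1 hz₀).2.1,
      polar_comm _ z₀ y₀] at h7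
    nth_rewrite 2 [← hfix z₀ h3 h4] at h7
    rw [OG.polar_app] at h7
    exact (mul_eq_zero.1 (by simpa using h7)).resolve_right h5
  obtain ⟨s, hs⟩ := hc y hy (hfix _ hay hby)
  have h7 := congrArg (polar Q u') hs
  rw [hc0, zero_smul, add_zero, polar_add_right, polar_smul_right, C.huu.polar_eq'] at h7
  nth_rewrite 2 [← hfu] at h7
  rw [OG.polar_app] at h7
  have hs0 : s = 0 := by simpa using h7
  rw [hc0, hs0, zero_smul, zero_smul, add_zero, add_zero] at hs
  have h8 := congrArg (refl Q a).1 hs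
  rw [OG.mul_app, refl_app_refl_app, refl_app, refl_app, sub_right_inj, hab] at h8
  obtain ⟨h9, h10⟩ := hind _ _ h8
  exact ⟨(mul_eq_zero.1 h9).resolve_left (inv_ne_zero hqa), (mul_eq_zero.1 h10).resolve_left (inv_ne_zero hqa)⟩

theorem false_of_two_eq_zero (h2 : (2 : F) = 0) (h8 : 8 ≤ finrank F V) : False := by
  have hW := ((ndon_top C.nd).hypC C.hef trivial trivial).hypC C.huu C.hu C.hu'
  have hd := C.finrank_eq h6
  obtain ⟨e₁, he₁, f₁, hf₁, h⟩ := hW.exists_isHyp (by omega)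
  have hW' := hW.hypC h he₁ hf₁
  have hd' := finrank_hypC h he₁ hf₁
  obtain ⟨w, hw, hqw⟩ := hW'.exists_map_eq (by omega) 1
  obtain ⟨w', hw', hww'⟩ := hW'.exists_polar_eq hw (by rintro rfl; simp at hqw) 1
  have hw1 := mem_hypC.1 hw
  have hw2 := mem_hypC.1 hw'
  have hwe : polar Q w e₁ = 0 := by rw [polar_comm, hw1.2.1]
  have hwf : polar Q w f₁ = 0 := by rw [polar_comm, hw1.2.2]
  have hww : polar Q w w = 0 := by rw [polar_self', h2, zero_mul]
  have ha := Submodule.add_mem _ he₁ hw1.1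
  have hqa : Q (e₁ + w) = 1 := by rw [Cls.map_add', h.left, hqw, hw1.2.1]; simp
  have hqb : Q (f₁ + w) = 1 := by rw [Cls.map_add', h.right, hqw, hw1.2.2]; simp
  have hP := fun y hy => C.perp_of_pair h6 ha (Submodule.add_mem _ hf₁ hw1.1) (by rw [hqa]; exact one_ne_zero)
    (by rw [hqa, hqb]) (fun s t hst => by
      have h3 := congrArg (polar Q e₁) hst
      have h4 := congrArg (polar Q f₁) hst
      simp only [polar_add_right, polar_smul_right, h.polar_left, h.polar_right, h.polar_eq, h.polar_eq', hw1.2.1,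
        hw1.2.2, smul_eq_mul, add_zero, mul_zero, mul_one] at h3 h4
      exact ⟨h4, h3.symm⟩) hw1.1 (Submodule.sub_mem _ (Submodule.sub_mem _ hw2.1 he₁) hf₁)
    (by rw [polar_add_left, hw1.2.1, hww, add_zero]) (by rw [polar_add_left, hw1.2.2, hww, add_zero])
    (by simp [polar_add_left, polar_sub_right, h.polar_left, h.polar_eq, hw2.2.1, hww', hwe, hwf])
    (by simp [polar_add_left, polar_sub_right, h.polar_right, h.polar_eq', hw2.2.2, hww', hwe, hwf])
    (by simp [polar_sub_right, hww', hwe, hwf]) (y := y) hy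
  refine C.false_of_eigen h6 ha (by rintro h0; rw [h0] at hqa; simp at hqa) fun y hy hay => ?_
  have h3 := Submodule.sub_mem _ hy (Submodule.smul_mem _ (polar Q (f₁ + w) y) ha)
  have h4 := (hP _ h3 (by rw [polar_sub_right, polar_smul_right, hay, polar_self', h2]; simp) (by
    rw [polar_sub_right, polar_smul_right]
    simp [polar_add_left, polar_add_right, h.polar_eq', hw1.2.2, hwe, hww])).1
  rw [C.polar_symm h6 ha h3, polar_sub_left, polar_smul_left, C.polar_self_eq h6 h2 ha] at h4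
  simpa using h4

theorem false_of_two_ne_zero (h2 : (2 : F) ≠ 0) (h7 : 7 ≤ finrank F V) : False := by
  have hW := ((ndon_top C.nd).hypC C.hef trivial trivial).hypC C.huu C.hu C.hu'
  have hd := C.finrank_eq h6
  have hpp : ∀ x : V, Q x = 1 → polar Q x x ≠ 0 := fun x hx => by rw [polar_self', hx, mul_one]; exact h2
  have hind : ∀ x y : V, Q x = 1 → Q y = 1 → polar Q x y = 0 → ∀ s t : F, s • x = t • y → s = 0 ∧ t = 0 := by
    intro x y hx hy hxy s t hst
    have h3 := congrArg (polar Q x) hst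
    have h4 := congrArg (polar Q y) hst
    rw [polar_smul_right, polar_smul_right, hxy, smul_zero] at h3
    rw [polar_smul_right, polar_smul_right, polar_comm, hxy, smul_zero] at h4
    exact ⟨(smul_eq_zero.1 h3).resolve_right (hpp x hx), (smul_eq_zero.1 h4.symm).resolve_right (hpp y hy)⟩
  obtain ⟨a, ha, hqa⟩ := hW.exists_map_eq (by omega) 1
  have hWa := hW.inf_perp ha (hpp a hqa)
  have hda := finrank_inf_perp ha (hpp a hqa)
  obtain ⟨b, hb, hqb⟩ := hWa.exists_map_eq (by omega) 1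
  have hWb := hWa.inf_perp hb (hpp b hqb)
  have hdb := finrank_inf_perp hb (hpp b hqb)
  obtain ⟨y₀, hy₀, hy₀0⟩ := exists_mem_ne_zero_of_finrank_pos
    (W := hypC Q (hypC Q ⊤ e f) u u' ⊓ perp Q a ⊓ perp Q b) (by omega)
  obtain ⟨z₀, hz₀, hyz⟩ := hWb.exists_polar_ne_zero hy₀ hy₀0
  have hP := fun y hy => C.perp_of_pair h6 ha hb.1 (by rw [hqa]; exact one_ne_zero) (by rw [hqa, hqb])
    (hind a b hqa hqb hb.2) hy₀.1.1 hz₀.1.1 hy₀.1.2 hy₀.2 hz₀.1.2 hz₀.2 hyz (y := y) hy
  have hdec : ∀ w ∈ hypC Q (hypC Q ⊤ e f) u u', w - ((2 : F)⁻¹ * polar Q a w) • a - ((2 : F)⁻¹ * polar Q b w) • b ∈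
      hypC Q (hypC Q ⊤ e f) u u' ⊓ perp Q a ⊓ perp Q b := fun w hw => by
    refine ⟨⟨Submodule.sub_mem _ (Submodule.sub_mem _ hw (Submodule.smul_mem _ _ ha)) (Submodule.smul_mem _ _ hb.1),
      mem_perp.2 ?_⟩, mem_perp.2 ?_⟩
    · rw [polar_sub_right, polar_sub_right, polar_smul_right, polar_smul_right, polar_self', hqa, mem_perp.1 hb.2]
      simp only [smul_eq_mul]; field_simp; ring
    · rw [polar_sub_right, polar_sub_right, polar_smul_right, polar_smul_right, polar_self', hqb, polar_comm _ b a,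
        mem_perp.1 hb.2]
      simp only [smul_eq_mul]; field_simp; ring
  by_cases h3 : 2 ≤ finrank F ↥(hypC Q (hypC Q ⊤ e f) u u' ⊓ perp Q a ⊓ perp Q b)
  · obtain ⟨b', hb', hqb'⟩ := hWb.exists_map_eq h3 1
    have hb'b : polar Q b' b = 0 := by rw [polar_comm]; exact hb'.2
    have h4 := (C.perp_of_pair h6 ha hb'.1.1 (by rw [hqa]; exact one_ne_zero) (by rw [hqa, hqb'])
      (hind a b' hqa hqb' hb'.1.2) hb.1 hb.1 hb.2 hb'b hb.2 hb'b (hpp b hqb) hb.1 hb.2 hb'b).1
    refine C.false_of_eigen h6 hb.1 (by rintro rfl; simp at hqb) fun w hw hbw => ?_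
    have h5 := hdec w hw
    have h9 := (hP _ h5.1.1 h5.1.2 h5.2).2
    rw [C.polar_symm h6 hb.1 h5.1.1, hbw, mul_zero, zero_smul, sub_zero, polar_sub_left, polar_smul_left, h4] at h9
    simpa using h9
  · refine C.false_of_eigen h6 hy₀.1.1 hy₀0 fun w hw hyw => ?_
    have h5 := hdec w hw
    have h9 := hP _ hy₀.1.1 hy₀.1.2 hy₀.2
    obtain ⟨v, hv⟩ := (finrank_le_one_iff.1 (show finrank F ↥(hypC Q (hypC Q ⊤ e f) u u' ⊓ perp Q a ⊓ perp Q b) ≤ 1 by
      omega))
    obtain ⟨c₁, h10⟩ := hv ⟨_, hy₀⟩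
    obtain ⟨c₂, h11⟩ := hv ⟨_, hz₀⟩
    obtain ⟨c₃, h12⟩ := hv ⟨_, h5⟩
    replace h10 : c₁ • (v : V) = y₀ := congrArg Subtype.val h10
    replace h11 : c₂ • (v : V) = z₀ := congrArg Subtype.val h11
    replace h12 : c₃ • (v : V) = _ := congrArg Subtype.val h12
    have h13 := congrArg (polar Q y₀) h12
    rw [polar_sub_right, polar_sub_right, polar_smul_right, polar_smul_right, polar_smul_right, hyw, polar_comm _ y₀ a,
      polar_comm _ y₀ b, mem_perp.1 hy₀.1.2, mem_perp.1 hy₀.2, smul_zero, smul_zero, sub_zero, sub_zero] at h13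
    rw [← h11, polar_smul_right] at hyz
    rw [(smul_eq_zero.1 h13).resolve_right (right_ne_zero_of_smul hyz), zero_smul] at h12
    have h14 := congrArg (fun x => polar Q x (φ y₀)) h12
    simpa [polar_sub_left, polar_smul_left, h9.1, h9.2] using h14.symm

end Coc

/-- A subgroup `H` with `Ω = Q_e H` contains a nontrivial Eichler transformation. -/
theorem false_of_all_reg (hQ : (polarBilin Q).Nondegenerate) (h7 : 7 ≤ finrank F V)
    (h2 : finrank F V = 7 → (2 : F) ≠ 0) (hR : ∀ v, v ≠ 0 → Q v = 0 → Reg H v) {e f : V} (hef : IsHyp Q e f)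
    (hT : ∀ g ∈ commutator (OG Q), ∃ x ∈ hypC Q ⊤ e f, eich Q e x * g ∈ H) : False := by
  have h1 := finrank_hypC (W := ⊤) hef trivial trivial
  rw [finrank_top] at h1
  obtain ⟨u, hu, u', hu', h⟩ := ((ndon_top hQ).hypC hef trivial trivial).exists_isHyp (by omega)
  choose φ hφ hφ' using fun y => hT _ (eich_mem_commutator hQ (by omega) u y)
  have C : Coc H e f u u' φ := ⟨hQ, hR, hef, h, hu, hu', hT, hφ, hφ'⟩
  by_cases h3 : (2 : F) = 0
  · exact C.false_of_two_eq_zero (by omega) h3 (by by_contra h4; exact h2 (by omega) h3)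
  · exact C.false_of_two_ne_zero (by omega) h3 h7

end CL.MinD
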