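/-
Minimal degrees of orthogonal groups, VI: the local analysis of an action of `Ω(V)` at a hyperbolic pair.
-/
import Cfsg.Agent.Known.MinDegO5

set_option autoImplicit false
set_option linter.unusedSectionVars false

open QuadraticMap Module CL.Cls
open scoped Pointwise

namespace CL.MinD

theorem two_mul_card_ann_le_fib {E E' G Ω : Type*} [AddCommGroup E] [AddCommGroup E'] [Finite E] [Finite E']
    [Group G] [MulAction G Ω] [Finite Ω] {a : E → G} {ha : ∀ x y, a (x + y) = a x * a y} (P : Pairing E' E)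
    {ω ω' : Ω} (h : P.ann (stab a ha ω') = P.ann (stab a ha ω)) (hne : ∀ x, a x • ω ≠ ω') :
    2 * Nat.card (P.ann (stab a ha ω)) ≤ {z ∈ (Set.univ : Set Ω) | P.ann (stab a ha z) = P.ann (stab a ha ω)}.ncard := by
  have h1 := ncard_orb_eq_card_ann (ha := ha) P ω
  have h2 := ncard_orb_eq_card_ann (ha := ha) P ω'
  rw [h] at h2
  have h3 : Disjoint (Set.range fun e => a e • ω) (Set.range fun e => a e • ω') := by
    rw [Set.disjoint_left]
    rintro _ ⟨x, rfl⟩ ⟨y, hy⟩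
    refine hne (-y + x) ?_
    change a y • ω' = a x • ω at hy
    rw [ha, mul_smul, ← hy, ← mul_smul, ← ha, neg_add_cancel, hom_zero (ha := ha), one_smul]
  rw [two_mul]
  nth_rewrite 1 [← h1]
  rw [← h2, ← Set.ncard_union_eq h3]
  apply Set.ncard_le_ncard _ (Set.toFinite _)
  rintro _ (⟨x, rfl⟩ | ⟨x, rfl⟩)
  · exact ⟨trivial, by simp only [stab_smul]⟩
  · exact ⟨trivial, by simp only [stab_smul, h]⟩

variable {F V : Type*} [Field F] [Fintype F] [AddCommGroup V] [Module F V] [FiniteDimensional F V]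
  {Q : QuadraticForm F V}

section Transport

variable {Ω : Type*} [MulAction (commutator (OG Q)) Ω]

/-- The stabiliser of a point, as a subgroup of the orthogonal group. -/
def St (Q : QuadraticForm F V) {Ω : Type*} [MulAction (commutator (OG Q)) Ω] (ω : Ω) : Subgroup (OG Q) :=
  (MulAction.stabilizer (commutator (OG Q)) ω).map (commutator (OG Q)).subtype

theorem coe_mem_St {ω : Ω} {g : commutator (OG Q)} : (g : OG Q) ∈ St Q ω ↔ g • ω = ω :=
  Subgroup.mem_map_iff_mem (commutator (OG Q)).subtype_injective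

theorem conj_mem_St (g : commutator (OG Q)) (ω : Ω) : ∀ x ∈ St Q ω, (g : OG Q) * x * (g : OG Q)⁻¹ ∈ St Q (g • ω) := by
  rintro _ ⟨x, hx, rfl⟩
  refine ⟨g * x * g⁻¹, ?_, rfl⟩
  rw [SetLike.mem_coe, MulAction.mem_stabilizer_iff] at hx ⊢
  rw [mul_smul, mul_smul, inv_smul_smul, hx]

theorem eich_mem_St_iff (g : commutator (OG Q)) (ω : Ω) (v x : V) :
    eich Q (g.1.1 v) (g.1.1 x) ∈ St Q (g • ω) ↔ eich Q v x ∈ St Q ω := by
  rw [← eich_conj]
  refine ⟨fun h => ?_, conj_mem_St g ω _⟩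
  have := conj_mem_St g⁻¹ _ _ h
  simpa [mul_assoc] using this

theorem not_le_St {ω : Ω} (h : MulAction.stabilizer (commutator (OG Q)) ω ≠ ⊤) : ¬ commutator (OG Q) ≤ St Q ω :=
  fun h' => h (eq_top_of_le_map_subtype h')

theorem app_mem_Kc_St_iff (g : commutator (OG Q)) (ω : Ω) (v x : V) :
    g.1.1 x ∈ Kc (St Q (g • ω)) (g.1.1 v) ↔ x ∈ Kc (St Q ω) v := by
  rw [mem_Kc, mem_Kc, OG.polar_app]
  simp only [← map_smul, eich_mem_St_iff]

theorem Reg.app_St {ω : Ω} {v : V} (h : Reg (St Q ω) v) (g : commutator (OG Q)) : Reg (St Q (g • ω)) (g.1.1 v) := by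
  intro x hx hx'
  obtain ⟨y, rfl⟩ := g.1.1.surjective x
  rw [OG.polar_app] at hx
  obtain ⟨c, rfl⟩ := Submodule.mem_span_singleton.1 (h y hx ((eich_mem_St_iff g ω v y).1 hx'))
  exact Submodule.mem_span_singleton.2 ⟨c, by rw [map_smul]⟩

theorem Lin.app_St {ω : Ω} {v w : V} (h : Lin (St Q ω) v w) (g : commutator (OG Q)) :
    Lin (St Q (g • ω)) (g.1.1 v) (g.1.1 w) := by
  refine ⟨by rw [OG.polar_app, h.1], fun h1 => h.2.1 ?_, ?_⟩
  · obtain ⟨c, hc⟩ := Submodule.mem_span_singleton.1 h1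
    exact Submodule.mem_span_singleton.2 ⟨c, g.1.1.injective (by rw [map_smul, hc])⟩
  · ext x
    obtain ⟨y, rfl⟩ := g.1.1.surjective x
    rw [app_mem_Kc_St_iff, h.2.2, Submodule.mem_inf, Submodule.mem_inf, mem_perp, mem_perp, mem_perp, mem_perp,
      OG.polar_app, OG.polar_app]

theorem Exc.app_St {ω : Ω} {v : V} {X : Submodule F V} (h : Exc (St Q ω) v X) (g : commutator (OG Q)) :
    Exc (St Q (g • ω)) (g.1.1 v) (X.map (g.1.1 : V →ₗ[F] V)) := by
  refine ⟨?_, Submodule.mem_map_of_mem h.2.1, by rw [LinearEquiv.finrank_map_eq, h.2.2.1],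
    by rw [LinearEquiv.finrank_map_eq]; exact h.2.2.2.1, fun x hx => ?_⟩
  · rintro _ ⟨x, hx, rfl⟩; exact (OG.map_app _ x).trans (h.1 x hx)
  · obtain ⟨y, rfl⟩ := g.1.1.surjective x
    rw [OG.polar_app] at hx
    rw [eich_mem_St_iff, h.2.2.2.2 y hx, ← map_operp]
    exact (Submodule.mem_map_equiv _).trans (by simp) |>.symm

theorem UFix_St_smul (g : commutator (OG Q)) (ω : Ω) :
    UFix (St Q (g • ω)) = (UFix (St Q ω)).map (g.1.1 : V →ₗ[F] V) := by
  unfold UFix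
  rw [Submodule.map_span]
  congr 1
  ext v
  constructor
  · rintro ⟨h1, h2⟩
    refine ⟨g.1⁻¹.1 v, ⟨(OG.map_app _ v).trans h1, ?_⟩, OG.app_inv_app _ v⟩
    simpa using h2.app (conj_mem_St g⁻¹ _)
  · rintro ⟨x, hx, rfl⟩
    exact ⟨(OG.map_app _ x).trans hx.1, hx.2.app (conj_mem_St g ω)⟩

end Transport

/-- The data for the local analysis. -/
structure Loc (Q : QuadraticForm F V) (k : ℕ) where
  nd : (polarBilin Q).Nondegenerate
  hk : finrank F V = k + 7
  /-- the centre -/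
  e : V
  /-- the opposite vector -/
  f : V
  hyp : IsHyp Q e f
  /-- the additive character -/
  ψ : AddChar F ℂ
  hψ : ∀ a : F, (∀ c : F, ψ (c * a) = 1) → a = 0

theorem nonempty_Loc (hQ : (polarBilin Q).Nondegenerate) {k : ℕ} (hk : finrank F V = k + 7) : Nonempty (Loc Q k) := by
  obtain ⟨e, f, h⟩ := exists_isHyp hQ (by omega)
  obtain ⟨ψ, hψ⟩ := exists_addChar F
  exact ⟨⟨hQ, hk, e, f, h, ψ, hψ⟩⟩

namespace Loc

variable {k : ℕ} (L : Loc Q k)

/-- The complement of the hyperbolic pair. -/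
abbrev W : Submodule F V := hypC Q ⊤ L.e L.f

include L in
theorem five_le : 5 ≤ finrank F V := by have := L.hk; omega

theorem ndW : NDon Q L.W := (ndon_top L.nd).hypC L.hyp trivial trivial

theorem finrank_W : finrank F L.W = k + 5 := by
  have := finrank_hypC (W := ⊤) L.hyp trivial trivial
  rw [finrank_top, L.hk] at this
  exact Nat.add_right_cancel (m := 2) this

theorem pe (x : L.W) : polar Q L.e x = 0 := (mem_hypC.1 x.2).2.1

theorem pf (x : L.W) : polar Q L.f x = 0 := (mem_hypC.1 x.2).2.2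

/-- The unipotent radical, parametrised by `W`. -/
noncomputable def a (x : L.W) : commutator (OG Q) := ⟨eich Q L.e x, eich_mem_commutator L.nd L.five_le _ _⟩

theorem ha (x y : L.W) : L.a (x + y) = L.a x * L.a y := Subtype.ext (eich_mul L.hyp.left (L.pe x) (L.pe y)).symm

/-- The relation between elements of the Levi factor and linear maps of `W`. -/
def Rel (g : commutator (OG Q)) (γ : L.W ≃ₗ[F] L.W) : Prop :=
  ∃ c : F, c ≠ 0 ∧ g.1.1 L.e = c • L.e ∧ g.1.1 L.f = c⁻¹ • L.f ∧ ∀ w, (γ w : V) = c⁻¹ • g.1.1 w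

theorem exists_rel {g : commutator (OG Q)} {c : F} (hc : c ≠ 0) (he : g.1.1 L.e = c • L.e)
    (hf : g.1.1 L.f = c⁻¹ • L.f) : ∃ γ : L.W ≃ₗ[F] L.W, ∀ w, (γ w : V) = c⁻¹ • g.1.1 w := by
  have h1 : ∀ w ∈ L.W, (c⁻¹ • (g.1.1 : V →ₗ[F] V)) w ∈ L.W := fun w hw => by
    refine Submodule.smul_mem _ _ (mem_hypC.2 ⟨trivial, ?_, ?_⟩)
    · have := OG.polar_app g.1 L.e w
      rw [he, polar_smul_left, (mem_hypC.1 hw).2.1] at this
      exact (smul_eq_zero.1 this).resolve_left hc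
    · have := OG.polar_app g.1 L.f w
      rw [hf, polar_smul_left, (mem_hypC.1 hw).2.2] at this
      exact (smul_eq_zero.1 this).resolve_left (inv_ne_zero hc)
  refine ⟨LinearEquiv.ofInjectiveEndo ((c⁻¹ • (g.1.1 : V →ₗ[F] V)).restrict h1) fun x y h => ?_, fun w => rfl⟩
  have h2 : c⁻¹ • g.1.1 x = c⁻¹ • g.1.1 y := congrArg Subtype.val h
  exact Subtype.ext (g.1.1.injective (smul_right_injective _ (inv_ne_zero hc) h2))

/-- The group induced on `W` by the Levi factor. -/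
def Γ : Subgroup (L.W ≃ₗ[F] L.W) where
  carrier := {γ | ∃ g, L.Rel g γ}
  one_mem' := ⟨1, 1, one_ne_zero, by simp, by simp, by simp⟩
  mul_mem' := by
    rintro γ γ' ⟨g, c, hc, he, hf, h⟩ ⟨g', c', hc', he', hf', h'⟩
    refine ⟨g * g', c' * c, mul_ne_zero hc' hc, ?_, ?_, fun w => ?_⟩
    · rw [Subgroup.coe_mul, OG.mul_app, he', map_smul, he, smul_smul]
    · rw [Subgroup.coe_mul, OG.mul_app, hf', map_smul, hf, smul_smul, mul_inv]
    · rw [LinearEquiv.mul_apply, h, h', map_smul, smul_smul, mul_inv_rev]; rfl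
  inv_mem' := by
    rintro γ ⟨g, c, hc, he, hf, h⟩
    refine ⟨g⁻¹, c⁻¹, inv_ne_zero hc, ?_, ?_, fun w => ?_⟩
    · rw [eq_inv_smul_iff₀ hc, ← map_smul, ← he]; exact OG.inv_app_app _ _
    · rw [eq_inv_smul_iff₀ (inv_ne_zero hc), ← map_smul, ← hf]; exact OG.inv_app_app _ _
    · obtain ⟨x, rfl⟩ := γ.surjective w
      rw [h, map_smul, smul_smul, inv_mul_cancel₀ (inv_ne_zero hc), one_smul]
      exact (congrArg Subtype.val (γ.symm_apply_apply x)).trans (OG.inv_app_app _ _).symm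

theorem setup : Setup (Q.restrict L.W) L.Γ where
  nd := L.ndW.nondeg_restrict
  eich_mem u x := by
    by_cases h : Q.restrict L.W u = 0 ∧ polar (Q.restrict L.W) u x = 0
    · refine ⟨⟨eich Q u x, eich_mem_commutator L.nd L.five_le _ _⟩, 1, one_ne_zero, ?_, ?_, fun w => ?_⟩
      · rw [one_smul]; exact eich_app_of_polar (by rw [polar_comm, L.pe]) (by rw [polar_comm, L.pe])
      · rw [inv_one, one_smul]; exact eich_app_of_polar (by rw [polar_comm, L.pf]) (by rw [polar_comm, L.pf])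
      · rw [inv_one, one_smul, eich_app h.1 h.2, eich_app (Q := Q) h.1 h.2]; rfl
    · rw [eich_of_not h]; exact L.Γ.one_mem
  tor x x' h c hc := by
    have h' : IsHyp Q (x : V) x' := ⟨h.left, h.right, h.polar_eq⟩
    have h1 : ∀ e f, IsHyp Q e f → Q (e - f) = -1 := fun e f h => by simpa using h.map_sub_smul 1
    have hg : hypTorus Q L.e L.f c⁻¹ * hypTorus Q x x' c⁻¹ ∈ commutator (OG Q) := by
      have := (prod_refl_mem_commutator_iff L.nd (Or.inr (by have := L.hk; omega))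
        [L.e - c • L.f, L.e - L.f, x - c • (x' : V), x - x'] (by
          simp [L.hyp.map_sub_smul, h'.map_sub_smul, h1 _ _ L.hyp, h1 _ _ h', hc])).2
        ⟨by simp; decide, c, by simp [L.hyp.map_sub_smul, h'.map_sub_smul, h1 _ _ L.hyp, h1 _ _ h']⟩
      simpa [hypTorus, mul_assoc] using this
    have hW : ∀ w : L.W, (hypTorus Q L.e L.f c⁻¹ * hypTorus Q x x' c⁻¹).1 w = (hypTorus Q x x' c⁻¹).1 w := fun w => by
      have := movIn_app_mem (hypTorus_mem_movIn (Q := Q) (c := c⁻¹) x.2 x'.2) w.2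
      exact hypTorus_app_of_polar (mem_hypC.1 this).2.1 (mem_hypC.1 this).2.2
    have he : (hypTorus Q L.e L.f c⁻¹ * hypTorus Q x x' c⁻¹).1 L.e = c⁻¹ • L.e := by
      rw [OG.mul_app, hypTorus_app_of_polar (x := L.e) (by rw [polar_comm, L.pe]) (by rw [polar_comm, L.pe]),
        hypTorus_app_left L.hyp (inv_ne_zero hc)]
    have hf : (hypTorus Q L.e L.f c⁻¹ * hypTorus Q x x' c⁻¹).1 L.f = c⁻¹⁻¹ • L.f := by
      rw [OG.mul_app, hypTorus_app_of_polar (x := L.f) (by rw [polar_comm, L.pf]) (by rw [polar_comm, L.pf]),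
        hypTorus_app L.hyp (inv_ne_zero hc), L.hyp.polar_right, L.hyp.polar_eq]
      module
    obtain ⟨γ, hγ⟩ := L.exists_rel (g := ⟨_, hg⟩) (inv_ne_zero hc) he hf
    refine ⟨γ, ⟨_, _, inv_ne_zero hc, he, hf, hγ⟩, Subtype.ext ?_, fun w => ?_, fun w h2 h3 => Subtype.ext ?_⟩
    · rw [hγ, hW, hypTorus_app_left h' (inv_ne_zero hc), smul_smul, inv_mul_cancel₀ (inv_ne_zero hc), one_smul]
    · change Q (γ w : V) = c ^ 2 * Q w
      rw [hγ, Cls.map_smul', OG.map_app, inv_inv]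
    · rw [hγ, hW, hypTorus_app_of_polar (Q := Q) h2 h3, inv_inv]; rfl
  sim := by
    rintro γ ⟨g, c, hc, -, -, h⟩
    refine ⟨c⁻¹, inv_ne_zero hc, fun w => ?_⟩
    change Q (γ w : V) = _ * Q w
    rw [h, Cls.map_smul', OG.map_app]

variable {Ω : Type*} [MulAction (commutator (OG Q)) Ω]

/-- The annihilator of the stabiliser of a point in the unipotent radical. -/
noncomputable def A (ω : Ω) : AddSubgroup L.W := (polPair L.ψ L.hψ L.ndW).ann (stab L.a L.ha ω)

theorem mem_stab_iff {ω : Ω} {x : L.W} : x ∈ stab L.a L.ha ω ↔ eich Q L.e x ∈ St Q ω :=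
  (coe_mem_St (g := L.a x)).symm

theorem mem_A {ω : Ω} {y : L.W} : y ∈ L.A ω ↔ ∀ x : L.W, eich Q L.e x ∈ St Q ω → L.ψ (polar Q (y : V) x) = 1 :=
  forall_congr' fun _ => imp_congr_left L.mem_stab_iff

theorem eich_mem_of_A {ω : Ω} {x : V} (hx : polar Q L.e x = 0) (h : ∀ y ∈ L.A ω, polar Q (y : V) x = 0) :
    eich Q L.e x ∈ St Q ω := by
  have := finite_space F V
  obtain ⟨h1, h2⟩ := eich_eq_eich_proj L.hyp hx
  rw [← h2]
  refine (L.mem_stab_iff (x := ⟨_, h1⟩)).1 ((polPair L.ψ L.hψ L.ndW).mem_of_ann fun y hy => ?_)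
  change L.ψ (polar Q (y : V) (x - _)) = 1
  rw [polar_sub_right, polar_smul_right, h y hy, polar_comm _ _ L.e, L.pe]
  simp

theorem A_smul {g : commutator (OG Q)} {γ : L.W ≃ₗ[F] L.W} (h : L.Rel g γ) (ω : Ω) : L.A (g • ω) = γ • L.A ω := by
  obtain ⟨c, hc, he, hf, hγ⟩ := h
  have key : ∀ x : L.W, eich Q L.e ((c ^ 2 • γ x : L.W) : V) ∈ St Q (g • ω) ↔ eich Q L.e x ∈ St Q ω := fun x => by
    rw [← eich_mem_St_iff g ω, he, eich_smul_left L.hyp.left (by
      rw [← smul_eq_zero_iff_right hc, ← polar_smul_left, ← he, OG.polar_app, L.pe]), Submodule.coe_smul, hγ,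
      smul_smul (c ^ 2), show c ^ 2 * c⁻¹ = c by field_simp]
  have h2 : ∀ x y : L.W, polar Q (γ y : V) ((c ^ 2 • γ x : L.W) : V) = polar Q (y : V) x := fun x y => by
    rw [Submodule.coe_smul, hγ, hγ, polar_smul_left, polar_smul_right, polar_smul_right, OG.polar_app]
    simp only [smul_eq_mul]; field_simp
  ext y
  obtain ⟨y, rfl⟩ := γ.surjective y
  rw [app_mem_smul, mem_A, mem_A]
  refine ⟨fun h x hx => by rw [← h2]; exact h _ ((key x).2 hx), fun h x hx => ?_⟩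
  obtain ⟨z, hz⟩ := γ.surjective ((c ^ 2)⁻¹ • x)
  obtain rfl : x = c ^ 2 • γ z := by rw [hz, smul_inv_smul₀ (pow_ne_zero 2 hc)]
  rw [h2]; exact h z ((key z).1 hx)

theorem A_eq_top_iff {ω : Ω} : L.A ω = ⊤ ↔ Reg (St Q ω) L.e := by
  have := finite_space F V
  rw [A, Pairing.ann_eq_top_iff]
  refine ⟨fun h x hx hx' => ?_, fun h => eq_bot_iff.2 fun x hx => ?_⟩
  · obtain ⟨h1, h2⟩ := eich_eq_eich_proj L.hyp hx
    rw [← h2, ← L.mem_stab_iff (x := ⟨_, h1⟩), h, AddSubgroup.mem_bot, Subtype.ext_iff] at hx'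
    exact Submodule.mem_span_singleton.2 ⟨_, (sub_eq_zero.1 hx').symm⟩
  · obtain ⟨c, hc⟩ := Submodule.mem_span_singleton.1 (h x (L.pe x) (L.mem_stab_iff.1 hx))
    have h1 := L.pf x
    rw [← hc, polar_smul_right, L.hyp.polar_eq', smul_eq_mul, mul_one] at h1
    rw [h1, zero_smul] at hc
    exact AddSubgroup.mem_bot.2 (Subtype.ext hc.symm)

theorem A_eq_bot_iff {ω : Ω} : L.A ω = ⊥ ↔ Fix (St Q ω) L.e := by
  have := finite_space F V
  refine ⟨fun h x hx => L.eich_mem_of_A hx fun y hy => ?_, fun h => ?_⟩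
  · rw [h, AddSubgroup.mem_bot] at hy; rw [hy]; simp
  · rw [A, Pairing.ann_eq_bot_iff]
    exact eq_top_iff.2 fun x _ => L.mem_stab_iff.2 (h x (L.pe x))

theorem not_mem_span {a : L.W} (ha : a ≠ 0) : (a : V) ∉ Submodule.span F {L.e} := fun h => by
  obtain ⟨c, hc⟩ := Submodule.mem_span_singleton.1 h
  have h1 := L.pf a
  rw [← hc, polar_smul_right, L.hyp.polar_eq', smul_eq_mul, mul_one] at h1
  rw [h1, zero_smul] at hc
  exact ha (Subtype.ext hc.symm)

theorem lin_of_isLine {ω : Ω} (h : IsLine F (L.A ω)) {a : L.W} (ha : a ∈ L.A ω) (ha0 : a ≠ 0) :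
    Lin (St Q ω) L.e a := by
  obtain ⟨y, hy⟩ := h
  obtain ⟨c, hc⟩ := Submodule.mem_span_singleton.1 (hy a ha)
  have hc0 : c ≠ 0 := by rintro rfl; exact ha0 (by rw [← hc, zero_smul])
  refine ⟨L.pe a, L.not_mem_span ha0, ?_⟩
  ext x
  refine ⟨fun hx => ⟨hx.1, mem_perp.2 (L.hψ _ fun d => ?_)⟩, fun hx => ⟨hx.1, fun d => ?_⟩⟩
  · obtain ⟨h1, h2⟩ := eich_eq_eich_proj L.hyp (y := d • x) (by rw [polar_smul_right, hx.1, smul_zero])
    have h3 := L.mem_A.1 ha ⟨_, h1⟩ (h2 ▸ hx.2 d)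
    rwa [polar_sub_right, polar_smul_right, polar_smul_right, polar_comm _ _ L.e, L.pe, smul_zero, sub_zero] at h3
  · refine L.eich_mem_of_A (by rw [polar_smul_right, mem_perp.1 hx.1, smul_zero]) fun b hb => ?_
    obtain ⟨t, rfl⟩ := Submodule.mem_span_singleton.1 (hy b hb)
    have h3 := mem_perp.1 hx.2
    rw [← hc, Submodule.coe_smul, polar_smul_left, smul_eq_zero_iff_right hc0] at h3
    rw [Submodule.coe_smul, polar_smul_left, polar_smul_right, h3, smul_zero, smul_zero]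

theorem eich_mem_iff_of_eq {ω : Ω} {U : Submodule F L.W} (h : L.A ω = U.toAddSubgroup) {x : V}
    (hx : polar Q L.e x = 0) : eich Q L.e x ∈ St Q ω ↔ ∀ y ∈ U, polar Q (y : V) x = 0 := by
  refine ⟨fun h1 y hy => L.hψ _ fun d => ?_, fun h1 => L.eich_mem_of_A hx fun y hy => h1 y (by rwa [h] at hy)⟩
  obtain ⟨h2, h3⟩ := eich_eq_eich_proj L.hyp hx
  have h4 := L.mem_A.1 (show d • y ∈ L.A ω by rw [h]; exact U.smul_mem d hy) ⟨_, h2⟩ (h3 ▸ h1)
  rwa [polar_sub_right, polar_smul_right, polar_comm _ _ L.e, L.pe, smul_zero, sub_zero, Submodule.coe_smul,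
    polar_smul_left] at h4

theorem exc_of_TS {ω : Ω} (hk : k ≤ 1) (h : TS (Q.restrict L.W) (k + 2) (L.A ω)) : ∃ X, Exc (St Q ω) L.e X := by
  obtain ⟨U, hU, hs, hd⟩ := h
  have h1 : finrank F ↥(U.map L.W.subtype ⊔ Submodule.span F {L.e}) = k + 3 := by
    rw [finrank_sup_span_singleton_of_notMem, Submodule.finrank_map_subtype_eq, hd]
    rintro ⟨x, -, hx⟩
    have h2 := L.pf x
    rw [Submodule.subtype_apply] at hx
    rw [hx, L.hyp.polar_eq'] at h2
    exact one_ne_zero h2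
  refine ⟨U.map L.W.subtype ⊔ Submodule.span F {L.e}, fun x hx => ?_,
    Submodule.mem_sup_right (Submodule.mem_span_singleton_self _), by rw [h1, L.hk], by omega, fun x hx => ?_⟩
  · obtain ⟨_, ⟨y, hy, rfl⟩, z, hz, rfl⟩ := Submodule.mem_sup.1 hx
    obtain ⟨c, rfl⟩ := Submodule.mem_span_singleton.1 hz
    have h2 : Q y = 0 := hs y hy
    rw [Cls.map_add', Cls.map_smul', polar_smul_right, Submodule.subtype_apply, polar_comm, L.pe, L.hyp.left, h2]
    simp
  · rw [L.eich_mem_iff_of_eq hU hx]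
    refine ⟨fun h2 z hz => ?_, fun h2 y hy => h2 _ (Submodule.mem_sup_left ⟨y, hy, rfl⟩)⟩
    obtain ⟨_, ⟨y, hy, rfl⟩, z', hz', rfl⟩ := Submodule.mem_sup.1 hz
    obtain ⟨c, rfl⟩ := Submodule.mem_span_singleton.1 hz'
    change polar Q _ _ = 0
    rw [polar_add_left, polar_smul_left, hx, Submodule.subtype_apply, h2 y hy]
    simp

end Loc

end CL.MinD
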