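/-
Minimal degrees of orthogonal groups, VII: the lower bound for actions of `Ω(V)`.
-/
import Cfsg.Agent.Known.MinDegO6

set_option autoImplicit false
set_option linter.unusedSectionVars false

open QuadraticMap Module CL.Cls
open scoped Pointwise

namespace CL.MinD

variable {F V : Type*} [Field F] [Fintype F] [AddCommGroup V] [Module F V] [FiniteDimensional F V]
  {Q : QuadraticForm F V}

theorem TS.not_isLine {j : ℕ} {A : AddSubgroup V} (h : TS Q (j + 2) A) : ¬ IsLine F A := fun h' => by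
  have h1 := h'.card_le
  rw [h.card] at h1
  have h2 := Nat.pow_lt_pow_right (Fintype.one_lt_card (α := F)) (show 1 < j + 2 by omega)
  rw [pow_one] at h2
  omega

theorem wt_eq_of_TS {j : ℕ} {𝒜 : Finset (AddSubgroup V)} (h : ∀ A ∈ 𝒜, TS Q j A) :
    wt 𝒜 = 𝒜.card * Fintype.card F ^ j := by
  rw [wt, Finset.sum_congr rfl fun A hA => (h A hA).card, Finset.sum_const, smul_eq_mul]

namespace Loc

variable {k : ℕ} (L : Loc Q k) (Ω : Type*) [MulAction (commutator (OG Q)) Ω] [Finite Ω]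

/-- The family of annihilators. -/
noncomputable def fam : Finset (AddSubgroup L.W) := (Set.finite_range (L.A : Ω → _)).toFinset

/-- The number of points with given annihilator. -/
noncomputable def fib (B : AddSubgroup L.W) : ℕ := {ω ∈ (Set.univ : Set Ω) | L.A ω = B}.ncard

/-- The exceptional members of the family. -/
noncomputable def exc : Finset (AddSubgroup L.W) := sub (L.fam Ω) (TS (Q.restrict L.W) (k + 2))

variable {Ω}

theorem mem_fam {B : AddSubgroup L.W} : B ∈ L.fam Ω ↔ ∃ ω : Ω, L.A ω = B := Set.Finite.mem_toFinset _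

theorem A_mem (ω : Ω) : L.A ω ∈ L.fam Ω := L.mem_fam.2 ⟨ω, rfl⟩

theorem inv_fam : Inv L.Γ (L.fam Ω) := by
  rintro γ ⟨g, hg⟩ B hB
  obtain ⟨ω, rfl⟩ := L.mem_fam.1 hB
  exact L.A_smul hg ω ▸ L.A_mem _

theorem inv_exc : Inv L.Γ (L.exc Ω) := L.inv_fam.sub _ fun γ hγ _ _ h => by
  obtain ⟨c, -, hc⟩ := L.setup.sim γ hγ
  exact h.smul hc

theorem card_le_fib {B : AddSubgroup L.W} (h : B ∈ L.fam Ω) : Nat.card B ≤ L.fib Ω B := by
  have := finite_space F V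
  obtain ⟨ω, rfl⟩ := L.mem_fam.1 h
  exact card_ann_le_fib (Φ := Set.univ) _ (Set.toFinite _) (fun _ _ _ => trivial) trivial

theorem sum_le (T : Finset (AddSubgroup L.W)) (w : AddSubgroup L.W → ℕ) (hw : ∀ B ∈ T, w B ≤ L.fib Ω B) :
    ∑ B ∈ T, w B ≤ Nat.card Ω := by
  rw [← Set.ncard_univ]; exact sum_le_ncard (Set.toFinite _) L.A T w hw

theorem wt_add_le {T T' : Finset (AddSubgroup L.W)} (h : Disjoint T T') (hT : T ⊆ L.fam Ω) (hT' : T' ⊆ L.fam Ω) :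
    wt T + wt T' ≤ Nat.card Ω := by
  rw [wt, wt, ← Finset.sum_disjUnion h]
  exact L.sum_le _ _ fun B hB => L.card_le_fib ((Finset.mem_disjUnion.1 hB).elim (hT ·) (hT' ·))

theorem fib_le_fib_smul {γ : L.W ≃ₗ[F] L.W} (hγ : γ ∈ L.Γ) (B : AddSubgroup L.W) : L.fib Ω B ≤ L.fib Ω (γ • B) := by
  obtain ⟨g, hg⟩ := hγ
  refine Set.ncard_le_ncard_of_injOn (fun ω => g • ω) (fun ω hω => ⟨trivial, ?_⟩) (MulAction.injective g).injOn
  rw [L.A_smul hg, hω.2]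

theorem card_top : Nat.card (⊤ : AddSubgroup L.W) = Fintype.card F ^ (k + 5) := by
  rw [AddSubgroup.card_top, card_sub, L.finrank_W]

theorem nv_eq (c : F) : nv Q ⊤ c = Fintype.card F * nv (Q.restrict L.W) ⊤ c +
    (Fintype.card F - 1) * Fintype.card F ^ (k + 5) := by
  rw [nv_hypC (W := ⊤) L.hyp trivial trivial, nv_restrict, L.finrank_W]

theorem le_wt_exc (h : (L.exc Ω).Nonempty) : Fintype.card F ^ (k + 5) + 1 ≤ wt (L.exc Ω) := by
  have h1 := L.setup.card_exc L.finrank_W L.inv_exc (fun _ h => (mem_sub.1 h).2) h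
  rw [wt_eq_of_TS fun _ (h : _ ∈ L.exc Ω) => (mem_sub.1 h).2]
  have h2 := Nat.mul_le_mul_right (Fintype.card F ^ (k + 2)) h1
  have h3 : 1 ≤ Fintype.card F ^ (k + 2) := Nat.one_le_pow _ _ Fintype.card_pos
  rw [add_mul, ← pow_add, show 3 + (k + 2) = k + 5 by omega] at h2
  omega

theorem le_wt_exc_one (hk : k = 1) (h0 : nv Q ⊤ 0 = Fintype.card F ^ 4 + (Fintype.card F ^ 4 - 1) * Fintype.card F ^ 3)
    {T : Finset (AddSubgroup L.W)} (hI : Inv L.Γ T) (hT : ∀ A ∈ T, TS (Q.restrict L.W) 3 A) (h : T.Nonempty) :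
    (Fintype.card F + 1) * (Fintype.card F ^ 2 + 1) ≤ T.card := by
  subst hk
  have h1 := L.setup.card_TS L.finrank_W hI (i := 1) (l := 1) rfl hT h
  have h2 := L.nv_eq 0
  obtain ⟨t, ht1, ht⟩ := exists_card_eq_succ (F := F)
  have h3 : (t + 1) ^ 4 - 1 = t * (t ^ 3 + 4 * t ^ 2 + 6 * t + 4) := by
    rw [show (t + 1) ^ 4 = t * (t ^ 3 + 4 * t ^ 2 + 6 * t + 4) + 1 by ring, Nat.add_sub_cancel]
  rw [h0, ht, h3, Nat.add_sub_cancel] at h2
  simp only [Nat.reduceAdd, pow_one] at h1 h2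
  have h4 : nv (Q.restrict L.W) ⊤ 0 = t * (t ^ 2 + 3 * t + 3) * ((t + 1) ^ 2 + 1) + 1 :=
    Nat.eq_of_mul_eq_mul_left (show 0 < t + 1 by omega) (by linarith)
  rw [h4, ht, Nat.add_sub_cancel] at h1
  rw [ht]
  refine Nat.le_of_mul_le_mul_left (c := t * (t ^ 2 + 3 * t + 3)) ?_ (by positivity)
  nlinarith

end Loc

/-- The numerical hypotheses on the bound `M`. -/
structure Bound (Q : QuadraticForm F V) (k M κ : ℕ) : Prop where
  h5 : k = 0 → (2 : F) ≠ 0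
  M1 : M ≤ 2 * Fintype.card F ^ (k + 5)
  M2 : (Fintype.card F - 1) * M ≤ nv Q ⊤ 0 - 1
  hκ : κ = 2 ∨ (2 : F) = 0 ∧ κ = 1
  MN : ∀ c : F, c ≠ 0 → κ * M + (Fintype.card F - 1) * Fintype.card F ^ (k + 5) ≤
    κ * Fintype.card F ^ (k + 5) + nv Q ⊤ c
  exc : k = 1 → ∀ X : Submodule F V, (∀ x ∈ X, Q x = 0) → finrank F X = 4 →
    nv Q ⊤ 0 = Fintype.card F ^ 4 + (Fintype.card F ^ 4 - 1) * Fintype.card F ^ 3 ∧
      (4 ≤ Fintype.card F ∨ M ≤ (Fintype.card F + 1) * (Fintype.card F ^ 2 + 1) * Fintype.card F ^ 3)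

namespace Loc

variable {k M κ : ℕ} (L : Loc Q k) {Ω : Type*} [MulAction (commutator (OG Q)) Ω] [Finite Ω] (B : Bound Q k M κ)
  (hN : Nat.card Ω < M)
include B hN

theorem type_of (ω : Ω) {v : V} (hv0 : v ≠ 0) (hv : Q v = 0) : ∃ ω' : Ω,
    (L.A ω' = ⊤ ∧ Reg (St Q ω) v) ∨ (L.A ω' = ⊥ ∧ Fix (St Q ω) v) ∨
      (IsLine F (L.A ω') ∧ ∃ a ∈ L.A ω', a ≠ 0 ∧ ∃ w, Lin (St Q ω) v w ∧ Q w = Q a) ∨
      (L.A ω' ∈ L.exc Ω ∧ ∃ X, Exc (St Q ω) v X) := by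
  obtain ⟨g, hg, rfl⟩ := exists_commutator_app_eq L.nd L.five_le L.hyp.left_ne_zero hv0 (L.hyp.left.trans hv.symm)
  obtain ⟨ω, rfl⟩ := MulAction.surjective (⟨g, hg⟩ : commutator (OG Q)) ω
  have hwt : wt (L.fam Ω) < 2 * Fintype.card F ^ (k + 5) :=
    ((L.sum_le _ _ fun _ h => L.card_le_fib h).trans_lt hN).trans_le B.M1
  refine ⟨ω, ?_⟩
  rcases L.setup.classify L.finrank_W B.h5 L.inv_fam hwt (L.A_mem ω) with h | h | h
  · exact Or.inl ⟨h, (L.A_eq_top_iff.1 h).app_St ⟨g, hg⟩⟩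
  · by_cases h0 : L.A ω = ⊥
    · exact Or.inr (Or.inl ⟨h0, (L.A_eq_bot_iff.1 h0).app (conj_mem_St ⟨g, hg⟩ ω)⟩)
    · obtain ⟨a, ha⟩ := (AddSubgroup.ne_bot_iff_exists_ne_zero.1 h0)
      exact Or.inr (Or.inr (Or.inl ⟨h, a, a.2, by simpa using ha, _,
        (L.lin_of_isLine h a.2 (by simpa using ha)).app_St ⟨g, hg⟩, OG.map_app _ _⟩))
  · obtain ⟨X, hX⟩ := L.exc_of_TS h.1 h.2
    exact Or.inr (Or.inr (Or.inr ⟨mem_sub.2 ⟨L.A_mem ω, h.2⟩, _, hX.app_St ⟨g, hg⟩⟩))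

theorem mem_orb_of_top {ω ω' : Ω} (h : L.A ω = ⊤) (h' : L.A ω' = ⊤) : ∃ x, L.a x • ω = ω' := by
  have := finite_space F V
  by_contra hc
  have h1 := two_mul_card_ann_le_fib (ha := L.ha) (polPair L.ψ L.hψ L.ndW) (h'.trans h.symm) (not_exists.1 hc)
  have h2 := L.sum_le (Ω := Ω) {L.A ω} (fun B => 2 * Nat.card B) fun B hB => by
    rw [Finset.mem_singleton.1 hB]; exact h1
  rw [Finset.sum_singleton, h, L.card_top] at h2
  have := B.M1
  omega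

theorem mem_orb_of_exc {ω ω' : Ω} (h : L.A ω ∈ L.exc Ω) (h' : L.A ω' = L.A ω) : ∃ x, L.a x • ω = ω' := by
  have := finite_space F V
  by_contra hc
  have h1 := two_mul_card_ann_le_fib (ha := L.ha) (polPair L.ψ L.hψ L.ndW) h' (not_exists.1 hc)
  have h2 : Inv L.Γ (sub (L.exc Ω) fun B => 2 * Nat.card B ≤ L.fib Ω B) := L.inv_exc.sub _ fun γ hγ B _ hB => by
    rw [card_smul]; exact hB.trans (L.fib_le_fib_smul hγ B)
  have h3 : ∀ A ∈ sub (L.exc Ω) fun B => 2 * Nat.card B ≤ L.fib Ω B, TS (Q.restrict L.W) (k + 2) A :=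
    fun _ h => (mem_sub.1 (mem_sub.1 h).1).2
  have h4 := L.setup.card_exc L.finrank_W h2 h3 ⟨_, mem_sub.2 ⟨h, h1⟩⟩
  have h5 := L.sum_le (Ω := Ω) (sub (L.exc Ω) fun B => 2 * Nat.card B ≤ L.fib Ω B) (fun B => 2 * Nat.card B)
    fun B hB => (mem_sub.1 hB).2
  rw [← Finset.mul_sum] at h5
  change 2 * wt _ ≤ _ at h5
  rw [wt_eq_of_TS h3] at h5
  have h6 := Nat.mul_le_mul_right (Fintype.card F ^ (k + 2)) h4
  have := B.M1
  rw [add_mul, ← pow_add, show 3 + (k + 2) = k + 5 by omega] at h6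
  omega

theorem not_top_of_exc (h : (L.exc Ω).Nonempty) (ω : Ω) : L.A ω ≠ ⊤ := fun h' => by
  have h1 := L.wt_add_le (T := {L.A ω}) (T' := L.exc Ω) (Finset.disjoint_singleton_left.2 fun h2 => by
    have h3 := (mem_sub.1 h2).2.card
    rw [h', L.card_top] at h3
    have := Nat.pow_right_injective (Fintype.one_lt_card (α := F)) h3
    omega) (Finset.singleton_subset_iff.2 (L.A_mem ω)) (sub_subset _ _)
  rw [wt, Finset.sum_singleton, h', L.card_top] at h1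
  have := L.le_wt_exc h
  have := B.M1
  omega

theorem sing_of_line {T : Finset (AddSubgroup L.W)} (hT : T ⊆ L.fam Ω) (hT' : ∀ A ∈ T, ¬ IsLine F A)
    (hw : Fintype.card F ^ (k + 5) ≤ wt T) {ω : Ω} (h : IsLine F (L.A ω)) {a : L.W} (ha : a ∈ L.A ω) : Q a = 0 := by
  by_contra hq
  have h1 := L.setup.line_nonsing L.finrank_W L.inv_fam (L.A_mem ω) h ha hq B.hκ
  have h2 := L.wt_add_le (T' := sub (L.fam Ω) (IsLine F)) (Finset.disjoint_left.2 fun A h1 h2 =>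
    hT' A h1 (mem_sub.1 h2).2) hT (sub_subset _ _)
  have h3 := B.MN _ hq
  rw [L.nv_eq] at h3
  have h4 : 0 < κ := by rcases B.hκ with h | h <;> omega
  have h5 := Nat.mul_le_mul_left κ (show Fintype.card F ^ (k + 5) + wt (sub (L.fam Ω) (IsLine F)) + 1 ≤ M by omega)
  change Fintype.card F * nv _ ⊤ (Q a) ≤ _ at h1
  nlinarith

theorem eq_zero_of_line_of_exc (he : (L.exc Ω).Nonempty) {ω : Ω} (h : IsLine F (L.A ω)) {a : L.W} (ha : a ∈ L.A ω) :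
    a = 0 := by
  by_contra ha0
  have hT : ∀ A ∈ L.exc Ω, ¬ IsLine F A := fun A hA => (mem_sub.1 hA).2.not_isLine
  have h0 := L.le_wt_exc he
  have h1 := L.setup.line_sing L.finrank_W L.inv_fam (L.A_mem ω) h ha ha0
    (L.sing_of_line B hN (T := L.exc Ω) (sub_subset _ _) hT (by omega) h ha)
  have h2 := L.wt_add_le (T := L.exc Ω) (T' := sub (L.fam Ω) (IsLine F)) (Finset.disjoint_left.2 fun A h1 h2 =>
    hT A h1 (mem_sub.1 h2).2) (sub_subset _ _) (sub_subset _ _)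
  have h3 := B.M2
  obtain ⟨t, ht1, ht⟩ := exists_card_eq_succ (F := F)
  obtain ⟨s, hs⟩ := Nat.exists_eq_add_of_le' (one_le_nv_zero (Q := Q.restrict L.W) ⊤)
  rw [L.nv_eq, hs, ht, Nat.add_sub_cancel] at h3
  rw [hs, ht, Nat.add_sub_cancel, Nat.add_sub_cancel] at h1
  rw [ht] at h0
  have h5 := Nat.mul_le_mul_left t (show (t + 1) ^ (k + 5) + wt (sub (L.fam Ω) (IsLine F)) + 2 ≤ M by omega)
  rw [show (t + 1) * (s + 1) + t * (t + 1) ^ (k + 5) = (t + 1) * s + t + t * (t + 1) ^ (k + 5) + 1 by ring,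
    Nat.add_sub_cancel] at h3
  nlinarith

theorem false_of_top (h0 : ∀ ω : Ω, L.A ω ≠ ⊥) {ω : Ω} (h : L.A ω = ⊤) : False := by
  have hT : ∀ A ∈ ({L.A ω} : Finset _), ¬ IsLine F A := fun A hA h1 => by
    have h2 := h1.card_le
    rw [Finset.mem_singleton.1 hA, h, L.card_top] at h2
    have h3 := Nat.pow_lt_pow_right (Fintype.one_lt_card (α := F)) (show 1 < k + 5 by omega)
    rw [pow_one] at h3
    omega
  have hR := fun v => reg_of_reg_or_lin (H := St Q ω) L.nd (by have := L.hk; omega) (v := v) fun v hv0 hv => by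
    obtain ⟨ω', h1 | h1 | ⟨h1, a, ha, -, w, hw, hqw⟩ | h1⟩ := L.type_of B hN ω hv0 hv
    · exact Or.inl h1.2
    · exact (h0 _ h1.1).elim
    · refine Or.inr ⟨w, hw, hqw.trans (L.sing_of_line B hN (Finset.singleton_subset_iff.2 (L.A_mem ω)) hT ?_ h1 ha)⟩
      rw [wt, Finset.sum_singleton, h, L.card_top]
    · exact (L.not_top_of_exc B hN ⟨_, h1.1⟩ ω h).elim
  refine false_of_all_reg L.nd (by have := L.hk; omega) (fun h7 => B.h5 (by have := L.hk; omega)) hR L.hyp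
    fun g hg => ?_
  have h1 := (hR (g⁻¹.1 L.e) (OG.app_ne_zero _ L.hyp.left_ne_zero) ((OG.map_app _ _).trans L.hyp.left)).app_St ⟨g, hg⟩
  rw [OG.app_inv_app, ← L.A_eq_top_iff] at h1
  obtain ⟨x, hx⟩ := L.mem_orb_of_top B hN h1 h
  exact ⟨x, x.2, (coe_mem_St (g := L.a x * ⟨g, hg⟩)).2 (by rw [mul_smul, hx])⟩

theorem five_le_finrank_Kc (hk : k = 1) (h4 : 4 ≤ Fintype.card F) {ω : Ω} (h : L.A ω ∈ L.exc Ω) :
    ∃ ω₀ : Ω, ∃ a : V, a ≠ 0 ∧ Q a = 0 ∧ 5 ≤ finrank F (Kc (St Q ω₀) a) := by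
  classical
  obtain ⟨c, hc⟩ : ∃ c : F, c ∉ ({0, 1, -1} : Finset F) := by
    by_contra hc
    have := (Finset.card_le_card (show Finset.univ ⊆ ({0, 1, -1} : Finset F) from fun c _ => by
      by_contra h; exact hc ⟨c, h⟩)).trans Finset.card_le_three
    rw [Finset.card_univ] at this; omega
  simp only [Finset.mem_insert, Finset.mem_singleton, not_or] at hc
  have hc0 : c ^ 2 ≠ 0 := pow_ne_zero 2 hc.1
  have hc1 : c ^ 2 - 1 ≠ 0 := fun h1 => (sq_eq_one_iff.1 (sub_eq_zero.1 h1)).elim hc.2.1 hc.2.2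
  obtain ⟨U, hU, hs, hd⟩ := (mem_sub.1 h).2
  let g : commutator (OG Q) := ⟨hypTorus Q L.e L.f (c ^ 2), hypTorus_mem_commutator L.nd L.hyp hc0 ⟨c, sq c⟩⟩
  have he : g.1.1 L.e = c ^ 2 • L.e := hypTorus_app_left L.hyp hc0
  have hf : g.1.1 L.f = (c ^ 2)⁻¹ • L.f := by
    change (hypTorus Q L.e L.f (c ^ 2)).1 L.f = _
    rw [hypTorus_app L.hyp hc0, L.hyp.polar_right, L.hyp.polar_eq]
    module
  have hW : ∀ w : L.W, g.1.1 w = w := fun w => hypTorus_app_of_polar (L.pe w) (L.pf w)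
  have hga : ∀ x, g * L.a x = L.a (c ^ 2 • x) * g := fun x => Subtype.ext (by
    change g.1 * eich Q L.e x = eich Q L.e (c ^ 2 • (x : V)) * g.1
    rw [← eich_smul_left L.hyp.left (L.pe x), ← he, ← hW x, ← eich_conj, inv_mul_cancel_right, hW x])
  have hA : ∀ {g' : commutator (OG Q)} {γ : L.W ≃ₗ[F] L.W}, L.Rel g' γ → (∀ x ∈ U, γ x ∈ U) → ∀ ω' : Ω,
      L.A ω' = L.A ω → L.A (g' • ω') = L.A ω' := fun hr hγ ω' h1 => by
    rw [L.A_smul hr, h1, hU]; exact smul_eq_of_app_mem hγ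
  obtain ⟨γ, hγ⟩ := L.exists_rel hc0 he hf
  obtain ⟨x, hx⟩ := L.mem_orb_of_exc B hN h (hA ⟨_, hc0, he, hf, hγ⟩ (fun x hx => by
    rw [show γ x = (c ^ 2)⁻¹ • x from Subtype.ext (by rw [hγ, hW]; rfl)]; exact U.smul_mem _ hx) ω rfl)
  obtain ⟨ω₀, h0, hg0⟩ : ∃ ω₀ : Ω, L.A ω₀ = L.A ω ∧ g • ω₀ = ω₀ := by
    refine ⟨L.a (-(c ^ 2 - 1)⁻¹ • x) • ω, by rw [A, stab_smul, A], ?_⟩
    rw [← mul_smul, hga, mul_smul, ← hx, ← mul_smul, ← L.ha]
    congr 2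
    match_scalars
    field_simp
    ring
  obtain ⟨a, ha, ha0⟩ := exists_mem_ne_zero_of_finrank_pos (W := U) (by omega)
  have hqa : Q a = 0 := hs a ha
  refine ⟨ω₀, a, by simpa using ha0, hqa, ?_⟩
  have h5 := finrank_le_finrank_inf_perp_succ (Q := Q) L.W a
  rw [L.finrank_W] at h5
  refine le_trans (by omega) (Submodule.finrank_mono (show L.W ⊓ perp Q a ≤ _ from fun w hw => ⟨hw.2, fun d => ?_⟩))
  have hw' : polar Q (a : V) (d • w) = 0 := by rw [polar_smul_right, mem_perp.1 hw.2, smul_zero]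
  let k₁ : commutator (OG Q) := ⟨eich Q a (d • w), eich_mem_commutator L.nd L.five_le _ _⟩
  have hdw := L.W.smul_mem d hw.1
  have he₁ : k₁.1.1 L.e = (1 : F) • L.e := by
    rw [one_smul]; exact eich_app_of_polar (by rw [polar_comm, L.pe]) (by rw [polar_comm, (mem_hypC.1 hdw).2.1])
  have hf₁ : k₁.1.1 L.f = (1 : F)⁻¹ • L.f := by
    rw [inv_one, one_smul]
    exact eich_app_of_polar (by rw [polar_comm, L.pf]) (by rw [polar_comm, (mem_hypC.1 hdw).2.2])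
  obtain ⟨γ₁, hγ₁⟩ := L.exists_rel one_ne_zero he₁ hf₁
  obtain ⟨y, hy⟩ := L.mem_orb_of_exc B hN (h0 ▸ h) (hA ⟨_, one_ne_zero, he₁, hf₁, hγ₁⟩ (fun x hx => by
    rw [show γ₁ x = x + polar Q (d • w) x • a from Subtype.ext (by
      rw [hγ₁, inv_one, one_smul]; exact eich_app_of_perp hqa hw' (polar_eq_zero_of_singular hs a ha x hx))]
    exact U.add_mem hx (U.smul_mem _ ha)) ω₀ h0)
  have h6 : g * k₁ = k₁ * g := Subtype.ext (by
    have := mul_eich_of_fix (hW a) (d • w)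
    rwa [hW ⟨_, hdw⟩] at this)
  have h7 : L.a (c ^ 2 • y) • ω₀ = L.a y • ω₀ := by
    rw [← hg0, ← mul_smul, ← hga, mul_smul, hy, ← mul_smul, h6, mul_smul, hg0, hy]
  rw [smul_eq_smul_iff (ha := L.ha), L.mem_stab_iff, L.eich_mem_iff_of_eq (h0.trans hU) (L.pe _)] at h7
  have h8 : L.a y • ω₀ = ω₀ := L.mem_stab_iff.2 ((L.eich_mem_iff_of_eq (h0.trans hU) (L.pe _)).2 fun z hz => by
    have := h7 z hz
    rw [show ((c ^ 2 • y - y : L.W) : V) = (c ^ 2 - 1) • (y : V) by rw [sub_smul, one_smul]; rfl,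
      polar_smul_right] at this
    exact (smul_eq_zero.1 this).resolve_left hc1)
  exact (coe_mem_St (g := k₁)).2 (hy.symm.trans h8)

theorem false_of_no_top [Nonempty Ω] (h0 : ∀ ω : Ω, L.A ω ≠ ⊥) (h1 : ∀ ω : Ω, L.A ω ≠ ⊤) : False := by
  obtain ⟨ω⟩ := ‹Nonempty Ω›
  have hnf : ∀ (ω : Ω) (v : V), v ≠ 0 → Q v = 0 → ¬ Fix (St Q ω) v := fun ω v hv0 hv h => by
    obtain ⟨g, hg, hgv⟩ := exists_commutator_app_eq L.nd L.five_le hv0 L.hyp.left_ne_zero (hv.trans L.hyp.left.symm)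
    have := h.app (conj_mem_St ⟨g, hg⟩ ω)
    exact h0 _ (L.A_eq_bot_iff.2 (hgv ▸ this))
  obtain ⟨h8, v, X, hv0, hX⟩ := exc_of_no_reg (H := St Q ω) L.nd (by have := L.hk; omega) fun v hv0 hv => by
    refine ⟨hnf ω v hv0 hv, ?_⟩
    obtain ⟨ω', h2 | h2 | ⟨-, a, -, -, w, hw, -⟩ | h2⟩ := L.type_of B hN ω hv0 hv
    · exact (h1 _ h2.1).elim
    · exact (h0 _ h2.1).elim
    · exact Or.inl ⟨w, hw⟩
    · exact Or.inr h2.2
  have hk : k = 1 := by have := L.hk; omega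
  obtain ⟨ω', h2⟩ : ∃ ω' : Ω, L.A ω' ∈ L.exc Ω := by
    obtain ⟨ω', h2 | h2 | ⟨-, a, -, -, w, hw, -⟩ | h2⟩ := L.type_of B hN ω hv0 (hX.1 v hX.2.1)
    · exact (h1 _ h2.1).elim
    · exact (h0 _ h2.1).elim
    · have := hw.finrank_Kc L.nd hv0; have := hX.finrank_Kc L.nd; omega
    · exact ⟨ω', h2.1⟩
  obtain ⟨h3, h4 | h4⟩ := B.exc hk X hX.1 (by have := hX.2.2.1; omega)
  · obtain ⟨ω₀, a, ha0, ha, h5⟩ := L.five_le_finrank_Kc B hN hk h4 h2
    obtain ⟨ω', h6 | h6 | ⟨h6, a, ha, ha0, -⟩ | ⟨-, X, hX⟩⟩ := L.type_of B hN ω₀ ha0 ha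
    · exact h1 _ h6.1
    · exact h0 _ h6.1
    · exact ha0 (L.eq_zero_of_line_of_exc B hN ⟨_, h2⟩ h6 ha)
    · have := hX.finrank_Kc L.nd; omega
  · have hT : ∀ A ∈ L.exc Ω, TS (Q.restrict L.W) 3 A := fun A hA => by subst hk; exact (mem_sub.1 hA).2
    have h5 := L.le_wt_exc_one hk h3 L.inv_exc hT ⟨_, h2⟩
    have h6 := L.sum_le _ _ fun _ (h : _ ∈ L.exc Ω) => L.card_le_fib (sub_subset _ _ h)
    change wt _ ≤ _ at h6
    rw [wt_eq_of_TS hT] at h6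
    have := Nat.mul_le_mul_right (Fintype.card F ^ 3) h5
    omega

end Loc

end CL.MinD
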