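/-
Minimal degrees of orthogonal groups, VIII: the main theorem and the subgroups attaining the bound.
-/
import Cfsg.Agent.Known.MinDegO7
import Cfsg.Agent.Known.QuadType

set_option autoImplicit false
set_option linter.unusedSectionVars false

open QuadraticMap Module CL.Cls
open scoped Pointwise

namespace CL.MinD

variable {F V : Type*} [Field F] [Fintype F] [AddCommGroup V] [Module F V] [FiniteDimensional F V]
  {Q : QuadraticForm F V}

namespace Loc

variable {k M κ : ℕ} (L : Loc Q k) {Ω : Type*} [MulAction (commutator (OG Q)) Ω] [Finite Ω] (B : Bound Q k M κ)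
  (hN : Nat.card Ω < M) (hΩ : ∀ ω : Ω, MulAction.stabilizer (commutator (OG Q)) ω ≠ ⊤)
include B hN

theorem two_le_finrank_UFix {ω : Ω} (h : L.e ∈ UFix (St Q ω)) : 2 ≤ finrank F (UFix (St Q ω)) := by
  classical
  have := finite_space F V
  have := Fintype.ofFinite V
  have := Fintype.ofFinite Ω
  by_contra h2
  let 𝒰 : Finset (AddSubgroup V) := (Finset.univ.filter fun ω' : Ω => finrank F (UFix (St Q ω')) ≤ 1).image
    fun ω' => (UFix (St Q ω')).toAddSubgroup
  have h3 := card_mul_add_le_sum 𝒰 (Finset.univ.filter fun v : V => Q v = 0 ∧ v ≠ 0) (by simp) 1 fun x hx => by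
    obtain ⟨h4, h5⟩ := (Finset.mem_filter.1 hx).2
    obtain ⟨g, hg, rfl⟩ := exists_commutator_app_eq L.nd L.five_le L.hyp.left_ne_zero h5 (L.hyp.left.trans h4.symm)
    refine Finset.card_pos.2 ⟨_, Finset.mem_filter.2 ⟨Finset.mem_image_of_mem _ (Finset.mem_filter.2
      ⟨Finset.mem_univ ((⟨g, hg⟩ : commutator (OG Q)) • ω), ?_⟩), ?_⟩⟩
    · rw [UFix_St_smul, LinearEquiv.finrank_map_eq]; omega
    · rw [UFix_St_smul]; exact Submodule.mem_map_of_mem h
  have h4 : ∑ A ∈ 𝒰, Nat.card A ≤ 𝒰.card * Fintype.card F := by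
    refine Finset.sum_le_card_nsmul _ _ _ fun A hA => ?_
    obtain ⟨ω', hω', rfl⟩ := Finset.mem_image.1 hA
    rw [card_toAddSubgroup]
    exact (Nat.pow_le_pow_right Fintype.card_pos (Finset.mem_filter.1 hω').2).trans_eq (pow_one _)
  have h5 : 𝒰.card ≤ Nat.card Ω := by
    rw [Nat.card_eq_fintype_card]
    exact Finset.card_image_le.trans (Finset.card_le_univ _)
  have h6 := B.M2
  obtain ⟨t, ht1, ht⟩ := exists_card_eq_succ (F := F)
  rw [card_sing] at h3
  rw [ht, Nat.add_sub_cancel] at h6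
  rw [ht] at h4
  have h7 := Nat.mul_le_mul_left t (show 𝒰.card + 1 ≤ M by omega)
  nlinarith

include hΩ

theorem false_of_bot {ω : Ω} (h : L.A ω = ⊥) : False := by
  classical
  have := Fintype.ofFinite Ω
  have hU := fun (ω : Ω) v => mem_UFix L.nd (by have := L.hk; omega) (not_le_St (hΩ ω)) (v := v)
  have he : ∀ ω : Ω, L.A ω = ⊥ → L.e ∈ UFix (St Q ω) := fun ω h => (hU ω _).2 ⟨L.hyp.left, L.A_eq_bot_iff.1 h⟩
  obtain ⟨v, hv0, hv, h1, h2, h3⟩ := exists_not_reg_of_UFix L.nd L.five_le (not_le_St (hΩ ω))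
    (L.two_le_finrank_UFix B hN (he ω h))
  have h4 := two_mul_finrank_le_of_singular L.nd fun z hz => ((hU ω z).1 hz).1
  have hk := L.hk
  obtain ⟨ω', h5 | h5 | ⟨-, a, -, -, w, hw, -⟩ | ⟨h5, X, hX⟩⟩ := L.type_of B hN ω hv0 hv
  · exact h2 h5.2
  · exact h1 h5.2
  · have := hw.finrank_Kc L.nd hv0; omega
  have h6 := hX.finrank_Kc L.nd
  have h7 := hX.2.2.1
  have h8 := hX.2.2.2.1
  obtain rfl : k = 1 := by omega
  have h9 := (B.exc rfl X hX.1 (by omega)).1
  let ℬ : Finset (AddSubgroup L.W) :=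
    (Finset.univ.filter fun ω' : Ω => L.A ω' = ⊥ ∧ finrank F (UFix (St Q ω')) = 4).image
      fun ω' => ((UFix (St Q ω')).comap L.W.subtype).toAddSubgroup
  have hI : Inv L.Γ ℬ := by
    rintro γ ⟨g, hg⟩ A hA
    obtain ⟨ω', hω', rfl⟩ := Finset.mem_image.1 hA
    obtain ⟨h10, h11⟩ := (Finset.mem_filter.1 hω').2
    refine Finset.mem_image.2 ⟨g • ω', Finset.mem_filter.2 ⟨Finset.mem_univ _, ?_, ?_⟩, ?_⟩
    · rw [L.A_smul hg, h10]; exact smul_eq_of_app_mem fun x hx => by rw [AddSubgroup.mem_bot.1 hx]; simp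
    · rw [UFix_St_smul, LinearEquiv.finrank_map_eq, h11]
    · obtain ⟨c, hc, -, -, hγ⟩ := hg
      ext y
      obtain ⟨y, rfl⟩ := γ.surjective y
      rw [app_mem_smul, UFix_St_smul]
      change (γ y : V) ∈ Submodule.map _ _ ↔ (y : V) ∈ UFix _
      rw [hγ, Submodule.smul_mem_iff _ (inv_ne_zero hc)]
      exact (Submodule.mem_map_equiv _).trans (by simp)
  have hT : ∀ A ∈ ℬ, TS (Q.restrict L.W) 3 A := fun A hA => by
    obtain ⟨ω', hω', rfl⟩ := Finset.mem_image.1 hA
    obtain ⟨h10, h11⟩ := (Finset.mem_filter.1 hω').2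
    refine ⟨_, rfl, fun u hu => ((hU ω' _).1 hu).1, ?_⟩
    have h12 := finrank_inf_perp (x := L.f) (he ω' h10) (by rw [L.hyp.polar_eq']; exact one_ne_zero)
    have h13 : L.W ⊓ UFix (St Q ω') = UFix (St Q ω') ⊓ perp Q L.f := by
      ext x
      exact ⟨fun hx => ⟨hx.2, (mem_hypC.1 hx.1).2.2⟩, fun hx => ⟨mem_hypC.2 ⟨trivial,
        polar_eq_zero_of_singular (fun z hz => ((hU ω' z).1 hz).1) _ (he ω' h10) _ hx.1, hx.2⟩, hx.1⟩⟩
    rw [← Submodule.finrank_map_subtype_eq, Submodule.map_comap_subtype, h13]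
    omega
  have h10 := L.le_wt_exc_one rfl h9 hI hT ⟨_, Finset.mem_image_of_mem _ (Finset.mem_filter.2
    ⟨Finset.mem_univ ω, h, by omega⟩)⟩
  have h11 : ℬ.card ≤ L.fib Ω ⊥ := by
    refine Finset.card_image_le.trans ?_
    rw [← Set.ncard_coe_finset]
    exact Set.ncard_le_ncard (fun z hz => ⟨trivial, (Finset.mem_filter.1 hz).2.1⟩) (Set.toFinite _)
  have hT' : ∀ A ∈ L.exc Ω, TS (Q.restrict L.W) 3 A := fun A hA => (mem_sub.1 hA).2
  have h12 := L.le_wt_exc_one rfl h9 L.inv_exc hT' ⟨_, h5⟩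
  have h13 := L.sum_le (Ω := Ω) ((L.exc Ω).cons ⊥ fun h => (hT' _ h).not_isLine ⟨0, fun a ha => by
    rw [AddSubgroup.mem_bot.1 ha]; exact Submodule.zero_mem _⟩) (L.fib Ω) fun _ _ => le_rfl
  have h14 : wt (L.exc Ω) ≤ ∑ A ∈ L.exc Ω, L.fib Ω A :=
    Finset.sum_le_sum fun A hA => L.card_le_fib (sub_subset _ _ hA)
  rw [Finset.sum_cons] at h13
  rw [wt_eq_of_TS hT'] at h14
  have h15 := Nat.mul_le_mul_right (Fintype.card F ^ 3) h12
  have h16 := B.M2
  obtain ⟨t, ht1, ht⟩ := exists_card_eq_succ (F := F)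
  have h17 : (t + 1) ^ 4 = t * (t ^ 3 + 4 * t ^ 2 + 6 * t + 4) + 1 := by ring
  rw [h9, ht, h17, Nat.add_sub_cancel, Nat.add_sub_cancel, add_right_comm, Nat.add_sub_cancel] at h16
  rw [ht] at h10 h14 h15
  have h18 := Nat.mul_le_mul_left t (show (t + 1 + 1) * ((t + 1) ^ 2 + 1) +
    (t + 1 + 1) * ((t + 1) ^ 2 + 1) * (t + 1) ^ 3 + 1 ≤ M by omega)
  nlinarith

end Loc

/-- The lower bound for the degree of an action of `Ω(V)` without fixed points. -/
theorem Bound.le_card {k M κ : ℕ} (B : Bound Q k M κ) (hQ : (polarBilin Q).Nondegenerate) (hk : finrank F V = k + 7)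
    {Ω : Type*} [MulAction (commutator (OG Q)) Ω] [Finite Ω] [Nonempty Ω]
    (hΩ : ∀ ω : Ω, MulAction.stabilizer (commutator (OG Q)) ω ≠ ⊤) : M ≤ Nat.card Ω := by
  obtain ⟨L⟩ := nonempty_Loc hQ hk
  by_contra hN
  rw [not_le] at hN
  have h0 : ∀ ω : Ω, L.A ω ≠ ⊥ := fun ω h => L.false_of_bot B hN hΩ h
  exact L.false_of_no_top B hN h0 fun ω h => L.false_of_top B hN h0 h

theorem finite_OG (Q : QuadraticForm F V) : Finite (OG Q) := by
  have := finite_space F V
  exact Finite.of_injective (fun g : OG Q => (g.1 : V → V)) fun g h e => OG.ext' (congrFun e)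

theorem Bound.le_index {k M κ : ℕ} (B : Bound Q k M κ) (hQ : (polarBilin Q).Nondegenerate) (hk : finrank F V = k + 7)
    (H : Subgroup (commutator (OG Q))) (hH : H ≠ ⊤) : M ≤ H.index := by
  have := finite_OG Q
  exact B.le_card hQ hk (stabilizer_ne_top_quot hH)

/-- The stabiliser of a point: its index. -/
theorem exists_index_point (hQ : (polarBilin Q).Nondegenerate) (h5 : 5 ≤ finrank F V) {v : V} (hv : v ≠ 0) :
    ∃ H : Subgroup (commutator (OG Q)), Subgroup.center _ ≤ H ∧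
      H.index * {c : F | Q (c • v) = Q v ∧ c ≠ 0}.ncard = {x | Q x = Q v ∧ x ≠ 0}.ncard := by
  classical
  have := finite_space F V
  have hs : ∀ (g : commutator (OG Q)) (x : V), g • Submodule.span F {x} = Submodule.span F {g.1.1 x} := fun g x => by
    exact (Submodule.smul_span g.1.1 {x}).trans (by rw [Set.smul_set_singleton]; rfl)
  refine ⟨MulAction.stabilizer _ (Submodule.span F {v}), fun g hg => ?_, ?_⟩
  · rw [MulAction.mem_stabilizer_iff, hs]
    rcases (mem_center_commutator_iff hQ h5 g).1 hg with h | h <;> rw [h]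
    · rfl
    · rw [negOG_app, ← neg_one_smul F, Submodule.span_singleton_smul_eq (by simp)]
  rw [MulAction.index_stabilizer]
  have h1 := (Set.toFinite (MulAction.orbit (commutator (OG Q)) (Submodule.span F {v})))
  rw [Set.ncard_eq_toFinset_card _ h1, Set.ncard_eq_toFinset_card _ (Set.toFinite {x | Q x = Q v ∧ x ≠ 0}),
    Finset.card_eq_sum_card_fiberwise (f := fun x => Submodule.span F {x}) (t := h1.toFinset) fun x hx => ?_,
    ← smul_eq_mul, ← Finset.sum_const]
  · refine Finset.sum_congr rfl fun U hU => ?_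
    obtain ⟨g, rfl⟩ := h1.mem_toFinset.1 hU
    rw [← Set.ncard_coe_finset, ← Set.ncard_image_of_injective _ (smul_left_injective F (OG.app_ne_zero g.1 hv))]
    congr 1
    ext x
    simp only [Set.mem_image, Set.mem_ofPred_eq, Finset.coe_filter, Set.Finite.mem_toFinset, hs]
    constructor
    · rintro ⟨c, ⟨h2, h3⟩, rfl⟩
      exact ⟨⟨by rw [← map_smul, OG.map_app, h2], smul_ne_zero h3 (OG.app_ne_zero g.1 hv)⟩,
        Submodule.span_singleton_smul_eq (Ne.isUnit h3) _⟩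
    · rintro ⟨⟨h2, h3⟩, h4⟩
      obtain ⟨c, rfl⟩ := Submodule.mem_span_singleton.1 (h4 ▸ Submodule.mem_span_singleton_self x)
      exact ⟨c, ⟨by rwa [← map_smul, OG.map_app] at h2, by rintro rfl; exact h3 (zero_smul _ _)⟩, rfl⟩
  · obtain ⟨h2, h3⟩ := (Set.toFinite _).mem_toFinset.1 hx
    obtain ⟨g, hg, rfl⟩ := exists_commutator_app_eq hQ h5 hv h3 h2.symm
    exact h1.mem_toFinset.2 ⟨⟨g, hg⟩, hs _ _⟩

theorem exists_index_sing (hQ : (polarBilin Q).Nondegenerate) (h5 : 5 ≤ finrank F V) :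
    ∃ H : Subgroup (commutator (OG Q)), Subgroup.center _ ≤ H ∧ (Fintype.card F - 1) * H.index = nv Q ⊤ 0 - 1 := by
  classical
  have := finite_space F V
  have := Fintype.ofFinite V
  obtain ⟨e, f, h⟩ := exists_isHyp hQ (by omega)
  obtain ⟨H, h1, h2⟩ := exists_index_point hQ h5 h.left_ne_zero
  refine ⟨H, h1, ?_⟩
  have h3 : {c : F | Q (c • e) = Q e ∧ c ≠ 0} = Set.univ \ {0} := by
    ext c; simp [Cls.map_smul', h.left]
  rw [h3, Set.ncard_sdiff_singleton_of_mem (Set.mem_univ _), Set.ncard_univ, Nat.card_eq_fintype_card, h.left] at h2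
  rw [mul_comm, h2, ← card_sing, ← Set.ncard_coe_finset]
  congr 1; ext; simp

theorem exists_index_nonsing (hQ : (polarBilin Q).Nondegenerate) (h5 : 5 ≤ finrank F V) {c : F} (hc : c ≠ 0) {κ : ℕ}
    (hκ : (2 : F) ≠ 0 ∧ κ = 2 ∨ (2 : F) = 0 ∧ κ = 1) :
    ∃ H : Subgroup (commutator (OG Q)), Subgroup.center _ ≤ H ∧ κ * H.index = nv Q ⊤ c := by
  obtain ⟨v, rfl⟩ := exists_map_eq hQ (by omega) c
  obtain ⟨H, h1, h2⟩ := exists_index_point hQ h5 (v := v) (by rintro rfl; simp at hc)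
  refine ⟨H, h1, ?_⟩
  have h3 : {c : F | Q (c • v) = Q v ∧ c ≠ 0} = {1, -1} := by
    ext d
    simp only [Cls.map_smul', Set.mem_ofPred_eq, Set.mem_insert_iff, Set.mem_singleton_iff, ← sq_eq_one_iff,
      mul_eq_right₀ hc]
    exact and_iff_left_of_imp fun h => by rintro rfl; simp at h
  have h4 : ({1, -1} : Set F).ncard = κ := by
    rcases hκ with ⟨h, rfl⟩ | ⟨h, rfl⟩
    · exact Set.ncard_pair fun h' => h (by linear_combination h')
    · rw [show (-1 : F) = 1 by linear_combination -h]; simp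
  rw [h3, h4] at h2
  rw [mul_comm, h2, nv]
  congr 1; ext x
  simp only [Set.mem_ofPred_eq, Submodule.mem_top, true_and]
  exact and_iff_left_of_imp fun h => by rintro rfl; exact hc (by rw [← h, map_zero])

/-- Transfer to the projective group of the statements. -/
theorem minDeg_pomega {ι : Type} [Fintype ι] [DecidableEq ι] {Q : QuadraticForm F (ι → F)} {k M κ : ℕ}
    (B : Bound Q k M κ) (hQ : (polarBilin Q).Nondegenerate) (hk : Fintype.card ι = k + 7)
    (h : ∃ H : Subgroup (commutator (OG Q)), Subgroup.center _ ≤ H ∧ H.index = M) :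
    (∀ H : Subgroup (Cfsg.POmega F ⇑Q), H ≠ ⊤ → M ≤ H.index) ∧ ∃ H : Subgroup (Cfsg.POmega F ⇑Q), H.index = M := by
  have := finite_OG Q
  let π : commutator (OG Q) →* Cfsg.POmega F ⇑Q :=
    (pomegaEquiv Q).symm.toMonoidHom.comp (QuotientGroup.mk' (Subgroup.center _))
  have hπ : Function.Surjective π := (pomegaEquiv Q).symm.surjective.comp (QuotientGroup.mk'_surjective _)
  refine ⟨le_index_of_action π hπ (B.le_index hQ (by rw [finrank_fintype_fun_eq_card, hk])), ?_⟩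
  obtain ⟨H, h1, rfl⟩ := h
  refine exists_index_of_ker_le π hπ H fun g hg => h1 ?_
  rw [MonoidHom.mem_ker] at hg
  exact (QuotientGroup.eq_one_iff g).1 ((pomegaEquiv Q).symm.map_eq_one_iff.1 hg)

end CL.MinD
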