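import Cfsg.Agent.Known.MinDeg0
import Cfsg.Agent.Known.LSSL

/-!
# Small actions of `SL_n(q)`: the transvection groups act trivially or regularly on orbits
-/

open Matrix CL.GLn CL.LS

namespace CL.MinDeg

section General

variable {A B Ω : Type*} [AddCommGroup A] [AddCommGroup B] (T : Act A Ω) (P : Pairing A B)

/-- If all orbits in `Φ` have at most `k` points then `|Φ| ≤ k * #orbits`. -/
theorem Act.ncard_le_mul_mult_zero [Finite A] [Finite Ω] {Φ : Set Ω} (hΦ : T.Inv Φ) {k : ℕ}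
    (h : ∀ ω ∈ Φ, (T.orb ω).ncard ≤ k) : Φ.ncard ≤ k * T.mult P Φ 0 := by
  classical
  have := Fintype.ofFinite Ω
  have h1 := T.ncard_image_orb Φ.toFinset (by simpa using hΦ)
  rw [Set.coe_toFinset, ← T.mult_zero P] at h1
  have h2 : (Φ.ncard : ℚ) ≤ k * T.mult P Φ 0 := by
    rw [h1, Finset.mul_sum, Set.ncard_eq_toFinset_card', Finset.card_eq_sum_ones, Nat.cast_sum]
    refine Finset.sum_le_sum fun ω hω => ?_
    have h3 : (0 : ℚ) < (T.orb ω).ncard := by exact_mod_cast T.ncard_orb_pos ω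
    rw [← div_eq_mul_inv, le_div_iff₀ h3, Nat.cast_one, one_mul]
    exact_mod_cast h ω (Set.mem_toFinset.1 hω)
  exact_mod_cast h2

end General

variable {F : Type*} [Field F] {n : Type*} [Fintype n] [DecidableEq n]

theorem mul_tv (g : SpecialLinearGroup n F) {v φ : n → F}
    (h : φ ⬝ᵥ ((g : Matrix n n F) *ᵥ v) = 0) :
    g * tv v (φ ᵥ* (g : Matrix n n F)) = tv ((g : Matrix n n F) *ᵥ v) φ * g := by
  apply sl_ext
  rw [Matrix.SpecialLinearGroup.coe_mul, Matrix.SpecialLinearGroup.coe_mul, coe_tv h,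
    coe_tv (by rwa [← dotProduct_mulVec]), add_mul, mul_add, mul_vecMulVec, vecMulVec_mul, one_mul,
    mul_one]

theorem tv_smul_left {v φ : n → F} (h : φ ⬝ᵥ v = 0) (c : F) : tv (c • v) φ = tv v (c • φ) := by
  apply sl_ext
  rw [coe_tv (by rw [dotProduct_smul, h, smul_zero]), coe_tv (by rw [smul_dotProduct, h, smul_zero]),
    smul_vecMulVec, vecMulVec_smul]

theorem tv_mul_tv_right {v w φ : n → F} (h : φ ⬝ᵥ v = 0) (h' : φ ⬝ᵥ w = 0) :
    tv v φ * tv w φ = tv (v + w) φ := by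
  apply sl_ext
  rw [coe_tv_mul_tv h h', coe_tv (by rw [dotProduct_add, h, h', add_zero]), h', zero_smul, add_zero,
    add_vecMulVec, add_assoc]

theorem vecMul_tv {v φ : n → F} (h : φ ⬝ᵥ v = 0) (α : n → F) :
    α ᵥ* (tv v φ : Matrix n n F) = α + (α ⬝ᵥ v) • φ := by
  rw [coe_tv h, vecMul_add, vecMul_one, vecMul_vecMulVec]

/-- The commutator relation `t_{z,ψ} t_{x,φ} = t_{x,φ} t_{z,ψ(x)φ} t_{z,ψ}` for `φ z = 0`. -/
theorem tv_mul_tv_comm {z x α φ : n → F} (hα : α ⬝ᵥ z = 0) (hφ : φ ⬝ᵥ x = 0) (h : φ ⬝ᵥ z = 0) :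
    tv z α * tv x φ = tv x φ * tv z ((α ⬝ᵥ x) • φ) * tv z α := by
  have h1 := mul_tv (tv z α) (v := x) (φ := φ)
    (by rw [tv_mulVec hα, dotProduct_add, dotProduct_smul, hφ, h]; simp)
  rw [vecMul_tv hα, h, zero_smul, add_zero, tv_mulVec hα,
    ← tv_mul_tv_right hφ (by rw [dotProduct_smul, h, smul_zero]), tv_smul_left h] at h1
  exact h1

omit [DecidableEq n] in
theorem mem_span_pair_of_le {a b x y : n → F} (ha : a ≠ 0) (hb : b ∉ F ∙ a)
    (ha' : a ∈ Submodule.span F {x, y}) (hb' : b ∈ Submodule.span F {x, y}) :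
    Submodule.span F {a, b} = Submodule.span F {x, y} := by
  classical
  refine Submodule.eq_of_le_of_finrank_le ?_ ?_
  · rw [Submodule.span_le]
    rintro _ (rfl | rfl)
    · exact ha'
    · exact hb'
  · have hli : LinearIndependent F ![a, b] := by
      rw [LinearIndependent.pair_iff' ha]
      intro c hc
      exact hb (Submodule.mem_span_singleton.2 ⟨c, hc⟩)
    have h2 : Module.finrank F (Submodule.span F ({a, b} : Set (n → F))) = 2 := by
      have := finrank_span_eq_card hli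
      rwa [Matrix.range_cons_cons_empty, Fintype.card_fin] at this
    rw [h2]
    have := finrank_span_finset_le_card (R := F) ({x, y} : Finset (n → F))
    rw [Set.finrank, Finset.coe_pair] at this
    exact this.trans Finset.card_le_two

omit [DecidableEq n] in
theorem exists_notMem_span_pair (h3 : 3 ≤ Fintype.card n) (x y : n → F) :
    ∃ z, z ∉ Submodule.span F ({x, y} : Set (n → F)) := by
  classical
  by_contra h
  push Not at h
  have h1 : Submodule.span F ({x, y} : Set (n → F)) = ⊤ := eq_top_iff.2 fun z _ => h z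
  have := finrank_span_finset_le_card (R := F) ({x, y} : Finset (n → F))
  rw [Set.finrank, Finset.coe_pair, h1, finrank_top, Module.finrank_fintype_fun_eq_card] at this
  have := this.trans Finset.card_le_two
  omega

variable (Ω : Type*) [MulAction (SpecialLinearGroup n F) Ω]

/-- The action of the transvections with centre `e`. -/
noncomputable def slT (e : n → F) : Act (annE e) Ω := Act.ofHom Ω (slA e) (slA_add e)

variable {Ω} {ψ : AddChar F ℂ}

/-- The pairing between the transvections with centre `e` and the vectors. -/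
noncomputable def slP (hψ : ψ ≠ 1) (e : n → F) : Pairing (annE e) (n → F) :=
  Pairing.ofForm ψ (fun φ w => (φ : n → F) ⬝ᵥ w) (fun _ _ _ => add_dotProduct _ _ _)
    (fun _ _ _ => dotProduct_add _ _ _) fun φ h => Subtype.ext <| funext fun i =>
      eq_zero_of_forall_psi hψ fun t => by simpa [mul_comm] using h (Pi.single i t)

/-- The annihilator of the stabiliser of `ω` in the transvection group with centre `e`. -/
noncomputable def slX (hψ : ψ ≠ 1) (e : n → F) (ω : Ω) : AddSubgroup (n → F) :=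
  (slT Ω e).X (slP hψ e) ω

/-- All transvections with centre `e` fix `ω`. -/
def SlAll (e : n → F) (ω : Ω) : Prop := ∀ φ, φ ⬝ᵥ e = 0 → tv e φ • ω = ω

/-- No nontrivial transvection with centre `e` fixes `ω`. -/
def SlReg (e : n → F) (ω : Ω) : Prop := ∀ φ, φ ⬝ᵥ e = 0 → tv e φ • ω = ω → φ = 0

theorem smul_tv (g : SpecialLinearGroup n F) {v φ : n → F}
    (h : φ ⬝ᵥ ((g : Matrix n n F) *ᵥ v) = 0) (ω : Ω) :
    g • tv v (φ ᵥ* (g : Matrix n n F)) • ω = tv ((g : Matrix n n F) *ᵥ v) φ • g • ω := by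
  rw [← mul_smul, mul_tv g h, mul_smul]

variable (hψ : ψ ≠ 1)

theorem mem_slX {e w : n → F} {ω : Ω} :
    w ∈ slX hψ e ω ↔ ∀ φ, φ ⬝ᵥ e = 0 → tv e φ • ω = ω → ψ (φ ⬝ᵥ w) = 1 :=
  ⟨fun h φ h1 h2 => h ⟨φ, h1⟩ h2, fun h φ h2 => h φ.1 φ.2 h2⟩

theorem mem_slorb {e : n → F} {ω ω' : Ω} :
    ω' ∈ (slT Ω e).orb ω ↔ ∃ φ, φ ⬝ᵥ e = 0 ∧ tv e φ • ω = ω' :=
  ⟨fun ⟨φ, h⟩ => ⟨φ.1, φ.2, h⟩, fun ⟨φ, h1, h⟩ => ⟨⟨φ, h1⟩, h⟩⟩

theorem mem_slX_of_mem_span {e w : n → F} (h : w ∈ F ∙ e) (ω : Ω) : w ∈ slX hψ e ω := by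
  obtain ⟨c, rfl⟩ := Submodule.mem_span_singleton.1 h
  rw [mem_slX]
  intro φ h1 _
  rw [dotProduct_smul, h1, smul_zero, AddChar.map_zero_eq_one]

theorem mulVec_mem_slX (g : SpecialLinearGroup n F) {e w : n → F} {ω : Ω} (h : w ∈ slX hψ e ω) :
    (g : Matrix n n F) *ᵥ w ∈ slX hψ ((g : Matrix n n F) *ᵥ e) (g • ω) := by
  rw [mem_slX] at h ⊢
  intro φ h1 h2
  rw [dotProduct_mulVec]
  refine h _ (by rwa [← dotProduct_mulVec]) ?_
  rw [← smul_tv g h1] at h2
  exact MulAction.injective g h2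

theorem tv_smul_eq_of_slX [Finite F] {e φ : n → F} {ω : Ω} (h : φ ⬝ᵥ e = 0)
    (h' : ∀ w ∈ slX hψ e ω, φ ⬝ᵥ w = 0) : tv e φ • ω = ω :=
  (slT Ω e).act_eq_of_forall_X (slP hψ e) (x := ⟨φ, h⟩) fun w hw => by
    change ψ (φ ⬝ᵥ w) = 1
    rw [h' w hw, AddChar.map_zero_eq_one]

theorem slAll_of_le [Finite F] {e : n → F} {ω : Ω} (h : ∀ w ∈ slX hψ e ω, w ∈ F ∙ e) :
    SlAll e ω := fun φ hφ => tv_smul_eq_of_slX hψ hφ fun w hw => by
  obtain ⟨c, rfl⟩ := Submodule.mem_span_singleton.1 (h w hw)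
  rw [dotProduct_smul, hφ, smul_zero]

theorem mem_span_of_slAll {e w : n → F} {ω : Ω} (h : SlAll e ω) (hw : w ∈ slX hψ e ω) :
    w ∈ F ∙ e := by
  by_contra hn
  obtain ⟨φ, h1, h2⟩ := exists_dot_of_notMem hn
  have h3 := h2 e (Submodule.mem_span_singleton_self e)
  refine one_ne_zero (eq_zero_of_forall_psi hψ (c := 1) fun t => ?_)
  have h4 : (t • φ) ⬝ᵥ e = 0 := by rw [smul_dotProduct, h3, smul_zero]
  have := (mem_slX hψ).1 hw _ h4 (h _ h4)
  rwa [smul_dotProduct, h1, smul_eq_mul] at this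

theorem slReg_of_top {e : n → F} {ω : Ω} (h : slX hψ e ω = ⊤) : SlReg e ω := fun φ h1 h2 =>
  congrArg Subtype.val ((slP hψ e).sep ⟨φ, h1⟩ fun w =>
    (mem_slX hψ).1 (h ▸ AddSubgroup.mem_top w) φ h1 h2)

variable [Finite Ω]

/-- The multiplicity function. -/
noncomputable def slMu (e : n → F) (Φ : Set Ω) (w : n → F) : ℕ :=
  (slT Ω e).mult (slP hψ e) Φ w

theorem slMu_le (g : SpecialLinearGroup n F) (e w : n → F) :
    slMu hψ e (Set.univ : Set Ω) w ≤
      slMu hψ ((g : Matrix n n F) *ᵥ e) (Set.univ : Set Ω) ((g : Matrix n n F) *ᵥ w) := by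
  refine (slT Ω e).mult_le_of_map _ _ _ (fun ω => g • ω) (fun ω ω' h => ?_)
    fun ω _ h => ⟨trivial, mulVec_mem_slX hψ g h⟩
  obtain ⟨φ, h1, h2⟩ := mem_slorb.1 h
  rw [← smul_tv g h1] at h2
  exact mem_slorb.2 ⟨_, by rwa [← dotProduct_mulVec], MulAction.injective g h2⟩

theorem slMu_eq (h3 : 3 ≤ Fintype.card n) {e w e' w' : n → F} (he : e ≠ 0) (hw : w ∉ F ∙ e)
    (he' : e' ≠ 0) (hw' : w' ∉ F ∙ e') :
    slMu hψ e (Set.univ : Set Ω) w = slMu hψ e' (Set.univ : Set Ω) w' := by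
  refine le_antisymm ?_ ?_
  · obtain ⟨g, rfl, rfl⟩ := exists_SL_pair h3 he hw he' hw'
    exact slMu_le hψ g e w
  · obtain ⟨g, rfl, rfl⟩ := exists_SL_pair h3 he' hw' he hw
    exact slMu_le hψ g e' w'

omit [Finite Ω] in
theorem slMu_of_mem_span {e w : n → F} (h : w ∈ F ∙ e) (Φ : Set Ω) :
    slMu hψ e Φ w = slMu hψ e Φ 0 := by
  rw [slMu, slMu, Act.mult, Act.mult]
  congr 2
  ext ω
  exact ⟨fun h' => ⟨h'.1, zero_mem _⟩, fun h' => ⟨h'.1, mem_slX_of_mem_span hψ h ω⟩⟩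

variable [Finite F]

theorem sl_count (h1 : 1 ≤ Fintype.card n) {e : n → F} (he : e ≠ 0) {Φ : Set Ω}
    (hΦ : (slT Ω e).Inv Φ) {b : ℕ} (hb : ∀ w, w ∉ F ∙ e → slMu hψ e Φ w = b) :
    Φ.ncard + b = slMu hψ e Φ 0 + Nat.card F ^ (Fintype.card n - 1) * b := by
  classical
  have := Fintype.ofFinite F
  have h : Nat.card (annE e) * ∑ w, slMu hψ e Φ w = Nat.card (n → F) * Φ.ncard :=
    (slT Ω e).card_mul_sum_mult (slP hψ e) hΦ
  have hV : Nat.card (n → F) = Nat.card F * Nat.card F ^ (Fintype.card n - 1) := by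
    rw [Nat.card_fun, ← pow_succ', Nat.sub_add_cancel h1, Nat.card_eq_fintype_card (α := n)]
  have hL : (Finset.univ.filter fun w => w ∈ F ∙ e).card = Nat.card F := by
    rw [← Fintype.card_subtype, ← Nat.card_eq_fintype_card]
    exact (Nat.card_congr (LinearEquiv.toSpanNonzeroSingleton F _ e he).toEquiv).symm
  have hC := Finset.card_filter_add_card_filter_not (s := (Finset.univ : Finset (n → F)))
    (fun w => w ∈ F ∙ e)
  rw [hL, Finset.card_univ, ← Nat.card_eq_fintype_card, hV] at hC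
  rw [card_annE he, hV, ← Finset.sum_filter_add_sum_filter_not Finset.univ (fun w => w ∈ F ∙ e),
    Finset.sum_congr rfl (g := fun _ => slMu hψ e Φ 0)
      fun w hw => slMu_of_mem_span hψ (Finset.mem_filter.1 hw).2 Φ,
    Finset.sum_congr rfl (g := fun _ => b) fun w hw => hb w (Finset.mem_filter.1 hw).2,
    Finset.sum_const, Finset.sum_const, hL, smul_eq_mul, smul_eq_mul] at h
  generalize (Finset.univ.filter fun w => ¬ w ∈ F ∙ e).card = c at h hC
  have hq : 0 < Nat.card F := Nat.card_pos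
  have hQ : 0 < Nat.card F ^ (Fintype.card n - 1) := pow_pos hq _
  generalize Nat.card F ^ (Fintype.card n - 1) = Q at *
  generalize Nat.card F = q at *
  have h2 : q * slMu hψ e Φ 0 + c * b = q * Φ.ncard := by
    refine Nat.eq_of_mul_eq_mul_left hQ ?_
    rw [h]; ring
  refine Nat.eq_of_mul_eq_mul_left hq ?_
  rw [mul_add, mul_add, ← h2, ← mul_assoc, ← hC]
  ring

variable (h3 : 3 ≤ Fintype.card n)
  (hm : (Nat.card F - 1) * Nat.card Ω < Nat.card F ^ Fintype.card n - 1)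

include h3 hm

theorem slMu_le_one {e w : n → F} (he : e ≠ 0) (hw : w ∉ F ∙ e) :
    slMu hψ e (Set.univ : Set Ω) w ≤ 1 := by
  have h := sl_count hψ (by omega) he (slT Ω e).inv_univ
    (b := slMu hψ e (Set.univ : Set Ω) w) fun w' hw' => slMu_eq hψ h3 he hw' he hw
  have h1 : slMu hψ e (Set.univ : Set Ω) w ≤ slMu hψ e (Set.univ : Set Ω) 0 :=
    (slT Ω e).mult_le_mult_zero _ _ _
  rw [Set.ncard_univ] at h
  have h2 : Nat.card F ^ Fintype.card n = Nat.card F * Nat.card F ^ (Fintype.card n - 1) := by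
    rw [← pow_succ', Nat.sub_add_cancel (by omega)]
  rw [h2] at hm
  have hq : 1 < Nat.card F := Finite.one_lt_card
  generalize Nat.card F ^ (Fintype.card n - 1) = Q at *
  obtain ⟨q, hq'⟩ := Nat.exists_eq_add_of_lt hq
  rw [hq'] at hm
  by_contra hlt
  have h4 : Q * 2 ≤ Nat.card Ω := by nlinarith
  have h5 : (1 + q + 1 - 1) * (Q * 2) ≤ (1 + q + 1 - 1) * Nat.card Ω := Nat.mul_le_mul_left _ h4
  have h6 : (1 + q + 1) * Q ≤ (1 + q + 1 - 1) * (Q * 2) := by
    rw [Nat.add_sub_cancel]; nlinarith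
  omega

theorem mem_slorb_of_mem {e w : n → F} (he : e ≠ 0) (hw : w ∉ F ∙ e) {ω ω' : Ω}
    (h : w ∈ slX hψ e ω) (h' : w ∈ slX hψ e ω') : ω' ∈ (slT Ω e).orb ω :=
  (slT Ω e).mem_orb_of_mult_le_one _ (slMu_le_one hψ h3 hm he hw) trivial trivial h h'

theorem mem_slX_of_ker {e w u φ : n → F} (he : e ≠ 0) (hw : w ∉ F ∙ e) {ω : Ω}
    (h : w ∈ slX hψ e ω) (hu : u ∈ slX hψ e ω) (h1 : φ ⬝ᵥ u = 1) (h2 : φ ⬝ᵥ e = 0)
    (h4 : φ ⬝ᵥ w = 0) {z : n → F} (hz : φ ⬝ᵥ z = 0) : z ∈ slX hψ e ω := by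
  have a1 := mulVec_mem_slX hψ (tv z φ) h
  have a2 := mulVec_mem_slX hψ (tv z φ) hu
  rw [tv_mulVec hz, tv_mulVec hz, h2, zero_smul, add_zero] at a1 a2
  rw [h4, zero_smul, add_zero] at a1
  have a3 : slX hψ e (tv z φ • ω) = slX hψ e ω :=
    (slT Ω e).X_eq_of_orb_eq _ ((slT Ω e).orb_eq_iff.2 (mem_slorb_of_mem hψ h3 hm he hw h a1))
  rw [a3, h1, one_smul] at a2
  simpa using sub_mem a2 hu

theorem slX_eq_top_or {e w : n → F} (he : e ≠ 0) (hw : w ∉ F ∙ e) {ω : Ω} (h : w ∈ slX hψ e ω) :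
    slX hψ e ω = ⊤ ∨ ∀ u ∈ slX hψ e ω, u ∈ Submodule.span F {e, w} := by
  by_contra hc
  push Not at hc
  obtain ⟨h1, u, hu, hu'⟩ := hc
  have hue : u ∉ F ∙ e := fun h' => hu' (Submodule.span_mono (by simp) h')
  have hwu : w ∉ Submodule.span F {e, u} := fun h' => hu' (by
    rw [mem_span_pair_of_le he hw (Submodule.subset_span (by simp)) h']
    exact Submodule.subset_span (by simp))
  obtain ⟨φ, a1, a2⟩ := exists_dot_of_notMem hu'
  obtain ⟨φ', b1, b2⟩ := exists_dot_of_notMem hwu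
  refine h1 (eq_top_iff.2 fun z _ => ?_)
  have c1 := mem_slX_of_ker hψ h3 hm he hw h hu a1 (a2 e (Submodule.subset_span (by simp)))
    (a2 w (Submodule.subset_span (by simp))) (z := z - (φ ⬝ᵥ z) • u)
    (by rw [dotProduct_sub, dotProduct_smul, a1]; simp)
  have c2 := mem_slX_of_ker hψ h3 hm he hue hu h b1 (b2 e (Submodule.subset_span (by simp)))
    (b2 u (Submodule.subset_span (by simp))) (z := (φ ⬝ᵥ z) • u)
    (by rw [dotProduct_smul, b2 u (Submodule.subset_span (by simp)), smul_zero])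
  simpa using add_mem c1 c2

theorem not_slAll {e : n → F} (he : e ≠ 0) (hR : ∀ ω : Ω, slX hψ e ω ≠ ⊤)
    (hb : ∀ w, w ∉ F ∙ e → ∃ ω : Ω, w ∈ slX hψ e ω) (ω₀ : Ω) : ¬ SlAll e ω₀ := by
  intro hA
  set Φ : Set Ω := {ω | ∃ w ∈ slX hψ e ω, w ∉ F ∙ e} with hΦd
  have hΦ : (slT Ω e).Inv Φ := fun x ω hω => by
    have : slX hψ e ((slT Ω e).act x ω) = slX hψ e ω := (slT Ω e).X_act _ x ω
    simpa only [hΦd, Set.mem_ofPred_eq, this] using hω
  have h1 := sl_count hψ (by omega) he hΦ (b := 1) fun w hw => by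
    refine le_antisymm (le_trans ((slT Ω e).mult_mono _ (Set.subset_univ _) w)
      (slMu_le_one hψ h3 hm he hw)) ?_
    obtain ⟨ω, hω⟩ := hb w hw
    exact (slT Ω e).one_le_mult _ ⟨w, hω, hw⟩ hω
  have hV : Nat.card (n → F) = Nat.card F * Nat.card F ^ (Fintype.card n - 1) := by
    rw [Nat.card_fun, ← pow_succ', Nat.sub_add_cancel (by omega), Nat.card_eq_fintype_card (α := n)]
  have hq : 1 < Nat.card F := Finite.one_lt_card
  have hQ : 0 < Nat.card F ^ (Fintype.card n - 1) := pow_pos (by omega) _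
  have h2 := (slT Ω e).ncard_le_mul_mult_zero (slP hψ e) hΦ (k := Nat.card F) (by
    rintro ω ⟨w, hw, hw'⟩
    have a1 := (slT Ω e).card_mul_card_X (slP hψ e) ω
    have a2 := (slX_eq_top_or hψ h3 hm he hw' hw).resolve_left (hR ω)
    have a3 : Nat.card (slX hψ e ω) ≤ Nat.card F * Nat.card F := by
      rw [← Nat.card_prod]
      have : ∀ u : slX hψ e ω, ∃ c : F × F, c.1 • e + c.2 • w = u := fun u => by
        obtain ⟨a, b, hab⟩ := Submodule.mem_span_pair.1 (a2 u u.2)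
        exact ⟨(a, b), hab⟩
      choose f hf using this
      exact Nat.card_le_card_of_injective f fun u u' h => Subtype.ext (by rw [← hf, ← hf, h])
    rw [card_annE he, hV, mul_comm (Nat.card F), mul_assoc] at a1
    have a4 := Nat.eq_of_mul_eq_mul_left hQ a1
    change Nat.card (slX hψ e ω) = _ at a4
    rw [a4] at a3
    exact Nat.le_of_mul_le_mul_left a3 (by omega))
  have h4 : Φ.ncard < Nat.card Ω := by
    rw [← Set.ncard_univ]
    refine Set.ncard_lt_ncard ⟨Set.subset_univ _, fun h => ?_⟩ (Set.toFinite _)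
    obtain ⟨w, hw, hw'⟩ := h (Set.mem_univ ω₀)
    exact hw' (mem_span_of_slAll hψ hA hw)
  have h5 : Nat.card F ^ Fintype.card n = Nat.card F * Nat.card F ^ (Fintype.card n - 1) := by
    rw [← pow_succ', Nat.sub_add_cancel (by omega)]
  rw [h5] at hm
  change Φ.ncard ≤ Nat.card F * slMu hψ e Φ 0 at h2
  generalize Nat.card F ^ (Fintype.card n - 1) = Q at *
  generalize slMu hψ e Φ 0 = r at *
  obtain ⟨q, hq'⟩ := Nat.exists_eq_add_of_lt hq
  rw [hq'] at hm h2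
  rw [Nat.add_sub_cancel] at hm
  have h6 : (1 + q) * (Φ.ncard + 1) ≤ (1 + q) * Nat.card Ω := Nat.mul_le_mul_left _ h4
  have h7 : (1 + q + 1) * Q ≤ (1 + q) * (Φ.ncard + 1) + 1 := by nlinarith
  omega

omit hm [Finite Ω] [Finite F] in
/-- The spread configuration does not exist. -/
theorem not_spread (ω : Ω) (y : (n → F) → n → F) (hy : ∀ z, z ≠ 0 → y z ∉ F ∙ z)
    (hS : ∀ z, z ≠ 0 → ∀ φ, φ ⬝ᵥ z = 0 → φ ⬝ᵥ y z = 0 → tv z φ • ω = ω)
    (hA : ∀ z : n → F, z ≠ 0 → ¬ SlAll z ω) : False := by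
  have K : ∀ x z, x ≠ 0 → z ≠ 0 → x ∉ Submodule.span F {z, y z} →
      y z ∈ Submodule.span F {z, x, y x} := by
    intro x z hx hz hxz
    by_contra hn
    obtain ⟨φ₀, a1, a2⟩ := exists_dot_of_notMem hn
    obtain ⟨α, b1, b2⟩ := exists_dot_of_notMem hxz
    have a3 := a2 z (Submodule.subset_span (by simp))
    have a4 := a2 x (Submodule.subset_span (by simp))
    have a5 := a2 (y x) (Submodule.subset_span (by simp))
    have b3 := b2 z (Submodule.subset_span (by simp))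
    have b4 := b2 (y z) (Submodule.subset_span (by simp))
    refine hA z hz fun φ hφ => ?_
    set c := φ ⬝ᵥ y z with hc
    have c1 : (φ - c • φ₀) ⬝ᵥ z = 0 := by rw [sub_dotProduct, smul_dotProduct, hφ, a3]; simp
    have c2 : (c • φ₀) ⬝ᵥ z = 0 := by rw [smul_dotProduct, a3, smul_zero]
    have c3 : (c • α) ⬝ᵥ z = 0 := by rw [smul_dotProduct, b3, smul_zero]
    have d1 := hS z hz _ c1 (by rw [sub_dotProduct, smul_dotProduct, a1]; simp [hc])
    have d2 := hS z hz _ c3 (by rw [smul_dotProduct, b4, smul_zero])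
    have d3 := hS x hx _ a4 a5
    have d4 := congrArg (· • ω) (tv_mul_tv_comm c3 a4 a3)
    simp only [mul_smul, d2, d3] at d4
    rw [smul_dotProduct, b1, smul_eq_mul, mul_one] at d4
    have d5 : tv z (c • φ₀) • ω = ω := MulAction.injective (tv x φ₀) (by
      simp only [d3]; exact d4.symm)
    rw [← sub_add_cancel φ (c • φ₀), ← tv_mul_tv_left c1 c2, mul_smul, d5, d1]
  have Sym : ∀ x u, x ≠ 0 → u ≠ 0 → u ∈ Submodule.span F {x, y x} →
      x ∈ Submodule.span F {u, y u} := by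
    intro x u hx hu h
    by_contra hn
    have h1 := K x u hx hu hn
    rw [Submodule.span_insert_eq_span h] at h1
    exact hn (by
      rw [mem_span_pair_of_le hu (hy u hu) h h1]
      exact Submodule.subset_span (by simp))
  obtain ⟨x, hx⟩ := exists_notMem_span (F := F) (n := n) (by omega) 0
  have hx0 : x ≠ 0 := fun h => hx (by rw [h]; exact zero_mem _)
  obtain ⟨z, hz⟩ := exists_notMem_span_pair h3 x (y x)
  have hz0 : z ≠ 0 := fun h => hz (h ▸ zero_mem _)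
  have hxz : x ∉ Submodule.span F {z, y z} := fun h => hz (Sym z x hz0 hx0 h)
  obtain ⟨c, u, hu, hcu⟩ := Submodule.mem_span_insert.1 (K x z hx0 hz0 hxz)
  have hu0 : u ≠ 0 := fun h => hy z hz0 (Submodule.mem_span_singleton.2 ⟨c, by rw [hcu, h, add_zero]⟩)
  have huz : u ∈ Submodule.span F {z, y z} := by
    rw [show u = y z - c • z by rw [hcu]; abel]
    exact sub_mem (Submodule.subset_span (by simp))
      (Submodule.smul_mem _ _ (Submodule.subset_span (by simp)))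
  have h1 := Sym z u hz0 hu0 huz
  have h2 := Sym x u hx0 hu0 hu
  have hxu : x ∉ F ∙ u := fun h => hxz (Submodule.span_le.2 (by simpa using huz) h)
  rw [← mem_span_pair_of_le hu0 hxu (Submodule.subset_span (by simp)) h2,
    mem_span_pair_of_le hu0 hxu hu (Submodule.subset_span (by simp))] at h1
  exact hz h1

omit hψ in
/-- In a small action, the transvection group with centre `e` fixes a point or acts regularly on
its orbit, and there is at most one regular orbit. -/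
theorem sl_dichotomy {e : n → F} (he : e ≠ 0) (ω : Ω) :
    SlAll e ω ∨ (SlReg e ω ∧ ∀ ω', SlAll e ω' ∨ ∃ φ, φ ⬝ᵥ e = 0 ∧ tv e φ • ω = ω') := by
  obtain ⟨ψ, hψ⟩ := exists_psi_complex (F := F)
  by_cases hA : ∀ w ∈ slX hψ e ω, w ∈ F ∙ e
  · exact Or.inl (slAll_of_le hψ hA)
  push Not at hA
  obtain ⟨w, hw, hwe⟩ := hA
  by_cases hT : slX hψ e ω = ⊤
  · refine Or.inr ⟨slReg_of_top hψ hT, fun ω' => ?_⟩
    by_cases hA' : ∀ w ∈ slX hψ e ω', w ∈ F ∙ e
    · exact Or.inl (slAll_of_le hψ hA')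
    push Not at hA'
    obtain ⟨w', hw', hwe'⟩ := hA'
    exact Or.inr (mem_slorb.1 (mem_slorb_of_mem hψ h3 hm he hwe' (hT ▸ AddSubgroup.mem_top _) hw'))
  exfalso
  have hb : ∀ z, z ≠ 0 → ∀ u, u ∉ F ∙ z → ∃ ω' : Ω, u ∈ slX hψ z ω' := fun z hz u hu => by
    obtain ⟨g, rfl, rfl⟩ := exists_SL_pair h3 he hwe hz hu
    exact ⟨_, mulVec_mem_slX hψ g hw⟩
  have hR : ∀ z, z ≠ 0 → ∀ ω' : Ω, slX hψ z ω' ≠ ⊤ := fun z hz ω' h => by
    obtain ⟨u, hu⟩ := exists_notMem_span (F := F) (n := n) (by omega) z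
    obtain ⟨g, rfl, rfl⟩ := exists_SL_pair h3 hz hu he hwe
    have h1 : slX hψ ((g : Matrix n n F) *ᵥ z) (g • ω') = ⊤ := eq_top_iff.2 fun v _ => by
      have := mulVec_mem_slX hψ g (h ▸ AddSubgroup.mem_top (((g⁻¹ : SpecialLinearGroup n F) :
        Matrix n n F) *ᵥ v))
      rwa [mulVec_mulVec, ← Matrix.SpecialLinearGroup.coe_mul, mul_inv_cancel,
        Matrix.SpecialLinearGroup.coe_one, one_mulVec] at this
    have h2 := mem_slorb_of_mem hψ h3 hm he hwe hw (h1 ▸ AddSubgroup.mem_top _)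
    exact hT (((slT Ω _).X_eq_of_orb_eq _ ((slT Ω _).orb_eq_iff.2 h2)).symm.trans h1)
  have hA : ∀ z : n → F, z ≠ 0 → ¬ SlAll z ω := fun z hz =>
    not_slAll hψ h3 hm hz (hR z hz) (hb z hz) ω
  have : ∀ z : n → F, ∃ y, z ≠ 0 → y ∉ F ∙ z ∧
      ∀ φ, φ ⬝ᵥ z = 0 → φ ⬝ᵥ y = 0 → tv z φ • ω = ω := fun z => by
    by_cases hz : z = 0
    · exact ⟨0, fun h => (h hz).elim⟩
    have : ¬ ∀ w ∈ slX hψ z ω, w ∈ F ∙ z := fun h => hA z hz (slAll_of_le hψ h)
    push Not at this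
    obtain ⟨y, hy, hyz⟩ := this
    refine ⟨y, fun _ => ⟨hyz, fun φ h1 h2 => tv_smul_eq_of_slX hψ h1 fun u hu => ?_⟩⟩
    obtain ⟨a, b, rfl⟩ := Submodule.mem_span_pair.1
      ((slX_eq_top_or hψ h3 hm hz hyz hy).resolve_left (hR z hz ω) u hu)
    rw [dotProduct_add, dotProduct_smul, dotProduct_smul, h1, h2]
    simp
  choose y hy using this
  exact not_spread h3 ω y (fun z hz => (hy z hz).1) (fun z hz => (hy z hz).2) hA

end CL.MinDeg
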