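import Cfsg.Agent.Known.MinDegSL1

/-!
# The minimal permutation degree of `SL_n(q)`, `n ≥ 3`
-/

open Matrix Matrix.SpecialLinearGroup CL.GLn CL.LS

namespace CL.MinDeg

variable {F : Type*} [Field F] {n : Type*} [Fintype n] [DecidableEq n]

theorem tv_zero_left (φ : n → F) : tv (0 : n → F) φ = 1 := by
  apply sl_ext
  rw [coe_tv (dotProduct_zero _)]
  simp

theorem tv_mul_tv_conj {x y α φ : n → F} (hα : α ⬝ᵥ x = 0) (hx : φ ⬝ᵥ x = 0) (hy : φ ⬝ᵥ y = 0) :
    tv y φ * tv x α = tv x (α - (α ⬝ᵥ y) • φ) * tv y φ := by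
  have h1 := mul_tv (tv y φ) (v := x) (φ := α - (α ⬝ᵥ y) • φ)
    (by rw [tv_mulVec hy, hx, zero_smul, add_zero, sub_dotProduct, smul_dotProduct, hα, hx]; simp)
  rwa [vecMul_tv hy, sub_dotProduct, smul_dotProduct, hy, smul_zero, sub_zero, sub_add_cancel,
    tv_mulVec hy, hx, zero_smul, add_zero] at h1

/-- A copy of `Ω` on which `SL` acts through the graph automorphism. -/
def SlTw (Ω : Type*) := Ω

instance {Ω : Type*} [h : Finite Ω] : Finite (SlTw Ω) := h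

noncomputable instance {Ω : Type*} [MulAction (SpecialLinearGroup n F) Ω] :
    MulAction (SpecialLinearGroup n F) (SlTw Ω) :=
  MulAction.compHom Ω (slGraph n F).toMonoidHom

variable {Ω : Type*} [MulAction (SpecialLinearGroup n F) Ω]

/-- The transvection groups cannot all be regular, except for `SL_4(2)`. -/
theorem not_sl_regular [Finite F] (h3 : 3 ≤ Fintype.card n)
    (hexc : ¬ (Fintype.card n = 4 ∧ Nat.card F = 2))
    (hreg : ∀ e : n → F, e ≠ 0 → ∀ ω : Ω, SlReg e ω)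
    (htr : ∀ e : n → F, e ≠ 0 → ∀ ω ω' : Ω, ∃ φ, φ ⬝ᵥ e = 0 ∧ tv e φ • ω = ω') (ω₀ : Ω) :
    False := by
  obtain ⟨i, j, k, hij, hik, hjk⟩ := Fintype.two_lt_card_iff.1 h3
  set x : n → F := Pi.single i 1 with hxd
  set φ : n → F := Pi.single j 1 with hφd
  have hφ : ∀ y : n → F, φ ⬝ᵥ y = y j := fun y => by simp [hφd]
  have hφj : φ j = 1 := by simp [hφd]
  have hx0 : x ≠ 0 := by simp [hxd]
  have hφx : φ ⬝ᵥ x = 0 := by simp [hφ, hxd, hij.symm]
  choose θ hθ1 hθ2 using fun (ω : Ω) (y : n → F) => htr x hx0 ω (tv y φ • ω)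
  have U : ∀ (ω : Ω) α α', α ⬝ᵥ x = 0 → α' ⬝ᵥ x = 0 → tv x α • ω = tv x α' • ω → α = α' := by
    intro ω α α' h1 h2 h
    have h4 : (α - α') ⬝ᵥ x = 0 := by rw [sub_dotProduct, h1, h2, sub_zero]
    rw [← add_sub_cancel α' α, ← tv_mul_tv_left h2 h4, mul_smul] at h
    exact sub_eq_zero.1 (hreg x hx0 ω _ h4 (MulAction.injective _ h))
  have hs : ∀ α (c : F), α ⬝ᵥ x = 0 → (α - c • φ) ⬝ᵥ x = 0 := fun α c h => by
    rw [sub_dotProduct, smul_dotProduct, h, hφx]; simp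
  have D : ∀ (ω : Ω) y y', φ ⬝ᵥ y = 0 → φ ⬝ᵥ y' = 0 →
      θ ω (y + y') = θ ω y' - (θ ω y' ⬝ᵥ y) • φ + θ ω y := by
    intro ω y y' hy hy'
    refine U ω _ _ (hθ1 _ _) (by rw [add_dotProduct, hs _ _ (hθ1 _ _), hθ1, add_zero]) ?_
    rw [hθ2, ← tv_mul_tv_right hy hy', mul_smul, ← hθ2 ω y', ← mul_smul,
      tv_mul_tv_conj (hθ1 _ _) hφx hy, mul_smul, ← hθ2 ω y, ← mul_smul,
      tv_mul_tv_left (hs _ _ (hθ1 _ _)) (hθ1 _ _)]
  have Sy : ∀ y y', φ ⬝ᵥ y = 0 → φ ⬝ᵥ y' = 0 → θ ω₀ y' ⬝ᵥ y = θ ω₀ y ⬝ᵥ y' := by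
    intro y y' hy hy'
    have h1 := D ω₀ y y' hy hy'
    rw [add_comm y, D ω₀ y' y hy' hy] at h1
    have h2 := congrFun h1 j
    simp only [Pi.add_apply, Pi.sub_apply, Pi.smul_apply, hφj, smul_eq_mul, mul_one] at h2
    linear_combination h2
  have Ind : ∀ (ω : Ω) y y', φ ⬝ᵥ y = 0 → φ ⬝ᵥ y' = 0 → θ ω y ⬝ᵥ y' = θ ω₀ y ⬝ᵥ y' := by
    intro ω y y' hy hy'
    obtain ⟨β, hβ, rfl⟩ := htr x hx0 ω₀ ω
    have : θ (tv x β • ω₀) y = θ ω₀ y - (β ⬝ᵥ y) • φ := by
      refine U (tv x β • ω₀) _ _ (hθ1 _ _) (hs _ _ (hθ1 _ _)) ?_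
      rw [hθ2, ← mul_smul, tv_mul_tv_conj hβ hφx hy, mul_smul, ← hθ2, ← mul_smul, ← mul_smul,
        tv_mul_tv_left (hs _ _ hβ) (hθ1 _ _), tv_mul_tv_left (hs _ _ (hθ1 _ _)) hβ]
      congr 2
      abel
    rw [this, sub_dotProduct, smul_dotProduct, hy']
    simp
  have Eq : ∀ (g : SpecialLinearGroup n F) (d : F), (g : Matrix n n F) *ᵥ x = x →
      φ ᵥ* (g : Matrix n n F) = d • φ → ∀ y y', φ ⬝ᵥ y = 0 → φ ⬝ᵥ y' = 0 →
      θ ω₀ ((g : Matrix n n F) *ᵥ y) ⬝ᵥ ((g : Matrix n n F) *ᵥ y') = d * (θ ω₀ y ⬝ᵥ y') := by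
    intro g d hg hd y y' hy hy'
    have hk : ∀ z, φ ⬝ᵥ z = 0 → φ ⬝ᵥ ((g : Matrix n n F) *ᵥ z) = 0 := fun z hz => by
      rw [dotProduct_mulVec, hd, smul_dotProduct, hz, smul_zero]
    have hdy : φ ⬝ᵥ (d • y) = 0 := by rw [dotProduct_smul, hy, smul_zero]
    have h1 := smul_tv g (hk y hy) ω₀
    have h2 := smul_tv g (v := x) (φ := θ (g • ω₀) ((g : Matrix n n F) *ᵥ y))
      (by rw [hg, hθ1]) ω₀
    rw [hg, hθ2, ← h1, hd, ← tv_smul_left hy, ← hθ2] at h2
    have h4 := U ω₀ _ _ (by rw [← dotProduct_mulVec, hg, hθ1]) (hθ1 _ _) (MulAction.injective g h2)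
    rw [← Ind (g • ω₀) _ _ (hk y hy) (hk y' hy'), dotProduct_mulVec, h4, Sy y' _ hy' hdy,
      dotProduct_smul, Sy y y' hy hy', smul_eq_mul]
  have e0 : ∀ l, l ≠ j → ∀ c : F, φ ⬝ᵥ Pi.single l c = 0 := fun l hl c => by simp [hφ, hl.symm]
  set u : n → F := Pi.single k 1 with hud
  have hu : φ ⬝ᵥ u = 0 := e0 k hjk.symm 1
  -- the torus
  have Tor : ∀ a : F, a ≠ 0 → ∀ l, l ≠ j →
      a * (if l = k then a else 1) * θ ω₀ u l = a⁻¹ * θ ω₀ u l := by
    intro a ha l hl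
    have h1 := Eq (diag2n hjk.symm a ha) a⁻¹
      (by ext t; by_cases ht : t = i <;> simp [diag2n_coe, mulVec_diagonal, hxd, ht, hik, hij])
      (by ext t; by_cases ht : t = j <;> simp [diag2n_coe, vecMul_diagonal, hφd, ht, hjk])
      u (Pi.single l 1) hu (e0 l hl 1)
    have h2 : ((diag2n hjk.symm a ha : SpecialLinearGroup n F) : Matrix n n F) *ᵥ u = a • u := by
      ext t; by_cases ht : t = k <;> simp [diag2n_coe, mulVec_diagonal, hud, ht]
    have h4 : ((diag2n hjk.symm a ha : SpecialLinearGroup n F) : Matrix n n F) *ᵥ Pi.single l 1 =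
        (if l = k then a else 1) • Pi.single l 1 := by
      ext t; by_cases ht : t = l <;> simp [diag2n_coe, mulVec_diagonal, ht, hl]
    rw [h2, h4, dotProduct_smul, Sy _ (a • u) (e0 l hl 1) (by rw [dotProduct_smul, hu, smul_zero]),
      dotProduct_smul, Sy u _ hu (e0 l hl 1)] at h1
    simp only [dotProduct_single, mul_one, smul_eq_mul] at h1
    linear_combination h1
  have hθ0 : θ ω₀ 0 = 0 := U ω₀ _ _ (hθ1 _ _) (zero_dotProduct _)
    (by rw [hθ2, tv_zero_left, tv_zero_right])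
  have hkk : θ ω₀ u k = 0 := by
    by_contra hne
    have h1 := Tor (-1) (by simp) k hjk.symm
    have h2 : (2 : F) = 0 := by
      have : 2 * θ ω₀ u k = 0 := by
        simp only [if_true, inv_neg, inv_one] at h1
        linear_combination h1
      exact (mul_eq_zero.1 this).resolve_right hne
    have h4 := D ω₀ u u hu hu
    rw [show u + u = 0 by rw [← two_smul F, h2, zero_smul], hθ0] at h4
    have h5 := congrFun h4 j
    simp only [Pi.add_apply, Pi.sub_apply, Pi.smul_apply, hφj, smul_eq_mul, mul_one, hud,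
      dotProduct_single, Pi.zero_apply] at h5
    exact hne (by linear_combination h5 + θ ω₀ (Pi.single k 1) j * h2)
  obtain ⟨l, hlj, hl⟩ : ∃ l, l ≠ j ∧ θ ω₀ u l ≠ 0 := by
    by_contra hc
    push Not at hc
    set c := θ ω₀ u j
    have h1 : θ ω₀ u = c • φ := by
      ext t
      by_cases ht : t = j
      · simp [ht, hφj, c]
      · simp [hc t ht, hφd, ht]
    have h2 := hθ2 ω₀ u
    have h4 : φ ⬝ᵥ (c • x) = 0 := by rw [dotProduct_smul, hφx, smul_zero]
    have h5 : φ ⬝ᵥ (u - c • x) = 0 := by rw [dotProduct_sub, hu, h4, sub_zero]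
    rw [h1, ← tv_smul_left hφx, ← add_sub_cancel (c • x) u, ← tv_mul_tv_right h4 h5,
      mul_smul] at h2
    have h6 := hreg (u - c • x) (fun h => by
      have := congrFun h k
      simp [hud, hxd, hik.symm] at this) ω₀ φ h5 (MulAction.injective _ h2).symm
    exact one_ne_zero (hφj.symm.trans (congrFun h6 j))
  have hli : l ≠ i := fun h => hl (by simpa [hxd, h] using hθ1 ω₀ u)
  have hlk : l ≠ k := fun h => hl (h ▸ hkk)
  -- transvections
  have Tr : ∀ v β y y' : n → F, φ ⬝ᵥ v = 0 → β ⬝ᵥ v = 0 → β ⬝ᵥ x = 0 → φ ⬝ᵥ y = 0 → β ⬝ᵥ y = 1 →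
      φ ⬝ᵥ y' = 0 → β ⬝ᵥ y' = 0 → θ ω₀ v ⬝ᵥ y' = 0 := by
    intro v β y y' h1 h2 h4 h5 h6 h7 h8
    have h9 := Eq (tv v β) 1 (by rw [tv_mulVec h2, h4, zero_smul, add_zero])
      (by rw [vecMul_tv h2, h1, zero_smul, add_zero, one_smul]) y y' h5 h7
    rw [tv_mulVec h2, tv_mulVec h2, h6, h8, zero_smul, add_zero, one_smul,
      Sy y' _ h7 (by rw [dotProduct_add, h5, h1, add_zero]), dotProduct_add, Sy y y' h5 h7,
      Sy v y' h1 h7] at h9
    linear_combination h9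
  have h4 : Fintype.card n = 4 := by
    have a1 : ({i, j, k, l} : Finset n).card = 4 := by
      rw [Finset.card_insert_of_notMem (by simp [hij, hik, hli.symm]),
        Finset.card_insert_of_notMem (by simp [hjk, hlj.symm]),
        Finset.card_insert_of_notMem (by simp [hlk.symm]), Finset.card_singleton]
    by_contra hne
    have a2 : ({i, j, k, l} : Finset n) ≠ Finset.univ := fun h =>
      hne (by rw [← a1, h, Finset.card_univ])
    rw [Ne, Finset.eq_univ_iff_forall, not_forall] at a2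
    obtain ⟨s, hs⟩ := a2
    simp only [Finset.mem_insert, Finset.mem_singleton, not_or] at hs
    obtain ⟨b1, b2, b3, b4⟩ := hs
    have := Tr u (Pi.single s 1) (Pi.single s 1) (Pi.single l 1) hu (by simp [hud, b3])
      (by simp [hxd, b1]) (e0 s b2 1) (by simp) (e0 l hlj 1) (by simp [b4])
    exact hl (by simpa using this)
  have h2 : (2 : F) = 0 := by
    set v : n → F := Pi.single l 1 with hvd
    have hv : φ ⬝ᵥ v = 0 := e0 l hlj 1
    have huv : φ ⬝ᵥ (u + v) = 0 := by rw [dotProduct_add, hu, hv, add_zero]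
    have a1 := Tr v u u v hv (by simp [hud, hvd, hlk.symm]) (by simp [hud, hxd, hik.symm]) hu
      (by simp [hud]) hv (by simp [hud, hvd, hlk.symm])
    have a2 := Tr (u + v) (u - v) u (u + v) huv
      (by simp [hud, hvd, hlk, hlk.symm]) (by simp [hud, hvd, hxd, hik.symm, hli]) hu
      (by simp [hud, hvd, hlk]) huv (by simp [hud, hvd, hlk, hlk.symm])
    rw [dotProduct_add, Sy u _ hu huv, Sy v _ hv huv, dotProduct_add, dotProduct_add, a1,
      Sy u v hu hv] at a2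
    have a3 : θ ω₀ u ⬝ᵥ u = 0 := by simpa [hud] using hkk
    have a4 : θ ω₀ u ⬝ᵥ v = θ ω₀ u l := by simp [hvd]
    rw [a3, a4] at a2
    exact (mul_eq_zero.1 (by linear_combination a2 : 2 * θ ω₀ u l = 0)).resolve_right hl
  refine hexc ⟨h4, Nat.card_eq_two_iff.2 ⟨0, 1, zero_ne_one, Set.eq_univ_of_forall fun a => ?_⟩⟩
  by_cases ha : a = 0
  · simp [ha]
  have a1 := Tor a ha l hlj
  rw [if_neg hlk, mul_one] at a1
  have a2 : a * a = 1 := by rw [mul_right_cancel₀ hl a1]; nth_rw 2 [← mul_right_cancel₀ hl a1]; exact inv_mul_cancel₀ ha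
  have a3 : (a - 1) * (a - 1) = 0 := by linear_combination a2 + (1 - a) * h2
  exact Or.inr (sub_eq_zero.1 (mul_self_eq_zero.1 a3))

variable [Finite F] [Finite Ω] (h3 : 3 ≤ Fintype.card n)
  (hm : (Nat.card F - 1) * Nat.card Ω < Nat.card F ^ Fintype.card n - 1)

include h3 hm

theorem sl_dual_dichotomy {φ z : n → F} {ω : Ω} (hφ : φ ≠ 0) (hz : z ≠ 0) (h : φ ⬝ᵥ z = 0)
    (h1 : tv z φ • ω = ω) {y : n → F} (hy : φ ⬝ᵥ y = 0) : tv y φ • ω = ω := by
  have key : ∀ α : n → F, φ ⬝ᵥ α = 0 → ((tv φ (-α) • (show SlTw Ω from ω) : SlTw Ω) =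
      (show SlTw Ω from ω) ↔ tv α φ • ω = ω) := fun α hα => by
    have : slGraph n F (tv φ (-α)) = tv α φ := by
      rw [slGraph_tv (by rw [neg_dotProduct, dotProduct_comm, hα, neg_zero]), neg_neg]
    rw [← this]
    exact Iff.rfl
  rcases sl_dichotomy (Ω := SlTw Ω) h3 hm hφ ω with hA | ⟨hR, -⟩
  · exact (key y hy).1 (hA _ (by rw [neg_dotProduct, dotProduct_comm, hy, neg_zero]))
  · exact (hz (neg_eq_zero.1 (hR _ (by rw [neg_dotProduct, dotProduct_comm, h, neg_zero])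
      ((key z h).2 h1)))).elim

theorem smul_eq_of_slAll {e : n → F} (he : e ≠ 0) {ω : Ω} (h : SlAll e ω)
    (g : SpecialLinearGroup n F) : g • ω = ω := by
  have hall : ∀ z : n → F, z ≠ 0 → SlAll z ω := fun z hz => by
    obtain ⟨w, hw⟩ := exists_notMem_span_pair h3 e z
    obtain ⟨φ, h1, h2⟩ := exists_dot_of_notMem hw
    have hφ : φ ≠ 0 := fun h0 => by simp [h0] at h1
    have a1 := h2 e (Submodule.subset_span (by simp))
    have a2 := h2 z (Submodule.subset_span (by simp))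
    exact (sl_dichotomy h3 hm hz ω).resolve_right fun hR =>
      hφ (hR.1 φ a2 (sl_dual_dichotomy h3 hm hφ he a1 (h φ a1) a2))
  have : MulAction.stabilizer (SpecialLinearGroup n F) ω = ⊤ :=
    CL.SLn.eq_top_of_transvection_mem _ fun i j hij c => by
      rw [transvection_eq_tv]
      exact hall _ (by simp) _ (single_dot_single hij c 1)
  exact (this ▸ Subgroup.mem_top g : g ∈ MulAction.stabilizer (SpecialLinearGroup n F) ω)

theorem sl_exists_fixed [MulAction.IsPretransitive (SpecialLinearGroup n F) Ω] [Nonempty Ω]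
    (hexc : ¬ (Fintype.card n = 4 ∧ Nat.card F = 2)) :
    ∃ ω : Ω, ∀ g : SpecialLinearGroup n F, g • ω = ω := by
  by_contra hc
  have hA : ∀ e : n → F, e ≠ 0 → ∀ ω : Ω, ¬ SlAll e ω := fun e he ω h =>
    hc ⟨ω, smul_eq_of_slAll h3 hm he h⟩
  exact not_sl_regular h3 hexc
    (fun e he ω => ((sl_dichotomy h3 hm he ω).resolve_left (hA e he ω)).1)
    (fun e he ω ω' => (((sl_dichotomy h3 hm he ω).resolve_left (hA e he ω)).2 ω').resolve_left
      (hA e he ω')) (Classical.arbitrary Ω)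

omit hm [Finite Ω] in
/-- Every proper subgroup of `SL_n(q)` has index at least `(q ^ n - 1) / (q - 1)`. -/
theorem sl_le_index (hexc : ¬ (Fintype.card n = 4 ∧ Nat.card F = 2))
    (H : Subgroup (SpecialLinearGroup n F)) (hH : H ≠ ⊤) :
    (Nat.card F ^ Fintype.card n - 1) / (Nat.card F - 1) ≤ H.index := by
  refine le_index_of_action (fun K hK => sl_exists_fixed h3 ?_ hexc) H hH
  have hq : 1 < Nat.card F := Finite.one_lt_card
  rw [Nat.lt_div_iff_mul_lt' ?_] at hK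
  · exact hK
  · simpa using Nat.sub_dvd_pow_sub_pow (Nat.card F) 1 (Fintype.card n)

end CL.MinDeg
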