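import Cfsg.Agent.Known.MinDeg1
import Cfsg.Agent.Known.LSForms
import Cfsg.Agent.Cls.SpSub

/-!
# Actions of symplectic groups: orbits of the unipotent radical of a point stabiliser
-/

open Module CL.Sp

namespace CL.MinDeg

variable {F V : Type*} [Field F] [AddCommGroup V] [Module F V] {B : LinearMap.BilinForm F V}
  (hB : B.IsAlt)

/-- A transvection as an element of the symplectic group. -/
def tvI (v : V) (c : F) : Isom B := ⟨tv hB v c, tv_mem_isom hB v c⟩

/-- The general element of the unipotent radical of the stabiliser of `e`. -/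
def rhoI (e v : V) (c : F) : Isom B :=
  ⟨sr hB e v * tv hB e c, mul_mem (sr_mem_isom hB e v) (tv_mem_isom hB e c)⟩

theorem isom_apply (g : Isom B) (x y : V) : B (g.1 x) (g.1 y) = B x y := mem_isom.1 g.2 x y

theorem isom_mul_apply (g h : Isom B) (x : V) : (g * h).1 x = g.1 (h.1 x) := rfl

theorem isom_inv_apply (g : Isom B) (x : V) : (g⁻¹).1 (g.1 x) = x := inv_apply_apply g.1 x

theorem isom_apply_inv (g : Isom B) (x : V) : g.1 ((g⁻¹).1 x) = x := apply_inv_apply g.1 x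

theorem tvI_apply (v : V) (c : F) (x : V) : (tvI hB v c).1 x = x + (c * B x v) • v :=
  tv_apply hB v c x

theorem tvI_mul (v : V) (c d : F) : tvI hB v c * tvI hB v d = tvI hB v (c + d) :=
  Subtype.ext (tv_mul hB v c d)

theorem tvI_zero (v : V) : tvI hB v 0 = 1 := Subtype.ext (tv_zero hB v)

theorem tvI_zero_left (c : F) : tvI hB 0 c = 1 := Subtype.ext (tv_zero_left hB c)

theorem tvI_smul (a : F) (v : V) (c : F) : tvI hB (a • v) c = tvI hB v (a ^ 2 * c) :=
  Subtype.ext (tv_smul hB a v c)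

theorem mul_tvI (g : Isom B) (v : V) (c : F) : g * tvI hB v c = tvI hB (g.1 v) c * g :=
  Subtype.ext (by
    change g.1 * tv hB v c = tv hB (g.1 v) c * g.1
    rw [← conj_tv hB g.2, inv_mul_cancel_right])

theorem mul_rhoI (g : Isom B) (e v : V) (c : F) :
    g * rhoI hB e v c = rhoI hB (g.1 e) (g.1 v) c * g :=
  Subtype.ext (by
    change g.1 * (sr hB e v * tv hB e c) = sr hB (g.1 e) (g.1 v) * tv hB (g.1 e) c * g.1
    rw [← conj_tv hB g.2, ← conj_sr hB g.2]
    group)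

theorem rhoI_mul {e v w : V} (hv : B e v = 0) (hw : B e w = 0) (c d : F) :
    rhoI hB e v c * rhoI hB e w d = rhoI hB e (v + w) (c + d - B v w) :=
  Subtype.ext (sr_tv_mul hB hv hw c d)

theorem rhoI_zero (e : V) (c : F) : rhoI hB e 0 c = tvI hB e c :=
  Subtype.ext (by
    change sr hB e 0 * tv hB e c = tv hB e c
    rw [sr_zero_right, one_mul])

theorem rhoI_mul_tvI (e v : V) (c d : F) : rhoI hB e v c * tvI hB e d = rhoI hB e v (c + d) :=
  Subtype.ext (by
    change sr hB e v * tv hB e c * tv hB e d = sr hB e v * tv hB e (c + d)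
    rw [mul_assoc, tv_mul])

theorem tvI_mul_rhoI {e v : V} (hv : B e v = 0) (c d : F) :
    tvI hB e d * rhoI hB e v c = rhoI hB e v (c + d) := by
  rw [← rhoI_zero, rhoI_mul hB (map_zero _) hv]
  simp [add_comm]

theorem rhoI_apply {e v : V} (hv : B e v = 0) (c : F) (x : V) :
    (rhoI hB e v c).1 x = x + (B x v + c * B x e) • e + B x e • v := by
  change sr hB e v (tv hB e c x) = _
  rw [sr_apply hB hv, tv_apply]
  simp only [map_add, map_smul, LinearMap.add_apply, LinearMap.smul_apply, smul_eq_mul,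
    alt_self hB, hv]
  module

theorem rhoI_smul {e v : V} (hv : B e v = 0) (a c : F) :
    rhoI hB (a • e) v c = rhoI hB e (a • v) (a ^ 2 * c) :=
  Subtype.ext (by
    change sr hB (a • e) v * tv hB (a • e) c = sr hB e (a • v) * tv hB e (a ^ 2 * c)
    rw [sr_smul hB hv, tv_smul])

theorem rhoI_self (e : V) (k c : F) : rhoI hB e (k • e) c = tvI hB e (2 * k + c) :=
  Subtype.ext (by
    change sr hB e (k • e) * tv hB e c = tv hB e (2 * k + c)
    rw [sr_self_smul, tv_mul])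

theorem rhoI_comm {u w : V} (h : B u w = 0) (a : F) :
    rhoI hB u (a • w) 0 = rhoI hB w (a • u) 0 :=
  Subtype.ext (by
    change sr hB u (a • w) * tv hB u 0 = sr hB w (a • u) * tv hB w 0
    rw [tv_zero, tv_zero, ← sr_smul hB h, sr_comm hB (by simp [h])])

theorem tvI_add {u w : V} (h : B u w = 0) (c : F) :
    tvI hB (u + w) c = rhoI hB u (c • w) c * tvI hB w c := by
  have h' : B u (c • w) = 0 := by simp [h]
  apply Subtype.ext
  change tv hB (u + w) c = sr hB u (c • w) * tv hB u c * tv hB w c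
  rw [tv_add hB h, ← tv_mul_sr hB h', mul_assoc]

/-- The Heisenberg group covering the unipotent radical of the stabiliser of `e`. -/
@[ext] structure SpHeis (hB : B.IsAlt) (e : V) where
  /-- vector part -/
  v : V
  hv : B e v = 0
  /-- scalar part -/
  c : F

instance (e : V) : Mul (SpHeis hB e) :=
  ⟨fun x y => ⟨x.v + y.v, by rw [map_add, x.hv, y.hv, add_zero], x.c + y.c - B x.v y.v⟩⟩

instance (e : V) : One (SpHeis hB e) := ⟨⟨0, map_zero _, 0⟩⟩

instance (e : V) : Inv (SpHeis hB e) := ⟨fun x => ⟨-x.v, by rw [map_neg, x.hv, neg_zero], -x.c⟩⟩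

instance (e : V) : Group (SpHeis hB e) :=
  Group.ofLeftAxioms
    (fun x y z => SpHeis.ext (add_assoc _ _ _) (by
      change x.c + y.c - B x.v y.v + z.c - B (x.v + y.v) z.v =
        x.c + (y.c + z.c - B y.v z.v) - B x.v (y.v + z.v)
      simp only [map_add, LinearMap.add_apply]
      ring))
    (fun x => SpHeis.ext (zero_add _) (by
      change 0 + x.c - B 0 x.v = x.c
      simp))
    (fun x => SpHeis.ext (neg_add_cancel _) (by
      change -x.c + x.c - B (-x.v) x.v = 0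
      simp [alt_self hB]))

/-- The map of the Heisenberg group into the symplectic group. -/
def spHeisHom (e : V) : SpHeis hB e →* Isom B :=
  MonoidHom.mk' (fun x => rhoI hB e x.v x.c) fun x y => (rhoI_mul hB x.hv y.hv _ _).symm

variable {Ω : Type*} [MulAction (Isom B) Ω]

theorem smul_tvI (g : Isom B) (v : V) (c : F) (ω : Ω) :
    g • tvI hB v c • ω = tvI hB (g.1 v) c • g • ω := by
  rw [← mul_smul, mul_tvI, mul_smul]

theorem smul_rhoI (g : Isom B) (e v : V) (c : F) (ω : Ω) :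
    g • rhoI hB e v c • ω = rhoI hB (g.1 e) (g.1 v) c • g • ω := by
  rw [← mul_smul, mul_rhoI, mul_smul]

/-- Parameters of the transvections with centre `e` fixing `ω`. -/
def spC (e : V) (ω : Ω) : AddSubgroup F where
  carrier := {c | tvI hB e c • ω = ω}
  zero_mem' := by simp [tvI_zero]
  add_mem' := fun {a b} ha hb => by
    change tvI hB e (a + b) • ω = ω
    rw [← tvI_mul, mul_smul, hb, ha]
  neg_mem' := fun {a} ha => by
    change tvI hB e (-a) • ω = ω
    conv_lhs => rw [← show tvI hB e a • ω = ω from ha]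
    rw [← mul_smul, tvI_mul, neg_add_cancel, tvI_zero, one_smul]

theorem mem_spC {e : V} {ω : Ω} {c : F} : c ∈ spC hB e ω ↔ tvI hB e c • ω = ω := Iff.rfl

theorem rhoI_fix_add {e v w : V} (hv : B e v = 0) (hw : B e w = 0) {c d : F} {ω : Ω}
    (h1 : rhoI hB e v c • ω = ω) (h2 : rhoI hB e w d • ω = ω) :
    rhoI hB e (v + w) (c + d - B v w) • ω = ω := by
  rw [← rhoI_mul hB hv hw, mul_smul, h2, h1]

theorem rhoI_fix_neg {e v : V} (hv : B e v = 0) {c : F} {ω : Ω} (h : rhoI hB e v c • ω = ω) :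
    rhoI hB e (-v) (-c) • ω = ω := by
  conv_lhs => rw [← h]
  rw [← mul_smul, rhoI_mul hB (by simp [hv]) hv]
  simp [alt_self hB, rhoI_zero, tvI_zero]

theorem sub_mem_spC {e v : V} {c d : F} {ω : Ω} (h1 : rhoI hB e v c • ω = ω)
    (h2 : rhoI hB e v d • ω = ω) : c - d ∈ spC hB e ω := by
  rw [← add_sub_cancel d c, ← rhoI_mul_tvI, mul_smul] at h1
  exact MulAction.injective _ (h1.trans h2.symm)

theorem rhoI_fix_of_mem {e v : V} {c d : F} {ω : Ω} (h1 : rhoI hB e v c • ω = ω)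
    (h2 : d ∈ spC hB e ω) : rhoI hB e v (c + d) • ω = ω := by
  rw [← rhoI_mul_tvI, mul_smul, (mem_spC hB).1 h2, h1]

/-- Vector parts of the elements of the unipotent radical fixing `ω`. -/
def spT (e : V) (ω : Ω) : AddSubgroup V where
  carrier := {v | B e v = 0 ∧ ∃ c, rhoI hB e v c • ω = ω}
  zero_mem' := ⟨map_zero _, 0, by rw [rhoI_zero, tvI_zero, one_smul]⟩
  add_mem' := fun ⟨ha, _, hc⟩ ⟨hb, _, hd⟩ =>
    ⟨by rw [map_add, ha, hb, add_zero], _, rhoI_fix_add hB ha hb hc hd⟩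
  neg_mem' := fun ⟨ha, _, hc⟩ => ⟨by rw [map_neg, ha, neg_zero], _, rhoI_fix_neg hB ha hc⟩

theorem mem_spT {e v : V} {ω : Ω} :
    v ∈ spT hB e ω ↔ B e v = 0 ∧ ∃ c, rhoI hB e v c • ω = ω := Iff.rfl

theorem smul_self_mem_spT (e : V) (ω : Ω) (k : F) : k • e ∈ spT hB e ω :=
  ⟨by simp [alt_self hB], -(2 * k), by rw [rhoI_self, add_neg_cancel, tvI_zero, one_smul]⟩

/-- The orbits of the unipotent radical of the stabiliser of `e`. -/
def spO (Ω : Type*) [MulAction (Isom B) Ω] (e : V) : Parts Ω where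
  cl ω := {ω' | ∃ v c, B e v = 0 ∧ rhoI hB e v c • ω = ω'}
  self_mem ω := ⟨0, 0, map_zero _, by rw [rhoI_zero, tvI_zero, one_smul]⟩
  eq_of_mem := by
    rintro ω _ ⟨v, c, hv, rfl⟩
    ext ω'
    constructor
    · rintro ⟨w, d, hw, rfl⟩
      exact ⟨w + v, _, by rw [map_add, hv, hw, add_zero], by rw [← mul_smul, rhoI_mul hB hw hv]⟩
    · rintro ⟨w, d, hw, rfl⟩
      have h : B e (w - v) = 0 := by rw [map_sub, hv, hw, sub_zero]
      refine ⟨w - v, d - c + B w v, h, ?_⟩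
      rw [← mul_smul, rhoI_mul hB h hv]
      simp only [sub_add_cancel, map_sub, LinearMap.sub_apply, alt_self hB]
      congr 2
      ring

theorem mem_spO {e : V} {ω ω' : Ω} :
    ω' ∈ (spO hB Ω e).cl ω ↔ ∃ v c, B e v = 0 ∧ rhoI hB e v c • ω = ω' := Iff.rfl

theorem spC_smul (g : Isom B) (e : V) (ω : Ω) : spC hB (g.1 e) (g • ω) = spC hB e ω := by
  ext c
  rw [mem_spC, mem_spC, ← smul_tvI]
  exact (MulAction.injective g).eq_iff

theorem mem_spT_smul (g : Isom B) {e v : V} {ω : Ω} :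
    g.1 v ∈ spT hB (g.1 e) (g • ω) ↔ v ∈ spT hB e ω := by
  simp only [mem_spT, isom_apply, ← smul_rhoI, (MulAction.injective g).eq_iff]

theorem mem_spO_smul (g : Isom B) {e : V} {ω ω' : Ω} :
    g • ω' ∈ (spO hB Ω (g.1 e)).cl (g • ω) ↔ ω' ∈ (spO hB Ω e).cl ω := by
  constructor
  · rintro ⟨v, c, hv, h⟩
    rw [← isom_apply_inv g v] at hv h
    rw [← smul_rhoI] at h
    exact ⟨_, c, by rwa [isom_apply] at hv, MulAction.injective g h⟩
  · rintro ⟨v, c, hv, rfl⟩
    exact ⟨g.1 v, c, by rwa [isom_apply], (smul_rhoI hB g e v c ω).symm⟩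

theorem mem_spC_smul_left {e : V} {ω : Ω} {a c : F} :
    c ∈ spC hB (a • e) ω ↔ a ^ 2 * c ∈ spC hB e ω := by
  rw [mem_spC, mem_spC, tvI_smul]

theorem mem_spT_smul_left {e v : V} {ω : Ω} {a : F} (ha : a ≠ 0) :
    v ∈ spT hB (a • e) ω ↔ a • v ∈ spT hB e ω := by
  constructor
  · rintro ⟨hv, c, h⟩
    have hv' : B e v = 0 := by simpa [ha] using hv
    exact ⟨by simp [hv'], _, by rwa [rhoI_smul hB hv'] at h⟩
  · rintro ⟨hv, c, h⟩
    have hv' : B e v = 0 := by simpa [ha] using hv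
    refine ⟨by simp [hv'], (a ^ 2)⁻¹ * c, ?_⟩
    rwa [rhoI_smul hB hv', mul_inv_cancel_left₀ (pow_ne_zero 2 ha)]

theorem mem_spO_smul_left {e : V} {ω ω' : Ω} {a : F} (ha : a ≠ 0) :
    ω' ∈ (spO hB Ω (a • e)).cl ω ↔ ω' ∈ (spO hB Ω e).cl ω := by
  constructor
  · rintro ⟨v, c, hv, h⟩
    have hv' : B e v = 0 := by simpa [ha] using hv
    exact ⟨a • v, _, by simp [hv'], by rwa [rhoI_smul hB hv'] at h⟩
  · rintro ⟨v, c, hv, h⟩
    refine ⟨a⁻¹ • v, (a ^ 2)⁻¹ * c, by simp [hv], ?_⟩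
    rwa [rhoI_smul hB (by simp [hv]), mul_inv_cancel_left₀ (pow_ne_zero 2 ha), smul_inv_smul₀ ha]

theorem rhoI_apply_self {e v : V} (hv : B e v = 0) (c : F) : (rhoI hB e v c).1 e = e := by
  simp [rhoI_apply hB hv, alt_self hB, hv]

theorem spC_eq_of_mem {e : V} {ω ω' : Ω} (h : ω' ∈ (spO hB Ω e).cl ω) :
    spC hB e ω' = spC hB e ω := by
  obtain ⟨v, c, hv, rfl⟩ := h
  have := spC_smul hB (rhoI hB e v c) e ω
  rwa [rhoI_apply_self hB hv] at this

theorem spT_eq_of_mem {e : V} {ω ω' : Ω} (h : ω' ∈ (spO hB Ω e).cl ω) :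
    spT hB e ω' = spT hB e ω := by
  have key : ∀ {ω ω' : Ω}, ω' ∈ (spO hB Ω e).cl ω → spT hB e ω ≤ spT hB e ω' := by
    rintro ω _ ⟨v, c, hv, rfl⟩ w hw
    have h1 := (mem_spT_smul hB (rhoI hB e v c)).2 hw
    rw [rhoI_apply_self hB hv, rhoI_apply hB hv, (alt_eq_zero_comm hB).1 hw.1] at h1
    simpa using sub_mem h1 (smul_self_mem_spT hB e _ (B w v))
  exact le_antisymm (key ((spO hB Ω e).mem_symm h)) (key h)

theorem two_mul_mem_spC {e v w : V} {ω : Ω} (hv : v ∈ spT hB e ω) (hw : w ∈ spT hB e ω) :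
    2 * B v w ∈ spC hB e ω := by
  obtain ⟨hv, c, h1⟩ := hv
  obtain ⟨hw, d, h2⟩ := hw
  have a1 := rhoI_fix_add hB hv hw h1 h2
  have a2 := rhoI_fix_add hB hw hv h2 h1
  rw [add_comm w v] at a2
  have := sub_mem_spC hB a2 a1
  rwa [alt_neg hB w v, show d + c - -B v w - (c + d - B v w) = 2 * B v w by ring] at this

theorem card_perp [Finite F] [Finite V] (hN : B.Nondegenerate) {e : V} (he : e ≠ 0) :
    Nat.card {v // B e v = 0} * Nat.card F = Nat.card V := by
  have hf : B e ≠ 0 := fun h => he (hN.1 e fun y => by simp [h])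
  have h1 := CL.LS.card_ker_dual (F := F) (V := V) hf
  have h2 : 0 < finrank F V := by
    have : Nontrivial V := ⟨e, 0, he⟩
    exact Module.finrank_pos
  rw [Module.natCard_eq_pow_finrank (K := F) (V := V), ← Nat.sub_add_cancel h2, pow_succ, ← h1]
  rfl

theorem ncard_spO [Finite F] [Finite V] (hN : B.Nondegenerate) {e : V} (he : e ≠ 0) (ω : Ω) :
    ((spO hB Ω e).cl ω).ncard * (Nat.card (spT hB e ω) * Nat.card (spC hB e ω)) = Nat.card V := by
  let : MulAction (SpHeis hB e) Ω := MulAction.compHom Ω (spHeisHom hB e)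
  have h1 : MulAction.orbit (SpHeis hB e) ω = (spO hB Ω e).cl ω := by
    ext ω'
    exact ⟨fun ⟨x, hx⟩ => ⟨x.v, x.c, x.hv, hx⟩, fun ⟨v, c, hv, h⟩ => ⟨⟨v, hv, c⟩, h⟩⟩
  have h2 : Nat.card (SpHeis hB e) = Nat.card V := by
    rw [← card_perp hN he, ← Nat.card_prod]
    exact Nat.card_congr ⟨fun x => (⟨x.v, x.hv⟩, x.c), fun x => ⟨x.1.1, x.1.2, x.2⟩,
      fun _ => rfl, fun _ => rfl⟩
  have h3 : Nat.card (MulAction.stabilizer (SpHeis hB e) ω) =
      Nat.card (spT hB e ω) * Nat.card (spC hB e ω) := by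
    choose κ hκ using fun v : spT hB e ω => v.2.2
    rw [← Nat.card_prod]
    refine Nat.card_congr ⟨fun x => (⟨x.1.v, x.1.hv, x.1.c, x.2⟩,
        ⟨x.1.c - κ ⟨x.1.v, x.1.hv, x.1.c, x.2⟩, sub_mem_spC hB x.2 (hκ ⟨x.1.v, x.1.hv, x.1.c, x.2⟩)⟩),
      fun y => ⟨⟨y.1.1, y.1.2.1, κ y.1 + y.2⟩, rhoI_fix_of_mem hB (hκ _) y.2.2⟩,
      fun x => Subtype.ext (SpHeis.ext rfl (add_sub_cancel _ _)),
      fun y => Prod.ext rfl (Subtype.ext (add_sub_cancel_left _ _))⟩
  rw [← h1, ← h2, ← h3, ← MulAction.index_stabilizer, Subgroup.index_mul_card]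

variable (hN : B.Nondegenerate) {ψ : AddChar F ℂ} (hψ : ψ ≠ 1)

/-- The pairing `ψ (B x y)`. -/
noncomputable def spP : Pairing V V :=
  Pairing.ofForm ψ (fun x y => B x y) (fun _ _ _ => by simp) (fun _ _ _ => by simp) fun x h =>
    hN.1 x fun y => CL.LS.eq_zero_of_forall_psi hψ fun t => by simpa using h (t • y)

/-- The annihilator of `spC`. -/
noncomputable def spD (e : V) (ω : Ω) : AddSubgroup F := (mulPairing hψ).ann (spC hB e ω)

/-- The annihilator of `spT`. -/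
noncomputable def spA (e : V) (ω : Ω) : AddSubgroup V := (spP hN hψ).ann (spT hB e ω)

theorem mem_spD {e : V} {ω : Ω} {c : F} :
    c ∈ spD hB hψ e ω ↔ ∀ k ∈ spC hB e ω, ψ (k * c) = 1 := Iff.rfl

theorem mem_spA {e x : V} {ω : Ω} :
    x ∈ spA hB hN hψ e ω ↔ ∀ v ∈ spT hB e ω, ψ (B v x) = 1 := Iff.rfl

theorem orth_of_mem_spA {e x : V} {ω : Ω} (h : x ∈ spA hB hN hψ e ω) : B e x = 0 :=
  CL.LS.eq_zero_of_forall_psi hψ fun t => by
    simpa using (mem_spA hB hN hψ).1 h _ (smul_self_mem_spT hB e ω t)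

theorem mem_spA_of_mem_span {e x : V} (h : x ∈ F ∙ e) (ω : Ω) : x ∈ spA hB hN hψ e ω := by
  obtain ⟨k, rfl⟩ := Submodule.mem_span_singleton.1 h
  intro v hv
  change ψ (B v (k • e)) = 1
  simp [(alt_eq_zero_comm hB).1 hv.1]

theorem mem_spT_of_spA [Finite V] {e v : V} {ω : Ω}
    (h : ∀ x ∈ spA hB hN hψ e ω, B v x = 0) : v ∈ spT hB e ω :=
  (spP hN hψ).mem_of_forall_ann fun x hx => by
    change ψ (B v x) = 1
    rw [h x hx, AddChar.map_zero_eq_one]

theorem spC_eq_top_iff [Finite F] {e : V} {ω : Ω} : spC hB e ω = ⊤ ↔ spD hB hψ e ω = ⊥ := by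
  constructor
  · intro h
    rw [eq_bot_iff]
    intro c hc
    exact CL.LS.eq_zero_of_forall_psi hψ fun t => hc t (h ▸ AddSubgroup.mem_top t)
  · intro h
    rw [eq_top_iff]
    intro c _
    refine (mulPairing hψ).mem_of_forall_ann fun l hl => ?_
    have : l = 0 := by
      change l ∈ spD hB hψ e ω at hl
      rwa [h] at hl
    rw [this, (mulPairing hψ).zero_right]

theorem exists_mem_spD [Finite F] {e : V} {ω : Ω} (h : spC hB e ω ≠ ⊤) :
    ∃ c ∈ spD hB hψ e ω, c ≠ 0 := by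
  by_contra hc
  push Not at hc
  exact h ((spC_eq_top_iff hB hψ).2 (eq_bot_iff.2 hc))

theorem spC_eq_bot [Finite F] {e : V} {ω : Ω} (h : spD hB hψ e ω = ⊤) : spC hB e ω = ⊥ :=
  (mulPairing hψ).eq_bot_of_ann_eq_top h

theorem spD_smul (g : Isom B) (e : V) (ω : Ω) : spD hB hψ (g.1 e) (g • ω) = spD hB hψ e ω := by
  rw [spD, spD, spC_smul]

theorem apply_mem_spA (g : Isom B) {e x : V} {ω : Ω} (h : x ∈ spA hB hN hψ e ω) :
    g.1 x ∈ spA hB hN hψ (g.1 e) (g • ω) := fun v hv => by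
  rw [← isom_apply_inv g v] at hv ⊢
  change ψ (B _ _) = 1
  rw [isom_apply]
  exact h _ ((mem_spT_smul hB g).1 hv)

theorem mul_mem_spD {e : V} {ω : Ω} {c : F} (h : c ∈ spD hB hψ e ω) (a : F) :
    a ^ 2 * c ∈ spD hB hψ (a • e) ω := fun k hk => by
  change ψ (k * (a ^ 2 * c)) = 1
  rw [← mul_assoc, mul_comm k]
  exact h _ ((mem_spC_smul_left hB).1 hk)

theorem smul_mem_spA {e x : V} {ω : Ω} (h : x ∈ spA hB hN hψ e ω) {a : F} (ha : a ≠ 0) :
    a • x ∈ spA hB hN hψ (a • e) ω := fun v hv => by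
  have := h _ ((mem_spT_smul_left hB ha).1 hv)
  change ψ (B _ _) = 1 at this ⊢
  simpa using this

theorem spD_eq_of_mem {e : V} {ω ω' : Ω} (h : ω' ∈ (spO hB Ω e).cl ω) :
    spD hB hψ e ω' = spD hB hψ e ω := by rw [spD, spD, spC_eq_of_mem hB h]

theorem spA_eq_of_mem {e : V} {ω ω' : Ω} (h : ω' ∈ (spO hB Ω e).cl ω) :
    spA hB hN hψ e ω' = spA hB hN hψ e ω := by rw [spA, spA, spT_eq_of_mem hB h]

theorem card_spD_mul [Finite F] [Finite V] {e : V} (he : e ≠ 0) (ω : Ω) :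
    Nat.card (spD hB hψ e ω) * Nat.card (spA hB hN hψ e ω) =
      Nat.card F * ((spO hB Ω e).cl ω).ncard := by
  have h1 := ncard_spO hB hN he ω
  have h2 := (mulPairing hψ).card_mul_card_ann (spC hB e ω)
  have h3 := (spP hN hψ).card_mul_card_ann (spT hB e ω)
  refine Nat.eq_of_mul_eq_mul_right (m := Nat.card (spT hB e ω) * Nat.card (spC hB e ω))
    (Nat.mul_pos Nat.card_pos Nat.card_pos) ?_
  rw [mul_assoc (Nat.card F), h1, ← h2, ← h3, spD, spA]
  ring

/-- The labels of an orbit. -/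
def spY (e : V) (ω : Ω) : Set (F × V) := (spD hB hψ e ω : Set F) ×ˢ (spA hB hN hψ e ω : Set V)

/-- The multiplicity function. -/
noncomputable def spMu (e : V) (Φ : Set Ω) (c : F) (x : V) : ℕ :=
  (spO hB Ω e).mu (spY hB hN hψ e) Φ (c, x)

theorem sum_spMu [Fintype F] [Fintype V] [Finite Ω] {e : V} (he : e ≠ 0) {Φ : Set Ω}
    (hΦ : (spO hB Ω e).Inv Φ) :
    ∑ c, ∑ x, spMu hB hN hψ e Φ c x = Nat.card F * Φ.ncard := by
  rw [← (spO hB Ω e).sum_mu (spY hB hN hψ e) (fun ω ω' h => by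
      rw [spY, spY, spD_eq_of_mem hB hψ h, spA_eq_of_mem hB hN hψ h])
    (fun ω => by rw [spY, Set.ncard_prod, ← card_spD_mul hB hN hψ he]; rfl) hΦ,
    Fintype.sum_prod_type]
  rfl

/-- Lower bound for the size of an invariant set from lower bounds for the multiplicities. -/
theorem sp_count [Fintype F] [Finite V] [Finite Ω] {e : V} (he : e ≠ 0) {Φ : Set Ω}
    (hΦ : (spO hB Ω e).Inv Φ) (r b : F → ℕ) (hr : ∀ c, r c ≤ spMu hB hN hψ e Φ c 0)
    (hb : ∀ c x, OPair B e x → b c ≤ spMu hB hN hψ e Φ c x) {Q : ℕ}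
    (hQ : Nat.card V = Nat.card F ^ 2 * Q) :
    ∑ c, r c + Q * ∑ c, b c ≤ Φ.ncard + ∑ c, b c := by
  classical
  have := Fintype.ofFinite V
  have h := sum_spMu hB hN hψ he hΦ
  have hq : 0 < Nat.card F := Nat.card_pos
  have hL : (Finset.univ.filter fun w => w ∈ F ∙ e).card = Nat.card F := by
    rw [← Fintype.card_subtype, ← Nat.card_eq_fintype_card]
    exact (Nat.card_congr (LinearEquiv.toSpanNonzeroSingleton F _ e he).toEquiv).symm
  have hP : (Finset.univ.filter fun w => B e w = 0).card = Nat.card F * Q := by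
    rw [← Fintype.card_subtype, ← Nat.card_eq_fintype_card]
    refine Nat.eq_of_mul_eq_mul_right hq ?_
    rw [card_perp hN he, hQ]
    ring
  set s := Finset.univ.filter fun w => w ∈ F ∙ e
  set t := Finset.univ.filter fun w => B e w = 0
  have hst : s ⊆ t := fun w hw => by
    obtain ⟨k, rfl⟩ := Submodule.mem_span_singleton.1 (Finset.mem_filter.1 hw).2
    simp [t, alt_self hB]
  have h1 : ∀ c, Nat.card F * r c + (t \ s).card * b c ≤ ∑ x, spMu hB hN hψ e Φ c x := by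
    intro c
    refine le_trans ?_ (Finset.sum_le_sum_of_subset (Finset.subset_univ t))
    rw [← Finset.sum_sdiff hst, add_comm, ← hL, ← smul_eq_mul, ← smul_eq_mul, ← Finset.sum_const,
      ← Finset.sum_const]
    refine add_le_add (Finset.sum_le_sum fun x hx => ?_) (Finset.sum_le_sum fun x hx => ?_)
    · simp only [s, t, Finset.mem_sdiff, Finset.mem_filter, Finset.mem_univ, true_and] at hx
      exact hb c x ⟨he, hx.2, hx.1⟩
    · exact (hr c).trans ((spO hB Ω e).mu_le_mu _ fun ω hω h =>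
        ⟨hω, h.1, mem_spA_of_mem_span hB hN hψ (Finset.mem_filter.1 hx).2 ω⟩)
  have h2 := Finset.sum_le_sum fun c (_ : c ∈ Finset.univ) => h1 c
  rw [h, Finset.sum_add_distrib, ← Finset.mul_sum, ← Finset.mul_sum] at h2
  have h3 := Finset.card_sdiff_add_card_eq_card hst
  rw [hL, hP] at h3
  refine Nat.le_of_mul_le_mul_left ?_ hq
  rw [mul_add, mul_add, ← mul_assoc, ← h3]
  nlinarith

theorem spMu_le_smul [Finite Ω] (g : Isom B) (e : V) (c : F) (x : V) :
    spMu hB hN hψ e (Set.univ : Set Ω) c x ≤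
      spMu hB hN hψ (g.1 e) (Set.univ : Set Ω) c (g.1 x) :=
  (spO hB Ω e).mu_le_of_map _ _ _ (fun ω => g • ω) (fun _ _ h => (mem_spO_smul hB g).1 h)
    fun ω _ h => ⟨trivial, (spD_smul hB hψ g e ω).symm ▸ h.1, apply_mem_spA hB hN hψ g h.2⟩

theorem spMu_le_smul_left [Finite Ω] {a : F} (ha : a ≠ 0) (e : V) (c : F) (x : V) :
    spMu hB hN hψ e (Set.univ : Set Ω) c x ≤
      spMu hB hN hψ (a • e) (Set.univ : Set Ω) (a ^ 2 * c) (a • x) :=
  (spO hB Ω e).mu_le_of_map _ _ _ id (fun _ _ h => (mem_spO_smul_left hB ha).1 h)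
    fun _ _ h => ⟨trivial, mul_mem_spD hB hψ h.1 a, smul_mem_spA hB hN hψ h.2 ha⟩

theorem OPair_smul {e x : V} (h : OPair B e x) {a : F} (ha : a ≠ 0) : OPair B (a • e) (a • x) :=
  ⟨smul_ne_zero ha h.ne, by
    rw [Submodule.span_singleton_smul_eq ha.isUnit]; exact (h.smul ha).notMem, by simp [h.orth]⟩

theorem spMu_le [Finite Ω] [FiniteDimensional F V] {e x e' x' : V} (h : OPair B e x)
    (h' : OPair B e' x') {a : F} (ha : a ≠ 0) (c : F) :
    spMu hB hN hψ e (Set.univ : Set Ω) c x ≤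
      spMu hB hN hψ e' (Set.univ : Set Ω) (a ^ 2 * c) x' := by
  obtain ⟨g, hg, rfl, rfl⟩ := (OPair_smul h ha).exists_move hB hN h'
  exact (spMu_le_smul_left hB hN hψ ha e c x).trans (spMu_le_smul hB hN hψ ⟨g, hg⟩ _ _ _)

include hB hN in
/-- Transport of a labelled point to another pair of orthogonal vectors. -/
theorem exists_transport [FiniteDimensional F V] {e x e' x' : V} (h : OPair B e x)
    (h' : OPair B e' x') {a : F} (ha : a ≠ 0) :
    ∃ g : Isom B, g.1 (a • e) = e' ∧ g.1 (a • x) = x' := by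
  obtain ⟨g, hg, h1, h2⟩ := (OPair_smul h ha).exists_move hB hN h'
  exact ⟨⟨g, hg⟩, h1, h2⟩

end CL.MinDeg
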