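import Cfsg.Agent.Known.MinDegSp1
import Cfsg.Agent.Cls.SpSimple

/-!
# Small actions of symplectic groups: multiplicity one, types of orbits, the torus argument
-/

open Module CL.Sp
open scoped LinearAlgebra.Projectivization

namespace CL.MinDeg

variable {F V : Type*} [Field F] [AddCommGroup V] [Module F V] {B : LinearMap.BilinForm F V}
  (hB : B.IsAlt) (hN : B.Nondegenerate)

section Linear

include hB hN

variable [FiniteDimensional F V]

theorem exists_perp_pair {e x u : V} (h : u ∉ Submodule.span F {e, x}) :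
    ∃ y, B e y = 0 ∧ B x y = 0 ∧ B u y = 1 := by
  obtain ⟨y, hy, h1⟩ := exists_orth_ne_zero hB hN h
  have a1 : B e y = 0 := hy e (Submodule.subset_span (by simp))
  have a2 : B x y = 0 := hy x (Submodule.subset_span (by simp))
  exact ⟨(B u y)⁻¹ • y, by simp [a1], by simp [a2], by simp [inv_mul_cancel₀ h1]⟩

theorem mem_span_of_perp {e v : V} (h : ∀ y, B e y = 0 → B v y = 0) : v ∈ F ∙ e := by
  by_contra hn
  obtain ⟨y, hy, h1⟩ := exists_orth_ne_zero hB hN hn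
  exact h1 (h y (hy e (Submodule.mem_span_singleton_self e)))

theorem mem_span_pair_of_perp {e x v : V} (h : ∀ y, B e y = 0 → B x y = 0 → B v y = 0) :
    v ∈ Submodule.span F {e, x} := by
  by_contra hn
  obtain ⟨y, h1, h2, h3⟩ := exists_perp_pair hB hN hn
  exact one_ne_zero (h3.symm.trans (h y h1 h2))

omit hB hN [FiniteDimensional F V] in
theorem notMem_span_pair_swap {e x u : V} (hx : x ∉ F ∙ e) (h : u ∉ Submodule.span F {e, x}) :
    x ∉ Submodule.span F {e, u} := fun h' => by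
  obtain ⟨a, b, rfl⟩ := Submodule.mem_span_pair.1 h'
  have hb : b ≠ 0 := by
    rintro rfl
    exact hx (Submodule.mem_span_singleton.2 ⟨a, by simp⟩)
  refine h (Submodule.mem_span_pair.2 ⟨-(b⁻¹ * a), b⁻¹, ?_⟩)
  rw [smul_add, smul_smul, smul_smul, inv_mul_cancel₀ hb]
  simp

theorem exists_fix_pair {e f y y' : V} (hef : B e f = 1) (hy : y ≠ 0) (hy' : y' ≠ 0)
    (h1 : B e y = 0) (h2 : B f y = 0) (h1' : B e y' = 0) (h2' : B f y' = 0) :
    ∃ g : Isom B, g.1 ∈ TG hB (B.orthogonal (Submodule.span F {e, f})) ∧ g.1 e = e ∧ g.1 f = f ∧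
      g.1 y = y' := by
  have key : ∀ z, z ≠ 0 → B e z = 0 → B f z = 0 → z ∉ Submodule.span F {e, f} := by
    intro z hz a1 a2 h
    obtain ⟨a, b, rfl⟩ := Submodule.mem_span_pair.1 h
    simp only [map_add, map_smul, alt_self hB, hef, alt_neg hB f e, smul_eq_mul] at a1 a2
    have hb : b = 0 := by simpa using a1
    have ha : a = 0 := by simpa using a2
    exact hz (by simp [ha, hb])
  obtain ⟨t, ht, h⟩ := move hB hN (Submodule.span F {e, f}) (key y hy h1 h2) (key y' hy' h1' h2')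
    fun w hw => by
      obtain ⟨a, b, rfl⟩ := Submodule.mem_span_pair.1 hw
      simp [h1, h2, h1', h2']
  have hf := mem_fix.1 (TG_orth_le_fix hB _ ht)
  exact ⟨⟨t, hf.1⟩, ht, hf.2 e (Submodule.subset_span (by simp)),
    hf.2 f (Submodule.subset_span (by simp)), h⟩

theorem exists_isomI {x y : V} (hx : x ≠ 0) (hy : y ≠ 0) : ∃ g : Isom B, g.1 x = y := by
  obtain ⟨t, ht, h⟩ := exists_isom_apply_eq hB hN hx hy
  exact ⟨⟨t, ht⟩, h⟩

theorem exists_hyp {e : V} (he : e ≠ 0) : ∃ f, B e f = 1 := by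
  obtain ⟨f, hf⟩ := exists_pair_eq_one hN he
  exact ⟨-f, by rw [map_neg, alt_neg hB, hf, neg_neg]⟩

theorem exists_torus {e f : V} (hef : B e f = 1) {a : F} (ha : a ≠ 0) :
    ∃ h : Isom B, ∀ x, h.1 x = x + ((a - 1) * B x f) • e + (a⁻¹ * (a - 1) * B x e) • f := by
  have h1 : 1 + B e ((a - 1) • f) = a := by simp [hef]
  obtain ⟨g, hg, h⟩ := exists_eichler hB hN (u := e) (w := (a - 1) • f) (by rwa [h1])
  refine ⟨⟨g, hg⟩, fun x => ?_⟩
  rw [h x, h1]
  simp only [map_smul, smul_eq_mul, smul_smul]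
  congr 2
  ring

end Linear

variable {Ω : Type*} [MulAction (Isom B) Ω]

theorem tvI_apply_of_perp {v x : V} (h : B x v = 0) (c : F) : (tvI hB v c).1 x = x := by
  rw [tvI_apply, h]; simp

theorem tvI_comm {u w : V} (h : B u w = 0) (c d : F) (ω : Ω) :
    tvI hB u c • tvI hB w d • ω = tvI hB w d • tvI hB u c • ω := by
  rw [smul_tvI, tvI_apply_of_perp hB ((alt_eq_zero_comm hB).1 h)]

theorem exists_shift_iff {e v w : V} (hv : B e v = 0) (hw : B e w = 0) (c d : F) (ω : Ω) :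
    (∃ k, rhoI hB e v c • ω = tvI hB e k • rhoI hB e w d • ω) ↔ v - w ∈ spT hB e ω := by
  have hvw : B e (v - w) = 0 := by rw [map_sub, hv, hw, sub_zero]
  constructor
  · rintro ⟨k, hk⟩
    rw [← mul_smul, tvI_mul_rhoI hB hw] at hk
    have h1 : B e (-w) = 0 := by simp [hw]
    refine ⟨hvw, -(d + k) + c - B (-w) v, ?_⟩
    rw [sub_eq_neg_add, ← rhoI_mul hB h1 hv, mul_smul, hk, ← mul_smul, rhoI_mul hB h1 hw]
    simp [alt_self hB, rhoI_zero, tvI_zero]
  · rintro ⟨-, κ, hκ⟩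
    refine ⟨c - (d + κ - B w (v - w)), ?_⟩
    conv_rhs => rw [← hκ]
    rw [← mul_smul (rhoI hB e w d), rhoI_mul hB hw hvw, add_sub_cancel, ← mul_smul,
      tvI_mul_rhoI hB hv, add_sub_cancel]

/-- The torus argument. -/
theorem sp_torus {e f : V} (hef : B e f = 1) {a : F} (ha1 : a ≠ 1) (h : Isom B)
    (hh : ∀ x, h.1 x = x + ((a - 1) * B x f) • e + (a⁻¹ * (a - 1) * B x e) • f) {ω : Ω}
    (hω : h • ω ∈ (spO hB Ω e).cl ω)
    (hT : ∀ v, B e v = 0 → (a - 1) • v ∈ spT hB e ω → v ∈ spT hB e ω) :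
    ∃ ω₀ ∈ (spO hB Ω e).cl ω, ∀ t : Isom B, t.1 e = e → t.1 f = f →
      t • ω₀ ∈ (spO hB Ω e).cl ω₀ → ∃ k, t • ω₀ = tvI hB e k • ω₀ := by
  have he : h.1 e = a • e := by
    rw [hh, hef, alt_self hB]
    module
  have hv : ∀ v, B e v = 0 → h.1 v = v + ((a - 1) * B v f) • e := fun v hv => by
    rw [hh, (alt_eq_zero_comm hB).1 hv]; simp
  have hp : ∀ v, B e v = 0 → B e (h.1 v) = 0 := fun v h' => by simp [hv v h', h', alt_self hB]
  have hr : ∀ v c (ω : Ω), B e v = 0 →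
      h • rhoI hB e v c • ω = rhoI hB e (a • h.1 v) (a ^ 2 * c) • h • ω := fun v c ω h' => by
    rw [smul_rhoI, he, rhoI_smul hB (hp v h')]
  obtain ⟨v₀, c₀, hv₀, h0⟩ := hω
  have ha' : (1 - a) ≠ 0 := sub_ne_zero.2 ha1.symm
  set v := (1 - a)⁻¹ • v₀ with hvd
  have hv1 : B e v = 0 := by simp [hvd, hv₀]
  refine ⟨rhoI hB e v 0 • ω, ⟨v, 0, hv1, rfl⟩, fun t ht1 ht2 ⟨u, c, hu, htu⟩ => ?_⟩
  have hTe := spT_eq_of_mem hB (show rhoI hB e v 0 • ω ∈ (spO hB Ω e).cl ω from ⟨v, 0, hv1, rfl⟩)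
  obtain ⟨k₀, hk₀⟩ : ∃ k, h • rhoI hB e v 0 • ω = tvI hB e k • rhoI hB e v 0 • ω := by
    have a1 : B e (a • h.1 v) = 0 := by simp [hp v hv1]
    rw [hr v 0 ω hv1, ← h0, ← mul_smul, rhoI_mul hB a1 hv₀]
    refine (exists_shift_iff hB (by rw [map_add, a1, hv₀, add_zero]) hv1 _ _ ω).2 ?_
    have : a • h.1 v + v₀ - v = (a * ((a - 1) * B v f)) • e := by
      rw [hv v hv1, show v₀ = (1 - a) • v by rw [hvd, smul_inv_smul₀ ha']]
      module
    rw [this]
    exact smul_self_mem_spT hB e ω _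
  generalize rhoI hB e v 0 • ω = ω₀ at *
  have hc : h * t = t * h := by
    apply Subtype.ext
    ext x
    change h.1 (t.1 x) = t.1 (h.1 x)
    rw [hh, hh, map_add, map_add, map_smul, map_smul, ht1, ht2]
    conv_lhs => rw [← ht1, ← ht2, isom_apply, isom_apply, ht1, ht2]
  have a1 : h • t • ω₀ = tvI hB e k₀ • rhoI hB e u c • ω₀ := by
    rw [← mul_smul, hc, mul_smul, hk₀, smul_tvI, ht1, htu]
  rw [← htu, hr u c ω₀ hu, hk₀, ← mul_smul, rhoI_mul_tvI] at a1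
  have a2 := (exists_shift_iff hB (by simp [hp u hu]) hu _ _ ω₀).1 ⟨_, a1⟩
  have a3 : (a - 1) • u ∈ spT hB e ω₀ := by
    have := sub_mem a2 (smul_self_mem_spT hB e ω₀ (a * ((a - 1) * B u f)))
    rwa [hv u hu, show a • (u + ((a - 1) * B u f) • e) - u - (a * ((a - 1) * B u f)) • e =
      (a - 1) • u by module] at this
  rw [hTe] at a3
  have a4 := hT u hu a3
  rw [← hTe, ← sub_zero u] at a4
  obtain ⟨k, hk⟩ := (exists_shift_iff hB hu (map_zero _) c 0 ω₀).2 a4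
  exact ⟨k, by rw [← htu, hk, rhoI_zero, tvI_zero, one_smul]⟩

theorem shift_conj {e y : V} (hy : B e y = 0) {g : Isom B} (hg : g.1 e = e) {ω : Ω} {j k c : F}
    (h1 : g • ω = tvI hB e j • ω) (h2 : tvI hB y c • ω = tvI hB e k • ω) :
    tvI hB (g.1 y) c • ω = tvI hB e k • ω := by
  have hy' : B e (g.1 y) = 0 := by rw [← hg, isom_apply, hy]
  have h3 := smul_tvI hB g y c ω
  rw [h2, smul_tvI, hg, h1, ← tvI_comm hB hy', tvI_comm hB (alt_self hB e)] at h3
  exact (MulAction.injective _ h3).symm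

theorem spC_top_of_sq {e y : V} (hy : B e y = 0) {g : Isom B} (hg : g.1 e = e) {μ : F}
    (hμ : μ ^ 2 ≠ 1) (hgy : g.1 y = μ • y) {ω : Ω} (h1 : ∃ j, g • ω = tvI hB e j • ω)
    (h2 : ∀ c, ∃ k, tvI hB y c • ω = tvI hB e k • ω) : spC hB y ω = ⊤ := by
  refine eq_top_iff.2 fun c _ => ?_
  obtain ⟨j, hj⟩ := h1
  have hμ' : μ ^ 2 - 1 ≠ 0 := sub_ne_zero.2 hμ
  obtain ⟨k, hk⟩ := h2 ((μ ^ 2 - 1)⁻¹ * c)
  have h3 := shift_conj hB hy hg hj hk
  rw [hgy, tvI_smul, ← hk, show μ ^ 2 * ((μ ^ 2 - 1)⁻¹ * c) = (μ ^ 2 - 1)⁻¹ * c + c by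
    field_simp; ring, ← tvI_mul, mul_smul] at h3
  exact MulAction.injective _ h3

theorem spC_top_of_three (h3 : (3 : F) = 0) {e y y' : V} (hy : B e y = 0) (hy' : B e y' = 0)
    (hyy : B y y' = 0) {ω : Ω}
    (h : ∀ c, ∃ k, tvI hB y c • ω = tvI hB e k • ω ∧ tvI hB y' c • ω = tvI hB e k • ω ∧
      tvI hB (y + y') c • ω = tvI hB e k • ω ∧ tvI hB (y - y') c • ω = tvI hB e k • ω) :
    spC hB y ω = ⊤ := by
  refine eq_top_iff.2 fun c _ => ?_
  obtain ⟨k, h1, h2, h4, h5⟩ := h c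
  have hyy' : B y' y = 0 := (alt_eq_zero_comm hB).1 hyy
  have e1 : tvI hB (y + y') c * tvI hB (y - y') c =
      tvI hB y c * tvI hB y c * (tvI hB y' c * tvI hB y' c) := by
    apply Subtype.ext
    ext x
    simp only [isom_mul_apply, tvI_apply, map_add, map_sub, LinearMap.add_apply, map_smul,
      LinearMap.smul_apply, smul_eq_mul, alt_self hB, hyy, hyy']
    module
  have e2 := congrArg (· • ω) e1
  have c1 : ∀ z, B e z = 0 → ∀ j, tvI hB z c • ω = tvI hB e k • ω →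
      tvI hB z c • tvI hB e j • ω = tvI hB e (j + k) • ω := fun z hz j h' => by
    rw [← tvI_comm hB hz, h', ← mul_smul, tvI_mul]
  simp only [mul_smul] at e2
  rw [h5, h2, c1 _ (by simp [hy, hy']) _ h4, c1 _ hy' _ h2, c1 _ hy _ h1, c1 _ hy _ h1,
    show k + k + k + k = k + k + (k + k) by ring, ← tvI_mul hB e (k + k) (k + k), mul_smul] at e2
  have e3 : k + k ∈ spC hB e ω := (MulAction.injective _ e2).symm
  have e4 := neg_mem e3
  rw [show -(k + k) = k by linear_combination (-k) * h3] at e4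
  exact h1.trans e4

/-- The whole unipotent radical of the stabiliser of `p` fixes `ω`. -/
def SpFull (p : V) (ω : Ω) : Prop := ∀ v c, B p v = 0 → rhoI hB p v c • ω = ω

theorem SpFull.smul {hB : B.IsAlt} {p : V} {ω : Ω} (h : SpFull hB p ω) (g : Isom B) :
    SpFull hB (g.1 p) (g • ω) := fun v c hv => by
  rw [← isom_apply_inv g v] at hv ⊢
  rw [← smul_rhoI, h _ c (by rwa [isom_apply] at hv)]

theorem SpFull.smul_left {hB : B.IsAlt} {p : V} {ω : Ω} (h : SpFull hB p ω) {a : F} (ha : a ≠ 0) :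
    SpFull hB (a • p) ω := fun v c hv => by
  have hv' : B p v = 0 := by simpa [ha] using hv
  rw [rhoI_smul hB hv', h _ _ (by simp [hv'])]

theorem SpFull.spC {hB : B.IsAlt} {p : V} {ω : Ω} (h : SpFull hB p ω) : spC hB p ω = ⊤ :=
  eq_top_iff.2 fun c _ => by
    have := h 0 c (map_zero _)
    rwa [rhoI_zero] at this

theorem spFull_of {p : V} {ω : Ω} (h1 : spC hB p ω = ⊤) (h2 : ∀ v, B p v = 0 → v ∈ spT hB p ω) :
    SpFull hB p ω := fun v c hv => by
  obtain ⟨-, d, hd⟩ := h2 v hv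
  have := rhoI_fix_of_mem hB hd (h1 ▸ AddSubgroup.mem_top (c - d))
  rwa [add_sub_cancel] at this

theorem SpFull.mem_spT {hB : B.IsAlt} {p e : V} {ω : Ω} (h : SpFull hB p ω) (he : B e p = 0)
    (a : F) : a • p ∈ spT hB e ω :=
  ⟨by simp [he], 0, by
    rw [rhoI_comm hB he]
    exact h _ _ (by simp [(alt_eq_zero_comm hB).1 he])⟩

theorem SpFull.of_ne {hB : B.IsAlt} {p p' : V} {ω : Ω} (h : SpFull hB p ω) (h' : SpFull hB p' ω)
    (hp : B p p' ≠ 0) {y : V} (hy : B p y ≠ 0) : SpFull hB y ω := by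
  have hp' : B p' p ≠ 0 := fun h0 => hp ((alt_eq_zero_comm hB).1 h0)
  set a := B p p' / B p y with ha
  have ha0 : a ≠ 0 := div_ne_zero hp hy
  set v := (B p' p)⁻¹ • (a • y - p') with hv
  have h1 : B p v = 0 := by
    simp only [hv, ha, map_smul, map_sub, smul_eq_mul]
    field_simp
    ring
  have h2 := h'.smul (rhoI hB p v (-(B p' v / B p' p)))
  rw [h _ _ h1, rhoI_apply hB h1, hv, smul_inv_smul₀ hp', ← hv,
    show B p' v + -(B p' v / B p' p) * B p' p = 0 by field_simp; ring] at h2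
  have := h2.smul_left (inv_ne_zero ha0)
  simpa [inv_smul_smul₀ ha0] using this

include hN

variable [FiniteDimensional F V]

theorem smul_eq_of_spC {ω : Ω} (h : ∀ v, v ≠ 0 → spC hB v ω = ⊤) (g : Isom B) : g • ω = ω := by
  have : MulAction.stabilizer (Isom B) ω = ⊤ := eq_top_of_tv_mem hB hN fun v c => by
    by_cases hv : v = 0
    · change tvI hB v c • ω = ω
      rw [hv, tvI_zero_left, one_smul]
    · exact (h v hv ▸ AddSubgroup.mem_top c : c ∈ spC hB v ω)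
  exact (this ▸ Subgroup.mem_top g : g ∈ MulAction.stabilizer (Isom B) ω)

theorem SpFull.smul_eq {hB : B.IsAlt} {p p' : V} {ω : Ω} (h : SpFull hB p ω)
    (h' : SpFull hB p' ω) (hp : B p p' ≠ 0) (g : Isom B) : g • ω = ω := by
  refine smul_eq_of_spC hB hN (fun z hz => ?_) g
  obtain ⟨f, hf⟩ := exists_hyp hB hN hz
  obtain ⟨y, -, h1, h2⟩ := exists_both_ne_zero ⊤ (B p) (B z) ⟨p', trivial, hp⟩
    ⟨f, trivial, by rw [hf]; exact one_ne_zero⟩
  exact ((h.of_ne h' hp h1).of_ne h (fun h0 => h1 ((alt_eq_zero_comm hB).1 h0))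
    fun h0 => h2 ((alt_eq_zero_comm hB).1 h0)).spC

theorem SpFull.add_smul {hB : B.IsAlt} {p p' : V} {ω : Ω} (h : SpFull hB p ω)
    (h' : SpFull hB p' ω) (hp : OPair B p p') (c : F) : SpFull hB (p' + c • p) ω := by
  obtain ⟨f, h1, h2⟩ := hp.exists_dual hB hN
  have h3 : B p (c • f) = 0 := by simp [h1]
  have := h'.smul (rhoI hB p (c • f) 0)
  rw [h _ _ h3, rhoI_apply hB h3, (alt_eq_zero_comm hB).1 hp.orth] at this
  simpa [h2] using this

theorem le_card_of_single [Finite Ω] [MulAction.IsPretransitive (Isom B) Ω] {p : V} (hp : p ≠ 0)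
    {ω : Ω} (h : SpFull hB p ω) (h' : ∀ p', SpFull hB p' ω → p' ∈ F ∙ p) :
    Nat.card (ℙ F V) ≤ Nat.card Ω := by
  have h1 := ncard_orbit_le_card (G := Isom B) ω (Projectivization.mk F p hp) fun g hg => by
    have h2 := h.smul g
    rw [hg] at h2
    obtain ⟨a, ha⟩ := Submodule.mem_span_singleton.1 (h' _ h2)
    have hgp : g.1 p ≠ 0 := by simpa using hp
    change Projectivization.mk F (g.1 p) hgp = _
    rw [Projectivization.mk_eq_mk_iff']
    exact ⟨a, ha⟩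
  have h2 : MulAction.orbit (Isom B) (Projectivization.mk F p hp) = Set.univ := by
    refine Set.eq_univ_of_forall fun x => ?_
    induction x using Projectivization.ind with
    | h v hv =>
      obtain ⟨g, hg⟩ := exists_isomI hB hN hp hv
      exact ⟨g, by subst hg; rfl⟩
  rwa [h2, Set.ncard_univ] at h1

variable {ψ : AddChar F ℂ} (hψ : ψ ≠ 1)

theorem spA_structure {e x : V} {ω : Ω} (hp : OPair B e x) (hx : x ∈ spA hB hN hψ e ω)
    (hinv : ∀ x, OPair B e x → x ∈ spA hB hN hψ e ω → ∀ y k, B e y = 0 → B x y = 0 →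
      spA hB hN hψ e (tvI hB y k • ω) = spA hB hN hψ e ω) :
    (∀ v, B e v = 0 → v ∈ spA hB hN hψ e ω) ∨
      ∀ u ∈ spA hB hN hψ e ω, u ∈ Submodule.span F {e, x} := by
  have key : ∀ x u, OPair B e x → x ∈ spA hB hN hψ e ω → u ∈ spA hB hN hψ e ω →
      u ∉ Submodule.span F {e, x} → ∀ y, B e y = 0 → B x y = 0 → y ∈ spA hB hN hψ e ω := by
    intro x u hp hx hu hux
    have k1 : ∀ y, B e y = 0 → B x y = 0 → B u y ≠ 0 → y ∈ spA hB hN hψ e ω := by
      intro y h1 h2 h3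
      have := apply_mem_spA hB hN hψ (tvI hB y (B u y)⁻¹) hu
      rw [tvI_apply_of_perp hB h1, hinv x hp hx y _ h1 h2, tvI_apply, inv_mul_cancel₀ h3,
        one_smul] at this
      simpa using sub_mem this hu
    obtain ⟨y₀, h1, h2, h3⟩ := exists_perp_pair hB hN hux
    intro y a1 a2
    by_cases a3 : B u y = 0
    · simpa using sub_mem (k1 (y + y₀) (by simp [a1, h1]) (by simp [a2, h2]) (by simp [a3, h3]))
        (k1 y₀ h1 h2 (by simp [h3]))
    · exact k1 y a1 a2 a3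
  by_contra hc
  push Not at hc
  obtain ⟨⟨v, hv, hv'⟩, u, hu, hux⟩ := hc
  have hpu : OPair B e u := ⟨hp.ne, fun h => hux (Submodule.span_mono (by simp) h),
    orth_of_mem_spA hB hN hψ hu⟩
  have hxu := notMem_span_pair_swap hp.notMem hux
  obtain ⟨y, h1, h2, h3⟩ := exists_perp_pair hB hN hxu
  exact hv' (by
    simpa using add_mem (key x u hp hx hu hux (v - B x v • y) (by simp [hv, h1]) (by simp [h3]))
      (key u x hpu hu hx hxu (B x v • y) (by simp [h1]) (by simp [h2])))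

theorem spT_le_of_spA {e : V} {ω : Ω} (h : ∀ v, B e v = 0 → v ∈ spA hB hN hψ e ω) {v : V}
    (hv : v ∈ spT hB e ω) : v ∈ F ∙ e :=
  mem_span_of_perp hB hN fun y hy => CL.LS.eq_zero_of_forall_psi hψ fun t => by
    simpa using (mem_spA hB hN hψ).1 (h (t • y) (by simp [hy])) v hv

omit [FiniteDimensional F V] in
theorem mem_spA_of_spT_le {e : V} {ω : Ω} (h : ∀ v ∈ spT hB e ω, v ∈ F ∙ e) {x : V}
    (hx : B e x = 0) : x ∈ spA hB hN hψ e ω := fun v hv => by
  obtain ⟨a, rfl⟩ := Submodule.mem_span_singleton.1 (h v hv)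
  change ψ (B _ _) = 1
  simp [hx]

variable [Finite F] [Finite V] [Finite Ω] {Q : ℕ} (hQ : Nat.card V = Nat.card F ^ 2 * Q)

include hQ

omit [Finite F] in
theorem sum_spMu_le [Fintype F] {e x : V} (hp : OPair B e x) :
    Q * ∑ c, spMu hB hN hψ e (Set.univ : Set Ω) c x ≤ Nat.card Ω := by
  have h := sp_count hB hN hψ hp.ne (spO hB Ω e).inv_univ
    (fun c => spMu hB hN hψ e (Set.univ : Set Ω) c x)
    (fun c => spMu hB hN hψ e (Set.univ : Set Ω) c x)
    (fun c => (spO hB Ω e).mu_le_mu _ fun ω hω h => ⟨hω, h.1, zero_mem _⟩)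
    (fun c x' hx' => by simpa using spMu_le hB hN hψ hp hx' one_ne_zero c) hQ
  rw [Set.ncard_univ] at h
  omega

variable (hm : Nat.card Ω < (Nat.card F + 2) * Q)

include hm

theorem sum_spMu_le' [Fintype F] {e x : V} (hp : OPair B e x) :
    ∑ c, spMu hB hN hψ e (Set.univ : Set Ω) c x ≤ Nat.card F + 1 := by
  have h := (sum_spMu_le hB hN hψ hQ (Ω := Ω) hp).trans_lt hm
  rw [mul_comm] at h
  exact Nat.lt_succ_iff.1 (lt_of_mul_lt_mul_right h (Nat.zero_le _))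

theorem spMu_le_one {e x : V} (hp : OPair B e x) {c : F} (hc : c ≠ 0) :
    spMu hB hN hψ e (Set.univ : Set Ω) c x ≤ 1 := by
  classical
  have := Fintype.ofFinite F
  by_contra hlt
  have h := sum_spMu_le' hB hN hψ hQ hm hp
  have h2 : ∀ a, a ≠ 0 → 2 ≤ spMu hB hN hψ e (Set.univ : Set Ω) (a ^ 2 * c) x := fun a ha =>
    le_trans (by omega) (spMu_le hB hN hψ hp hp ha c)
  have h0 : spMu hB hN hψ e (Set.univ : Set Ω) 0 x ≤ 2 := by
    set S := (Finset.univ.filter fun a : F => a ≠ 0).image fun a => a ^ 2 * c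
    have a1 : (Finset.univ.filter fun a : F => a ≠ 0).card ≤ 2 * S.card := by
      refine Finset.card_le_mul_card_image _ 2 fun b hb => ?_
      obtain ⟨a, -, rfl⟩ := Finset.mem_image.1 hb
      refine le_trans (Finset.card_le_card (t := {a, -a}) fun a' ha' => ?_) Finset.card_le_two
      have := mul_right_cancel₀ hc (Finset.mem_filter.1 ha').2
      simpa using sq_eq_sq_iff_eq_or_eq_neg.1 this
    have a2 : (Finset.univ.filter fun a : F => a ≠ 0).card + 1 = Nat.card F := by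
      rw [Finset.filter_ne', Finset.card_erase_add_one (Finset.mem_univ _), Finset.card_univ,
        Nat.card_eq_fintype_card]
    have a3 : (0 : F) ∉ S := fun h0 => by
      obtain ⟨a, ha, h0⟩ := Finset.mem_image.1 h0
      exact mul_ne_zero (pow_ne_zero 2 (Finset.mem_filter.1 ha).2) hc h0
    have a4 := Finset.sum_le_sum_of_subset (f := fun c => spMu hB hN hψ e (Set.univ : Set Ω) c x)
      (Finset.subset_univ (insert 0 S))
    rw [Finset.sum_insert a3] at a4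
    have a5 := Finset.card_nsmul_le_sum S (fun c => spMu hB hN hψ e (Set.univ : Set Ω) c x) 2
      fun b hb => by
        obtain ⟨a, ha, rfl⟩ := Finset.mem_image.1 hb
        exact h2 a (Finset.mem_filter.1 ha).2
    rw [smul_eq_mul] at a5
    omega
  have key : ∀ ω : Ω, x ∈ spA hB hN hψ e ω → ∀ d, d ∈ spD hB hψ e ω := fun ω hω =>
    mem_of_sq_mul_mem _ hc fun a => by
      by_cases ha : a = 0
      · simp [ha]
      by_contra hn
      obtain ⟨ω₁, -, ω₂, -, l₁, l₂, n⟩ := (spO hB Ω e).exists_two_of_two_le _ (h2 a ha)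
      have := (spO hB Ω e).three_le_mu (spY hB hN hψ e) (i := (0, x)) (Set.mem_univ ω)
        (Set.mem_univ ω₁) (Set.mem_univ ω₂) ⟨zero_mem _, hω⟩ ⟨zero_mem _, l₁.2⟩ ⟨zero_mem _, l₂.2⟩
        (fun h' => hn (spD_eq_of_mem hB hψ h' ▸ l₁.1)) (fun h' => hn (spD_eq_of_mem hB hψ h' ▸ l₂.1)) n
      exact absurd (this.trans h0) (by norm_num)
  obtain ⟨ω₁, -, ω₂, -, l₁, l₂, n⟩ := (spO hB Ω e).exists_two_of_two_le _ (not_le.1 hlt)
  have a1 := Finset.card_nsmul_le_sum Finset.univ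
    (fun c => spMu hB hN hψ e (Set.univ : Set Ω) c x) 2 fun d _ =>
      (spO hB Ω e).two_le_mu _ trivial trivial ⟨key ω₁ l₁.2 d, l₁.2⟩ ⟨key ω₂ l₂.2 d, l₂.2⟩ n
  rw [smul_eq_mul, Finset.card_univ, ← Nat.card_eq_fintype_card] at a1
  have : 1 < Nat.card F := Finite.one_lt_card
  omega

theorem mem_spO_of_labels {e x : V} (hp : OPair B e x) {c : F} (hc : c ≠ 0) {ω ω' : Ω}
    (h1 : c ∈ spD hB hψ e ω) (h2 : x ∈ spA hB hN hψ e ω) (h1' : c ∈ spD hB hψ e ω')
    (h2' : x ∈ spA hB hN hψ e ω') : ω' ∈ (spO hB Ω e).cl ω :=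
  (spO hB Ω e).mem_cl_of_mu_le_one _ (spMu_le_one hB hN hψ hQ hm hp hc) trivial trivial
    ⟨h1, h2⟩ ⟨h1', h2'⟩

theorem smul_mem_spO {e x x' : V} (hp : OPair B e x) {a c : F} (ha : a ≠ 0) (hc : c ≠ 0) {ω : Ω}
    (h1 : a ^ 2 * c ∈ spD hB hψ e ω) (h2 : x ∈ spA hB hN hψ e ω) (h1' : c ∈ spD hB hψ e ω)
    (h2' : x' ∈ spA hB hN hψ e ω) (g : Isom B) (hg : g.1 (a • e) = e) (hg' : g.1 (a • x') = x) :
    g • ω ∈ (spO hB Ω e).cl ω := by
  refine mem_spO_of_labels hB hN hψ hQ hm hp (mul_ne_zero (pow_ne_zero 2 ha) hc) h1 h2 ?_ ?_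
  · have := spD_smul hB hψ g (a • e) ω
    rw [hg] at this
    exact this ▸ mul_mem_spD hB hψ h1' a
  · have := apply_mem_spA hB hN hψ g (smul_mem_spA hB hN hψ h2' ha)
    rwa [hg, hg'] at this

theorem smul_mem_spO' {e x x' : V} (hp : OPair B e x) {ω : Ω} (hC : spC hB e ω ≠ ⊤)
    (h2 : x ∈ spA hB hN hψ e ω) (h2' : x' ∈ spA hB hN hψ e ω) (g : Isom B) (hg : g.1 e = e)
    (hg' : g.1 x' = x) : g • ω ∈ (spO hB Ω e).cl ω := by
  obtain ⟨c, hc, hc0⟩ := exists_mem_spD hB hψ hC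
  exact smul_mem_spO hB hN hψ hQ hm hp one_ne_zero hc0 (by simpa using hc) h2 hc h2' g
    (by simpa using hg) (by simpa using hg')

/-- The three types of orbits moved by the transvection group. -/
theorem sp_trichotomy {e : V} (he : e ≠ 0) {ω : Ω} (hC : spC hB e ω ≠ ⊤) :
    (∀ v ∈ spT hB e ω, v ∈ F ∙ e) ∨
    (∃ x, OPair B e x ∧ x ∈ spA hB hN hψ e ω ∧
      ∀ u ∈ spA hB hN hψ e ω, u ∈ Submodule.span F {e, x}) ∨
    ∀ v, B e v = 0 → v ∈ spT hB e ω := by
  by_cases h : ∀ x ∈ spA hB hN hψ e ω, x ∈ F ∙ e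
  · refine Or.inr (Or.inr fun v hv => mem_spT_of_spA hB hN hψ fun x hx => ?_)
    obtain ⟨a, rfl⟩ := Submodule.mem_span_singleton.1 (h x hx)
    simp [(alt_eq_zero_comm hB).1 hv]
  push Not at h
  obtain ⟨x, hx, hx'⟩ := h
  have hp : OPair B e x := ⟨he, hx', orth_of_mem_spA hB hN hψ hx⟩
  rcases spA_structure hB hN hψ hp hx fun x hp hx y k h1 h2 => spA_eq_of_mem hB hN hψ
    (smul_mem_spO' hB hN hψ hQ hm hp hC hx hx _ (tvI_apply_of_perp hB h1 k)
      (tvI_apply_of_perp hB h2 k)) with h | h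
  · exact Or.inl fun v hv => spT_le_of_spA hB hN hψ h hv
  · exact Or.inr (Or.inl ⟨x, hp, hx, h⟩)

theorem spD_eq_top_of_two (h2 : (2 : F) = 0) {e x : V} (hp : OPair B e x) {ω : Ω}
    (hC : spC hB e ω ≠ ⊤) (hx : x ∈ spA hB hN hψ e ω) : spD hB hψ e ω = ⊤ := by
  classical
  have := Fintype.ofFinite F
  obtain ⟨c₀, hc₀, hc0⟩ := exists_mem_spD hB hψ hC
  have hsq : ∀ c : F, ∃ a, a ^ 2 * c₀ = c := fun c => by
    have : Function.Injective fun a : F => a ^ 2 * c₀ := fun a b h => by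
      have h' : (a - b) ^ 2 = 0 := by
        linear_combination mul_right_cancel₀ hc0 h + (b ^ 2 - a * b) * h2
      exact sub_eq_zero.1 (pow_eq_zero_iff two_ne_zero |>.1 h')
    exact (Finite.injective_iff_surjective.1 this) c
  have h1 : ∀ c, c ≠ 0 → 1 ≤ spMu hB hN hψ e (Set.univ : Set Ω) c x := fun c hc => by
    obtain ⟨a, rfl⟩ := hsq c
    exact ((spO hB Ω e).one_le_mu (spY hB hN hψ e) (i := (c₀, x)) (Set.mem_univ ω)
      ⟨hc₀, hx⟩).trans
      (spMu_le hB hN hψ hp hp (fun h => hc (by simp [h])) c₀)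
  have h0 : spMu hB hN hψ e (Set.univ : Set Ω) 0 x ≤ 2 := by
    have h := sum_spMu_le' hB hN hψ hQ hm hp
    rw [← Finset.add_sum_erase _ _ (Finset.mem_univ 0)] at h
    have a5 := Finset.card_nsmul_le_sum (Finset.univ.erase 0)
      (fun c => spMu hB hN hψ e (Set.univ : Set Ω) c x) 1 fun b hb => h1 b (Finset.ne_of_mem_erase hb)
    have a6 := Finset.card_erase_add_one (Finset.mem_univ (0 : F))
    rw [Finset.card_univ, ← Nat.card_eq_fintype_card] at a6
    rw [smul_eq_mul] at a5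
    omega
  refine eq_top_iff.2 fun c _ => ?_
  by_contra hc
  have hc' : c + c₀ ∉ spD hB hψ e ω := fun h => hc (by simpa using sub_mem h hc₀)
  obtain ⟨ω₁, -, l₁⟩ := (spO hB Ω e).exists_of_mu_pos _ (h1 c fun h => hc (h ▸ zero_mem _))
  obtain ⟨ω₂, -, l₂⟩ := (spO hB Ω e).exists_of_mu_pos _ (h1 (c + c₀) fun h => hc' (h ▸ zero_mem _))
  have n₁ : ω₁ ∉ (spO hB Ω e).cl ω := fun h' => hc (spD_eq_of_mem hB hψ h' ▸ l₁.1)
  have := (spO hB Ω e).three_le_mu (spY hB hN hψ e) (i := (0, x)) (Set.mem_univ ω)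
    (Set.mem_univ ω₁) (Set.mem_univ ω₂) ⟨zero_mem _, hx⟩ ⟨zero_mem _, l₁.2⟩ ⟨zero_mem _, l₂.2⟩
    n₁ (fun h' => hc' (spD_eq_of_mem hB hψ h' ▸ l₂.1)) fun h' => n₁
      (mem_spO_of_labels hB hN hψ hQ hm hp hc0 hc₀ hx
        (by simpa using sub_mem (spD_eq_of_mem hB hψ h' ▸ l₂.1 : c + c₀ ∈ spD hB hψ e ω₁) l₁.1) l₁.2)
  exact absurd (this.trans h0) (by norm_num)

end CL.MinDeg
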