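import Cfsg.Agent.Known.MinDegSp2

/-!
# Small actions of symplectic groups: regular orbits and orbits of central type
-/

open Module CL.Sp
open scoped LinearAlgebra.Projectivization

namespace CL.MinDeg

variable {F V : Type*} [Field F] [AddCommGroup V] [Module F V] {B : LinearMap.BilinForm F V}
  (hB : B.IsAlt) {Ω : Type*} [MulAction (Isom B) Ω]

theorem rhoI_add_smul_self {e v : V} (hv : B e v = 0) (s c : F) :
    rhoI hB e (v + s • e) c = rhoI hB e v (c + 2 * s) := by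
  have h := rhoI_mul hB hv (show B e (s • e) = 0 by simp [alt_self hB]) c 0
  rw [rhoI_self, rhoI_mul_tvI] at h
  simpa [(alt_eq_zero_comm hB).1 hv] using h.symm

theorem spC_smul_left_eq_top {e : V} {ω : Ω} (h : spC hB e ω = ⊤) (a : F) :
    spC hB (a • e) ω = ⊤ :=
  eq_top_iff.2 fun _ _ => (mem_spC_smul_left hB).2 (h ▸ AddSubgroup.mem_top _)

theorem spC_top_of_mem_span {e u : V} {ω : Ω} (h : spC hB e ω = ⊤) (hu : u ∈ F ∙ e) :
    spC hB u ω = ⊤ := by
  obtain ⟨a, rfl⟩ := Submodule.mem_span_singleton.1 hu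
  exact spC_smul_left_eq_top hB h a

theorem spC_top_of_odd (h2 : (2 : F) ≠ 0) {e v y : V} {ω : Ω} (hv : ∀ a : F, a • v ∈ spT hB e ω)
    (hy : y ∈ spT hB e ω) (h : B v y ≠ 0) : spC hB e ω = ⊤ :=
  eq_top_iff.2 fun c _ => by
    have := two_mul_mem_spC hB (hv (c / (2 * B v y))) hy
    rwa [map_smul, LinearMap.smul_apply, smul_eq_mul,
      show 2 * (c / (2 * B v y) * B v y) = c by field_simp] at this

theorem rhoI_fix_sub {e v w : V} (hv : B e v = 0) (hw : B e w = 0) {c : F} {ω : Ω}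
    (h1 : rhoI hB e v c • ω = ω) (h2 : rhoI hB e (v + w) c • ω = ω) :
    rhoI hB e w (B v w) • ω = ω := by
  have := rhoI_fix_add hB (show B e (-v) = 0 by simp [hv]) (show B e (v + w) = 0 by simp [hv, hw])
    (rhoI_fix_neg hB hv h1) h2
  simpa [alt_self hB] using this

theorem spC_top_of_even (h2 : (2 : F) = 0) {a : F} (ha : a ≠ 0) (ha1 : a ≠ 1) {e v y : V} {ω : Ω}
    (hv : ∀ a : F, a • v ∈ spT hB e ω) (hy : B e y = 0) (h : B v y ≠ 0)
    (hO : ∀ k, tvI hB y k • ω ∈ (spO hB Ω e).cl ω) : spC hB e ω = ⊤ := by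
  have key : ∀ v ∈ spT hB e ω, B v y ≠ 0 → ∀ t, rhoI hB e (t • y) (t * B v y) • ω = ω := by
    rintro v ⟨hv, c, hc⟩ h t
    obtain ⟨w, d, hw, h1⟩ := hO (-(t / B v y))
    have h3 : rhoI hB e v c • tvI hB y (-(t / B v y)) • ω = tvI hB y (-(t / B v y)) • ω := by
      rw [← h1, ← mul_smul, rhoI_mul hB hv hw, add_comm v w,
        show c + d - B v w = d + c - B w v by rw [alt_neg hB w v]; linear_combination (-B v w) * h2,
        ← rhoI_mul hB hw hv, mul_smul, hc]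
    have h4 := congrArg (tvI hB y (t / B v y) • ·) h3
    simp only [smul_rhoI, tvI_apply_of_perp hB hy] at h4
    rw [← mul_smul (tvI hB y _), tvI_mul, add_neg_cancel, tvI_zero, one_smul, tvI_apply,
      div_mul_cancel₀ _ h] at h4
    simpa using rhoI_fix_sub hB hv (by simp [hy]) hc h4
  refine eq_top_iff.2 fun c _ => ?_
  have h1 := key v (by simpa using hv 1) h (c / ((a - 1) * B v y))
  have h3 := key (a • v) (hv a) (by simp [ha, h]) (c / ((a - 1) * B v y))
  have := sub_mem_spC hB h3 h1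
  have ha' := sub_ne_zero.2 ha1
  rwa [map_smul, LinearMap.smul_apply, smul_eq_mul, show c / ((a - 1) * B v y) * (a * B v y) -
    c / ((a - 1) * B v y) * B v y = c by field_simp] at this

/-- The stabiliser of a point as a group of linear automorphisms. -/
def spM (ω : Ω) : Subgroup (V ≃ₗ[F] V) := (MulAction.stabilizer (Isom B) ω).map (Isom B).subtype

theorem mem_spM {ω : Ω} (g : Isom B) : g.1 ∈ spM (B := B) ω ↔ g • ω = ω :=
  ⟨fun ⟨_, h1, h2⟩ => (Subtype.ext h2 : _ = g) ▸ h1, fun h => ⟨g, h, rfl⟩⟩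

theorem mem_cen_spM {ω : Ω} {v : V} : v ∈ Cen hB (spM (B := B) ω) ↔ spC hB v ω = ⊤ := by
  rw [mem_cen, eq_top_iff]
  exact ⟨fun h c _ => (mem_spM (tvI hB v c)).1 (h c),
    fun h c => (mem_spM (tvI hB v c)).2 (h (AddSubgroup.mem_top c))⟩

variable (hN : B.Nondegenerate) [FiniteDimensional F V]

include hN

/-- If every point is of central type then all transvections fix `ω`. -/
theorem spC_top_of_central [Finite F] (h2 : (2 : F) = 0) {a : F} (ha : a ≠ 0) (ha1 : a ≠ 1)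
    (hdim : 3 ≤ finrank F V) {ω : Ω}
    (hC : ∀ u, u ≠ 0 → spC hB u ω ≠ ⊤ → ∀ v, B u v = 0 → v ∈ spT hB u ω) {e : V} (he : e ≠ 0) :
    spC hB e ω = ⊤ := by
  have K : ∀ v u, OPair B v u → spC hB v ω ≠ ⊤ → ∀ l k : F, rhoI hB u (l • v) k • ω = ω → k ≠ 0 →
      ∀ t, rhoI hB v (t • u) (t ^ 2 / k) • ω = ω := by
    intro v u hp hv l k hs hk t
    obtain ⟨f, h1, h3⟩ := hp.exists_dual hB hN
    have huv : B u v = 0 := (alt_eq_zero_comm hB).1 hp.orth
    have hl : B u (l • v) = 0 := by simp [huv]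
    set y := (-(t / k)) • f with hy
    have y1 : B v y = 0 := by simp [hy, h1]
    have y2 : B y u = t / k := by rw [alt_neg hB]; simp [hy, h3]
    obtain ⟨-, c, hc⟩ := hC v hp.ne hv y y1
    have h4 := congrArg (rhoI hB u (l • v) k • ·) hc
    simp only [smul_rhoI, hs] at h4
    rw [rhoI_apply hB hl, rhoI_apply hB hl, y2, hp.orth, map_smul, map_smul, alt_self hB,
      (alt_eq_zero_comm hB).1 y1, smul_smul (t / k), mul_div_cancel₀ _ hk] at h4
    simp only [smul_zero, mul_zero, add_zero, zero_smul, zero_add] at h4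
    rw [rhoI_add_smul_self hB (by simp [y1, hp.orth]), h2, zero_mul, add_zero] at h4
    have := rhoI_fix_sub hB y1 (by simp [hp.orth]) hc h4
    rwa [map_smul, y2, smul_eq_mul, ← mul_div_assoc, ← sq] at this
  have K2 : ∀ v u, OPair B v u → spC hB v ω ≠ ⊤ → ∀ l k l' k' : F, rhoI hB u (l • v) k • ω = ω →
      rhoI hB u (l' • v) k' • ω = ω → k ≠ 0 → k' ≠ 0 → k = k' := by
    intro v u hp hv l k l' k' h1 h3 hk hk'
    by_contra hne
    refine hv (eq_top_iff.2 fun d _ => mem_of_sq_mul_mem _ (c := k⁻¹ - k'⁻¹)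
      (sub_ne_zero.2 fun h => hne (inv_injective h)) (fun t => ?_) d)
    have := sub_mem_spC hB (K v u hp hv l k h1 hk t) (K v u hp hv l' k' h3 hk' t)
    rwa [div_eq_mul_inv, div_eq_mul_inv, ← mul_sub] at this
  have E1 : ∀ u v, u ≠ 0 → v ≠ 0 → B v u = 0 → spC hB u ω = ⊤ → spC hB v ω = ⊤ := by
    intro u v hu hv h hE
    by_cases hm : v ∈ F ∙ u
    · exact spC_top_of_mem_span hB hE hm
    by_contra hn
    have hp : OPair B v u := (OPair.mk hu hm ((alt_eq_zero_comm hB).1 h)).symm hB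
    have hk : ∀ k, rhoI hB u ((0 : F) • v) k • ω = ω := fun k => by
      rw [zero_smul, rhoI_zero]
      exact (hE ▸ AddSubgroup.mem_top k : k ∈ spC hB u ω)
    exact ha1 (K2 v u hp hn 0 a 0 1 (hk a) (hk 1) ha one_ne_zero)
  by_contra hn
  have E2 : ∀ u, u ≠ 0 → spC hB u ω ≠ ⊤ := fun u hu hE => by
    obtain ⟨z, -, hz, h⟩ := exists_ne_zero_orth (B := B) ⊤ ![u, e] (by simp; omega)
    exact hn (E1 z e hz he ((alt_eq_zero_comm hB).1 (h 1)) (E1 u z hu hz (h 0) hE))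
  have Z : ∀ v u, OPair B u v → ∀ k, rhoI hB u v k • ω = ω → k = 0 := by
    intro v u hp k hk
    by_contra hk0
    have hp' := hp.symm hB
    have h1 := K v u hp' (E2 v hp'.ne) 1 k (by rwa [one_smul]) hk0
    have := K2 u v hp (E2 u hp.ne) _ _ _ _ (h1 1) (h1 a) (by simpa using hk0)
      (div_ne_zero (pow_ne_zero 2 ha) hk0)
    rw [div_left_inj' hk0] at this
    have h3 : (a - 1) ^ 2 = 0 := by linear_combination (1 - a) * h2 - this
    exact ha1 (sub_eq_zero.1 ((pow_eq_zero_iff two_ne_zero).1 h3))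
  obtain ⟨x, hp⟩ := OPair.exists_right hB hN hdim he
  obtain ⟨y, h1, h3⟩ := hp.exists_dual hB hN
  have hxe : B x e = 0 := (alt_eq_zero_comm hB).1 hp.orth
  have hyx : B y x = -1 := by rw [alt_neg hB, h3]
  obtain ⟨-, c, hc⟩ := hC e he hn x hp.orth
  obtain ⟨-, d, hd⟩ := hC e he hn y h1
  have a1 := Z x e hp c hc
  have a2 := Z y e (OPair.of_pair_ne_zero hB he h1 hp.orth (by simp [hyx])) d hd
  have a3 := Z (x + y) e (OPair.of_pair_ne_zero hB he (by simp [hp.orth, h1]) hp.orth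
    (by simp [hyx, alt_self hB])) _ (rhoI_fix_add hB hp.orth h1 hc hd)
  simp [a1, a2, h3] at a3

variable [Finite F] [Finite V] [Finite Ω] [MulAction.IsPretransitive (Isom B) Ω]
  (hM : Nat.card Ω < Nat.card (ℙ F V))

omit [Finite F] [Finite V] in
include hM in
theorem not_full_of_typeR {e p : V} {ω : Ω} (hC : spC hB e ω ≠ ⊤)
    (hT : ∀ v ∈ spT hB e ω, v ∈ F ∙ e) (hp : p ≠ 0) (h : SpFull hB p ω) : False := by
  refine (le_card_of_single hB hN hp h fun p' h' => ?_).not_gt hM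
  by_contra hn
  have key : ∀ z, z ≠ 0 → SpFull hB z ω → B e z ≠ 0 := fun z hz hf h0 => by
    obtain ⟨a, rfl⟩ := Submodule.mem_span_singleton.1 (hT z (by simpa using hf.mem_spT h0 1))
    have ha : a ≠ 0 := fun h => hz (by simp [h])
    have := spC_smul_left_eq_top hB hf.spC a⁻¹
    rw [inv_smul_smul₀ ha] at this
    exact hC this
  by_cases hpp : B p p' = 0
  · refine key _ (fun h0 => hn ?_) (h.add_smul hN h' ⟨hp, hn, hpp⟩ (-(B e p' / B e p))) ?_
    · rw [neg_smul, ← sub_eq_add_neg, sub_eq_zero] at h0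
      exact Submodule.mem_span_singleton.2 ⟨_, h0.symm⟩
    · simp [div_mul_cancel₀ _ (key p hp h)]
  · exact hC (eq_top_iff.2 fun c _ => h.smul_eq hN h' hpp _)

variable {ψ : AddChar F ℂ} (hψ : ψ ≠ 1) {Q : ℕ} (hQ : Nat.card V = Nat.card F ^ 2 * Q)
  (hm : Nat.card Ω < (Nat.card F + 2) * Q)

include hψ hQ hm

omit [MulAction.IsPretransitive (Isom B) Ω] in
theorem exists_fixed_of_typeR (hq : ∃ a : F, a ≠ 0 ∧ a ≠ 1)
    (hexc : (∃ μ : F, μ ≠ 0 ∧ μ ^ 2 ≠ 1) ∨ 5 ≤ finrank F V) {e x f : V} (hp : OPair B e x)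
    (hef : B e f = 1) (hxf : B x f = 0) {ω : Ω} (hC : spC hB e ω ≠ ⊤)
    (hT : ∀ v ∈ spT hB e ω, v ∈ F ∙ e) :
    ∃ ω₀ ∈ (spO hB Ω e).cl ω, ∀ y, B e y = 0 → B f y = 0 → spC hB y ω₀ = ⊤ := by
  obtain ⟨a, ha, ha1, c, hc0, hc, hc'⟩ : ∃ a : F, a ≠ 0 ∧ a ≠ 1 ∧ ∃ c, c ≠ 0 ∧
      c ∈ spD hB hψ e ω ∧ a⁻¹ ^ 2 * c ∈ spD hB hψ e ω := by
    by_cases h2 : (2 : F) = 0
    · obtain ⟨a, ha, ha1⟩ := hq
      have := spD_eq_top_of_two hB hN hψ hQ hm h2 hp hC (mem_spA_of_spT_le hB hN hψ hT hp.orth)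
      exact ⟨a, ha, ha1, 1, one_ne_zero, this ▸ AddSubgroup.mem_top _, this ▸ AddSubgroup.mem_top _⟩
    · obtain ⟨c, hc, hc0⟩ := exists_mem_spD hB hψ hC
      exact ⟨-1, by simp, fun h => h2 (by linear_combination -h), c, hc0, hc, by simpa using hc⟩
  obtain ⟨h, hh⟩ := exists_torus hB hN hef ha
  have hxe : B x e = 0 := (alt_eq_zero_comm hB).1 hp.orth
  obtain ⟨ω₀, h0, hK⟩ := sp_torus hB hef ha1 h hh
    (smul_mem_spO hB hN hψ hQ hm hp (inv_ne_zero ha) hc0 hc'
      (mem_spA_of_spT_le hB hN hψ hT hp.orth) hc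
      (mem_spA_of_spT_le hB hN hψ hT (x := a • x) (by simp [hp.orth])) h
      (by rw [map_smul, hh, hef, alt_self hB]; match_scalars <;> field_simp <;> ring)
      (by rw [inv_smul_smul₀ ha, hh, hxf, hxe]; simp))
    fun v _ hv => by
      obtain ⟨s, rfl⟩ := Submodule.mem_span_singleton.1
        ((Submodule.smul_mem_iff _ (sub_ne_zero.2 ha1)).1 (hT _ hv))
      exact smul_self_mem_spT hB e ω s
  refine ⟨ω₀, h0, fun y hy1 hy2 => ?_⟩
  rw [← spC_eq_of_mem hB h0] at hC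
  rw [← spT_eq_of_mem hB h0] at hT
  have K : ∀ t : Isom B, t.1 e = e → t.1 f = f → ∃ k, t • ω₀ = tvI hB e k • ω₀ := fun t h1 h2 =>
    hK t h1 h2 (smul_mem_spO' hB hN hψ hQ hm hp hC (mem_spA_of_spT_le hB hN hψ hT hp.orth)
      (mem_spA_of_spT_le hB hN hψ hT (x := (t⁻¹).1 x)
        (by rw [← isom_apply t, h1, isom_apply_inv, hp.orth])) t h1 (isom_apply_inv t x))
  have K1 : ∀ c, ∃ k, tvI hB y c • ω₀ = tvI hB e k • ω₀ := fun c =>
    K _ (tvI_apply_of_perp hB hy1 c) (tvI_apply_of_perp hB hy2 c)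
  by_cases hy : y = 0
  · exact eq_top_iff.2 fun c _ => by rw [mem_spC, hy, tvI_zero_left, one_smul]
  by_cases hμ : ∃ μ : F, μ ≠ 0 ∧ μ ^ 2 ≠ 1
  · obtain ⟨μ, hμ, hμ1⟩ := hμ
    obtain ⟨g, -, g1, g2, g3⟩ := exists_fix_pair hB hN hef hy (smul_ne_zero hμ hy) hy1 hy2
      (by simp [hy1]) (by simp [hy2])
    exact spC_top_of_sq hB hy1 g1 hμ1 g3 (K g g1 g2) K1
  have h5 := hexc.resolve_left hμ
  push Not at hμ
  have h3 : (3 : F) = 0 := (two_eq_zero_or_three_eq_zero hμ).resolve_left fun h2 => by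
    obtain ⟨b, hb, hb1⟩ := hq
    have h3 : (b - 1) ^ 2 = 0 := by linear_combination (1 - b) * h2 + hμ b hb
    exact hb1 (sub_eq_zero.1 ((pow_eq_zero_iff two_ne_zero).1 h3))
  obtain ⟨z, hz⟩ := exists_hyp hB hN hy
  obtain ⟨y', -, hy', h'⟩ := exists_ne_zero_orth (B := B) ⊤ ![e, f, y, z] (by simp; omega)
  have b1 : B e y' = 0 := (alt_eq_zero_comm hB).1 (h' 0)
  have b2 : B f y' = 0 := (alt_eq_zero_comm hB).1 (h' 1)
  have b3 : B y y' = 0 := (alt_eq_zero_comm hB).1 (h' 2)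
  have b4 : B y' z = 0 := h' 3
  have K2 : ∀ w, w ≠ 0 → B e w = 0 → B f w = 0 → ∀ c k, tvI hB y c • ω₀ = tvI hB e k • ω₀ →
      tvI hB w c • ω₀ = tvI hB e k • ω₀ := fun w hw w1 w2 c k hk => by
    obtain ⟨g, -, g1, g2, rfl⟩ := exists_fix_pair hB hN hef hy hw hy1 hy2 w1 w2
    obtain ⟨j, hj⟩ := K g g1 g2
    exact shift_conj hB hy1 g1 hj hk
  refine spC_top_of_three hB h3 hy1 b1 b3 fun c => ?_
  obtain ⟨k, hk⟩ := K1 c
  refine ⟨k, hk, K2 _ hy' b1 b2 c k hk, K2 _ (fun h0 => ?_) (by simp [hy1, b1]) (by simp [hy2, b2])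
    c k hk, K2 _ (fun h0 => ?_) (by simp [hy1, b1]) (by simp [hy2, b2]) c k hk⟩
  · simpa [hz, b4] using congrArg (B · z) h0
  · simpa [hz, b4] using congrArg (B · z) h0

include hM in
/-- There is no regular orbit in a small action. -/
theorem not_typeR (hq : ∃ a : F, a ≠ 0 ∧ a ≠ 1) (hdim : 3 ≤ finrank F V)
    (hexc : (∃ μ : F, μ ≠ 0 ∧ μ ^ 2 ≠ 1) ∨ 5 ≤ finrank F V) {e : V} (he : e ≠ 0) {ω₁ : Ω}
    (hC : spC hB e ω₁ ≠ ⊤) (hT : ∀ v ∈ spT hB e ω₁, v ∈ F ∙ e) : False := by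
  obtain ⟨x, hp⟩ := OPair.exists_right hB hN hdim he
  obtain ⟨f, hxf, hef⟩ := (hp.symm hB).exists_dual hB hN
  obtain ⟨ω, h0, hW⟩ := exists_fixed_of_typeR hB hN hψ hQ hm hq hexc hp hef hxf hC hT
  rw [← spC_eq_of_mem hB h0] at hC
  rw [← spT_eq_of_mem hB h0] at hT
  have hfe : B f e = -1 := by rw [alt_neg hB, hef]
  have hex := hp.orth
  have hxe : B x e = 0 := (alt_eq_zero_comm hB).1 hex
  have hfx : B f x = 0 := (alt_eq_zero_comm hB).1 hxf
  have hx0 : x ≠ 0 := (hp.symm hB).ne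
  obtain ⟨π, hπ⟩ : ∃ π : V → V, ∀ v, π v = v + B f v • e - B e v • f := ⟨_, fun _ => rfl⟩
  have π1 : ∀ v, B e (π v) = 0 := fun v => by simp [hπ, alt_self hB, hef]
  have π2 : ∀ v, B f (π v) = 0 := fun v => by simp [hπ, alt_self hB, hfe]
  have π3 : ∀ w v, B e w = 0 → B f w = 0 → B w (π v) = B w v := fun w v h1 h2 => by
    simp [hπ, (alt_eq_zero_comm hB).1 h1, (alt_eq_zero_comm hB).1 h2]
  have hdual : ∀ w, w ≠ 0 → B e w = 0 → B f w = 0 → ∃ w', B e w' = 0 ∧ B f w' = 0 ∧ B w w' = 1 :=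
    fun w hw h1 h2 => by
      obtain ⟨z, hz⟩ := exists_hyp hB hN hw
      exact ⟨π z, π1 z, π2 z, by rw [π3 w z h1 h2, hz]⟩
  by_cases hE : ∃ y, spC hB y ω = ⊤ ∧ π y ≠ 0 ∧ y - π y ≠ 0
  · obtain ⟨y, hy, hw, hp0⟩ := hE
    set p := y - π y with hpd
    have hp' : p = B e y • f - B f y • e := by rw [hpd, hπ]; abel
    have hle : TG hB (B.orthogonal (Submodule.span F {e, f})) ≤ spM (B := B) ω :=
      (TG_le_iff hB).2 fun v hv => (mem_cen hB).1 ((mem_cen_spM hB).2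
        (hW v (hv e (Submodule.subset_span (by simp))) (hv f (Submodule.subset_span (by simp)))))
    have c1 : ∀ w, w ≠ 0 → B e w = 0 → B f w = 0 → spC hB (w + p) ω = ⊤ := fun w h0 h1 h2 => by
      obtain ⟨g, hg, g1, g2, g3⟩ := exists_fix_pair hB hN hef hw h0 (π1 y) (π2 y) h1 h2
      have := spC_smul hB g y ω
      rwa [(mem_spM g).1 (hle hg), hy, show y = π y + p by rw [hpd]; abel, map_add, g3, hp',
        map_sub, map_smul, map_smul, g1, g2, ← hp'] at this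
    have c0 : ∀ w, B e w = 0 → B f w = 0 → B p w = 0 := fun w h1 h2 => by simp [hp', h1, h2]
    have c2 : spC hB p ω = ⊤ := (mem_cen_spM hB).1 (mem_cen_of_radical hB hq (x := π y)
      ((alt_eq_zero_comm hB).1 (c0 _ (π1 y) (π2 y))) fun a => (mem_cen_spM hB).2 (by
        by_cases ha : a = 0
        · simpa [ha] using hW _ (π1 y) (π2 y)
        · have := spC_smul_left_eq_top hB (c1 (a⁻¹ • π y) (smul_ne_zero (inv_ne_zero ha) hw)
            (by simp [π1]) (by simp [π2])) a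
          rwa [smul_add, smul_inv_smul₀ ha] at this))
    refine not_full_of_typeR hB hN hM hC hT hp0 (spFull_of hB c2 fun v hv => ?_)
    have c3 : π v ∈ spT hB p ω := by
      by_cases h0 : π v = 0
      · rw [h0]; exact zero_mem _
      refine ⟨c0 _ (π1 v) (π2 v), 1, ?_⟩
      have a1 : tvI hB (p + π v) 1 • ω = ω := by
        rw [add_comm]; exact (c1 _ h0 (π1 v) (π2 v) ▸ AddSubgroup.mem_top 1 : 1 ∈ spC hB _ ω)
      have a2 : tvI hB (π v) 1 • ω = ω :=
        (hW _ (π1 v) (π2 v) ▸ AddSubgroup.mem_top 1 : 1 ∈ spC hB _ ω)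
      rwa [tvI_add hB (c0 _ (π1 v) (π2 v)), mul_smul, a2, one_smul] at a1
    have c4 : ∃ s : F, v = π v + s • p := by
      have a1 : B e y * B f v = B f y * B e v := by
        simpa [hp', sub_eq_zero] using hv
      by_cases h1 : B e y = 0
      · have h2 : B f y ≠ 0 := fun h2 => hp0 (by simp [hp', h1, h2])
        have h3 : B e v = 0 := by simpa [h1, h2] using a1
        refine ⟨B f v / B f y, ?_⟩
        rw [hπ, hp', h1, h3]
        match_scalars <;> field_simp <;> ring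
      · refine ⟨B e v / B e y, ?_⟩
        have h3 : B f v = B f y * B e v / B e y := by rw [← a1]; field_simp
        rw [hπ, hp', h3]
        match_scalars <;> field_simp <;> ring
    obtain ⟨s, hs⟩ := c4
    rw [hs]
    exact add_mem c3 (smul_self_mem_spT hB p ω s)
  push Not at hE
  have HW : ∀ g : Isom B, g • ω = ω → ∀ w, B e w = 0 → B f w = 0 →
      B e (g.1 w) = 0 ∧ B f (g.1 w) = 0 := by
    intro g hg w h1 h2
    have hE' : ∀ w, B e w = 0 → B f w = 0 → spC hB (g.1 w) ω = ⊤ := fun w h1 h2 => by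
      have := spC_smul hB g w ω
      rwa [hg, hW w h1 h2] at this
    have hE'' : ∀ w, B e w = 0 → B f w = 0 → ¬ (B e (g.1 w) = 0 ∧ B f (g.1 w) = 0) →
        g.1 w = B e (g.1 w) • f - B f (g.1 w) • e := fun w h1 h2 hn => by
      by_cases h0 : π (g.1 w) = 0
      · rw [hπ] at h0
        rw [← sub_eq_zero, ← h0]
        abel
      · rw [sub_eq_zero.1 (hE _ (hE' w h1 h2) h0)] at hn
        exact (hn ⟨π1 _, π2 _⟩).elim
    by_contra hn
    have a1 := hE'' w h1 h2 hn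
    obtain ⟨w', b1, b2, b3⟩ := hdual w (fun h => hn (by simp [h])) h1 h2
    rw [← isom_apply g] at b3
    have a2 := hE'' w' b1 b2 fun h => by rw [a1] at b3; simp [h.1, h.2] at b3
    have a3 := hE' (B e (g.1 w') • w - B e (g.1 w) • w') (by simp [h1, b1]) (by simp [h2, b2])
    rw [map_sub, map_smul, map_smul] at a3
    have a4 : B e (g.1 w) * B f (g.1 w') - B f (g.1 w) * B e (g.1 w') = 1 := by
      rw [← b3]
      conv_rhs => rw [a1]
      simp
    have a5 : B e (g.1 w') • g.1 w - B e (g.1 w) • g.1 w' = e := by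
      generalize B e (g.1 w) = α, B f (g.1 w) = β, B e (g.1 w') = α', B f (g.1 w') = β' at *
      rw [a1, a2]
      match_scalars
      · ring
      · linear_combination a4
    exact hC (a5 ▸ a3)
  set u := x + e with hu
  have heu : B e u = 0 := by simp [hu, hex, alt_self hB]
  have hfu : B f u = -1 := by simp [hu, hfx, hfe]
  have hux : B u x = 0 := by simp [hu, hex, alt_self hB]
  have hu0 : u ≠ 0 := fun h => by simp [h] at hfu
  have hπu : π u = x := by rw [hπ, heu, hfu, hu]; simp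
  have hCu : spC hB u ω ≠ ⊤ := fun h => he (by
    have := hE u h (by rwa [hπu])
    rwa [hπu, hu, add_sub_cancel_left] at this)
  have hpu : OPair B u x := OPair.symm hB (OPair.of_pair_ne_zero hB hx0
    ((alt_eq_zero_comm hB).1 hux) hxf (by rw [alt_neg hB, hfu]; simp))
  have Tu : ∀ v ∈ spT hB u ω, ∃ γ ∈ spC hB e ω, v = γ • x - B f v • u := by
    rintro v ⟨hv, k, hk⟩
    have a1 := fun w h1 h2 => HW _ hk w h1 h2
    simp only [rhoI_apply hB hv, map_add, map_smul, smul_eq_mul, heu, hfu] at a1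
    have a0 : ∀ w, B e w = 0 → B w u = B w x := fun w h => by
      simp [hu, (alt_eq_zero_comm hB).1 h]
    obtain ⟨w', b1, b2, b3⟩ := hdual x hx0 hex hfx
    have a2 : B e v = 0 := by
      have := (a1 w' b1 b2).1
      rw [a0 w' b1, alt_neg hB w' x, b3, b1] at this
      simpa using this
    have a3 : π v - (B f v - k) • x = 0 := by
      by_contra hne
      obtain ⟨w, c1, c2, c3⟩ := hdual _ hne (by simp [π1, hex]) (by simp [π2, hfx])
      have := (a1 w c1 c2).2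
      rw [a0 w c1, c2] at this
      rw [alt_neg hB, map_sub, map_smul, π3 w v c1 c2, smul_eq_mul] at c3
      exact one_ne_zero (by linear_combination this - c3)
    have a4 : v = (2 * B f v - k) • x + (-B f v) • u := by
      rw [hπ, a2] at a3
      rw [← sub_eq_zero, ← a3, hu]
      module
    refine ⟨2 * B f v - k, ?_, by rw [sub_eq_add_neg, ← neg_smul]; exact a4⟩
    rw [a4, rhoI_add_smul_self hB (by simp [hux])] at hk
    have a5 := tvI_add hB (u := u) (w := -x) (by simp [hux]) (-(2 * B f v - k))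
    rw [show u + -x = e by rw [hu]; abel, neg_smul_neg] at a5
    have a6 : tvI hB (-x) (-(2 * B f v - k)) • ω = ω :=
      (hW (-x) (by simp [hex]) (by simp [hfx]) ▸ AddSubgroup.mem_top _ : _ ∈ spC hB _ ω)
    rw [← neg_mem_iff, mem_spC, a5, mul_smul, a6, ← hk]
    congr 2
    ring
  have big : ∀ x₁, OPair B u x₁ → ¬ ∀ l : F, l • x₁ ∈ spT hB u ω := fun x₁ h1 h2 => by
    obtain ⟨γ₀, -, a1⟩ := Tu x₁ (by simpa using h2 1)
    have hγ : γ₀ ≠ 0 := fun h => h1.notMem (Submodule.mem_span_singleton.2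
      ⟨-B f x₁, by rw [h, zero_smul, zero_sub] at a1; rw [neg_smul, ← a1]⟩)
    refine hC (eq_top_iff.2 fun c _ => ?_)
    obtain ⟨γ, a2, a3⟩ := Tu _ (h2 (c / γ₀))
    rw [map_smul] at a3
    nth_rw 1 [a1] at a3
    rw [smul_sub, smul_smul, smul_smul, smul_eq_mul, sub_left_inj, div_mul_cancel₀ _ hγ] at a3
    rwa [smul_left_injective F hx0 a3]
  rcases sp_trichotomy hB hN hψ hQ hm hu0 hCu with h | ⟨x₁, h1, -, h2⟩ | h
  · have : e ∉ F ∙ u := fun h' => by
      obtain ⟨s, hs⟩ := Submodule.mem_span_singleton.1 h'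
      obtain ⟨w', b1, -, b3⟩ := hdual x hx0 hex hfx
      have a1 := congrArg (B · w') hs
      have a2 := congrArg (B f) hs
      simp only [hu, map_smul, map_add, LinearMap.smul_apply, LinearMap.add_apply, b1, b3, hfx, hfe,
        smul_eq_mul] at a1 a2
      exact one_ne_zero (by linear_combination a1 + a2)
    obtain ⟨y, hy, hey⟩ := exists_orth_ne_zero hB hN this
    have huy : B u y = 0 := hy u (Submodule.mem_span_singleton_self u)
    have hpy : OPair B u y := OPair.of_pair_ne_zero hB hu0 huy ((alt_eq_zero_comm hB).1 heu)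
      fun h0 => hey ((alt_eq_zero_comm hB).1 h0)
    obtain ⟨g, g1, g2⟩ := exists_transport hB hN hpu hpy one_ne_zero
    rw [one_smul] at g1 g2
    obtain ⟨v, k, hv, hk⟩ := smul_mem_spO' hB hN hψ hQ hm hpy hCu
      (mem_spA_of_spT_le hB hN hψ h huy) (mem_spA_of_spT_le hB hN hψ h hux) g g1 g2
    have a1 := (HW ((rhoI hB u v k)⁻¹ * g) (by rw [mul_smul, ← hk, inv_smul_smul]) x hex hfx).1
    rw [isom_mul_apply, g2] at a1
    have a2 : B (((rhoI hB u v k)⁻¹).1 y) u = 0 := by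
      rw [← isom_apply (rhoI hB u v k), isom_apply_inv, rhoI_apply_self hB hv]
      exact (alt_eq_zero_comm hB).1 huy
    refine hey ?_
    rw [← isom_apply_inv (rhoI hB u v k) y, rhoI_apply hB hv, a2, map_add, map_add, a1, map_smul,
      heu]
    simp
  · refine big x₁ h1 fun l => mem_spT_of_spA hB hN hψ fun z hz => ?_
    obtain ⟨a, b, rfl⟩ := Submodule.mem_span_pair.1 (h2 z hz)
    simp [alt_self hB, (alt_eq_zero_comm hB).1 h1.orth]
  · exact big x hpu fun l => h _ (by simp [hux])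

end CL.MinDeg
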