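import Cfsg.Agent.Known.MinDegSp3

/-!
# The minimal permutation degree of `Sp_{2m}(q)`, `q ≥ 3`
-/

open Module CL.Sp
open scoped LinearAlgebra.Projectivization

namespace CL.MinDeg

variable {F V : Type*} [Field F] [AddCommGroup V] [Module F V] {B : LinearMap.BilinForm F V}
  (hB : B.IsAlt) {Ω : Type*} [MulAction (Isom B) Ω] (hN : B.Nondegenerate)
  {ψ : AddChar F ℂ} (hψ : ψ ≠ 1)

theorem card_spA_smul_le [Finite V] (g : Isom B) (e : V) (ω : Ω) :
    Nat.card (spA hB hN hψ e ω) ≤ Nat.card (spA hB hN hψ (g.1 e) (g • ω)) :=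
  Nat.card_le_card_of_injective (fun x => ⟨g.1 x, apply_mem_spA hB hN hψ g x.2⟩)
    fun _ _ h => Subtype.ext (g.1.injective (congrArg Subtype.val h))

theorem card_spA_smul [Finite V] (g : Isom B) (e : V) (ω : Ω) :
    Nat.card (spA hB hN hψ (g.1 e) (g • ω)) = Nat.card (spA hB hN hψ e ω) := by
  refine le_antisymm ?_ (card_spA_smul_le hB hN hψ g e ω)
  have := card_spA_smul_le hB hN hψ g⁻¹ (g.1 e) (g • ω)
  rwa [isom_inv_apply, inv_smul_smul] at this

theorem card_span_pair_le [Finite F] (e x : V) :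
    Nat.card (Submodule.span F ({e, x} : Set V)) ≤ Nat.card F ^ 2 := by
  rw [sq, ← Nat.card_prod]
  refine Nat.card_le_card_of_surjective (fun c : F × F => ⟨c.1 • e + c.2 • x,
    Submodule.mem_span_pair.2 ⟨_, _, rfl⟩⟩) fun u => ?_
  obtain ⟨a, b, h⟩ := Submodule.mem_span_pair.1 u.2
  exact ⟨(a, b), Subtype.ext h⟩

theorem sp_arith1 {q r n : ℕ} (hq : 2 < q) (h1 : q * r + q ^ 2 * q ≤ n + q) (h2 : 2 * n ≤ q ^ 2 * r) :
    q ^ 3 + q ^ 2 + q + 1 ≤ n := by
  obtain ⟨k, rfl⟩ := Nat.exists_eq_add_of_lt hq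
  have a4 : 2 * (2 + k + 1) + 2 ≤ r := by
    by_contra hlt
    have a5 : (2 + k + 1) ^ 2 * r = (2 + k + 1) * (k + 1) * r + 2 * ((2 + k + 1) * r) := by ring
    have a6 : (2 + k + 1) * (k + 1) * r ≤ (2 + k + 1) * (k + 1) * (2 * (2 + k + 1) + 1) :=
      Nat.mul_le_mul_left _ (by omega)
    nlinarith [Nat.zero_le (k * k), Nat.zero_le (k * k * k)]
  have a7 := Nat.mul_le_mul_left (2 + k + 1) a4
  nlinarith [Nat.zero_le (k * k), Nat.zero_le (k * k * k)]

theorem sp_arith2 {q r n : ℕ} (hq : 2 < q) (h1 : q * r + q ^ 2 * q ≤ n + q) (h2 : n ≤ q ^ 2 * r) :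
    q ^ 3 + q ^ 2 ≤ n := by
  obtain ⟨k, rfl⟩ := Nat.exists_eq_add_of_lt hq
  have a4 : 2 + k + 1 + 1 ≤ r := by
    by_contra hlt
    have a5 : (2 + k + 1) ^ 2 * r = (2 + k + 1) * (k + 2) * r + (2 + k + 1) * r := by ring
    have a6 : (2 + k + 1) * (k + 2) * r ≤ (2 + k + 1) * (k + 2) * (2 + k + 1) :=
      Nat.mul_le_mul_left _ (by omega)
    nlinarith [Nat.zero_le (k * k), Nat.zero_le (k * k * k)]
  have a7 := Nat.mul_le_mul_left (2 + k + 1) a4
  nlinarith [Nat.zero_le (k * k), Nat.zero_le (k * k * k)]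

include hN in
/-- In odd characteristic and dimension four the transvection groups meet a point stabiliser
trivially or completely. -/
theorem spC_eq_bot_of_odd [FiniteDimensional F V] (h2 : (2 : F) ≠ 0)
    (h4 : ∀ e x, OPair B e x → ∀ y, B e y = 0 → B x y = 0 → y ∈ Submodule.span F {e, x}) {ω : Ω}
    (hL : ∀ u, u ≠ 0 → spC hB u ω ≠ ⊤ → ∃ x, OPair B u x ∧ ∀ a : F, a • x ∈ spT hB u ω)
    {e : V} (he : e ≠ 0) (hC : spC hB e ω ≠ ⊤) : spC hB e ω = ⊥ := by
  refine eq_bot_iff.2 fun c hc => ?_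
  by_contra hc0
  have key : ∀ u x, spC hB u ω ≠ ⊤ → (∀ a : F, a • x ∈ spT hB u ω) → ∀ y ∈ spT hB u ω,
      B x y = 0 := fun u x h1 h3 y hy => by
    by_contra hne
    exact h1 (spC_top_of_odd hB h2 h3 hy hne)
  obtain ⟨x, hp, hx⟩ := hL e he hC
  have hx1 : x ∈ spT hB e ω := by simpa using hx 1
  obtain ⟨v, h1, h3⟩ := hp.exists_dual hB hN
  have hve : B v e = 0 := (alt_eq_zero_comm hB).1 h1
  have hv0 : v ≠ 0 := fun h => by simp [h] at h3
  have hCv : spC hB v ω ≠ ⊤ := fun h => by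
    have := (mem_spT_smul hB (tvI hB v 1)).2 hx1
    rw [tvI_apply_of_perp hB h1, (h ▸ AddSubgroup.mem_top 1 : 1 ∈ spC hB v ω), tvI_apply] at this
    simpa [alt_self hB, h3] using key e x hC hx _ this
  obtain ⟨y, hp', hy⟩ := hL v hv0 hCv
  have a1 : B y e = 0 := by
    have := (mem_spT_smul hB (tvI hB e c)).2 (show y ∈ spT hB v ω by simpa using hy 1)
    rw [tvI_apply_of_perp hB hve, (mem_spC hB).1 hc, tvI_apply] at this
    have := key v y hCv hy _ this
    simpa [alt_self hB, show c ≠ 0 from hc0] using this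
  obtain ⟨a, b, hab⟩ := Submodule.mem_span_pair.1 (h4 v y hp' e hve a1)
  obtain ⟨-, k, hk⟩ : e ∈ spT hB v ω := hab ▸ add_mem (smul_self_mem_spT hB v ω a) (hy b)
  have a2 := (mem_spT_smul hB (rhoI hB v e k)).2 hx1
  rw [hk, rhoI_apply hB hve, rhoI_apply hB hve] at a2
  simp only [alt_self hB, h1, mul_zero, add_zero, zero_smul] at a2
  have a3 := key e x hC hx _ a2
  have hxe : B x e = 0 := (alt_eq_zero_comm hB).1 hp.orth
  have a4 : k = 0 := by simpa [alt_self hB, h3, hxe] using a3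
  have a5 := rhoI_comm hB hve 1
  rw [one_smul, one_smul] at a5
  rw [a4, a5] at hk
  exact one_ne_zero (h3.symm.trans (key e x hC hx v ⟨h1, 0, hk⟩))

variable [FiniteDimensional F V] [Finite F] [Finite V] [Finite Ω] {Q : ℕ}
  (hQ : Nat.card V = Nat.card F ^ 2 * Q) (hm : Nat.card Ω < (Nat.card F + 2) * Q)

omit [Finite Ω] [Finite F] [FiniteDimensional F V] in
theorem mem_spT_of_typeL {e x : V} {ω : Ω}
    (h : ∀ u ∈ spA hB hN hψ e ω, u ∈ Submodule.span F {e, x}) {v : V} (h1 : B e v = 0)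
    (h2 : B x v = 0) : v ∈ spT hB e ω :=
  mem_spT_of_spA hB hN hψ fun z hz => by
    obtain ⟨a, b, rfl⟩ := Submodule.mem_span_pair.1 (h z hz)
    simp [(alt_eq_zero_comm hB).1 h1, (alt_eq_zero_comm hB).1 h2]

include hQ hm

theorem finrank_le_of_typeL (hq : ∃ a : F, a ≠ 0 ∧ a ≠ 1) {e x : V} (hp : OPair B e x) {ω : Ω}
    (hC : spC hB e ω ≠ ⊤) (hx : x ∈ spA hB hN hψ e ω)
    (h : ∀ u ∈ spA hB hN hψ e ω, u ∈ Submodule.span F {e, x}) :
    (∀ e x, OPair B e x → ∀ y, B e y = 0 → B x y = 0 → y ∈ Submodule.span F {e, x}) ∧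
      finrank F V ≤ 4 := by
  classical
  have h1 : ∀ y, B e y = 0 → B x y = 0 → y ∈ Submodule.span F {e, x} := fun y a1 a2 =>
    mem_span_pair_of_perp hB hN fun v b1 b2 => by
      by_contra hne
      have hT : ∀ a : F, a • y ∈ spT hB e ω := fun a =>
        mem_spT_of_typeL hB hN hψ h (by simp [a1]) (by simp [a2])
      by_cases h2 : (2 : F) = 0
      · obtain ⟨a, ha, ha1⟩ := hq
        exact hC (spC_top_of_even hB h2 ha ha1 hT b1 hne fun k =>
          smul_mem_spO' hB hN hψ hQ hm hp hC hx hx _ (tvI_apply_of_perp hB b1 k)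
            (tvI_apply_of_perp hB b2 k))
      · exact hC (spC_top_of_odd hB h2 hT (mem_spT_of_typeL hB hN hψ h b1 b2) hne)
  constructor
  · intro e' x' hp' y a1 a2
    obtain ⟨g, rfl, rfl⟩ := exists_transport hB hN hp hp' one_ne_zero
    rw [one_smul] at a1 a2 ⊢
    rw [← isom_apply_inv g y, isom_apply] at a1 a2
    obtain ⟨a, b, hab⟩ := Submodule.mem_span_pair.1 (h1 _ a1 a2)
    exact Submodule.mem_span_pair.2 ⟨a, b, by
      rw [one_smul, ← map_smul, ← map_smul, ← map_add, hab, isom_apply_inv]⟩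
  · have a1 : B.orthogonal (Submodule.span F {e, x}) ≤ Submodule.span F {e, x} := fun y hy =>
      h1 y (hy e (Submodule.subset_span (by simp))) (hy x (Submodule.subset_span (by simp)))
    have a2 := Submodule.finrank_mono a1
    have a3 := finrank_orth hN (Submodule.span F ({e, x} : Set V))
    have a4 := finrank_span_finset_le_card (R := F) ({e, x} : Finset V)
    rw [Set.finrank, Finset.coe_pair] at a4
    have := a4.trans Finset.card_le_two
    omega

variable [MulAction.IsPretransitive (Isom B) Ω] (hM : Nat.card Ω < Nat.card (ℙ F V))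
  (hfix : ∀ ω : Ω, ¬ ∀ g : Isom B, g • ω = ω)

omit hm in
include hM hfix hψ hN in
theorem succ_le_ncard_fixed (hQ2 : Q = Nat.card F ^ 2) {e x : V} (hp : OPair B e x) {ω : Ω}
    (hC : spC hB e ω = ⊤) : Nat.card F + 1 ≤ {ω : Ω | spC hB e ω = ⊤}.ncard := by
  classical
  have := Fintype.ofFinite F
  have hq : 1 < Nat.card F := Finite.one_lt_card
  have he := hp.ne
  by_cases h : ∀ x ∈ spA hB hN hψ e ω, x ∈ F ∙ e
  · have hF : SpFull hB e ω := spFull_of hB hC fun v hv => mem_spT_of_spA hB hN hψ fun x hx => by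
      obtain ⟨a, rfl⟩ := Submodule.mem_span_singleton.1 (h x hx)
      simp [(alt_eq_zero_comm hB).1 hv]
    obtain ⟨p, hp1, hp2⟩ : ∃ p, SpFull hB p ω ∧ p ∉ F ∙ e := by
      by_contra hc
      push Not at hc
      exact (le_card_of_single hB hN he hF hc).not_gt hM
    have hpe : OPair B e p := ⟨he, hp2, by
      by_contra hne
      exact hfix ω (hF.smul_eq hN hp1 hne)⟩
    obtain ⟨y, h1, h3⟩ := hp.exists_dual hB hN
    have hyx : B y x = -1 := by rw [alt_neg hB, h3]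
    set z : Option F → V := fun i => i.elim x fun t => y + t • x with hz
    have hz1 : ∀ i, OPair B e (z i) := by
      rintro (_ | t)
      · exact hp
      · exact OPair.of_pair_ne_zero hB he (by simp [hz, h1, hp.orth]) hp.orth
          (by simp [hz, hyx, alt_self hB])
    have hz2 : ∀ i j, B (z i) (z j) = 0 → i = j := by
      rintro (_ | t) (_ | s) h0
      · rfl
      · simp [hz, h3, alt_self hB] at h0
      · simp [hz, hyx, alt_self hB] at h0
      · simp only [hz, Option.elim_some, map_add, map_smul, LinearMap.add_apply,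
          LinearMap.smul_apply, alt_self hB, h3, hyx, smul_eq_mul] at h0
        exact congrArg some (by linear_combination h0)
    choose g g1 g2 using fun i => exists_transport hB hN hpe (hz1 i) one_ne_zero
    simp only [one_smul] at g1 g2
    have a1 : ∀ i, SpFull hB (z i) (g i • ω) := fun i => g2 i ▸ hp1.smul (g i)
    have := Set.ncard_le_ncard_of_injOn (s := Set.univ) (t := {ω : Ω | spC hB e ω = ⊤})
      (fun i => g i • ω) (fun i _ => by
        have := spC_smul hB (g i) e ω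
        rwa [g1, hC] at this) (fun i _ j _ hij => hz2 i j (by
        by_contra hne
        exact hfix _ ((a1 i).smul_eq hN ((show g i • ω = g j • ω from hij) ▸ a1 j) hne)))
      (Set.toFinite _)
    rwa [Set.ncard_univ, Nat.card_eq_fintype_card, Fintype.card_option,
      ← Nat.card_eq_fintype_card] at this
  · push Not at h
    obtain ⟨x₁, hx₁, hx₁'⟩ := h
    have hp₁ : OPair B e x₁ := ⟨he, hx₁', orth_of_mem_spA hB hN hψ hx₁⟩
    have := sp_count hB hN hψ he (Φ := {ω : Ω | spC hB e ω = ⊤})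
      (fun ω hω ω' h' => (spC_eq_of_mem hB h').trans hω)
      (fun c => if c = 0 then 1 else 0) (fun c => if c = 0 then 1 else 0)
      (fun c => by
        split_ifs with hc
        · exact (spO hB Ω e).one_le_mu _ (ω := ω) hC ⟨hc ▸ zero_mem _, zero_mem _⟩
        · exact Nat.zero_le _)
      (fun c x' hx' => by
        split_ifs with hc
        · obtain ⟨g, g1, g2⟩ := exists_transport hB hN hp₁ hx' one_ne_zero
          rw [one_smul] at g1 g2
          have a1 := spC_smul hB g e ω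
          have a2 := apply_mem_spA hB hN hψ g hx₁
          rw [g1] at a1 a2
          exact (spO hB Ω e).one_le_mu _ (ω := g • ω) (a1.trans hC) ⟨hc ▸ zero_mem _, g2 ▸ a2⟩
        · exact Nat.zero_le _) hQ
    simp only [Finset.sum_ite_eq', Finset.mem_univ, if_true, hQ2] at this
    nlinarith

include hM hfix in
theorem not_typeL {μ : F} (hμ0 : μ ≠ 0) (hμ : μ ^ 2 ≠ 1) (hdim : finrank F V = 4)
    (h4 : ∀ e x, OPair B e x → ∀ y, B e y = 0 → B x y = 0 → y ∈ Submodule.span F {e, x})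
    (hR : ∀ e, e ≠ 0 → ∀ ω : Ω, spC hB e ω ≠ ⊤ → ¬ ∀ v ∈ spT hB e ω, v ∈ F ∙ e)
    {e x : V} (hp : OPair B e x) {ω : Ω} (hC : spC hB e ω ≠ ⊤) (hx : x ∈ spA hB hN hψ e ω) :
    False := by
  classical
  have := Fintype.ofFinite F
  have he := hp.ne
  have hμ1 : μ ≠ 1 := fun h => hμ (by simp [h])
  have hq : 2 < Nat.card F := by
    rw [Nat.card_eq_fintype_card]
    exact Fintype.two_lt_card_iff.2 ⟨0, 1, μ, zero_ne_one, hμ0.symm, hμ1.symm⟩
  have hQ2 : Q = Nat.card F ^ 2 := by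
    rw [Module.natCard_eq_pow_finrank (K := F) (V := V), hdim,
      show Nat.card F ^ 4 = Nat.card F ^ 2 * Nat.card F ^ 2 by ring] at hQ
    exact (Nat.eq_of_mul_eq_mul_left (by positivity) hQ).symm
  have hM' : Nat.card Ω < Nat.card F ^ 3 + Nat.card F ^ 2 + Nat.card F + 1 := by
    rw [Projectivization.card_of_finrank F V hdim] at hM
    simp only [Finset.sum_range_succ, Finset.sum_range_zero, pow_zero, pow_one] at hM
    omega
  -- the structure of the orbits of line type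
  have hLA : ∀ (ω : Ω) x, OPair B e x → spC hB e ω ≠ ⊤ → x ∈ spA hB hN hψ e ω →
      ∀ u ∈ spA hB hN hψ e ω, u ∈ Submodule.span F {e, x} := fun ω x hp hC hx =>
    (spA_structure hB hN hψ hp hx fun x hp hx y k h1 h2 => spA_eq_of_mem hB hN hψ
      (smul_mem_spO' hB hN hψ hQ hm hp hC hx hx _ (tvI_apply_of_perp hB h1 k)
        (tvI_apply_of_perp hB h2 k))).resolve_left fun h =>
      hR e he ω hC fun v hv => spT_le_of_spA hB hN hψ h hv
  have hLD : ∀ (ω : Ω) x, OPair B e x → spC hB e ω ≠ ⊤ → x ∈ spA hB hN hψ e ω →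
      spD hB hψ e ω = ⊤ := fun ω x hp hC hx => by
    by_cases h2 : (2 : F) = 0
    · exact spD_eq_top_of_two hB hN hψ hQ hm h2 hp hC hx
    rw [spD, spC_eq_bot_of_odd hB hN h2 h4 (fun u hu hCu => ?_) he hC, Pairing.ann_bot]
    rcases sp_trichotomy hB hN hψ hQ hm hu hCu with h | ⟨y, h1, -, h3⟩ | h
    · exact (hR u hu ω hCu h).elim
    · exact ⟨y, h1, fun a => mem_spT_of_typeL hB hN hψ h3 (by simp [h1.orth])
        (by simp [alt_self hB])⟩
    · obtain ⟨y, h1⟩ := OPair.exists_right hB hN (by omega) hu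
      exact ⟨y, h1, fun a => h _ (by simp [h1.orth])⟩
  set Φ : Set Ω := {ω | spC hB e ω ≠ ⊤ ∧ ∃ x ∈ spA hB hN hψ e ω, x ∉ F ∙ e} with hΦd
  have hΦ : (spO hB Ω e).Inv Φ := fun ω hω ω' h' => by
    simpa only [hΦd, Set.mem_ofPred_eq, spC_eq_of_mem hB h', spA_eq_of_mem hB hN hψ h'] using hω
  have hΦD : ∀ ω ∈ Φ, spD hB hψ e ω = ⊤ := fun ω ⟨h1, x, h2, h3⟩ =>
    hLD ω x ⟨he, h3, orth_of_mem_spA hB hN hψ h2⟩ h1 h2
  have htr : ∀ x', OPair B e x' → ∃ g : Isom B, g.1 e = e ∧ g • ω ∈ Φ ∧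
      x' ∈ spA hB hN hψ e (g • ω) := fun x' hx' => by
    obtain ⟨g, g1, g2⟩ := exists_transport hB hN hp hx' one_ne_zero
    rw [one_smul] at g1 g2
    have a1 := spC_smul hB g e ω
    have a2 := apply_mem_spA hB hN hψ g hx
    rw [g1] at a1 a2
    rw [g2] at a2
    exact ⟨g, g1, ⟨a1 ▸ hC, x', a2, hx'.notMem⟩, a2⟩
  have hcount := sp_count hB hN hψ he hΦ (fun _ => ((spO hB Ω e).cl '' Φ).ncard) (fun _ => 1)
    (fun c => ((spO hB Ω e).mu_eq_ncard (spY hB hN hψ e) (i := (c, 0)) fun ω hω =>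
      ⟨hΦD ω hω ▸ AddSubgroup.mem_top c, zero_mem _⟩).ge)
    (fun c x' hx' => by
      obtain ⟨g, -, a1, a2⟩ := htr x' hx'
      exact (spO hB Ω e).one_le_mu _ a1 ⟨hΦD _ a1 ▸ AddSubgroup.mem_top c, a2⟩) hQ
  simp only [Finset.sum_const, Finset.card_univ, smul_eq_mul, mul_one, hQ2,
    ← Nat.card_eq_fintype_card] at hcount
  have hsize : ∀ ω' ∈ Φ, ((spO hB Ω e).cl ω').ncard ≤ Nat.card (spA hB hN hψ e ω) := by
    rintro ω' hω'
    have a1 := card_spD_mul hB hN hψ he ω'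
    rw [hΦD ω' hω', AddSubgroup.card_top] at a1
    rw [← Nat.eq_of_mul_eq_mul_left (by omega) a1]
    obtain ⟨h1, x', h2, h3⟩ := hω'
    have hp' : OPair B e x' := ⟨he, h3, orth_of_mem_spA hB hN hψ h2⟩
    obtain ⟨g, g1, a2, a3⟩ := htr x' hp'
    have a4 := card_spA_smul hB hN hψ g e ω
    rw [g1] at a4
    rw [spA_eq_of_mem hB hN hψ (mem_spO_of_labels hB hN hψ hQ hm hp' one_ne_zero
      (hΦD _ a2 ▸ AddSubgroup.mem_top _) a3 (hLD ω' x' hp' h1 h2 ▸ AddSubgroup.mem_top _) h2), a4]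
  have hle := (spO hB Ω e).ncard_le_mul hΦ hsize
  have hAle : spA hB hN hψ e ω ≤ (Submodule.span F ({e, x} : Set V)).toAddSubgroup :=
    hLA ω x hp hC hx
  have hsp := card_span_pair_le (F := F) e x
  have hΦle : Φ.ncard ≤ Nat.card Ω := by
    rw [← Set.ncard_univ]; exact Set.ncard_le_ncard (Set.subset_univ _) (Set.toFinite _)
  generalize ((spO hB Ω e).cl '' Φ).ncard = r at hcount hle
  by_cases hA : spA hB hN hψ e ω = (Submodule.span F ({e, x} : Set V)).toAddSubgroup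
  swap
  · obtain ⟨j, hj⟩ := AddSubgroup.card_dvd_of_le hAle
    have hj' : Nat.card (Submodule.span F ({e, x} : Set V)) = Nat.card (spA hB hN hψ e ω) * j := hj
    have a1 : 2 ≤ j := by
      rcases j with _ | _ | j
      · exact absurd hj' Nat.card_pos.ne'
      · exact (hA (AddSubgroup.eq_of_le_of_card_ge hAle (by omega))).elim
      · omega
    have a2 : 2 * Nat.card (spA hB hN hψ e ω) ≤ Nat.card F ^ 2 := by nlinarith
    have a3 : 2 * Φ.ncard ≤ Nat.card F ^ 2 * r := by nlinarith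
    have := sp_arith1 hq hcount a3
    omega
  have hAs : ∀ a : F, ∀ u ∈ spA hB hN hψ e ω, a • u ∈ spA hB hN hψ e ω := fun a u hu => by
    rw [hA] at hu ⊢
    exact Submodule.smul_mem _ a hu
  have hbig : Nat.card F ^ 3 + Nat.card F ^ 2 ≤ Φ.ncard := by
    have a2 : Nat.card (spA hB hN hψ e ω) ≤ Nat.card F ^ 2 :=
      (AddSubgroup.card_le_of_le hAle).trans hsp
    exact sp_arith2 hq hcount (hle.trans (Nat.mul_le_mul_right _ a2))
  -- the torus argument
  obtain ⟨f, hxf, hef⟩ := (hp.symm hB).exists_dual hB hN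
  obtain ⟨h, hh⟩ := exists_torus hB hN hef hμ0
  have hxe : B x e = 0 := (alt_eq_zero_comm hB).1 hp.orth
  have hfx : B f x = 0 := (alt_eq_zero_comm hB).1 hxf
  have hD := hLD ω x hp hC hx
  obtain ⟨ω₀, h0, hK⟩ := sp_torus hB hef hμ1 h hh
    (smul_mem_spO hB hN hψ hQ hm hp (inv_ne_zero hμ0) one_ne_zero (hD ▸ AddSubgroup.mem_top _) hx
      (hD ▸ AddSubgroup.mem_top _) (hAs μ x hx) h
      (by rw [map_smul, hh, hef, alt_self hB]; match_scalars <;> field_simp <;> ring)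
      (by rw [inv_smul_smul₀ hμ0, hh, hxf, hxe]; simp))
    fun v _ hv => mem_spT_of_spA hB hN hψ fun u hu => by
      have := CL.LS.eq_zero_of_forall_psi hψ (c := (μ - 1) * B v u) fun t => by
        simpa [mul_left_comm] using (mem_spA hB hN hψ).1 (hAs t u hu) _ hv
      exact (mul_eq_zero.1 this).resolve_left (sub_ne_zero.2 hμ1)
  rw [← spC_eq_of_mem hB h0] at hC
  rw [← spA_eq_of_mem hB hN hψ h0] at hx hAs
  obtain ⟨g, -, g1, g2, g3⟩ := exists_fix_pair hB hN hef (hp.symm hB).ne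
    (smul_ne_zero hμ0 (hp.symm hB).ne) hp.orth hfx (by simp [hp.orth]) (by simp [hfx])
  have hE : spC hB x ω₀ = ⊤ := spC_top_of_sq hB hp.orth g1 hμ g3
    (hK g g1 g2 (smul_mem_spO' hB hN hψ hQ hm hp hC hx (hAs μ⁻¹ x hx) g g1
      (by rw [map_smul, g3, inv_smul_smul₀ hμ0])))
    fun c => hK _ (tvI_apply_of_perp hB hp.orth c) (tvI_apply_of_perp hB hfx c)
      (smul_mem_spO' hB hN hψ hQ hm hp hC hx hx _ (tvI_apply_of_perp hB hp.orth c)
        (tvI_apply_of_perp hB (alt_self hB x) c))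
  obtain ⟨g', hg'⟩ := exists_isomI hB hN (hp.symm hB).ne he
  have a1 := spC_smul hB g' x ω₀
  rw [hg', hE] at a1
  have a2 := succ_le_ncard_fixed hB hN hψ hQ hM hfix hQ2 hp a1
  have a3 := Set.ncard_union_eq (s := Φ) (t := {ω : Ω | spC hB e ω = ⊤})
    (Set.disjoint_left.2 fun ω h1 h2 => h1.1 h2) (Set.toFinite _) (Set.toFinite _)
  have a4 : (Φ ∪ {ω : Ω | spC hB e ω = ⊤}).ncard ≤ Nat.card Ω := by
    rw [← Set.ncard_univ]; exact Set.ncard_le_ncard (Set.subset_univ _) (Set.toFinite _)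
  omega

omit hQ hm hψ in
include hM hB hN in
theorem sp_exists_fixed [Nonempty Ω] (hq : 3 ≤ Nat.card F) (hdim : 4 ≤ finrank F V)
    (hexc : ¬ (finrank F V = 4 ∧ Nat.card F = 3)) : ∃ ω : Ω, ∀ g : Isom B, g • ω = ω := by
  classical
  by_contra hfix
  rw [not_exists] at hfix
  obtain ⟨ψ, hψ⟩ := CL.LS.exists_psi_complex (F := F)
  have hQ : Nat.card V = Nat.card F ^ 2 * Nat.card F ^ (finrank F V - 2) := by
    rw [← pow_add, Nat.add_sub_cancel' (by omega), Module.natCard_eq_pow_finrank (K := F)]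
  generalize Nat.card F ^ (finrank F V - 2) = Q at hQ
  have hm : Nat.card Ω < (Nat.card F + 2) * Q := by
    refine hM.trans_le ?_
    have h1 := Projectivization.card' F V
    obtain ⟨q, hq'⟩ := Nat.exists_eq_add_of_le hq
    rw [hQ, hq', show 3 + q - 1 = q + 2 by omega] at h1
    rw [hq']
    refine Nat.le_of_mul_le_mul_right (c := q + 2) ?_ (by omega)
    nlinarith [Nat.zero_le (q * Q)]
  have hq1 : ∃ a : F, a ≠ 0 ∧ a ≠ 1 := by
    by_contra hc
    push Not at hc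
    have : Nat.card F = 2 := Nat.card_eq_two_iff.2 ⟨0, 1, zero_ne_one,
      Set.eq_univ_of_forall fun a => by by_cases ha : a = 0 <;> simp [ha, hc a]⟩
    omega
  have hexc' : (∃ μ : F, μ ≠ 0 ∧ μ ^ 2 ≠ 1) ∨ 5 ≤ finrank F V := by
    by_contra hc
    push Not at hc
    have := card_le_three_of_sq hc.1
    omega
  have hR : ∀ e, e ≠ 0 → ∀ ω : Ω, spC hB e ω ≠ ⊤ → ¬ ∀ v ∈ spT hB e ω, v ∈ F ∙ e :=
    fun e he ω hC hT => not_typeR hB hN hM hψ hQ hm hq1 (by omega) hexc' he hC hT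
  have hCt : ∀ (ω : Ω) u, u ≠ 0 → spC hB u ω ≠ ⊤ → ∀ v, B u v = 0 → v ∈ spT hB u ω := by
    intro ω u hu hC
    rcases sp_trichotomy hB hN hψ hQ hm hu hC with h | ⟨x, h1, h2, h3⟩ | h
    · exact (hR u hu ω hC h).elim
    · obtain ⟨a1, a2⟩ := finrank_le_of_typeL hB hN hψ hQ hm hq1 h1 hC h2 h3
      obtain ⟨μ, hμ0, hμ⟩ := hexc'.resolve_right (by omega)
      exact (not_typeL hB hN hψ hQ hm hM hfix hμ0 hμ (by omega) a1 hR h1 hC h2).elim
    · exact h
  obtain ⟨a, ha, ha1⟩ := hq1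
  have ω := Classical.arbitrary Ω
  refine hfix ω (smul_eq_of_spC hB hN fun e he => ?_)
  by_cases h2 : (2 : F) = 0
  · exact spC_top_of_central hB hN h2 ha ha1 (by omega) (hCt ω) he
  by_contra hC
  obtain ⟨x, hp⟩ := OPair.exists_right hB hN (by omega) he
  obtain ⟨y, h1, h3⟩ := hp.exists_dual hB hN
  exact hC (spC_top_of_odd hB h2 (fun a => hCt ω e he hC (a • x) (by simp [hp.orth]))
    (hCt ω e he hC y h1) (by simp [h3]))

end CL.MinDeg
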