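import Cfsg.Agent.Known.MinDegSp4

/-!
# The minimal permutation degree of `Sp_{2m}(2)`, `m ≥ 3`
-/

open Module CL.Sp
open scoped LinearAlgebra.Projectivization

namespace CL.MinDeg

section Two

variable {F : Type*} [Field F]

theorem eq_zero_or_one_of_card (h : Nat.card F = 2) (c : F) : c = 0 ∨ c = 1 := by
  obtain ⟨y, -, hy⟩ := (Nat.card_eq_two_iff' (0 : F)).1 h
  by_cases hc : c = 0
  · exact Or.inl hc
  · exact Or.inr ((hy c hc).trans (hy 1 one_ne_zero).symm)

theorem two_eq_zero_of_card (h : Nat.card F = 2) : (2 : F) = 0 :=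
  (eq_zero_or_one_of_card h 2).resolve_right fun h2 => one_ne_zero (by linear_combination h2 : (1 : F) = 0)

/-- The square of the Gauss sum of a quadratic function over the field with two elements. -/
theorem gauss_sq [Finite F] (h : Nat.card F = 2) {A : Type*} [AddCommGroup A] [Finite A] (κ : A → F)
    (β : A → A → F) (hβ : ∀ x y w, β (x + y) w = β x w + β y w)
    (hκ : ∀ v w, κ (v + w) = κ v + κ w + β v w) (hr : ∀ w, (∀ v, β v w = 0) → κ w = 0) :
    ((2 * {v | κ v = 0}.ncard : ℤ) - Nat.card A) ^ 2 = Nat.card A * {w | ∀ v, β v w = 0}.ncard := by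
  classical
  have := Fintype.ofFinite A
  obtain ⟨ψ, hψ⟩ := CL.LS.exists_psi_complex (F := F)
  have h2 := two_eq_zero_of_card h
  have h1 : ψ 1 ≠ 1 := fun h1 => hψ (AddChar.ext _ _ fun c => by
    rcases eq_zero_or_one_of_card h c with rfl | rfl <;> simp [h1])
  have h3 : ψ 1 = -1 := by
    have : ψ 1 * ψ 1 = 1 := by rw [← AddChar.map_add_eq_mul, one_add_one_eq_two, h2]; simp
    exact (mul_self_eq_one_iff.1 this).resolve_left h1
  have hs : ∑ v, ψ (κ v) = 2 * ({v | κ v = 0}.ncard : ℂ) - Nat.card A := by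
    have : ∀ v, ψ (κ v) = (if κ v = 0 then 2 else 0) - 1 := fun v => by
      rcases eq_zero_or_one_of_card h (κ v) with h0 | h0 <;> norm_num [h0, h3]
    rw [Finset.sum_congr rfl fun v _ => this v, Finset.sum_sub_distrib, ← Finset.sum_filter,
      Finset.sum_const, Finset.sum_const, Finset.card_univ, Nat.card_eq_fintype_card,
      Set.ncard_eq_toFinset_card', Set.toFinset_ofPred]
    simp [mul_comm]
  have hsq : (∑ v, ψ (κ v)) ^ 2 = Nat.card A * ({w | ∀ v, β v w = 0}.ncard : ℂ) := by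
    have a1 : ∀ v, ψ (κ v) * ∑ w, ψ (κ w) = ∑ w, ψ (κ w) * ψ (β v w) := fun v => by
      rw [← Equiv.sum_comp (Equiv.addLeft v), Finset.mul_sum]
      refine Finset.sum_congr rfl fun w _ => ?_
      rw [Equiv.coe_addLeft, hκ, ← AddChar.map_add_eq_mul, ← AddChar.map_add_eq_mul]
      congr 1
      linear_combination κ v * h2
    have a2 : ∀ w, ∑ v, ψ (κ w) * ψ (β v w) =
        if ∀ v, β v w = 0 then (Nat.card A : ℂ) else 0 := fun w => by
      split_ifs with hw
      · simp [hw, hr w hw]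
      · push Not at hw
        obtain ⟨c, hc⟩ := hw
        rw [← Finset.mul_sum, Pairing.sum_eq_zero_of_mul (fun v => ψ (β v w))
          (fun x y => by rw [hβ, AddChar.map_add_eq_mul]) (c := c)
          (by rwa [(eq_zero_or_one_of_card h _).resolve_left hc]), mul_zero]
    rw [sq, Finset.sum_mul, Finset.sum_congr rfl fun v _ => a1 v, Finset.sum_comm,
      Finset.sum_congr rfl fun w _ => a2 w, ← Finset.sum_filter, Finset.sum_const,
      Set.ncard_eq_toFinset_card', Set.toFinset_ofPred, nsmul_eq_mul, mul_comm]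
  rw [hs] at hsq
  exact_mod_cast hsq

end Two

variable {F V : Type*} [Field F] [AddCommGroup V] [Module F V] {B : LinearMap.BilinForm F V}
  (hB : B.IsAlt) {Ω : Type*} [MulAction (Isom B) Ω] (hN : B.Nondegenerate)
  [FiniteDimensional F V]

include hB hN

theorem exists_hyp_perp (h5 : 5 ≤ finrank F V) (u v : V) :
    ∃ y w, B u y = 0 ∧ B v y = 0 ∧ B u w = 0 ∧ B v w = 0 ∧ B y w = 1 := by
  classical
  have : ¬ B.orthogonal (Submodule.span F {u, v}) ≤ Submodule.span F {u, v} := fun a1 => by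
    have a2 := Submodule.finrank_mono a1
    have a3 := finrank_orth hN (Submodule.span F ({u, v} : Set V))
    have a4 := finrank_span_finset_le_card (R := F) ({u, v} : Finset V)
    rw [Set.finrank, Finset.coe_pair] at a4
    have := a4.trans Finset.card_le_two
    omega
  obtain ⟨y, hy, hy'⟩ := SetLike.not_le_iff_exists.1 this
  obtain ⟨w, h1, h2, h3⟩ := exists_perp_pair hB hN hy'
  exact ⟨y, w, hy u (Submodule.subset_span (by simp)), hy v (Submodule.subset_span (by simp)),
    h1, h2, h3⟩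

omit hN [FiniteDimensional F V] in
theorem eq_zero_of_mem_spC (h : Nat.card F = 2) {e : V} {ω : Ω} (hC : spC hB e ω ≠ ⊤) {c : F}
    (hc : c ∈ spC hB e ω) : c = 0 :=
  (eq_zero_or_one_of_card h c).resolve_right fun h1 => hC (eq_top_iff.2 fun d _ => by
    rcases eq_zero_or_one_of_card h d with rfl | rfl
    · exact zero_mem _
    · exact h1 ▸ hc)

theorem spC_top_of_central_two (h : Nat.card F = 2) (h5 : 5 ≤ finrank F V) {ω : Ω}
    (hT : ∀ u, u ≠ 0 → ∀ v, B u v = 0 → v ∈ spT hB u ω) {e : V} (he : e ≠ 0) :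
    spC hB e ω = ⊤ := by
  have E1 : ∀ u v, u ≠ 0 → v ≠ 0 → B v u = 0 → spC hB u ω = ⊤ → spC hB v ω = ⊤ := by
    intro u v hu hv h0 hE
    by_cases hm : v ∈ F ∙ u
    · exact spC_top_of_mem_span hB hE hm
    by_contra hn
    have hp : OPair B v u := (OPair.mk hu hm ((alt_eq_zero_comm hB).1 h0)).symm hB
    obtain ⟨y, y1, y2⟩ := hp.exists_dual hB hN
    have y3 : B y u = -1 := by rw [alt_neg hB, y2]
    obtain ⟨-, c, hc⟩ := hT v hv y y1
    have h4 := congrArg (tvI hB u 1 • ·) hc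
    simp only [smul_rhoI, (mem_spC hB).1 (hE ▸ AddSubgroup.mem_top 1 : 1 ∈ spC hB u ω),
      tvI_apply_of_perp hB h0] at h4
    rw [tvI_apply, y3] at h4
    have h6 := rhoI_fix_sub hB y1 (by simp [h0]) hc h4
    have h7 := spFull_of hB hE (hT u hu) ((1 * -1 : F) • v) 0
      (by simp [(alt_eq_zero_comm hB).1 h0])
    rw [← rhoI_comm hB h0] at h7
    simpa [y3] using eq_zero_of_mem_spC hB h hn (sub_mem_spC hB h6 h7)
  by_contra hn
  have E2 : ∀ u, u ≠ 0 → spC hB u ω ≠ ⊤ := fun u hu hE => by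
    obtain ⟨z, -, hz, h⟩ := exists_ne_zero_orth (B := B) ⊤ ![u, e] (by simp; omega)
    exact hn (E1 z e hz he ((alt_eq_zero_comm hB).1 (h 1)) (E1 u z hu hz (h 0) hE))
  have Z : ∀ u v, OPair B v u → ∀ k, rhoI hB v u k • ω = ω → k = 0 := by
    intro u v hp k hk
    obtain ⟨y, w, a1, a2, a3, a4, a5⟩ := exists_hyp_perp hB hN h5 u v
    obtain ⟨-, c, hc⟩ := hT v hp.ne y a2
    obtain ⟨-, d, hd⟩ := hT u (hp.symm hB).ne w a3
    have h4 := congrArg (rhoI hB u w d • ·) hc
    simp only [smul_rhoI, hd, rhoI_apply hB a3, a4, a5, hp.orth, (alt_eq_zero_comm hB).1 a1,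
      mul_zero, add_zero, zero_smul, one_smul] at h4
    have h6 := rhoI_fix_sub hB a2 hp.orth hc h4
    simpa [(alt_eq_zero_comm hB).1 a1] using
      eq_zero_of_mem_spC hB h (E2 v hp.ne) (sub_mem_spC hB hk h6)
  obtain ⟨x, hp⟩ := OPair.exists_right hB hN (by omega) he
  obtain ⟨y, h1, h3⟩ := hp.exists_dual hB hN
  have hyx : B y x = -1 := by rw [alt_neg hB, h3]
  obtain ⟨-, c, hc⟩ := hT e he x hp.orth
  obtain ⟨-, d, hd⟩ := hT e he y h1
  have a1 := Z x e hp c hc
  have a2 := Z y e (OPair.of_pair_ne_zero hB he h1 hp.orth (by simp [hyx])) d hd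
  have a3 := Z (x + y) e (OPair.of_pair_ne_zero hB he (by simp [hp.orth, h1]) hp.orth
    (by simp [hyx, alt_self hB])) _ (rhoI_fix_add hB hp.orth h1 hc hd)
  simp [a1, a2, h3] at a3

variable [Finite F] [Finite V] [Finite Ω]

theorem le_ncard_moved_two (h : Nat.card F = 2) {a : ℕ} (ha : Nat.card V = 4 * a ^ 2) {e : V}
    (he : e ≠ 0) {ω : Ω} (hC : spC hB e ω ≠ ⊤) (hT : ∀ v, B e v = 0 → v ∈ spT hB e ω) :
    a ^ 2 ≤ {ω : Ω | spC hB e ω ≠ ⊤}.ncard + a := by
  have h2 := two_eq_zero_of_card h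
  choose κ hκ using fun v : LinearMap.ker (B e) => (hT v v.2).2
  have U : ∀ (v : LinearMap.ker (B e)) c, rhoI hB e v c • ω = ω → c = κ v := fun v c hc =>
    sub_eq_zero.1 (eq_zero_of_mem_spC hB h hC (sub_mem_spC hB hc (hκ v)))
  have hadd : ∀ v w, κ (v + w) = κ v + κ w + B v w := fun v w => by
    rw [← U (v + w) _ (rhoI_fix_add hB v.2 w.2 (hκ v) (hκ w))]
    linear_combination (-B v w) * h2
  have hee : B e e = 0 := alt_self hB e
  have hs : ∀ c : F, ∀ hc, κ ⟨c • e, hc⟩ = 0 := fun c hc =>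
    (U ⟨c • e, hc⟩ 0 (by rw [rhoI_self, h2, zero_mul, add_zero, tvI_zero, one_smul])).symm
  have hk0 : κ 0 = 0 := by simpa using hadd 0 0
  have hrad : ∀ w : LinearMap.ker (B e), (∀ v : LinearMap.ker (B e), B v w = 0) ↔
      (w : V) ∈ F ∙ e := fun w =>
    ⟨fun hw => mem_span_of_perp hB hN fun y hy => (alt_eq_zero_comm hB).1 (hw ⟨y, hy⟩),
      fun hw v => by
        obtain ⟨c, hc⟩ := Submodule.mem_span_singleton.1 hw
        rw [← hc, map_smul, (alt_eq_zero_comm hB).1 v.2, smul_zero]⟩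
  have hg := gauss_sq h κ (fun v w => B v w) (fun x y w => by simp) hadd fun w hw => by
    obtain ⟨c, hc⟩ := Submodule.mem_span_singleton.1 ((hrad w).1 hw)
    obtain ⟨w, hw'⟩ := w
    subst hc
    exact hs c _
  have c1 : Nat.card (LinearMap.ker (B e)) = 2 * a ^ 2 := by
    have := card_perp hN he
    rw [h, ha] at this
    change Nat.card (LinearMap.ker (B e)) * 2 = _ at this
    omega
  have c2 : {w : LinearMap.ker (B e) | ∀ v : LinearMap.ker (B e), B v w = 0}.ncard = 2 := by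
    rw [Set.ncard_eq_two]
    refine ⟨0, ⟨e, hee⟩, fun h0 => he (congrArg Subtype.val h0).symm, ?_⟩
    ext w
    simp only [Set.mem_ofPred_eq, hrad, Submodule.mem_span_singleton, Set.mem_insert_iff,
      Set.mem_singleton_iff, Subtype.ext_iff]
    constructor
    · rintro ⟨c, hc⟩
      rcases eq_zero_or_one_of_card h c with rfl | rfl <;> simp [← hc]
    · rintro (h0 | h0)
      · exact ⟨0, by simp [h0]⟩
      · exact ⟨1, by simp [h0]⟩
  rw [c1, c2] at hg
  have c3 : a ^ 2 ≤ {v | κ v = 0}.ncard + a := by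
    have := abs_le_of_sq_le_sq' (b := 2 * (a : ℤ)) (hg.trans_le (by push_cast; nlinarith))
      (by positivity)
    have := this.1
    push_cast at this
    zify
    linarith
  refine c3.trans (Nat.add_le_add_right ?_ a)
  have k1 : ∀ y : LinearMap.ker (B e), κ y = 0 → ∀ v : LinearMap.ker (B e),
      rhoI hB e v (κ v + B v y) • tvI hB y 1 • ω = tvI hB y 1 • ω := fun y hy v => by
    have a1 : κ (v + B v y • y) = κ v + B v y := by
      rw [hadd]
      rcases eq_zero_or_one_of_card h (B v y) with h0 | h0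
      · simp [h0, hk0]
      · simp [h0, hy]
    have a2 := congrArg (tvI hB y 1 • ·) (hκ (v + B v y • y))
    simp only [smul_rhoI, tvI_apply_of_perp hB y.2, a1] at a2
    rw [tvI_apply] at a2
    simp only [Submodule.coe_add, Submodule.coe_smul, map_add, map_smul, LinearMap.add_apply,
      LinearMap.smul_apply, alt_self hB, smul_zero, add_zero, one_mul] at a2
    rwa [add_assoc, ← add_smul, ← two_mul, h2, zero_mul, zero_smul, add_zero] at a2
  have k2 : ∀ y : LinearMap.ker (B e), spC hB e (tvI hB y 1 • ω) ≠ ⊤ := fun y => by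
    have := spC_smul hB (tvI hB y 1) e ω
    rw [tvI_apply_of_perp hB y.2] at this
    rwa [this]
  refine Set.ncard_le_ncard_of_injOn (fun y => tvI hB y 1 • ω) (fun y _ => k2 y)
    (fun y hy y' hy' hyy => ?_) (Set.toFinite _)
  have hyy : tvI hB (y : V) 1 • ω = tvI hB (y' : V) 1 • ω := hyy
  obtain ⟨c, hc⟩ := Submodule.mem_span_singleton.1 ((hrad (y' - y)).1 fun v => by
    have := eq_zero_of_mem_spC hB h (k2 y) (sub_mem_spC hB (hyy ▸ k1 y' hy' v) (k1 y hy v))
    simpa using this)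
  rcases eq_zero_or_one_of_card h c with rfl | rfl
  · exact Subtype.ext (sub_eq_zero.1 (by simpa using hc.symm)).symm
  · have a1 : (y' : V) = e + y := by
      rw [one_smul, Submodule.coe_sub] at hc
      exact (eq_sub_iff_add_eq.1 hc).symm
    rw [a1, tvI_add hB y.2, mul_smul, one_smul] at hyy
    have := eq_zero_of_mem_spC hB h (k2 y) (sub_mem_spC hB hyy.symm (k1 y hy y))
    simp [show κ y = 0 from hy, alt_self hB] at this

theorem sp_two_exists_fixed [Nonempty Ω] (h : Nat.card F = 2) (h5 : 5 ≤ finrank F V) {a : ℕ}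
    (ha : Nat.card V = 4 * a ^ 2) (ha2 : 2 ≤ a) (hM : Nat.card Ω + a < 2 * a ^ 2) :
    ∃ ω : Ω, ∀ g : Isom B, g • ω = ω := by
  classical
  have := Fintype.ofFinite F
  by_contra hfix
  rw [not_exists] at hfix
  obtain ⟨ψ, hψ⟩ := CL.LS.exists_psi_complex (F := F)
  have hQ : Nat.card V = Nat.card F ^ 2 * a ^ 2 := by rw [h, ha]; norm_num
  have hβ : ∀ e x, OPair B e x → ∑ c, spMu hB hN hψ e (Set.univ : Set Ω) c x ≤ 1 := fun e x hp => by
    have := sum_spMu_le hB hN hψ hQ (Ω := Ω) hp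
    by_contra hlt
    have := Nat.mul_le_mul_left (a ^ 2) (not_le.1 hlt)
    omega
  have hA : ∀ e x, OPair B e x → ∀ ω : Ω, x ∈ spA hB hN hψ e ω → spC hB e ω = ⊤ := by
    intro e x hp ω hx
    by_contra hC
    obtain ⟨c, hc, hc0⟩ := exists_mem_spD hB hψ hC
    have a1 := Finset.sum_le_sum_of_subset
      (f := fun c => spMu hB hN hψ e (Set.univ : Set Ω) c x) (Finset.subset_univ {0, c})
    rw [Finset.sum_pair hc0.symm] at a1
    have a2 : 1 ≤ spMu hB hN hψ e (Set.univ : Set Ω) 0 x :=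
      (spO hB Ω e).one_le_mu _ (Set.mem_univ ω) ⟨zero_mem _, hx⟩
    have a3 : 1 ≤ spMu hB hN hψ e (Set.univ : Set Ω) c x :=
      (spO hB Ω e).one_le_mu _ (Set.mem_univ ω) ⟨hc, hx⟩
    have := hβ e x hp
    omega
  have hT : ∀ e, ∀ ω : Ω, (∀ x ∈ spA hB hN hψ e ω, x ∈ F ∙ e) → ∀ v, B e v = 0 →
      v ∈ spT hB e ω := fun e ω h v hv => mem_spT_of_spA hB hN hψ fun x hx => by
    obtain ⟨a, rfl⟩ := Submodule.mem_span_singleton.1 (h x hx)
    simp [(alt_eq_zero_comm hB).1 hv]
  by_cases hb : ∀ e, e ≠ 0 → ∀ ω : Ω, ∀ x ∈ spA hB hN hψ e ω, x ∈ F ∙ e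
  · have ω := Classical.arbitrary Ω
    exact hfix ω (smul_eq_of_spC hB hN fun e he =>
      spC_top_of_central_two hB hN h h5 (fun u hu => hT u ω (hb u hu ω)) he)
  push Not at hb
  obtain ⟨e, he, ω, x, hx, hx'⟩ := hb
  have hp : OPair B e x := ⟨he, hx', orth_of_mem_spA hB hN hψ hx⟩
  by_cases hR : ∃ ω : Ω, ∀ v, B e v = 0 → v ∈ spA hB hN hψ e ω
  · obtain ⟨ω₁, h1⟩ := hR
    obtain ⟨ω₂, h2⟩ : ∃ ω : Ω, spC hB e ω ≠ ⊤ := by
      by_contra hc
      push Not at hc
      refine hfix ω (smul_eq_of_spC hB hN fun u hu => ?_)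
      obtain ⟨g, hg⟩ := exists_isomI hB hN hu he
      rw [← spC_smul hB g, hg, hc]
    have a1 := le_ncard_moved_two hB hN h ha he h2 (hT e ω₂ fun y hy => by
      by_contra hn
      exact h2 (hA e y ⟨he, hn, orth_of_mem_spA hB hN hψ hy⟩ ω₂ hy))
    have a2 := card_spD_mul hB hN hψ he ω₁
    have a3 := hA e x hp ω₁ (h1 x hp.orth)
    rw [(spC_eq_top_iff hB hψ).1 a3, AddSubgroup.card_bot, one_mul, h] at a2
    have a4 := card_perp hN he
    have a5 : Nat.card {v // B e v = 0} ≤ Nat.card (spA hB hN hψ e ω₁) :=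
      Nat.card_le_card_of_injective (fun v => ⟨v.1, h1 v.1 v.2⟩) fun _ _ h =>
        Subtype.ext (Subtype.mk.inj h)
    have a6 := Set.ncard_union_eq (s := (spO hB Ω e).cl ω₁) (t := {ω : Ω | spC hB e ω ≠ ⊤})
      (Set.disjoint_left.2 fun ω h1 h2 => h2 ((spC_eq_of_mem hB h1).trans a3)) (Set.toFinite _)
      (Set.toFinite _)
    have a7 : ((spO hB Ω e).cl ω₁ ∪ {ω : Ω | spC hB e ω ≠ ⊤}).ncard ≤ Nat.card Ω := by
      rw [← Set.ncard_univ]; exact Set.ncard_le_ncard (Set.subset_univ _) (Set.toFinite _)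
    rw [h, ha] at a4
    omega
  set Φ : Set Ω := {ω | ∃ x ∈ spA hB hN hψ e ω, x ∉ F ∙ e} with hΦd
  have hΦ : (spO hB Ω e).Inv Φ := fun ω hω ω' h' => by
    simpa only [hΦd, Set.mem_ofPred_eq, spA_eq_of_mem hB hN hψ h'] using hω
  have hcount := sp_count hB hN hψ he hΦ
    (fun c => if c = 0 then ((spO hB Ω e).cl '' Φ).ncard else 0) (fun c => if c = 0 then 1 else 0)
    (fun c => by
      split_ifs with hc
      · exact ((spO hB Ω e).mu_eq_ncard (spY hB hN hψ e) (i := (c, 0)) fun ω _ =>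
          ⟨hc ▸ zero_mem _, zero_mem _⟩).ge
      · exact Nat.zero_le _)
    (fun c x' hx' => by
      split_ifs with hc
      · obtain ⟨g, g1, g2⟩ := exists_transport hB hN hp hx' one_ne_zero
        rw [one_smul] at g1 g2
        have a2 := apply_mem_spA hB hN hψ g hx
        rw [g1, g2] at a2
        exact (spO hB Ω e).one_le_mu _ (ω := g • ω) ⟨x', a2, hx'.notMem⟩ ⟨hc ▸ zero_mem _, a2⟩
      · exact Nat.zero_le _) hQ
  simp only [Finset.sum_ite_eq', Finset.mem_univ, if_true] at hcount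
  have hle := (spO hB Ω e).ncard_le_mul hΦ (k := 2) (by
    rintro ω' ⟨y, hy, hy'⟩
    have hp' : OPair B e y := ⟨he, hy', orth_of_mem_spA hB hN hψ hy⟩
    have a1 := (spA_structure hB hN hψ hp' hy fun z hz hzA w k h1 h2 => by
      have b1 := apply_mem_spA hB hN hψ (tvI hB w k) hzA
      rw [tvI_apply_of_perp hB h1, tvI_apply_of_perp hB h2] at b1
      refine spA_eq_of_mem hB hN hψ ((spO hB Ω e).mem_cl_of_mu_le_one (spY hB hN hψ e)
        (i := (0, z)) (le_trans ?_ (hβ e z hz)) (Set.mem_univ _) (Set.mem_univ _)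
        ⟨zero_mem _, hzA⟩ ⟨zero_mem _, b1⟩)
      exact Finset.single_le_sum (f := fun c => spMu hB hN hψ e (Set.univ : Set Ω) c z)
        (fun _ _ => Nat.zero_le _) (Finset.mem_univ 0)).resolve_left fun h => hR ⟨ω', h⟩
    have a2 := card_spD_mul hB hN hψ he ω'
    rw [(spC_eq_top_iff hB hψ).1 (hA e y hp' ω' hy), AddSubgroup.card_bot, one_mul, h] at a2
    have a3 : Nat.card (spA hB hN hψ e ω') ≤ Nat.card F ^ 2 :=
      (AddSubgroup.card_le_of_le (show spA hB hN hψ e ω' ≤
        (Submodule.span F ({e, y} : Set V)).toAddSubgroup from a1)).trans (card_span_pair_le e y)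
    rw [h] at a3
    omega)
  have hΦle : Φ.ncard ≤ Nat.card Ω := by
    rw [← Set.ncard_univ]; exact Set.ncard_le_ncard (Set.subset_univ _) (Set.toFinite _)
  omega

omit [Finite Ω] in
/-- The stabiliser of a quadratic form of minus type. -/
theorem sp_two_exists_index (h : Nat.card F = 2) {a : ℕ} (ha : Nat.card V = 4 * a ^ 2) (ha1 : 1 ≤ a)
    (κ₀ : V → F) (h₀ : ∀ v w, κ₀ (v + w) = κ₀ v + κ₀ w + B v w) :
    ∃ H : Subgroup (Isom B), H.index + a = 2 * a ^ 2 := by
  have h2 := two_eq_zero_of_card h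
  have hz : ∀ κ : V → F, (∀ v w, κ (v + w) = κ v + κ w + B v w) → κ 0 = 0 := fun κ hκ => by
    simpa using hκ 0 0
  have hflip : ∀ κ : V → F, (∀ v w, κ (v + w) = κ v + κ w + B v w) → ∀ y, κ y ≠ 0 →
      {v | κ v + B v y = 0}.ncard + {v | κ v = 0}.ncard = 4 * a ^ 2 := fun κ hκ y hy => by
    rw [← ha, ← Set.ncard_add_ncard_compl {v | κ v = 0}, add_comm]
    congr 1
    refine Set.ncard_congr (fun v _ => v + y) (fun v hv => ?_) (fun _ _ _ _ h => add_right_cancel h)
      fun v hv => ⟨v + y, ?_, ?_⟩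
    · rw [Set.mem_compl_iff, Set.mem_ofPred_eq, hκ, add_right_comm, show κ v + B v y = 0 from hv,
        zero_add]
      exact hy
    · rw [Set.mem_ofPred_eq, hκ, (eq_zero_or_one_of_card h _).resolve_left hy,
        (eq_zero_or_one_of_card h (κ v)).resolve_left hv, map_add, LinearMap.add_apply, alt_self hB]
      linear_combination (1 + B v y) * h2
    · rw [add_assoc, ← two_smul F, h2, zero_smul, add_zero]
  obtain ⟨κ, hκ, hn⟩ : ∃ κ : V → F, (∀ v w, κ (v + w) = κ v + κ w + B v w) ∧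
      {v | κ v = 0}.ncard + a = 2 * a ^ 2 := by
    have hg := gauss_sq h κ₀ (fun v w => B v w) (fun x y w => by simp) h₀ fun w hw => by
      rw [hN.2 w hw, hz κ₀ h₀]
    have c2 : {w : V | ∀ v, B v w = 0}.ncard = 1 := by
      rw [Set.ncard_eq_one]
      exact ⟨0, Set.eq_singleton_iff_unique_mem.2 ⟨fun v => map_zero _, fun w hw => hN.2 w hw⟩⟩
    rw [c2, ha] at hg
    rcases sq_eq_sq_iff_eq_or_eq_neg.1 (hg.trans (by push_cast; ring : _ = (2 * (a : ℤ)) ^ 2))
      with h3 | h3
    · have : ¬ ∀ y, κ₀ y = 0 := fun hc => by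
        rw [Set.eq_univ_of_forall (s := {v | κ₀ v = 0}) hc, Set.ncard_univ, ha] at h3
        push_cast at h3
        nlinarith
      push Not at this
      obtain ⟨y, hy⟩ := this
      refine ⟨fun v => κ₀ v + B v y, fun v w => by simp only [h₀, map_add, LinearMap.add_apply]; ring,
        ?_⟩
      have := hflip κ₀ h₀ y hy
      push_cast at h3
      zify at this ⊢
      linarith
    · refine ⟨κ₀, h₀, ?_⟩
      push_cast at h3
      zify
      linarith
  let : MulAction (Isom B) (V → F) := arrowAction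
  refine ⟨MulAction.stabilizer (Isom B) κ, ?_⟩
  rw [MulAction.index_stabilizer, ← hn]
  congr 1
  have hinj : Function.Injective fun y v => κ v + B v y := fun y y' h => by
    refine sub_eq_zero.1 (hN.2 _ fun v => ?_)
    rw [map_sub, add_left_cancel (congrFun h v), sub_self]
  rw [← Set.ncard_image_of_injective _ hinj]
  congr 1
  ext κ'
  constructor
  · rintro ⟨g, rfl⟩
    have hg : ∀ v, (g • κ) v = κ ((g⁻¹).1 v) := fun v => rfl
    obtain ⟨y, hy⟩ := (B.toDual hN).surjective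
      { toFun := fun v => κ ((g⁻¹).1 v) - κ v
        map_add' := fun v w => by simp only [map_add, hκ, isom_apply]; ring
        map_smul' := fun c v => by
          rcases eq_zero_or_one_of_card h c with rfl | rfl <;> simp [hz κ hκ] }
    have hy' : ∀ v, κ v + B v y = κ ((g⁻¹).1 v) := fun v => by
      have : B y v = κ ((g⁻¹).1 v) - κ v := LinearMap.congr_fun hy v
      rw [alt_neg hB, this]
      linear_combination (κ v - κ ((g⁻¹).1 v)) * h2
    refine ⟨y, ?_, funext hy'⟩
    by_contra hne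
    have a1 := hflip κ hκ y hne
    have a2 : {v | κ v + B v y = 0}.ncard = {v | κ v = 0}.ncard :=
      Set.ncard_congr (fun v _ => (g⁻¹).1 v) (fun v hv => (hy' v).symm.trans hv)
        (fun _ _ _ _ h => (g⁻¹).1.injective h) fun v hv => ⟨g.1 v, by
          rw [Set.mem_ofPred_eq, hy', isom_inv_apply]; exact hv, isom_inv_apply g v⟩
    omega
  · rintro ⟨y, hy, rfl⟩
    refine ⟨(tvI hB y 1)⁻¹, funext fun v => ?_⟩
    change κ (((tvI hB y 1)⁻¹⁻¹).1 v) = κ v + B v y
    rw [inv_inv, tvI_apply, hκ]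
    rcases eq_zero_or_one_of_card h (B v y) with h0 | h0
    · simp [h0, hz κ hκ]
    · simp [h0, show κ y = 0 from hy]

omit [FiniteDimensional F V] [Finite F] [Finite V] [Finite Ω] in
theorem center_le_of_two (h2 : (2 : F) = 0) (H : Subgroup (Isom B)) : Subgroup.center _ ≤ H := by
  intro g hg
  have : g = 1 := Subtype.ext (((mem_center_isom_iff hB hN g).1 hg).elim id fun h => by
    rw [h]
    ext v
    change -v = v
    rw [neg_eq_iff_add_eq_zero, ← two_smul F, h2, zero_smul])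
  exact this ▸ H.one_mem

omit [Finite F] [Finite V] [Finite Ω] in
theorem exists_index_points [Nontrivial V] :
    ∃ H : Subgroup (Isom B), Subgroup.center _ ≤ H ∧ H.index = Nat.card (ℙ F V) := by
  obtain ⟨p, hp⟩ := exists_ne (0 : V)
  refine ⟨MulAction.stabilizer (Isom B) (Projectivization.mk F p hp), fun g hg => ?_, ?_⟩
  · have hgp : g.1 p ≠ 0 := by simpa using hp
    change Projectivization.mk F (g.1 p) hgp = _
    rw [Projectivization.mk_eq_mk_iff']
    rcases (mem_center_isom_iff hB hN g).1 hg with h | h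
    · exact ⟨1, by simp [h]⟩
    · exact ⟨-1, by simp [h]⟩
  · have h2 : MulAction.orbit (Isom B) (Projectivization.mk F p hp) = Set.univ := by
      refine Set.eq_univ_of_forall fun x => ?_
      induction x using Projectivization.ind with
      | h v hv =>
        obtain ⟨g, hg⟩ := exists_isomI hB hN hp hv
        exact ⟨g, by subst hg; rfl⟩
    rw [MulAction.index_stabilizer, h2, Set.ncard_univ]

omit hB hN [FiniteDimensional F V] [Finite F] [Finite Ω] in
theorem finite_isom : Finite (Isom B) :=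
  Finite.of_injective (fun g : Isom B => (g.1 : V → V)) fun _ _ h =>
    Subtype.ext (DFunLike.coe_injective h)

omit hB hN in
/-- Transfer of the minimal degree to the projective symplectic group. -/
theorem psp_of_isom {F : Type*} [Field F] {m N : ℕ}
    (h : ∀ H : Subgroup (Isom (stdForm (Fin m) F)), H ≠ ⊤ → N ≤ H.index)
    (h' : ∃ H : Subgroup (Isom (stdForm (Fin m) F)), Subgroup.center _ ≤ H ∧ H.index = N) :
    (∀ H : Subgroup (Cfsg.PSp m F), H ≠ ⊤ → N ≤ H.index) ∧
      ∃ H : Subgroup (Cfsg.PSp m F), H.index = N := by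
  obtain ⟨h1, H, h2⟩ := minDeg_quotient_center h h'
  have e := (quotientCenterCongr (spEquiv (Fin m) F)).symm
  exact ⟨le_index_of_surjective e.toMonoidHom e.surjective h1, H.map e.toMonoidHom, by
    rw [index_map_of_ker_le _ e.surjective (by rw [e.toMonoidHom.ker_eq_bot_iff.2 e.injective]; exact bot_le), h2]⟩

end CL.MinDeg
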