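/-
Minimal degrees of unitary groups, I: orbits of the Heisenberg group at a hyperbolic pair.
-/
import Cfsg.Agent.Known.MinDegO2
import Cfsg.Agent.Cls.UniMax2
import Cfsg.Agent.Cls.QuadFamilies

set_option autoImplicit false
set_option linter.unusedSectionVars false

open Module CL.Uni
open scoped Pointwise

namespace CL.MinU

variable {F V : Type*} [Field F] {q : ℕ} {σ : F →+* F} [AddCommGroup V] [Module F V] [FiniteDimensional F V]
  {B : V →ₛₗ[σ] V →ₗ[F] F}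

/-- A hyperbolic pair. -/
structure Hyp (B : V →ₛₗ[σ] V →ₗ[F] F) (e f : V) : Prop where
  left : B e e = 0
  right : B f f = 0
  eq : B e f = 1
  eq' : B f e = 1

theorem Hyp.symm {e f : V} (h : Hyp B e f) : Hyp B f e := ⟨h.right, h.left, h.eq', h.eq⟩

theorem Hyp.ne_zero {e f : V} (h : Hyp B e f) : e ≠ 0 := by
  rintro rfl
  have := h.eq
  simp at this

/-- The complement of a hyperbolic pair in `U`. -/
def hcp (B : V →ₛₗ[σ] V →ₗ[F] F) (U : Submodule F V) (e f : V) : Submodule F V :=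
  U ⊓ LinearMap.ker (B e) ⊓ LinearMap.ker (B f)

theorem mem_hcp {U : Submodule F V} {e f x : V} : x ∈ hcp B U e f ↔ x ∈ U ∧ B e x = 0 ∧ B f x = 0 := and_assoc

theorem hcp_le {U : Submodule F V} {e f : V} : hcp B U e f ≤ U := fun _ h => (mem_hcp.1 h).1

theorem Hyp.proj_mem {U : Submodule F V} {e f x : V} (h : Hyp B e f) (he : e ∈ U) (hf : f ∈ U) (hx : x ∈ U) :
    x - B f x • e - B e x • f ∈ hcp B U e f :=
  mem_hcp.2 ⟨U.sub_mem (U.sub_mem hx (U.smul_mem _ he)) (U.smul_mem _ hf), by simp [h.left, h.eq],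
    by simp [h.right, h.eq']⟩

theorem finrank_hcp {U : Submodule F V} {e f : V} (h : Hyp B e f) (he : e ∈ U) (hf : f ∈ U) :
    finrank F (hcp B U e f) + 2 = finrank F U := by
  have h1 := CL.Cls.finrank_inf_ker_add_one U (B e) hf (by rw [h.eq]; exact one_ne_zero)
  have h2 := CL.Cls.finrank_inf_ker_add_one (U ⊓ LinearMap.ker (B e)) (B f) (x := e) ⟨he, h.left⟩
    (by rw [h.eq']; exact one_ne_zero)
  unfold hcp
  omega

/-- Nondegeneracy of a subspace. -/
def ND (B : V →ₛₗ[σ] V →ₗ[F] F) (U : Submodule F V) : Prop := ∀ u ∈ U, (∀ v ∈ U, B u v = 0) → u = 0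

theorem nd_top (h : IsHerm B q) : ND B ⊤ := fun u _ hu => h.nondeg u fun v => hu v trivial

theorem ND.disjoint (h : IsHerm B q) {U : Submodule F V} (hU : ND B U) : Disjoint U (perp B U) :=
  h.disjoint_perp_iff.2 hU

theorem ND.hcp (h : IsHerm B q) {U : Submodule F V} (hU : ND B U) {e f : V} (hef : Hyp B e f) (he : e ∈ U)
    (hf : f ∈ U) : ND B (hcp B U e f) := fun u hu h0 => hU u (hcp_le hu) fun v hv => by
  have h1 := h0 _ (hef.proj_mem he hf hv)
  simpa [h.flip_zero (mem_hcp.1 hu).2.1, h.flip_zero (mem_hcp.1 hu).2.2] using h1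

theorem ND.exists_eq {U : Submodule F V} (hU : ND B U) {u : V} (hu : u ∈ U) (hu0 : u ≠ 0) (c : F) :
    ∃ v ∈ U, B u v = c := by
  obtain ⟨v, hv, h⟩ : ∃ v ∈ U, B u v ≠ 0 := by
    by_contra h; push Not at h; exact hu0 (hU u hu h)
  exact ⟨(c / B u v) • v, U.smul_mem _ hv, by rw [map_smul, smul_eq_mul, div_mul_cancel₀ _ h]⟩

theorem ND.exists_hyp (h : IsHerm B q) {U : Submodule F V} (hU : ND B U) {u : V} (hu : u ∈ U) (hu0 : u ≠ 0)
    (huu : B u u = 0) : ∃ v ∈ U, Hyp B u v := by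
  obtain ⟨v, hv, h1, h2⟩ := h.exists_hyperbolic_mem (hU.disjoint h) hu hu0 huu
  exact ⟨v, hv, huu, h1, h2, h.flip_one h2⟩

theorem ND.exists_pair (h : IsHerm B q) {U : Submodule F V} (hU : ND B U) (h2 : 2 ≤ finrank F U) :
    ∃ u ∈ U, ∃ v ∈ U, Hyp B u v := by
  obtain ⟨u, hu, hu0, huu⟩ := h.exists_isotropic_mem (hU.disjoint h) h2
  exact ⟨u, hu, hU.exists_hyp h hu hu0 huu⟩

theorem card_sub (h : IsHerm B q) (W : Submodule F V) : Nat.card W = q ^ (2 * finrank F W) := by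
  have := h.bar.finite
  rw [Module.natCard_eq_pow_finrank (K := F), h.bar.card, ← pow_mul]

/-- The elements of trace zero. -/
def Tz (σ : F →+* F) : AddSubgroup F where
  carrier := {c | σ c = -c}
  zero_mem' := by simp
  add_mem' {a b} ha hb := by
    change σ (a + b) = -(a + b)
    rw [map_add, show σ a = -a from ha, show σ b = -b from hb, neg_add]
  neg_mem' {a} ha := by
    change σ (-a) = - -a
    rw [map_neg, show σ a = -a from ha]

theorem mem_Tz {c : F} : c ∈ Tz σ ↔ σ c = -c := Iff.rfl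

theorem card_Tz (h : IsBar σ q) : Nat.card (Tz σ) = q := h.card_trace_zero

section Heis

variable {e f : V} {U : Submodule F V} {H : Subgroup (V ≃ₗ[F] V)}

theorem eich_app_right (h : IsHerm B q) (hef : Hyp B e f) {w : V} (hw : B f w = 0) {c : F} {g : V ≃ₗ[F] V}
    (hg : IsEich B e w c g) : g f = f + w - c • e := by
  rw [hg, hef.eq, h.flip_zero hw]; simp

theorem eich_app_left (h : IsHerm B q) (he : B e e = 0) {w : V} (hw : B e w = 0) {c : F} {g : V ≃ₗ[F] V}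
    (hg : IsEich B e w c g) : g e = e := hg.fix he (h.flip_zero hw)

theorem eich_param (h : IsHerm B q) (hef : Hyp B e f) {w : V} (hw : B f w = 0) {c : F} {g : V ≃ₗ[F] V}
    (hg : IsEich B e w c g) : B f (g f) = -c ∧ g f - f - B f (g f) • e = w := by
  have h1 : B f (g f) = -c := by rw [eich_app_right h hef hw hg]; simp [hef.right, hef.eq', hw]
  exact ⟨h1, by rw [h1, eich_app_right h hef hw hg]; module⟩

/-- The transvections with centre `e` in `H`. -/
def Zs (he : B e e = 0) (H : Subgroup (V ≃ₗ[F] V)) : AddSubgroup F where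
  carrier := {c | σ c = -c ∧ ∃ g ∈ H, IsTv B e c g}
  zero_mem' := ⟨by simp, 1, H.one_mem, isTv_zero e⟩
  add_mem' := by
    rintro a b ⟨ha, g, hg, h1⟩ ⟨hb, g', hg', h2⟩
    exact ⟨(Tz σ).add_mem ha hb, _, H.mul_mem hg hg', h1.mul h2 he⟩
  neg_mem' := by
    rintro a ⟨ha, g, hg, h1⟩
    exact ⟨(Tz σ).neg_mem ha, _, H.inv_mem hg, h1.inv he⟩

theorem Zs_le (he : B e e = 0) : Zs he H ≤ Tz σ := fun _ h => h.1

/-- The image of `H ∩ Q_e` in the complement of the hyperbolic pair. -/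
def Bs (h : IsHerm B q) (he : B e e = 0) (U : Submodule F V) (f : V) (H : Subgroup (V ≃ₗ[F] V)) : AddSubgroup V where
  carrier := {w | w ∈ hcp B U e f ∧ ∃ c, c + σ c = B w w ∧ ∃ g ∈ H, IsEich B e w c g}
  zero_mem' := ⟨Submodule.zero_mem _, 0, by simp, 1, H.one_mem, isEich_zero.2 (by rw [neg_zero]; exact isTv_zero e)⟩
  add_mem' := by
    rintro a b ⟨ha, c, hc, g, hg, h1⟩ ⟨hb, c', hc', g', hg', h2⟩
    refine ⟨Submodule.add_mem _ ha hb, _, ?_, _, H.mul_mem hg hg',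
      h1.mul h2 he (h.flip_zero (mem_hcp.1 ha).2.1) (mem_hcp.1 hb).2.1⟩
    simp only [map_add, LinearMap.add_apply, h.symm]
    linear_combination hc + hc'
  neg_mem' := by
    rintro a ⟨ha, c, hc, g, hg, h1⟩
    refine ⟨Submodule.neg_mem _ ha, _, ?_, _, H.inv_mem hg,
      h1.inv he (h.flip_zero (mem_hcp.1 ha).2.1) (mem_hcp.1 ha).2.1⟩
    simp only [map_sub, map_neg, LinearMap.neg_apply, h.symm, neg_neg]
    linear_combination -hc

theorem Bs_le (h : IsHerm B q) (he : B e e = 0) {w : V} (hw : w ∈ Bs h he U f H) : w ∈ hcp B U e f := hw.1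

/-- The Heisenberg group `Q_e` of the subspace `U`. -/
def QE (h : IsHerm B q) (he : B e e = 0) (U : Submodule F V) (f : V) : Subgroup (SUG B) where
  carrier := {g | ∃ w ∈ hcp B U e f, ∃ c, c + σ c = B w w ∧ IsEich B e w c g}
  one_mem' := ⟨0, Submodule.zero_mem _, 0, by simp, isEich_zero.2 (by rw [neg_zero]; exact isTv_zero e)⟩
  mul_mem' := by
    rintro g g' ⟨a, ha, c, hc, h1⟩ ⟨b, hb, c', hc', h2⟩
    refine ⟨_, Submodule.add_mem _ ha hb, _, ?_,
      h1.mul h2 he (h.flip_zero (mem_hcp.1 ha).2.1) (mem_hcp.1 hb).2.1⟩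
    simp only [map_add, LinearMap.add_apply, h.symm]
    linear_combination hc + hc'
  inv_mem' := by
    rintro g ⟨a, ha, c, hc, h1⟩
    refine ⟨_, Submodule.neg_mem _ ha, _, ?_, h1.inv he (h.flip_zero (mem_hcp.1 ha).2.1) (mem_hcp.1 ha).2.1⟩
    simp only [map_sub, map_neg, LinearMap.neg_apply, h.symm, neg_neg]
    linear_combination -hc

variable {Ω : Type*} [MulAction (SUG B) Ω]

/-- The stabiliser of a point as a group of linear maps. -/
noncomputable def St (B : V →ₛₗ[σ] V →ₗ[F] F) {Ω : Type*} [MulAction (SUG B) Ω] (ω : Ω) : Subgroup (V ≃ₗ[F] V) :=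
  (MulAction.stabilizer (SUG B) ω).map (SUG B).subtype

theorem coe_mem_St {ω : Ω} {g : SUG B} : (g : V ≃ₗ[F] V) ∈ St B ω ↔ g • ω = ω :=
  Subgroup.mem_map_iff_mem (SUG B).subtype_injective

theorem St_le (ω : Ω) : St B ω ≤ SUG B := Subgroup.map_subtype_le _

theorem conj_mem_St (g : SUG B) (ω : Ω) : ∀ x ∈ St B ω, g.1 * x * g.1⁻¹ ∈ St B (g • ω) := by
  rintro _ ⟨x, hx, rfl⟩
  refine ⟨g * x * g⁻¹, ?_, rfl⟩
  rw [SetLike.mem_coe, MulAction.mem_stabilizer_iff] at hx ⊢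
  rw [mul_smul, mul_smul, inv_smul_smul, hx]

theorem card_stabilizer_QE (h : IsHerm B q) (hef : Hyp B e f) (U : Submodule F V) (ω : Ω) :
    Nat.card (MulAction.stabilizer (QE h hef.left U f) ω) =
      Nat.card (Bs h hef.left U f (St B ω)) * Nat.card (Zs hef.left (St B ω)) := by
  let φ : MulAction.stabilizer (QE h hef.left U f) ω →* Multiplicative V := MonoidHom.mk'
    (fun g => Multiplicative.ofAdd (g.1.1.1 f - f - B f (g.1.1.1 f) • e)) fun g g' => by
      obtain ⟨a, ha, c, hc, h1⟩ := g.1.2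
      obtain ⟨b, hb, c', hc', h2⟩ := g'.1.2
      have h3 := h1.mul h2 hef.left (h.flip_zero (mem_hcp.1 ha).2.1) (mem_hcp.1 hb).2.1
      rw [(eich_param h hef (mem_hcp.1 ha).2.2 h1).2, (eich_param h hef (mem_hcp.1 hb).2.2 h2).2, ← ofAdd_add]
      exact congrArg _ (eich_param h hef (mem_hcp.1 (Submodule.add_mem _ ha hb)).2.2 h3).2
  have hφ : ∀ g, φ g = Multiplicative.ofAdd (g.1.1.1 f - f - B f (g.1.1.1 f) • e) := fun _ => rfl
  rw [← φ.ker.card_mul_index, Subgroup.index_ker, mul_comm]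
  congr 1
  · refine Nat.card_congr (Equiv.subtypeEquiv Multiplicative.toAdd fun x => ⟨?_, ?_⟩)
    · rintro ⟨g, rfl⟩
      obtain ⟨a, ha, c, hc, h1⟩ := g.1.2
      rw [hφ, (eich_param h hef (mem_hcp.1 ha).2.2 h1).2]
      exact ⟨ha, c, hc, _, coe_mem_St.2 g.2, h1⟩
    · rintro ⟨ha, c, hc, _, ⟨g, hg, rfl⟩, h1⟩
      exact ⟨⟨⟨g, _, ha, c, hc, h1⟩, hg⟩, congrArg Multiplicative.ofAdd (eich_param h hef (mem_hcp.1 ha).2.2 h1).2⟩
  · have key : ∀ g : φ.ker, σ (B f (g.1.1.1.1 f)) = -B f (g.1.1.1.1 f) ∧ IsTv B e (B f (g.1.1.1.1 f)) g.1.1.1.1 := by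
      intro g
      obtain ⟨a, ha, c, hc, h1⟩ := g.1.1.2
      have h2 := eich_param h hef (mem_hcp.1 ha).2.2 h1
      have h3 := (hφ g.1).symm.trans (MonoidHom.mem_ker.1 g.2)
      rw [h2.2, ofAdd_eq_one] at h3
      subst h3
      rw [h2.1]
      exact ⟨by rw [map_neg]; simp only [map_zero] at hc; linear_combination -hc, isEich_zero.1 h1⟩
    refine Nat.card_congr (Equiv.ofBijective (fun g => ⟨B f (g.1.1.1.1 f), (key g).1, _, coe_mem_St.2 g.1.2,
      (key g).2⟩) ⟨fun g g' hg => ?_, ?_⟩)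
    · have h1 := (key g).2
      rw [show B f (g.1.1.1.1 f) = B f (g'.1.1.1.1 f) from congrArg Subtype.val hg] at h1
      exact Subtype.ext (Subtype.ext (Subtype.ext (Subtype.ext (h1.unique (key g').2))))
    · rintro ⟨c, hc, _, ⟨g, hg, rfl⟩, h1⟩
      have h2 : IsEich B e 0 (-c) g.1 := isEich_zero.2 (by rwa [neg_neg])
      have h3 := eich_param h hef (w := 0) (by simp) h2
      exact ⟨⟨⟨⟨g, 0, Submodule.zero_mem _, -c, by simp [hc], h2⟩, hg⟩, congrArg Multiplicative.ofAdd h3.2⟩,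
        Subtype.ext (h3.1.trans (neg_neg c))⟩

theorem exists_eich_SUG (h : IsHerm B q) (he : B e e = 0) {w : V} (hw : B e w = 0) :
    ∃ c, c + σ c = B w w ∧ ∃ g : SUG B, IsEich B e w c g := by
  obtain ⟨c, hc⟩ := h.bar.exists_trace_eq (h.self_fixed w)
  obtain ⟨g, hg, h1⟩ := h.exists_eich he hw hc
  exact ⟨c, hc, ⟨g, hg⟩, h1⟩

theorem card_QE (h : IsHerm B q) (hef : Hyp B e f) (U : Submodule F V) :
    Nat.card (QE h hef.left U f) = q ^ (2 * finrank F (hcp B U e f) + 1) := by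
  have h1 := card_stabilizer_QE h hef U PUnit.unit.{1}
  have h2 : MulAction.stabilizer (QE h hef.left U f) PUnit.unit.{1} = ⊤ := eq_top_iff.2 fun _ _ => rfl
  have h3 : Bs h hef.left U f (St B PUnit.unit.{1}) = (hcp B U e f).toAddSubgroup := by
    refine le_antisymm (fun _ h => h.1) fun w hw => ?_
    obtain ⟨c, hc, g, hg⟩ := exists_eich_SUG h hef.left (mem_hcp.1 hw).2.1
    exact ⟨hw, c, hc, _, coe_mem_St.2 rfl, hg⟩
  have h4 : Zs hef.left (St B PUnit.unit.{1}) = Tz σ := by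
    refine le_antisymm (Zs_le _) fun c hc => ?_
    obtain ⟨g, hg, h1⟩ := h.exists_tv hef.left hc
    exact ⟨hc, g, (coe_mem_St (g := ⟨g, hg⟩)).2 rfl, h1⟩
  rw [h2, h3, h4, Subgroup.card_top, card_Tz h.bar] at h1
  rw [h1, pow_succ, ← card_sub h]; rfl

/-- The size of an orbit of the Heisenberg group. -/
theorem ncard_orbit_QE (h : IsHerm B q) (hef : Hyp B e f) (U : Submodule F V) (ω : Ω) :
    (MulAction.orbit (QE h hef.left U f) ω).ncard * (Nat.card (Bs h hef.left U f (St B ω)) *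
      Nat.card (Zs hef.left (St B ω))) = q ^ (2 * finrank F (hcp B U e f) + 1) := by
  rw [← card_stabilizer_QE h hef, ← MulAction.index_stabilizer, mul_comm, Subgroup.card_mul_index, card_QE h hef]

theorem mul_mem_Zs_smul (he : B e e = 0) {k : SUG B} {a : F} (hk : k.1 e = a • e) {ω : Ω} {c : F}
    (h : IsBar σ q) (hc : c ∈ Zs he (St B ω)) : c * (a * σ a) ∈ Zs he (St B (k • ω)) := by
  obtain ⟨h1, g, hg, h2⟩ := hc
  refine ⟨by rw [map_mul, h1, h.norm_fixed, neg_mul], _, conj_mem_St k ω g hg, ?_⟩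
  rw [← isTv_smul, ← hk]; exact h2.conj (SUG_le_UG k.2)

theorem inv_app_of_app {k : V ≃ₗ[F] V} {x : V} {a : F} (ha : a ≠ 0) (hk : k x = a • x) : k⁻¹ x = a⁻¹ • x := by
  rw [eq_inv_smul_iff₀ ha, ← map_smul, ← hk]; exact k.symm_apply_apply x

theorem Zs_smul_of_norm (he : B e e = 0) {k : SUG B} {a : F} (hk : k.1 e = a • e) (ha : a * σ a = 1) (ω : Ω)
    (h : IsBar σ q) : Zs he (St B (k • ω)) = Zs he (St B ω) := by
  refine le_antisymm (fun c hc => ?_) fun c hc => by simpa [ha] using mul_mem_Zs_smul he hk h hc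
  have h1 := mul_mem_Zs_smul he (k := k⁻¹) (inv_app_of_app (left_ne_zero_of_mul_eq_one ha) hk) h hc
  rwa [inv_smul_smul, map_inv₀, ← mul_inv, ha, inv_one, mul_one] at h1

theorem smul_app_mem_Bs (h : IsHerm B q) (he : B e e = 0) {k : SUG B} {a : F} (hk : k.1 e = a • e) {ω : Ω} {w : V}
    (hw : w ∈ Bs h he U f (St B ω)) {t : F} (hw' : σ a • k.1 w + t • e ∈ hcp B U e f) :
    σ a • k.1 w + t • e ∈ Bs h he U f (St B (k • ω)) := by
  obtain ⟨h1, c, hc, g, hg, h2⟩ := hw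
  have h3 := h2.conj (SUG_le_UG k.2)
  rw [hk, isEich_smul h.bar_bar] at h3
  refine ⟨hw', c * (a * σ a) - σ t + t, ?_, _, conj_mem_St k ω g hg, isEich_add_smul.2 (by convert h3 using 1; ring)⟩
  have h4 : σ a * B e (k.1 w) = 0 := by
    have := SUG_le_UG k.2 e w
    rwa [hk, (mem_hcp.1 h1).2.1, map_smulₛₗ, LinearMap.smul_apply, smul_eq_mul] at this
  have h5 : a * B (k.1 w) e = 0 := by simpa [h.bar_bar, h.symm] using congrArg σ h4
  simp only [map_add, map_sub, map_mul, map_smulₛₗ, LinearMap.add_apply, LinearMap.smul_apply, h.bar_bar, smul_eq_mul,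
    RingHom.id_apply, he, SUG_le_UG k.2 w w, ← hc]
  linear_combination (-σ t) * h4 - t * h5

theorem app_mem_hcp {k : V ≃ₗ[F] V} (hk : k ∈ UG B) {a b : F} (ha : a ≠ 0) (hb : b ≠ 0) (he : k e = a • e)
    (hf : k f = b • f) {w : V} (hw : w ∈ hcp B U e f) (hU : k w ∈ U) : k w ∈ hcp B U e f := by
  have h1 := hk e w
  have h2 := hk f w
  rw [he, (mem_hcp.1 hw).2.1, map_smulₛₗ, LinearMap.smul_apply, smul_eq_zero, map_eq_zero] at h1
  rw [hf, (mem_hcp.1 hw).2.2, map_smulₛₗ, LinearMap.smul_apply, smul_eq_zero, map_eq_zero] at h2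
  exact mem_hcp.2 ⟨hU, h1.resolve_left ha, h2.resolve_left hb⟩

theorem mem_Bs_smul_iff (h : IsHerm B q) (he : B e e = 0) {k : SUG B} {a b : F} (ha : a ≠ 0) (hb : b ≠ 0)
    (hk : k.1 e = a • e) (hf : k.1 f = b • f) (hU : ∀ x, k.1 x ∈ U ↔ x ∈ U) (ω : Ω) (w : V) :
    σ a • k.1 w ∈ Bs h he U f (St B (k • ω)) ↔ w ∈ Bs h he U f (St B ω) := by
  have key : ∀ {k : SUG B} {a b : F}, a ≠ 0 → b ≠ 0 → k.1 e = a • e → k.1 f = b • f → (∀ x ∈ U, k.1 x ∈ U) →
      ∀ (ω : Ω) (w : V), w ∈ Bs h he U f (St B ω) → σ a • k.1 w ∈ Bs h he U f (St B (k • ω)) :=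
    fun ha hb hk hf hU ω w hw => by
      simpa using smul_app_mem_Bs h he hk hw (t := 0) (by
        simpa using Submodule.smul_mem _ _ (app_mem_hcp (SUG_le_UG (Subtype.prop _)) ha hb hk hf hw.1
          (hU _ (hcp_le hw.1))))
  refine ⟨fun hw => ?_, key ha hb hk hf (fun x => (hU x).2) ω w⟩
  have h1 := key (k := k⁻¹) (inv_ne_zero ha) (inv_ne_zero hb) (inv_app_of_app ha hk) (inv_app_of_app hb hf)
    (fun x hx => (hU _).1 (by simpa using hx)) _ _ hw
  have h2 : σ a ≠ 0 := (map_ne_zero σ).2 ha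
  simpa [smul_smul, h2] using h1

theorem Bs_smul_of_fix (h : IsHerm B q) (he : B e e = 0) {k : SUG B} (hk : k.1 e = e) (hf : k.1 f = f)
    (hU : ∀ x, k.1 x ∈ U ↔ x ∈ U) (ω : Ω) : Bs h he U f (St B (k • ω)) = k • Bs h he U f (St B ω) := by
  ext x
  obtain ⟨x, rfl⟩ := k.1.surjective x
  have := mem_Bs_smul_iff h he one_ne_zero one_ne_zero (hk.trans (one_smul F e).symm) (hf.trans (one_smul F f).symm)
    hU ω x
  rw [map_one, one_smul] at this
  exact this.trans (AddSubgroup.smul_mem_pointwise_smul_iff (a := k)).symm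

theorem Zs_smul_QE (h : IsHerm B q) (he : B e e = 0) (k : QE h he U f) (ω : Ω) :
    Zs he (St B (k • ω)) = Zs he (St B ω) := by
  obtain ⟨w, hw, c, -, h1⟩ := k.2
  exact Zs_smul_of_norm he (k := k.1) (a := 1) (by rw [one_smul]; exact eich_app_left h he (mem_hcp.1 hw).2.1 h1)
    (by simp) ω h.bar

theorem Bs_smul_QE (h : IsHerm B q) (he : B e e = 0) (k : QE h he U f) (ω : Ω) :
    Bs h he U f (St B (k • ω)) = Bs h he U f (St B ω) := by
  have key : ∀ (k : QE h he U f) (ω : Ω), Bs h he U f (St B ω) ≤ Bs h he U f (St B (k • ω)) := fun k ω x hx => by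
    obtain ⟨w, hw, c, -, h1⟩ := k.2
    have h2 : σ 1 • k.1.1 x + B w x • e = x := by rw [h1, (mem_hcp.1 hx.1).2.1]; simp
    have := smul_app_mem_Bs h he (k := k.1) (a := 1) (by
      rw [one_smul]; exact eich_app_left h he (mem_hcp.1 hw).2.1 h1) hx (t := B w x) (h2.symm ▸ hx.1)
    rwa [h2] at this
  exact le_antisymm (by simpa using key k⁻¹ (k • ω)) (key k ω)

end Heis

end CL.MinU
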