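/-
Minimal degrees of unitary groups, II: small additive subgroups of a hermitian space have many conjugates.
-/
import Cfsg.Agent.Known.MinDegU1

set_option autoImplicit false
set_option linter.unusedSectionVars false

open Module CL.Uni CL.MinD
open scoped Pointwise

namespace CL.MinU

variable {F V : Type*} [Field F] {q : ℕ} {σ : F →+* F} [AddCommGroup V] [Module F V] [FiniteDimensional F V]
  {B : V →ₛₗ[σ] V →ₗ[F] F}

/-- The pairing defined by a nontrivial additive character and the hermitian form. -/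
noncomputable def hermPair (h : IsHerm B q) (θ : AddChar F ℂ) (hθ : ∃ t, θ t ≠ 1) {W : Submodule F V} (hW : ND B W) :
    Pairing W W where
  χ a b := θ (B (a : V) b)
  add_left a a' b := by rw [Submodule.coe_add, map_add, LinearMap.add_apply, AddChar.map_add_eq_mul]
  add_right a b b' := by rw [Submodule.coe_add, map_add, AddChar.map_add_eq_mul]
  zero_left b := by simp
  zero_right b := by simp
  nd_left a ha := by
    by_contra h0
    obtain ⟨t, ht⟩ := hθ
    obtain ⟨v, hv, h1⟩ := hW.exists_eq a.2 (by simpa using h0) t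
    exact ht (h1 ▸ ha ⟨v, hv⟩)
  nd_right a ha := by
    by_contra h0
    obtain ⟨t, ht⟩ := hθ
    obtain ⟨v, hv, h1⟩ := hW.exists_eq a.2 (by simpa using h0) (σ t)
    have h2 := ha ⟨v, hv⟩
    rw [← h.symm, h1, h.bar_bar] at h2
    exact ht h2

theorem card_comap_subtype {W : Submodule F V} {S : AddSubgroup V} (hS : ∀ x ∈ S, x ∈ W) :
    Nat.card (S.comap W.subtype.toAddMonoidHom) = Nat.card S :=
  Nat.card_congr ⟨fun x => ⟨x.1.1, x.2⟩, fun x => ⟨⟨x.1, hS _ x.2⟩, x.2⟩, fun _ => rfl, fun _ => rfl⟩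

theorem card_le_of_isotropic (h : IsHerm B q) (θ : AddChar F ℂ) (hθ : ∃ t, θ t ≠ 1) {W : Submodule F V} (hW : ND B W)
    {S : AddSubgroup V} (hS : ∀ x ∈ S, x ∈ W) (h1 : ∀ x ∈ S, ∀ y ∈ S, θ (B x y) = 1) :
    Nat.card S ≤ q ^ finrank F W := by
  have := h.finite
  have h2 := (hermPair h θ hθ hW).card_mul_card_ann (S.comap W.subtype.toAddMonoidHom)
  have h3 := AddSubgroup.card_le_of_le (show S.comap W.subtype.toAddMonoidHom ≤
    (hermPair h θ hθ hW).ann (S.comap W.subtype.toAddMonoidHom) from fun x hx y hy => h1 _ hx _ hy)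
  rw [card_comap_subtype hS] at h2 h3
  rw [card_sub h, two_mul, pow_add] at h2
  exact Nat.mul_self_le_mul_self_iff.1 (h2 ▸ Nat.mul_le_mul_left _ h3)

theorem exists_addChar_ne (F : Type*) [Field F] [Finite F] : ∃ θ : AddChar F ℂ, ∃ t, θ t ≠ 1 := by
  obtain ⟨ψ, hψ⟩ := exists_addChar F
  refine ⟨ψ, by_contra fun h => ?_⟩
  push Not at h
  exact one_ne_zero (hψ 1 fun c => h _)

theorem exists_torus (h : IsHerm B q) {e f y : V} (hef : Hyp B e f) (he : B e y = 0) (hf : B f y = 0) (hy : B y y ≠ 0)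
    {a : F} (ha : a ≠ 0) : ∃ g : SUG B, g.1 e = a • e ∧ g.1 f = (σ a)⁻¹ • f ∧ g.1 y = (σ a / a) • y ∧
      ∀ x, B e x = 0 → B f x = 0 → B y x = 0 → g.1 x = x := by
  have ha' : σ a ≠ 0 := (map_ne_zero σ).2 ha
  obtain ⟨g, hg, h1, h2, h3, h4⟩ := h.exists_diag hef.left hef.right hef.eq ha
  obtain ⟨k, hk, h5, h6, h7⟩ := h.exists_reflection hy (a := σ a / a) (by rw [map_div₀, h.bar_bar]; field_simp)
  refine ⟨⟨g * k, mem_SUG.2 ⟨(UG B).mul_mem hg hk, by rw [map_mul, h4, h7]; field_simp⟩⟩, ?_, ?_, ?_,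
    fun x hx hx' hx'' => ?_⟩ <;> change g (k _) = _
  · rw [h6 e (h.flip_zero he), h1]
  · rw [h6 f (h.flip_zero hf), h2]
  · rw [h5, map_smul, h3 y he hf]
  · rw [h6 x hx'', h3 x hx hx']

/-- The special unitary group of a subspace. -/
def KW (B : V →ₛₗ[σ] V →ₗ[F] F) (W : Submodule F V) : Subgroup (SUG B) where
  carrier := {g | ∀ x ∈ perp B W, g.1 x = x}
  one_mem' _ _ := rfl
  mul_mem' {g k} hg hk x hx := by
    change g.1 (k.1 x) = x
    rw [hk x hx, hg x hx]
  inv_mem' {g} hg x hx := by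
    conv_lhs => rw [← hg x hx]
    exact g.1.symm_apply_apply x

theorem KW_app_mem_iff (h : IsHerm B q) {W : Submodule F V} {g : SUG B} (hg : g ∈ KW B W) (x : V) :
    g.1 x ∈ W ↔ x ∈ W :=
  (mem_stabSet.1 (h.mem_stabSet_of_fix_perp (SUG_le_UG g.2) hg) x).symm

theorem QE_le_KW (h : IsHerm B q) {W : Submodule F V} {e f : V} (he : B e e = 0) (heW : e ∈ W) :
    QE h he W f ≤ KW B W := by
  rintro g ⟨w, hw, c, -, hg⟩ x hx
  exact hg.fix (hx e heW) (hx w (hcp_le hw))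

theorem app_mem_of_St {X : AddSubgroup V} {g : V ≃ₗ[F] V} (hg : g ∈ St B X) {x : V} (hx : x ∈ X) : g x ∈ X := by
  obtain ⟨g, hg, rfl⟩ := hg
  rw [SetLike.mem_coe, MulAction.mem_stabilizer_iff] at hg
  rw [← hg]
  exact AddSubgroup.smul_mem_pointwise_smul _ g _ hx

theorem app_mem_smul_iff {X : AddSubgroup V} {g : SUG B} {x : V} : g.1 x ∈ g • X ↔ x ∈ X :=
  AddSubgroup.smul_mem_pointwise_smul_iff (a := g)

theorem card_smul_SUG (g : SUG B) (X : AddSubgroup V) : Nat.card ↥(g • X) = Nat.card X :=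
  (Nat.card_congr (g.1.toEquiv.subtypeEquiv fun _ => app_mem_smul_iff.symm)).symm

/-- `X` is in general position with respect to `e`. -/
def Good (B : V →ₛₗ[σ] V →ₗ[F] F) (e : V) (X : AddSubgroup V) : Prop :=
  (∃ b ∈ X, B e b ≠ 0) ∧ ∀ c : F, c • e ∈ X → c = 0

theorem Good.smul {e : V} {X : AddSubgroup V} (hX : Good B e X) {g : SUG B} {a : F} (ha : a ≠ 0)
    (hg : g.1 e = a • e) : Good B e (g • X) := by
  obtain ⟨⟨b, hb, h1⟩, h2⟩ := hX
  refine ⟨⟨g.1 b, app_mem_smul_iff.2 hb, fun h3 => h1 ?_⟩, fun c hc => ?_⟩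
  · rw [← SUG_le_UG g.2, hg, map_smulₛₗ, LinearMap.smul_apply, h3, smul_zero]
  · have h3 : c • e = g.1 ((c * a⁻¹) • e) := by rw [map_smul, hg, smul_smul, inv_mul_cancel_right₀ ha]
    rw [h3, app_mem_smul_iff] at hc
    exact (mul_eq_zero.1 (h2 _ hc)).resolve_right (inv_ne_zero ha)

theorem Good.Zs_eq {e : V} {X : AddSubgroup V} (hX : Good B e X) (he : B e e = 0) : Zs he (St B X) = ⊥ := by
  obtain ⟨⟨b, hb, h1⟩, h2⟩ := hX
  refine eq_bot_iff.2 fun c ⟨_, g, hg, h3⟩ => ?_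
  have h4 := X.sub_mem (app_mem_of_St hg hb) hb
  rw [h3, add_sub_cancel_left] at h4
  exact (mul_eq_zero.1 (h2 _ h4)).resolve_right h1

theorem Good.ti (h : IsHerm B q) {e f : V} {W : Submodule F V} {X : AddSubgroup V} (hX : Good B e X) (he : B e e = 0)
    {y y' : V} (hy : y ∈ Bs h he W f (St B X)) (hy' : y' ∈ Bs h he W f (St B X)) : B y y' = 0 := by
  obtain ⟨⟨b, hb, h1⟩, h2⟩ := hX
  obtain ⟨h3, c, -, g, hg, h4⟩ := hy
  obtain ⟨h5, c', -, g', hg', h6⟩ := hy'
  have h7 := X.sub_mem (app_mem_of_St hg' hb) hb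
  have h8 := X.sub_mem (app_mem_of_St hg h7) h7
  have h9 : g (g' b - b) - (g' b - b) = (-(B e b * B y y')) • e := by
    rw [h4, h6]
    simp only [map_add, map_sub, map_smul, he, (mem_hcp.1 h5).2.1, h.flip_zero (mem_hcp.1 h3).2.1, smul_eq_mul]
    module
  rw [h9] at h8
  exact (mul_eq_zero.1 (neg_eq_zero.1 (h2 _ h8))).resolve_left h1

theorem ncard_orbit_vec (h : IsHerm B q) {e f : V} (hef : Hyp B e f) (W : Submodule F V) :
    (MulAction.orbit (QE h hef.left W f) f).ncard = q ^ (2 * finrank F (hcp B W e f) + 1) := by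
  have h1 := ncard_orbit_QE h hef W f
  have h2 : ∀ g ∈ St B f, g f = f := by rintro _ ⟨g, hg, rfl⟩; exact hg
  have h3 : Bs h hef.left W f (St B f) = ⊥ := eq_bot_iff.2 fun w ⟨hw, c, _, g, hg, h3⟩ => by
    have h4 := eich_param h hef (mem_hcp.1 hw).2.2 h3
    rw [h2 g hg, hef.right] at h4
    simpa using h4.2.symm
  have h4 : Zs hef.left (St B f) = ⊥ := eq_bot_iff.2 fun c ⟨_, g, hg, h3⟩ => by
    have h4 := h3 f
    rw [h2 g hg, hef.eq, mul_one, left_eq_add] at h4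
    exact (smul_eq_zero.1 h4).resolve_right hef.ne_zero
  simpa [h3, h4] using h1

theorem exists_good (h : IsHerm B q) {W : Submodule F V} (hW : ND B W) (h3 : 3 ≤ finrank F W) {X : AddSubgroup V}
    (hXW : ∀ x ∈ X, x ∈ W) (hX0 : X ≠ ⊥) (hc : Nat.card X ≤ q ^ finrank F W) :
    ∃ e ∈ W, ∃ f ∈ W, Hyp B e f ∧ Good B e X := by
  have := h.finite
  suffices ∃ e ∈ W, B e e = 0 ∧ Good B e X by
    obtain ⟨e, he, h1, h2⟩ := this
    obtain ⟨f, hf, h4⟩ := hW.exists_hyp h he (by rintro rfl; obtain ⟨b, -, hb⟩ := h2.1; simp at hb) h1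
    exact ⟨e, he, f, hf, h4, h2⟩
  by_cases h1 : ∃ b ∈ X, b ≠ 0 ∧ B b b = 0
  · obtain ⟨b, hb, hb0, hbb⟩ := h1
    obtain ⟨b', hb', hp⟩ := hW.exists_hyp h (hXW b hb) hb0 hbb
    have h4 : ∀ v ∈ MulAction.orbit (QE h hp.left W b') b', v ∈ W ∧ B v v = 0 ∧ B b v = 1 := by
      rintro _ ⟨g, rfl⟩
      refine ⟨(KW_app_mem_iff h (QE_le_KW h _ (hXW b hb) g.2) _).2 hb', (SUG_le_UG g.1.2 _ _).trans hp.right, ?_⟩
      obtain ⟨w, hw, c, -, hg⟩ := g.2
      rw [← hp.eq, ← SUG_le_UG g.1.2 b b', eich_app_left h hbb (mem_hcp.1 hw).2.1 hg]; rfl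
    by_contra h5
    push Not at h5
    have h6 : ∀ v ∈ MulAction.orbit (QE h hp.left W b') b', ∃ c : F, c • v ∈ X ∧ c ≠ 0 := fun v hv => by
      by_contra h7
      push Not at h7
      exact h5 v (h4 v hv).1 (h4 v hv).2.1 ⟨⟨b, hb, by rw [h.flip_one (h4 v hv).2.2]; exact one_ne_zero⟩, h7⟩
    choose! c hc1 hc2 using h6
    have h7 := Set.ncard_le_ncard_of_injOn (fun v => c v • v) (t := (X : Set V) \ {0}) (fun v hv => ⟨hc1 v hv,
      smul_ne_zero (hc2 v hv) (by rintro rfl; simpa using (h4 _ hv).2.2)⟩) fun v hv v' hv' (e : c v • v = c v' • v') => by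
        have h8 := congrArg (B b) e
        rw [map_smul, map_smul, (h4 v hv).2.2, (h4 v' hv').2.2, smul_eq_mul, smul_eq_mul, mul_one, mul_one] at h8
        rw [h8] at e
        exact smul_right_injective _ (hc2 v' hv') e
    have h8 := finrank_hcp hp (hXW b hb) hb'
    have h9 := Nat.pow_le_pow_right (n := q) (by have := h.bar.two_le; omega)
      (show finrank F W ≤ 2 * finrank F (hcp B W b b') + 1 by omega)
    rw [ncard_orbit_vec h hp, Set.ncard_sdiff_singleton_of_mem X.zero_mem] at h7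
    have h10 : 0 < Nat.card X := Nat.card_pos
    change _ ≤ Nat.card X - 1 at h7
    omega
  · push Not at h1
    obtain ⟨b, hb⟩ := AddSubgroup.ne_bot_iff_exists_ne_zero.1 hX0
    obtain ⟨z, hz, h2, h4⟩ := h.exists_isotropic_outside_perp (hW.disjoint h) (by omega) (w := b) fun h2 =>
      hb (Subtype.ext (hW _ (hXW _ b.2) fun v hv => h.flip_zero (h2 v hv)))
    refine ⟨z, hz, h2, ⟨b, b.2, h4⟩, fun c hc => ?_⟩
    by_contra h5
    exact h1 _ hc (smul_ne_zero h5 (by rintro rfl; simp at h4)) (by simp [h2])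

theorem two_mul_ncard_le {G Ω : Type*} [Group G] [MulAction G Ω] {Φ : Set Ω} (hΦ : Φ.Finite) {ω ω' : Ω} {n : ℕ}
    (h1 : MulAction.orbit G ω ⊆ Φ) (h2 : MulAction.orbit G ω' ⊆ Φ) (h3 : ω' ∉ MulAction.orbit G ω)
    (h4 : n ≤ (MulAction.orbit G ω).ncard) (h5 : n ≤ (MulAction.orbit G ω').ncard) : 2 * n ≤ Φ.ncard := by
  have h6 : Disjoint (MulAction.orbit G ω) (MulAction.orbit G ω') := Set.disjoint_left.2 fun x hx hx' =>
    h3 (by rw [← MulAction.orbit_eq_iff.2 hx, MulAction.orbit_eq_iff.2 hx']; exact MulAction.mem_orbit_self _)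
  have h7 := Set.ncard_le_ncard (Set.union_subset h1 h2) hΦ
  rw [Set.ncard_union_eq h6 (hΦ.subset h1) (hΦ.subset h2)] at h7
  omega

section Main

variable (h : IsHerm B q) {W : Submodule F V} (hW : ND B W) {e f : V} (he : e ∈ W) (hf : f ∈ W) (hef : Hyp B e f)
  {X : AddSubgroup V} (hX : Good B e X)
include h hW he hf hef hX

omit hW hf hX in
theorem orbit_QE_subset (g : KW B W) : MulAction.orbit (QE h hef.left W f) (g.1 • X) ⊆ MulAction.orbit (KW B W) X := by
  rintro _ ⟨k, rfl⟩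
  exact ⟨⟨k.1, QE_le_KW h _ he k.2⟩ * g, mul_smul _ _ _⟩

theorem le_ncard_of_ne_bot (h0 : Bs h hef.left W f (St B X) ≠ ⊥) :
    (q + 1) * q ^ (finrank F (hcp B W e f) + 1) ≤ (MulAction.orbit (KW B W) X).ncard := by
  classical
  have := h.finite
  have := h.bar.finite
  have := Fintype.ofFinite (Tz σ)
  obtain ⟨θ, hθ⟩ := exists_addChar_ne F
  have hW' := hW.hcp h hef he hf
  obtain ⟨⟨y, hy⟩, hy0⟩ := AddSubgroup.ne_bot_iff_exists_ne_zero.1 h0
  obtain ⟨y', hy', hp⟩ := hW'.exists_hyp h hy.1 (by simpa using hy0) (hX.ti h hef.left hy hy)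
  obtain ⟨c₀, hc₀, hc₀'⟩ := h.bar.exists_trace_zero
  have htv : ∀ z ∈ hcp B W e f, B z z = 0 → ∀ c, σ c = -c → ∃ g : KW B W, g.1.1 e = e ∧ g.1.1 f = f ∧
      IsTv B z c g.1.1 := fun z hz hzz c hc => by
    obtain ⟨g, hg, h1⟩ := h.exists_tv hzz hc
    exact ⟨⟨⟨g, hg⟩, fun x hx => h1.fix (hx z (hcp_le hz))⟩, h1.fix (h.flip_zero (mem_hcp.1 hz).2.1),
      h1.fix (h.flip_zero (mem_hcp.1 hz).2.2), h1⟩
  let v : Option (Tz σ) → V := fun i => i.elim (c₀ • y') fun c => y + (c : F) • y'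
  have hv : ∀ i, ∃ g : KW B W, g.1.1 e = e ∧ g.1.1 f = f ∧ g.1.1 y = v i := by
    have h1 : ∀ c, σ c = -c → ∃ g : KW B W, g.1.1 e = e ∧ g.1.1 f = f ∧ g.1.1 y = y + c • y' := fun c hc => by
      obtain ⟨g, h1, h2, h3⟩ := htv y' hy' hp.right c hc
      exact ⟨g, h1, h2, by rw [h3, hp.eq', mul_one]⟩
    rintro (_ | c)
    · obtain ⟨g, h2, h3, h4⟩ := h1 c₀ hc₀'
      obtain ⟨k, h5, h6, h7⟩ := htv y hy.1 hp.left (-c₀⁻¹) (by rw [map_neg, map_inv₀, hc₀', inv_neg])
      refine ⟨k * g, ?_, ?_, ?_⟩ <;> change k.1.1 (g.1.1 _) = _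
      · rw [h2, h5]
      · rw [h3, h6]
      · rw [h4, h7]; simp [hp.left, hp.eq, hc₀, v]
    · exact h1 c c.2
  choose g hge hgf hgy using hv
  have hG : ∀ i, Good B e ((g i).1 • X) := fun i => hX.smul one_ne_zero ((hge i).trans (one_smul F e).symm)
  have hmem : ∀ i, v i ∈ Bs h hef.left W f (St B ((g i).1 • X)) := fun i => by
    rw [Bs_smul_of_fix h _ (hge i) (hgf i) (KW_app_mem_iff h (g i).2), ← hgy]; exact app_mem_smul_iff.2 hy
  have hinj : Function.Injective fun i => Bs h hef.left W f (St B ((g i).1 • X)) := fun i j hij => by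
    have h1 := (hG j).ti h hef.left ((SetLike.ext_iff.1 hij _).1 (hmem i)) (hmem j)
    rcases i with _ | c <;> rcases j with _ | c'
    · rfl
    · simp [v, hp.right, hp.eq', hc₀] at h1
    · simp [v, hp.right, hp.eq, hc₀] at h1
    · simp only [v, Option.elim, map_add, map_smulₛₗ, LinearMap.add_apply, LinearMap.smul_apply, hp.left, hp.right,
        hp.eq, hp.eq', mem_Tz.1 c.2, smul_eq_mul, RingHom.id_apply] at h1
      exact congrArg some (Subtype.ext (by linear_combination -h1))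
  have h1 := sum_le_ncard (Set.toFinite (MulAction.orbit (KW B W) X)) (fun X' => Bs h hef.left W f (St B X'))
    (Finset.univ.image fun i => Bs h hef.left W f (St B ((g i).1 • X))) (fun _ => q ^ (finrank F (hcp B W e f) + 1))
    fun T hT => by
      obtain ⟨i, -, rfl⟩ := Finset.mem_image.1 hT
      have h2 := ncard_orbit_QE h hef W ((g i).1 • X)
      have h3 := card_le_of_isotropic h θ hθ hW' (fun _ => Bs_le h hef.left) fun x hx y hy => by
        rw [(hG i).ti h hef.left hx hy]; simp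
      rw [(hG i).Zs_eq, AddSubgroup.card_bot, mul_one] at h2
      refine le_trans ?_ (Set.ncard_le_ncard (s := MulAction.orbit (QE h hef.left W f) ((g i).1 • X))
        (fun X' hX' => ⟨orbit_QE_subset h he hef (g i) hX', by obtain ⟨k, rfl⟩ := hX'; exact Bs_smul_QE h _ k _⟩)
        (Set.toFinite _))
      refine Nat.le_of_mul_le_mul_right (c := q ^ finrank F (hcp B W e f)) ?_
        (Nat.pow_pos (by have := h.bar.two_le; omega))
      rw [← pow_add, show _ + 1 + _ = 2 * finrank F (hcp B W e f) + 1 by ring, ← h2]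
      exact Nat.mul_le_mul_left _ h3
  rwa [Finset.sum_const, Finset.card_image_of_injective _ hinj, Finset.card_univ, Fintype.card_option,
    ← Nat.card_eq_fintype_card, card_Tz h.bar, smul_eq_mul] at h1

omit hW he hf in
theorem ncard_orbit_of_bot (h0 : Bs h hef.left W f (St B X) = ⊥) :
    (MulAction.orbit (QE h hef.left W f) X).ncard = q ^ (2 * finrank F (hcp B W e f) + 1) := by
  simpa [hX.Zs_eq, h0] using ncard_orbit_QE h hef W X

theorem two_mul_le_ncard (h0 : Bs h hef.left W f (St B X) = ⊥) (h1 : finrank F (hcp B W e f) = 1)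
    (hXW : ∀ x ∈ X, x ∈ W) (hs : ∀ b ∈ X, ∀ b' ∈ X, B b b' = B b' b) {b : V} (hb : b ∈ X) (hb0 : b ≠ 0)
    (heb : B e b = 0) : 2 * q ^ 3 ≤ (MulAction.orbit (KW B W) X).ncard := by
  have := h.finite
  have hy := hef.proj_mem he hf (hXW b hb)
  rw [heb, zero_smul, sub_zero] at hy
  obtain ⟨y, hyb⟩ : ∃ y, y = b - B f b • e := ⟨_, rfl⟩
  rw [← hyb] at hy
  have hy0 : y ≠ 0 := fun h2 => by
    have h3 : b = B f b • e := sub_eq_zero.1 (hyb ▸ h2)
    exact hb0 (by rw [h3, hX.2 (B f b) (h3 ▸ hb), zero_smul])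
  have hyy : B y y ≠ 0 := fun h2 => hy0 (hW.hcp h hef he hf y hy fun v hv => by
    obtain ⟨c, hc⟩ := (finrank_eq_one_iff_of_nonzero' (⟨y, hy⟩ : hcp B W e f) (by simpa using hy0)).1 h1 ⟨v, hv⟩
    rw [← show c • y = v from congrArg Subtype.val hc, map_smul, h2, smul_zero])
  obtain ⟨μ, hμ, hμ'⟩ := h.bar.exists_norm_one_ne
  obtain ⟨a, ha, ha'⟩ := h.bar.exists_div_bar_eq hμ
  have ha1 : σ a ≠ 0 := (map_ne_zero σ).2 ha
  have hμa : σ a / a = σ μ := by rw [div_eq_iff ha]; linear_combination (-σ μ) * ha' - σ a * hμ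
  obtain ⟨g, h2, h3, h4, h5⟩ := exists_torus h hef (mem_hcp.1 hy).2.1 (mem_hcp.1 hy).2.2 hyy ha
  have hg : g ∈ KW B W := fun x hx => h5 x (hx e he) (hx f hf) (hx y (hcp_le hy))
  have h6 : Bs h hef.left W f (St B (g • X)) = ⊥ := eq_bot_iff.2 fun w hw => by
    obtain ⟨w, rfl⟩ := g.1.surjective w
    have h6 := (mem_Bs_smul_iff h hef.left ha (inv_ne_zero ha1) h2 h3 (KW_app_mem_iff h hg) X ((σ a)⁻¹ • w)).1
      (by rwa [map_smul, smul_inv_smul₀ ha1])
    rw [h0, AddSubgroup.mem_bot, smul_eq_zero_iff_right (inv_ne_zero ha1)] at h6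
    simp [h6]
  have h7 := ncard_orbit_of_bot h hef hX h0
  have h8 := ncard_orbit_of_bot h hef (hX.smul ha h2) h6
  rw [h1] at h7 h8
  refine two_mul_ncard_le (Set.toFinite _) (by simpa using orbit_QE_subset h he hef (X := X) 1)
    (orbit_QE_subset h he hef ⟨g, hg⟩) ?_ h7.ge h8.ge
  rintro ⟨k, hk⟩
  obtain ⟨w, hw, c, -, hk'⟩ := k⁻¹.2
  have h9 : k⁻¹.1.1 (g.1 b) ∈ X := by
    rw [← app_mem_smul_iff (g := k.1), show k.1 • X = g • X from hk]
    simpa using app_mem_smul_iff.2 hb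
  have h10 : g.1 b = σ μ • y + (B f b * a) • e := by
    rw [← sub_add_cancel b (B f b • e), ← hyb, map_add, map_smul, h4, h2, hμa, smul_smul]
    simp [hef.eq', (mem_hcp.1 hy).2.2]
  have h11 := hs _ hb _ h9
  have h12 : B y b = B y y := by rw [hyb]; simp [h.flip_zero heb, hef.left, heb]
  have h13 : B b y = B y y := by rw [← h.symm, h12, h.symm]
  rw [hk', h10] at h11
  simp only [map_add, map_sub, map_smulₛₗ, LinearMap.add_apply, LinearMap.sub_apply, LinearMap.smul_apply, hef.left,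
    (mem_hcp.1 hy).2.1, heb, h.flip_zero heb, h12, h13, h.bar_bar, smul_eq_mul, RingHom.id_apply, mul_zero,
    add_zero, zero_smul, sub_zero] at h11
  exact hμ' (mul_right_cancel₀ hyy h11)

end Main

/-- A small nonzero additive subgroup of `W` has many conjugates under `SU(W)`. -/
theorem card_le_ncard_orbit (h : IsHerm B q) {W : Submodule F V} (hW : ND B W) (h3 : 3 ≤ finrank F W)
    {X : AddSubgroup V} (hXW : ∀ x ∈ X, x ∈ W) (hX0 : X ≠ ⊥) (hc : Nat.card X ≤ q ^ finrank F W) :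
    Nat.card X ≤ (MulAction.orbit (KW B W) X).ncard ∧ ((∀ b ∈ X, ∀ b' ∈ X, B b b' = B b' b) →
      (q + 1) * Nat.card X ≤ q * (MulAction.orbit (KW B W) X).ncard) := by
  have := h.finite
  have := h.bar.finite
  have hq := h.bar.two_le
  obtain ⟨e, he, f, hf, hef, hX⟩ := exists_good h hW h3 hXW hX0 hc
  have h1 := finrank_hcp hef he hf
  rw [← h1] at hc
  by_cases h0 : Bs h hef.left W f (St B X) = ⊥
  · have h2 := (ncard_orbit_of_bot h hef hX h0).ge.trans (Set.ncard_le_ncard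
      (by simpa using orbit_QE_subset h he hef (X := X) 1) (Set.toFinite (MulAction.orbit (KW B W) X)))
    refine ⟨hc.trans ((Nat.pow_le_pow_right (by omega) (by omega)).trans h2), fun hs => ?_⟩
    by_cases h4 : finrank F (hcp B W e f) = 1
    · rw [h4] at hc h2
      simp only [Nat.reduceAdd, Nat.reduceMul] at hc h2
      by_cases h5 : ∃ b ∈ X, b ≠ 0 ∧ B e b = 0
      · obtain ⟨b, hb, hb0, heb⟩ := h5
        have h6 := two_mul_le_ncard h hW he hf hef hX h0 h4 hXW hs hb hb0 heb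
        nlinarith [Nat.mul_le_mul (show q + 1 ≤ q * 2 by omega) hc, Nat.mul_le_mul_left q h6]
      · push Not at h5
        have h6 := Nat.card_le_card_of_injective (fun x : X => B e x) fun x y hxy => by
          by_contra h6
          exact h5 _ (X.sub_mem x.2 y.2) (sub_ne_zero.2 fun h => h6 (Subtype.ext h)) (by
            rw [map_sub]; exact sub_eq_zero.2 hxy)
        rw [h.bar.card] at h6
        nlinarith [Nat.mul_le_mul (show q + 1 ≤ q * q by nlinarith) h6, Nat.mul_le_mul_left q h2]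
    · have h5 := (Nat.pow_le_pow_right (n := q) (by omega) (show finrank F (hcp B W e f) + 2 + 1 ≤ _ by omega)).trans h2
      rw [pow_succ] at h5
      nlinarith [Nat.mul_le_mul (show q + 1 ≤ q * q by nlinarith) hc, Nat.mul_le_mul_left q h5]
  · have h2 := le_ncard_of_ne_bot h hW he hf hef hX h0
    rw [pow_succ] at hc
    exact ⟨by nlinarith, fun _ => by nlinarith [Nat.mul_le_mul_left (q + 1) hc, Nat.mul_le_mul_left q h2]⟩

end CL.MinU
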