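/-
Minimal degrees of unitary groups, III: points not fixed by the transvections with a given centre.
-/
import Cfsg.Agent.Known.MinDegU2

set_option autoImplicit false
set_option linter.unusedSectionVars false

open Module CL.Uni CL.MinD
open scoped Pointwise

namespace CL.MinU

variable {F V : Type*} [Field F] {q : ℕ} {σ : F →+* F} [AddCommGroup V] [Module F V] [FiniteDimensional F V]
  {B : V →ₛₗ[σ] V →ₗ[F] F}

theorem exists_addChar_one (F : Type*) [Field F] [Finite F] : ∃ θ : AddChar F ℂ, θ 1 ≠ 1 := by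
  obtain ⟨ψ, t, ht⟩ := exists_addChar_ne F
  exact ⟨ψ.mulShift t, by simpa using ht⟩

/-- The pairing on the elements of trace zero. -/
noncomputable def tzPair (σ : F →+* F) (θ : AddChar F ℂ) (hθ : θ 1 ≠ 1) : Pairing (Tz σ) (Tz σ) where
  χ a b := θ ((a : F) * b)
  add_left a a' b := by rw [AddSubgroup.coe_add, add_mul, AddChar.map_add_eq_mul]
  add_right a b b' := by rw [AddSubgroup.coe_add, mul_add, AddChar.map_add_eq_mul]
  zero_left b := by simp
  zero_right b := by simp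
  nd_left a ha := by
    by_contra h0
    have h1 := ha ⟨(a : F)⁻¹, by rw [mem_Tz, map_inv₀, mem_Tz.1 a.2, inv_neg]⟩
    rw [mul_inv_cancel₀ (by simpa using h0)] at h1
    exact hθ h1
  nd_right a ha := by
    by_contra h0
    have h1 := ha ⟨(a : F)⁻¹, by rw [mem_Tz, map_inv₀, mem_Tz.1 a.2, inv_neg]⟩
    rw [inv_mul_cancel₀ (by simpa using h0)] at h1
    exact hθ h1

theorem comm_mem_Zs (h : IsHerm B q) {e f : V} (he : B e e = 0) {U : Submodule F V} {H : Subgroup (V ≃ₗ[F] V)}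
    {b b' : V} (hb : b ∈ Bs h he U f H) (hb' : b' ∈ Bs h he U f H) : B b b' - σ (B b b') ∈ Zs he H := by
  obtain ⟨h1, c, -, g, hg, h2⟩ := hb
  obtain ⟨h3, c', -, g', hg', h4⟩ := hb'
  have h5 := (mem_hcp.1 h1).2.1
  have h6 := (mem_hcp.1 h3).2.1
  have h7 : B e (b + b') = 0 := by rw [map_add, h5, h6, add_zero]
  have h8 := h4.mul h2 he (h.flip_zero h6) h5
  rw [add_comm b'] at h8
  have h9 := h8.mul ((h2.mul h4 he (h.flip_zero h5) h6).inv he (h.flip_zero h7) h7) he (h.flip_zero h7)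
    (by rw [map_neg, h7, neg_zero])
  rw [add_neg_cancel, isEich_zero] at h9
  refine ⟨by rw [map_sub, h.bar_bar, neg_sub], _, H.mul_mem (H.mul_mem hg' hg) (H.inv_mem (H.mul_mem hg hg')), ?_⟩
  convert h9 using 1
  rw [map_neg, h.symm]; ring

theorem mem_perp_hcp (h : IsHerm B q) {U : Submodule F V} {e f : V} :
    e ∈ perp B (hcp B U e f) ∧ f ∈ perp B (hcp B U e f) :=
  ⟨fun _ hw => h.flip_zero (mem_hcp.1 hw).2.1, fun _ hw => h.flip_zero (mem_hcp.1 hw).2.2⟩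

theorem finrank_hcp_top {e f : V} (hef : Hyp B e f) {r : ℕ} (hr : finrank F V = r + 2) :
    finrank F (hcp B ⊤ e f) = r := by
  have := finrank_hcp (U := ⊤) hef trivial trivial
  rw [finrank_top] at this
  omega

theorem exists_torus' (h : IsHerm B q) (h3 : 3 ≤ finrank F V) {e f : V} (hef : Hyp B e f) {a : F} (ha : a ≠ 0) :
    ∃ g : SUG B, g.1 e = a • e ∧ g.1 f = (σ a)⁻¹ • f := by
  obtain ⟨y, h1, h2, h4⟩ := h.exists_perp_hyperbolic h3 hef.left hef.right (by rw [hef.eq]; exact one_ne_zero)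
    (map_one σ)
  obtain ⟨g, h5, h6, -⟩ := exists_torus h hef h1 h2 (by rw [h4]; exact one_ne_zero) ha
  exact ⟨g, h5, h6⟩

section Reg

variable (h : IsHerm B q) {e f : V} (hef : Hyp B e f) {r : ℕ} (hr : finrank F V = r + 2)
  {Ω : Type*} [MulAction (SUG B) Ω] [Finite Ω]
include h hef hr

theorem card_Bs_le {ω : Ω} (hZ : Zs hef.left (St B ω) ≠ Tz σ) :
    Nat.card (Bs h hef.left ⊤ f (St B ω)) ≤ q ^ r := by
  have := h.bar.finite
  obtain ⟨θ, hθ⟩ := exists_addChar_one F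
  obtain ⟨c, hc⟩ := AddSubgroup.ne_bot_iff_exists_ne_zero.1 (mt (tzPair σ θ hθ).ann_eq_bot_iff.1 fun h0 =>
    hZ (le_antisymm (Zs_le _) (AddSubgroup.addSubgroupOf_eq_top.1 h0)))
  let δ : F →+ F := (AddMonoidHom.mulLeft (c.1 : F)).comp (AddMonoidHom.id F - σ.toAddMonoidHom)
  have hc0 : (c.1 : F) ≠ 0 := by simpa using hc
  obtain ⟨t, ht⟩ := h.bar.exists_sub_bar_eq (c := (c.1 : F)⁻¹) (by rw [map_inv₀, mem_Tz.1 c.1.2, inv_neg])
  rw [← finrank_hcp_top hef hr]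
  refine card_le_of_isotropic h (θ.compAddMonoidHom δ) ⟨t, ?_⟩ ((nd_top h).hcp h hef trivial trivial)
    (fun _ => Bs_le h _) fun x hx y hy => ?_
  · change θ (c.1 * (t - σ t)) ≠ 1
    rwa [ht, mul_inv_cancel₀ hc0]
  · exact c.2 ⟨_, (comm_mem_Zs h _ hx hy).1⟩ (comm_mem_Zs h _ hx hy)

omit hr in
theorem orbit_subset_fib (ω : Ω) : MulAction.orbit (QE h hef.left ⊤ f) ω ⊆
    {ω' | Zs hef.left (St B ω') = Zs hef.left (St B ω) ∧ Bs h hef.left ⊤ f (St B ω') = Bs h hef.left ⊤ f (St B ω)} := by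
  rintro _ ⟨k, rfl⟩
  exact ⟨Zs_smul_QE h _ k ω, Bs_smul_QE h _ k ω⟩

theorem le_ncard_fib (h3 : 3 ≤ r) {ω : Ω} (hZ : Zs hef.left (St B ω) ≠ Tz σ) :
    q ^ (2 * r + 1) ≤ {ω' : Ω | Zs hef.left (St B ω') = Zs hef.left (St B ω)}.ncard * Nat.card (Zs hef.left (St B ω)) ∧
    (Zs hef.left (St B ω) = ⊥ → Bs h hef.left ⊤ f (St B ω) ≠ ⊥ →
      (q + 1) * q ^ (2 * r) ≤ {ω' : Ω | Zs hef.left (St B ω') = Zs hef.left (St B ω)}.ncard) := by
  classical
  have := h.finite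
  have := h.bar.finite
  have hd := finrank_hcp_top hef hr
  have h1 := ncard_orbit_QE h hef ⊤ ω
  rw [hd] at h1
  by_cases h0 : Bs h hef.left ⊤ f (St B ω) = ⊥
  · refine ⟨?_, fun _ h => (h h0).elim⟩
    rw [← h1, h0, AddSubgroup.card_bot, one_mul]
    exact Nat.mul_le_mul_right _ (Set.ncard_le_ncard (fun x hx => (orbit_subset_fib h hef ω hx).1) (Set.toFinite _))
  obtain ⟨h2, h4⟩ := card_le_ncard_orbit h ((nd_top h).hcp h hef trivial trivial) (by omega) (fun _ => Bs_le h _) h0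
    (hd.symm ▸ card_Bs_le h hef hr hZ)
  have h5 := Set.toFinite (MulAction.orbit (KW B (hcp B ⊤ e f)) (Bs h hef.left ⊤ f (St B ω)))
  have h6 := sum_le_ncard (Set.toFinite {ω' : Ω | Zs hef.left (St B ω') = Zs hef.left (St B ω)})
    (fun ω' => Bs h hef.left ⊤ f (St B ω')) h5.toFinset (fun _ => (MulAction.orbit (QE h hef.left ⊤ f) ω).ncard)
    fun X hX => by
      obtain ⟨k, rfl⟩ := h5.mem_toFinset.1 hX
      have hke : k.1.1 e = e := k.2 e (mem_perp_hcp h).1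
      have h7 := Zs_smul_of_norm hef.left (hke.trans (one_smul F e).symm) (by simp) ω h.bar
      have h8 := Bs_smul_of_fix h hef.left (U := ⊤) hke (k.2 f (mem_perp_hcp h).2) (fun _ => Iff.rfl) ω
      have h9 := ncard_orbit_QE h hef ⊤ (k.1 • ω)
      rw [hd, h7, h8, card_smul_SUG, ← h1] at h9
      rw [← Nat.eq_of_mul_eq_mul_right (Nat.mul_pos Nat.card_pos Nat.card_pos) h9]
      exact Set.ncard_le_ncard (fun x hx => ⟨(orbit_subset_fib h hef _ hx).1.trans h7,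
        (orbit_subset_fib h hef _ hx).2.trans h8⟩) (Set.toFinite _)
  rw [Finset.sum_const, ← Set.ncard_eq_toFinset_card _ h5, smul_eq_mul] at h6
  refine ⟨?_, fun h7 _ => ?_⟩
  · rw [← h1, ← mul_assoc, mul_comm (Set.ncard _) (Nat.card (Bs h hef.left ⊤ f (St B ω)))]
    exact Nat.mul_le_mul_right _ ((Nat.mul_le_mul_right _ h2).trans h6)
  · have h8 := h4 fun b hb b' hb' => by
      have := comm_mem_Zs h _ hb hb'
      rwa [h7, AddSubgroup.mem_bot, h.symm, sub_eq_zero] at this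
    rw [h7, AddSubgroup.card_bot, mul_one, pow_succ] at h1
    refine Nat.le_of_mul_le_mul_left (c := q) ?_ (by have := h.bar.two_le; omega)
    nlinarith [Nat.mul_le_mul_left q h6, Nat.mul_le_mul_right (MulAction.orbit (QE h hef.left ⊤ f) ω).ncard h8]

theorem Zs_eq_bot (h3 : 3 ≤ r) (hN : Nat.card Ω < (q + 1) * q ^ (2 * r)) {ω : Ω}
    (hZ : Zs hef.left (St B ω) ≠ Tz σ) : Zs hef.left (St B ω) = ⊥ := by
  classical
  have := h.bar.finite
  have := Fintype.ofFinite Ω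
  have := Fintype.ofFinite (Tz σ)
  by_contra h0
  obtain ⟨θ, hθ⟩ := exists_addChar_one F
  let D : Ω → AddSubgroup (Tz σ) := fun ω => (tzPair σ θ hθ).ann ((Zs hef.left (St B ω)).addSubgroupOf (Tz σ))
  have hD : ∀ ω, D ω = ⊥ ↔ Zs hef.left (St B ω) = Tz σ := fun ω => (tzPair σ θ hθ).ann_eq_bot_iff.trans
    (AddSubgroup.addSubgroupOf_eq_top.trans ⟨le_antisymm (Zs_le _), fun h => h.ge⟩)
  let 𝒟 := (Finset.univ.filter fun ω : Ω => Zs hef.left (St B ω) ≠ Tz σ).image D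
  have hcov : ∀ c : Tz σ, c ≠ 0 → ∃ A ∈ 𝒟, c ∈ A := fun c hc => by
    obtain ⟨c₀, hc₀⟩ := AddSubgroup.ne_bot_iff_exists_ne_zero.1 (mt (hD ω).1 hZ)
    have h1 : (c₀.1 : F) ≠ 0 := by simpa using hc₀
    have h2 : (c : F) ≠ 0 := by simpa using hc
    obtain ⟨a, ha⟩ := h.bar.exists_norm_eq (a := c / c₀.1) (by rw [map_div₀, mem_Tz.1 c.2, mem_Tz.1 c₀.1.2, neg_div_neg_eq])
    obtain ⟨g, hg, -⟩ := exists_torus' h (by omega) hef (a := a) (by rintro rfl; exact div_ne_zero h2 h1 (by simpa using ha.symm))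
    have h4 : c ∈ D (g⁻¹ • ω) := fun z hz => by
      have h5 := mul_mem_Zs_smul hef.left hg h.bar hz
      rw [smul_inv_smul, ha] at h5
      have h6 : θ (c₀.1 * (z * (c / c₀.1))) = 1 := c₀.2 ⟨_, h5.1⟩ h5
      rwa [show (c₀.1 : F) * (z * (c / c₀.1)) = c * z by field_simp] at h6
    exact ⟨_, Finset.mem_image_of_mem _ (Finset.mem_filter.2 ⟨Finset.mem_univ _, fun h5 => hc (by
      rw [(hD _).2 h5] at h4; exact h4)⟩), h4⟩
  have h1 := card_mul_add_le_sum 𝒟 (Finset.univ.erase 0) (by simp) 1 fun c hc => by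
    obtain ⟨A, hA, h1⟩ := hcov c (Finset.mem_erase.1 hc).1
    exact Finset.card_pos.2 ⟨A, Finset.mem_filter.2 ⟨hA, h1⟩⟩
  have h2 : 1 < 𝒟.card := by
    obtain ⟨c, hc⟩ : ∃ c, c ∉ D ω := by
      by_contra h2
      push Not at h2
      have h4 := (tzPair σ θ hθ).ann_eq_top_iff.1 (eq_top_iff.2 fun c _ => h2 c)
      refine h0 (eq_bot_iff.2 fun z hz => ?_)
      have h5 : (⟨z, hz.1⟩ : Tz σ) ∈ (Zs hef.left (St B ω)).addSubgroupOf (Tz σ) := hz
      rw [h4, AddSubgroup.mem_bot] at h5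
      exact congrArg Subtype.val h5
    obtain ⟨A, hA, h4⟩ := hcov c (by rintro rfl; exact hc (AddSubgroup.zero_mem _))
    exact Finset.one_lt_card.2 ⟨A, hA, D ω, Finset.mem_image_of_mem _ (Finset.mem_filter.2 ⟨Finset.mem_univ _, hZ⟩),
      by rintro rfl; exact hc h4⟩
  have h4 := sum_le_ncard (Set.toFinite (Set.univ : Set Ω)) D 𝒟 (fun A => Nat.card A * q ^ (2 * r)) fun A hA => by
    obtain ⟨ω', hω', rfl⟩ := Finset.mem_image.1 hA
    have h5 := (le_ncard_fib h hef hr h3 (Finset.mem_filter.1 hω').2).1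
    have h6 := (tzPair σ θ hθ).card_mul_card_ann ((Zs hef.left (St B ω')).addSubgroupOf (Tz σ))
    rw [card_Tz h.bar, Nat.card_congr (AddSubgroup.addSubgroupOfEquivOfLe (Zs_le hef.left)).toEquiv] at h6
    refine le_trans ?_ (Set.ncard_le_ncard (s := {z : Ω | Zs hef.left (St B z) = Zs hef.left (St B ω')})
      (fun z hz => ⟨trivial, by simp only [D]; rw [hz]⟩) (Set.toFinite _))
    refine Nat.le_of_mul_le_mul_right (c := Nat.card (Zs hef.left (St B ω'))) (le_trans (le_of_eq ?_) h5) Nat.card_pos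
    rw [pow_succ, ← h6]; ring
  rw [← Finset.sum_mul, Set.ncard_univ] at h4
  rw [Finset.card_erase_of_mem (Finset.mem_univ _), Finset.card_univ, ← Nat.card_eq_fintype_card, card_Tz h.bar] at h1
  have h5 := Nat.mul_le_mul_right (q ^ (2 * r)) (show q + 1 ≤ ∑ A ∈ 𝒟, Nat.card A by have := h.bar.two_le; omega)
  omega

theorem Bs_eq_bot (h3 : 3 ≤ r) (hN : Nat.card Ω < (q + 1) * q ^ (2 * r)) {ω : Ω}
    (hZ : Zs hef.left (St B ω) ≠ Tz σ) : Bs h hef.left ⊤ f (St B ω) = ⊥ := by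
  by_contra h0
  have h1 := (le_ncard_fib h hef hr h3 hZ).2 (Zs_eq_bot h hef hr h3 hN hZ) h0
  have h2 := Set.ncard_le_card {ω' : Ω | Zs hef.left (St B ω') = Zs hef.left (St B ω)}
  omega

theorem orbit_eq_of_reg (h3 : 3 ≤ r) (hN : Nat.card Ω < (q + 1) * q ^ (2 * r)) {ω : Ω}
    (hZ : Zs hef.left (St B ω) ≠ Tz σ) :
    MulAction.orbit (QE h hef.left ⊤ f) ω = {ω' | Zs hef.left (St B ω') ≠ Tz σ} ∧
      {ω' : Ω | Zs hef.left (St B ω') ≠ Tz σ}.ncard = q ^ (2 * r + 1) := by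
  have h1 : ∀ ω : Ω, Zs hef.left (St B ω) ≠ Tz σ → (MulAction.orbit (QE h hef.left ⊤ f) ω).ncard = q ^ (2 * r + 1) :=
    fun ω hZ => by
      simpa [Zs_eq_bot h hef hr h3 hN hZ, Bs_eq_bot h hef hr h3 hN hZ, finrank_hcp_top hef hr] using
        ncard_orbit_QE h hef ⊤ ω
  have h2 : MulAction.orbit (QE h hef.left ⊤ f) ω = {ω' | Zs hef.left (St B ω') ≠ Tz σ} := by
    refine Set.Subset.antisymm (fun x hx h0 => hZ ((orbit_subset_fib h hef ω hx).1.symm.trans h0)) fun ω' hω' => by_contra fun h2 => ?_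
    have h4 := two_mul_ncard_le (Set.toFinite Set.univ) (Set.subset_univ _) (Set.subset_univ _) h2 (h1 ω hZ).ge
      (h1 ω' hω').ge
    rw [Set.ncard_univ, pow_succ] at h4
    nlinarith [Nat.mul_le_mul_right (q ^ (2 * r)) (show q + 1 ≤ q * 2 by have := h.bar.two_le; omega)]
  exact ⟨h2, h2 ▸ h1 ω hZ⟩

end Reg

end CL.MinU
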