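/-
Minimal degrees of unitary groups, IV: points fixed by the transvections with a given centre.
-/
import Cfsg.Agent.Known.MinDegU3

set_option autoImplicit false
set_option linter.unusedSectionVars false

open Module CL.Uni CL.MinD
open scoped Pointwise

namespace CL.MinU

variable {F V : Type*} [Field F] {q : ℕ} {σ : F →+* F} [AddCommGroup V] [Module F V] [FiniteDimensional F V]
  {B : V →ₛₗ[σ] V →ₗ[F] F}

theorem B_smul_smul (a b : F) (x y : V) : B (a • x) (b • y) = σ a * b * B x y := by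
  rw [map_smul, LinearMap.map_smulₛₗ, LinearMap.smul_apply, smul_eq_mul, smul_eq_mul]; ring

theorem ND.exists_perp_eq (h : IsHerm B q) {W : Submodule F V} (hW : ND B W) {x b : V} (hx : x ∈ W) (hb : b ∈ W)
    (hbx : b ∉ Submodule.span F {x}) (c : F) : ∃ w ∈ W, B x w = 0 ∧ B b w = c := by
  suffices ∃ w ∈ W, B x w = 0 ∧ B b w ≠ 0 by
    obtain ⟨w, hw, h1, h2⟩ := this
    exact ⟨(c / B b w) • w, W.smul_mem _ hw, by rw [map_smul, h1, smul_zero],
      by rw [map_smul, smul_eq_mul, div_mul_cancel₀ _ h2]⟩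
  by_contra h1
  push Not at h1
  by_cases h0 : x = 0
  · exact hbx (by rw [hW b hb fun v hv => h1 v hv (by simp [h0])]; exact Submodule.zero_mem _)
  obtain ⟨x', hx', h2⟩ := hW.exists_eq hx h0 1
  refine hbx (Submodule.mem_span_singleton.2 ⟨σ (B b x'), (sub_eq_zero.1 (hW _ (W.sub_mem hb (W.smul_mem _ hx))
    fun w hw => ?_)).symm⟩)
  have h3 := h1 (w - B x w • x') (W.sub_mem hw (W.smul_mem _ hx')) (by simp [h2])
  simp only [map_sub, map_smulₛₗ, LinearMap.sub_apply, LinearMap.smul_apply, h.bar_bar, smul_eq_mul,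
    RingHom.id_apply] at h3 ⊢
  linear_combination h3

theorem ncard_iso (h : IsHerm B q) {W : Submodule F V} (hW : ND B W) :
    {v | v ∈ W ∧ v ≠ 0 ∧ B v v = 0}.ncard = isoCount q (finrank F W) := by
  rw [← (h.restrict (hW.disjoint h)).card_isotropic]
  exact Nat.card_congr ⟨fun v => ⟨⟨v.1, v.2.1⟩, fun h0 => v.2.2.1 (congrArg Subtype.val h0), v.2.2.2⟩,
    fun v => ⟨v.1.1, v.1.2, fun h0 => v.2.1 (Subtype.ext h0), v.2.2⟩, fun _ => rfl, fun _ => rfl⟩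

theorem ncard_noniso (h : IsHerm B q) {W : Submodule F V} (hW : ND B W) :
    {v | v ∈ W ∧ B v v ≠ 0}.ncard + isoCount q (finrank F W) + 1 = q ^ (2 * finrank F W) := by
  have := h.finite
  rw [← ncard_iso h hW, ← card_sub h, ← Set.ncard_union_eq (Set.disjoint_left.2 fun v h1 h2 => h1.2 h2.2.2),
    ← Set.ncard_insert_of_notMem (a := 0) (by simp)]
  change _ = (W : Set V).ncard
  congr 1
  ext v
  by_cases h0 : v = 0
  · simp [h0]
  · by_cases h1 : B v v = 0 <;> simp [h0, h1]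

theorem isoCount_add_two {q : ℕ} (hq : 1 ≤ q) (r : ℕ) : isoCount q (r + 3) + q ^ (2 * r + 3) + 1 =
    q ^ 2 * isoCount q (r + 1) + q ^ 2 + q ^ (2 * r + 5) := by
  zify
  rw [isoCount_int hq, isoCount_int hq]
  rcases neg_one_pow_eq_or ℤ r with h | h <;> simp only [pow_succ, h] <;> ring

theorem isoCount_bound {q : ℕ} (hq : 2 ≤ q) {r : ℕ} (hr : 3 ≤ r) :
    q ^ 2 * isoCount q r + q ^ 2 + q ^ (2 * r) ≤ q ^ (2 * r + 2) := by
  obtain ⟨k, rfl⟩ := Nat.exists_eq_add_of_le' hr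
  zify
  rw [isoCount_int (by omega)]
  obtain ⟨P, hP⟩ : ∃ P : ℤ, P = (q : ℤ) ^ k := ⟨_, rfl⟩
  have h1 : 1 ≤ P := hP ▸ one_le_pow₀ (by omega)
  have h2 : (2 : ℤ) ≤ q := by omega
  have h3 : (q : ℤ) ^ 5 * P ≤ q ^ 6 * (P * P) := mul_le_mul (pow_le_pow_right₀ (by omega) (by omega)) (by nlinarith)
    (by omega) (by positivity)
  have h4 : (q : ℤ) ^ 6 * (P * P) * (q + 2) ≤ q ^ 6 * (P * P) * q ^ 2 := by gcongr; nlinarith
  have h5 : (0 : ℤ) ≤ q ^ 4 * P := by positivity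
  have h6 : (q : ℤ) ^ 4 * P ≤ q ^ 5 * P := by gcongr <;> omega
  rcases neg_one_pow_eq_or ℤ k with h | h <;>
    simp only [mul_add, two_mul, pow_add, ← hP, h] <;> nlinarith

theorem card_le_four (h : IsHerm B q) (h2 : q = 2) {A : AddSubgroup V} (hA : ∀ x ∈ A, B x x = 0 → x = 0) :
    Nat.card A ≤ 4 := by
  have := h.finite
  have h1 : ∀ x ∈ A, x ≠ 0 → B x x = 1 := fun x hx h0 => by
    have h3 := (h.bar.fixed_iff (mt (hA x hx) h0)).1 (h.self_fixed x)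
    rwa [h2, pow_one] at h3
  have h3 : (2 : F) = 0 := by simpa [h2] using h.bar.cast_q
  have h4 : ∀ x : V, x + x = 0 := fun x => by rw [← two_smul F, h3, zero_smul]
  have h5 : ∀ x y : V, x + y = 0 → x = y := fun x y e => add_right_cancel (e.trans (h4 y).symm)
  have h6 : ∀ x ∈ A, ∀ y ∈ A, x ≠ 0 → y ≠ 0 → x ≠ y → B x y + B y x = 1 := fun x hx y hy hx0 hy0 hxy => by
    have h6 := h1 _ (A.add_mem hx hy) (mt (h5 x y) hxy)
    simp only [map_add, LinearMap.add_apply, h1 x hx hx0, h1 y hy hy0] at h6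
    linear_combination h6 - h3
  by_contra h7
  have h8 : ∀ a b c d : V, ∃ x ∈ A, x ≠ a ∧ x ≠ b ∧ x ≠ c ∧ x ≠ d := fun a b c d => by
    by_contra h8
    push Not at h8
    have h9 := Set.ncard_le_ncard (show (A : Set V) ⊆ {a, b, c, d} from fun x hx => by
      by_contra h9; simp only [Set.mem_insert_iff, Set.mem_singleton_iff, not_or] at h9
      exact h9.2.2.2 (h8 x hx h9.1 h9.2.1 h9.2.2.1))
    have h10 := Set.ncard_insert_le a {b, c, d}
    have h11 := Set.ncard_insert_le b {c, d}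
    have h12 := Set.ncard_insert_le c {d}
    rw [Set.ncard_singleton] at h12
    exact h7 (h9.trans (by omega))
  obtain ⟨a, ha, ha0, -⟩ := h8 0 0 0 0
  obtain ⟨b, hb, hb0, hba, -⟩ := h8 0 a 0 0
  obtain ⟨c, hc, hc0, hca, hcb, hcab⟩ := h8 0 a b (a + b)
  have h9 := h1 _ (A.add_mem (A.add_mem ha hb) hc) fun e => hcab (h5 _ _ e).symm
  simp only [map_add, LinearMap.add_apply, h1 a ha ha0, h1 b hb hb0, h1 c hc hc0] at h9
  exact one_ne_zero (α := F) (by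
    linear_combination -h9 + h6 a ha b hb ha0 hb0 hba.symm + h6 a ha c hc ha0 hc0 hca.symm +
      h6 b hb c hc hb0 hc0 hcb.symm + 3 * h3)

section Fam

variable (h : IsHerm B q) {e f : V} (hef : Hyp B e f) (θ : AddChar F ℂ) {Ω : Type*} [MulAction (SUG B) Ω]

/-- The annihilator of the image of a point stabiliser. -/
def An (ω : Ω) : AddSubgroup V where
  carrier := {y | y ∈ hcp B ⊤ e f ∧ ∀ x ∈ Bs h hef.left ⊤ f (St B ω), θ (B y x) = 1}
  zero_mem' := ⟨Submodule.zero_mem _, fun x _ => by simp⟩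
  add_mem' ha hb := ⟨Submodule.add_mem _ ha.1 hb.1, fun x hx => by
    rw [map_add, LinearMap.add_apply, AddChar.map_add_eq_mul, ha.2 x hx, hb.2 x hx, mul_one]⟩
  neg_mem' ha := ⟨Submodule.neg_mem _ ha.1, fun x hx => by
    rw [map_neg, LinearMap.neg_apply, ← map_neg]; exact ha.2 _ (AddSubgroup.neg_mem _ hx)⟩

/-- The group induced by the Levi factor. -/
def Lev (B : V →ₛₗ[σ] V →ₗ[F] F) (e f : V) : Subgroup (V ≃ₗ[F] V) where
  carrier := {γ | ∃ g : SUG B, ∃ a b : F, a ≠ 0 ∧ b ≠ 0 ∧ g.1 e = a • e ∧ g.1 f = b • f ∧ ∀ x, γ x = a⁻¹ • g.1 x}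
  one_mem' := ⟨1, 1, 1, one_ne_zero, one_ne_zero, by simp, by simp, by simp⟩
  mul_mem' := by
    rintro γ γ' ⟨g, a, b, ha, hb, h1, h2, h3⟩ ⟨g', a', b', ha', hb', h4, h5, h6⟩
    refine ⟨g * g', a' * a, b' * b, mul_ne_zero ha' ha, mul_ne_zero hb' hb, ?_, ?_, fun x => ?_⟩
    · change g.1 (g'.1 e) = _; rw [h4, map_smul, h1, smul_smul]
    · change g.1 (g'.1 f) = _; rw [h5, map_smul, h2, smul_smul]
    · rw [LinearEquiv.mul_apply, h3, h6, map_smul, smul_smul, mul_inv_rev]; rfl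
  inv_mem' := by
    rintro γ ⟨g, a, b, ha, hb, h1, h2, h3⟩
    refine ⟨g⁻¹, a⁻¹, b⁻¹, inv_ne_zero ha, inv_ne_zero hb, inv_app_of_app ha h1, inv_app_of_app hb h2, fun x => ?_⟩
    obtain ⟨x, rfl⟩ := γ.surjective x
    rw [show γ⁻¹ (γ x) = x from γ.symm_apply_apply x, h3, map_smul, smul_smul, inv_mul_cancel₀ (inv_ne_zero ha),
      one_smul]
    exact (g.1.symm_apply_apply x).symm

theorem mem_Lev_of_fix {g : SUG B} (he : g.1 e = e) (hf : g.1 f = f) : g.1 ∈ Lev B e f :=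
  ⟨g, 1, 1, one_ne_zero, one_ne_zero, by simpa using he, by simpa using hf, by simp⟩

theorem An_smul {g : SUG B} {a b : F} (ha : a ≠ 0) (hb : b ≠ 0) (he : g.1 e = a • e) (hf : g.1 f = b • f)
    {γ : V ≃ₗ[F] V} (hγ : ∀ x, γ x = a⁻¹ • g.1 x) (ω : Ω) : An h hef θ (g • ω) = γ • An h hef θ ω := by
  have ha' : σ a ≠ 0 := (map_ne_zero σ).2 ha
  have h1 := mem_Bs_smul_iff h hef.left (U := ⊤) ha hb he hf (fun _ => Iff.rfl) ω
  have h2 : ∀ x y, B (γ y) (σ a • g.1 x) = B y x := fun x y => by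
    rw [hγ, B_smul_smul, SUG_le_UG g.2, map_inv₀, inv_mul_cancel₀ ha', one_mul]
  ext y
  obtain ⟨y, rfl⟩ := γ.surjective y
  refine Iff.trans ?_ (AddSubgroup.smul_mem_pointwise_smul_iff (a := γ)).symm
  refine ⟨fun hy => ⟨?_, fun x hx => h2 x y ▸ hy.2 _ ((h1 x).2 hx)⟩, fun hy => ⟨?_, fun x hx => ?_⟩⟩
  · have h3 := app_mem_hcp (SUG_le_UG g⁻¹.2) (inv_ne_zero ha) (inv_ne_zero hb) (inv_app_of_app ha he)
      (inv_app_of_app hb hf) hy.1 trivial
    rw [hγ, map_smul, Submodule.smul_mem_iff _ (inv_ne_zero ha)] at h3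
    simpa using h3
  · rw [hγ]; exact Submodule.smul_mem _ _ (app_mem_hcp (SUG_le_UG g.2) ha hb he hf hy.1 trivial)
  · obtain ⟨z, hz⟩ := g.1.surjective ((σ a)⁻¹ • x)
    obtain rfl : x = σ a • g.1 z := by rw [hz, smul_inv_smul₀ ha']
    rw [h2]; exact hy.2 z ((h1 z).1 hx)

variable (hθ : ∃ t, θ t ≠ 1)
include hθ

theorem card_An (ω : Ω) : Nat.card (Bs h hef.left ⊤ f (St B ω)) * Nat.card (An h hef θ ω) =
    q ^ (2 * finrank F (hcp B ⊤ e f)) := by
  have := h.finite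
  rw [← card_sub h, ← (hermPair h θ hθ ((nd_top h).hcp h hef trivial trivial)).card_mul_card_ann
    ((Bs h hef.left ⊤ f (St B ω)).comap (hcp B ⊤ e f).subtype.toAddMonoidHom), card_comap_subtype fun _ => Bs_le h _,
    ← card_comap_subtype (W := hcp B ⊤ e f) (S := An h hef θ ω) fun _ hx => hx.1]
  congr 3
  ext y
  exact ⟨fun hy x hx => hy.2 _ hx, fun hy => ⟨y.2, fun x hx => hy ⟨x, hx.1⟩ hx⟩⟩

theorem mem_Bs_of_An_eq_bot {ω : Ω} (h0 : An h hef θ ω = ⊥) {w : V} (hw : w ∈ hcp B ⊤ e f) :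
    w ∈ Bs h hef.left ⊤ f (St B ω) := by
  have := h.finite
  have h1 := card_An h hef θ hθ ω
  rw [h0, AddSubgroup.card_bot, mul_one, ← card_sub h] at h1
  have h2 := AddSubgroup.eq_of_le_of_card_ge (H := Bs h hef.left ⊤ f (St B ω)) (K := (hcp B ⊤ e f).toAddSubgroup)
    (fun _ => Bs_le h _) h1.ge
  rwa [h2]

variable (Ω) [Finite Ω]

/-- The family of annihilators of the points fixed by the transvections. -/
noncomputable def fam : Finset (AddSubgroup V) :=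
  (Set.toFinite (An h hef θ '' {ω : Ω | Zs hef.left (St B ω) = Tz σ})).toFinset

variable {Ω}
omit hθ

theorem mem_fam {A : AddSubgroup V} :
    A ∈ fam h hef θ Ω ↔ ∃ ω : Ω, Zs hef.left (St B ω) = Tz σ ∧ An h hef θ ω = A := Set.Finite.mem_toFinset _

include h in
theorem Zs_smul_eq_Tz {g : SUG B} {a : F} (ha : a ≠ 0) (he : g.1 e = a • e) {ω : Ω}
    (hZ : Zs hef.left (St B ω) = Tz σ) : Zs hef.left (St B (g • ω)) = Tz σ := by
  refine le_antisymm (Zs_le _) fun c hc => ?_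
  have h0 : a * σ a ≠ 0 := mul_ne_zero ha ((map_ne_zero σ).2 ha)
  have h1 := mul_mem_Zs_smul hef.left he h.bar (show c / (a * σ a) ∈ Zs hef.left (St B ω) by
    rw [hZ, mem_Tz, map_div₀, mem_Tz.1 hc, h.bar.norm_fixed, neg_div])
  rwa [div_mul_cancel₀ _ h0] at h1

theorem inv_fam [Fintype F] : Inv (Lev B e f) (fam h hef θ Ω) := by
  rintro γ ⟨g, a, b, ha, hb, he, hf, hγ⟩ A hA
  obtain ⟨ω, hZ, rfl⟩ := (mem_fam h hef θ).1 hA
  exact (mem_fam h hef θ).2 ⟨g • ω, Zs_smul_eq_Tz h hef ha he hZ, An_smul h hef θ ha hb he hf hγ ω⟩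

include hθ in
theorem wt_fam_le : wt (fam h hef θ Ω) ≤ {ω : Ω | Zs hef.left (St B ω) = Tz σ}.ncard := by
  have := h.finite
  refine sum_le_ncard (Set.toFinite _) (An h hef θ) _ _ fun A hA => ?_
  obtain ⟨ω, hZ, rfl⟩ := (mem_fam h hef θ).1 hA
  have h1 := ncard_orbit_QE h hef ⊤ ω
  rw [hZ, card_Tz h.bar, pow_succ, ← card_An h hef θ hθ ω, ← mul_assoc, mul_comm (Set.ncard _)] at h1
  rw [← Nat.eq_of_mul_eq_mul_left Nat.card_pos (Nat.eq_of_mul_eq_mul_right (by have := h.bar.two_le; omega) h1)]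
  refine Set.ncard_le_ncard (fun x hx => ?_) (Set.toFinite _)
  obtain ⟨h2, h3⟩ := orbit_subset_fib h hef ω hx
  exact ⟨h2.trans hZ, by ext y; change _ ∧ _ ↔ _ ∧ _; rw [h3]⟩

end Fam

theorem exists_SUG_fix (h : IsHerm B q) {e f : V} (hef : Hyp B e f) (h5 : 5 ≤ finrank F V) {x y : V}
    (hx : x ∈ hcp B ⊤ e f) (hy : y ∈ hcp B ⊤ e f) (hx0 : x ≠ 0) (hy0 : y ≠ 0) (hxy : B x x = B y y) :
    ∃ g : SUG B, g.1 e = e ∧ g.1 f = f ∧ g.1 x = y := by
  have hW := (nd_top h).hcp h hef trivial trivial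
  have hli : ∀ z ∈ hcp B ⊤ e f, z ≠ 0 → LinearIndependent F ![e, f, z] := fun z hz hz0 => by
    rw [Fintype.linearIndependent_iff]
    intro c hc
    simp only [Fin.sum_univ_three, Matrix.cons_val_zero, Matrix.cons_val_one, Matrix.cons_val] at hc
    have h1 := congrArg (B e) hc
    have h2 := congrArg (B f) hc
    simp only [map_add, map_smul, hef.left, hef.right, hef.eq, hef.eq', (mem_hcp.1 hz).2.1, (mem_hcp.1 hz).2.2,
      smul_eq_mul, mul_zero, mul_one, add_zero, zero_add, map_zero] at h1 h2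
    rw [h1, h2, zero_smul, zero_smul, zero_add, zero_add, smul_eq_zero_iff_left hz0] at hc
    intro i; fin_cases i <;> assumption
  obtain ⟨v, hv1, hv2⟩ := (h.restrict (hW.disjoint h)).exists_perp_self_ne_zero
    (by have := finrank_hcp (U := ⊤) hef trivial trivial; rw [finrank_top] at this; omega) ⟨y, hy⟩
  obtain ⟨g, hg, h1⟩ := h.exists_mem_SUG_family _ _ (hli x hx hx0) (hli y hy hy0) (fun i j => by
    fin_cases i <;> fin_cases j <;> simp [(mem_hcp.1 hx).2.1, (mem_hcp.1 hx).2.2, (mem_hcp.1 hy).2.1,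
      (mem_hcp.1 hy).2.2, h.flip_zero (mem_hcp.1 hx).2.1, h.flip_zero (mem_hcp.1 hx).2.2,
      h.flip_zero (mem_hcp.1 hy).2.1, h.flip_zero (mem_hcp.1 hy).2.2, hxy]) (v := v) hv2 fun i => by
    fin_cases i
    · exact h.flip_zero (mem_hcp.1 v.2).2.1
    · exact h.flip_zero (mem_hcp.1 v.2).2.2
    · exact h.flip_zero hv1
  exact ⟨⟨g, hg⟩, h1 0, h1 1, h1 2⟩

theorem exists_Lev_noniso (h : IsHerm B q) {e f : V} (hef : Hyp B e f) (h5 : 5 ≤ finrank F V) {x y : V}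
    (hx : x ∈ hcp B ⊤ e f) (hy : y ∈ hcp B ⊤ e f) (hx0 : B x x ≠ 0) (hy0 : B y y ≠ 0) : ∃ γ ∈ Lev B e f, γ x = y := by
  obtain ⟨a, ha⟩ := h.bar.exists_norm_eq (a := B x x / B y y) (by rw [map_div₀, h.self_fixed, h.self_fixed])
  have ha0 : a ≠ 0 := by rintro rfl; exact div_ne_zero hx0 hy0 (by simpa using ha.symm)
  have ha1 : σ a ≠ 0 := (map_ne_zero σ).2 ha0
  obtain ⟨g, h1, h2⟩ := exists_torus' h (by omega) hef ha0
  have h3 := app_mem_hcp (SUG_le_UG g.2) ha0 (inv_ne_zero ha1) h1 h2 hx trivial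
  obtain ⟨k, h4, h6, h7⟩ := exists_SUG_fix h hef h5 (Submodule.smul_mem _ a⁻¹ h3) hy
    (smul_ne_zero (inv_ne_zero ha0) (by rw [ne_eq, g.1.map_eq_zero_iff]; rintro rfl; simp at hx0))
    (by rintro rfl; simp at hy0) (by
      rw [B_smul_smul, SUG_le_UG g.2, map_inv₀, ← mul_inv_rev, ha]
      field_simp)
  exact ⟨k.1 * g.1.trans (LinearEquiv.smulOfNeZero F V a⁻¹ (inv_ne_zero ha0)), (Lev B e f).mul_mem
    (mem_Lev_of_fix h4 h6) ⟨g, a, _, ha0, inv_ne_zero ha1, h1, h2, fun _ => rfl⟩, h7⟩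

end CL.MinU
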