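/-
Minimal degrees of unitary groups, V: the family of annihilators is trivial.
-/
import Cfsg.Agent.Known.MinDegU4

set_option autoImplicit false
set_option linter.unusedSectionVars false

open Module CL.Uni CL.MinD
open scoped Pointwise

namespace CL.MinU

variable {F V : Type*} [Field F] {q : ℕ} {σ : F →+* F} [AddCommGroup V] [Module F V] [FiniteDimensional F V]
  {B : V →ₛₗ[σ] V →ₗ[F] F}

/-- A subgroup that is invariant under the stabilisers of its isotropic vectors. -/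
structure Rig (B : V →ₛₗ[σ] V →ₗ[F] F) (e f : V) (A : AddSubgroup V) : Prop where
  le : ∀ x ∈ A, x ∈ hcp B ⊤ e f
  fix : ∀ x ∈ A, x ≠ 0 → B x x = 0 → ∀ g : SUG B, g.1 e = e → g.1 f = f → g.1 x = x → ∀ a ∈ A, g.1 a ∈ A

namespace Rig

variable (h : IsHerm B q) {e f : V} (hef : Hyp B e f) {A : AddSubgroup V} (hA : Rig B e f A)
include h hef hA

theorem eich {x w a : V} (hx : x ∈ A) (hx0 : x ≠ 0) (hxx : B x x = 0) (hw : w ∈ hcp B ⊤ e f) (hxw : B x w = 0)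
    (ha : a ∈ A) : ∃ c : F, B x a • w - (B w a + c * B x a) • x ∈ A := by
  obtain ⟨c, -, g, hg⟩ := exists_eich_SUG h hxx hxw
  have h1 := mem_hcp.1 (hA.le x hx)
  have h2 := mem_hcp.1 hw
  have h3 := A.sub_mem (hA.fix x hx hx0 hxx g (hg.fix (h.flip_zero h1.2.1) (h.flip_zero h2.2.1))
    (hg.fix (h.flip_zero h1.2.2) (h.flip_zero h2.2.2)) (hg.fix hxx (h.flip_zero hxw)) a ha) ha
  exact ⟨c, by rwa [hg, add_sub_assoc, add_sub_cancel_left] at h3⟩

theorem perp_le (h5 : 5 ≤ finrank F V) {x b : V} (hx : x ∈ A) (hxx : B x x = 0) (hb : b ∈ A) (hxb : B x b ≠ 0)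
    {w : V} (hw : w ∈ hcp B ⊤ e f) (hxw : B x w = 0) : w ∈ A := by
  have hW := (nd_top h).hcp h hef trivial trivial
  have hx0 : x ≠ 0 := by rintro rfl; simp at hxb
  have h1 : ∀ w ∈ hcp B ⊤ e f, B x w = 0 → ∃ t : F, w - t • x ∈ A := fun w hw hxw => by
    obtain ⟨c, hc⟩ := hA.eich h hef hx hx0 hxx (Submodule.smul_mem _ (B x b)⁻¹ hw) (by rw [map_smul, hxw, smul_zero]) hb
    exact ⟨_, by rwa [smul_inv_smul₀ hxb] at hc⟩
  obtain ⟨v, hv1, hv2⟩ := (h.restrict (hW.disjoint h)).exists_perp_self_ne_zero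
    (by have := finrank_hcp (U := ⊤) hef trivial trivial; rw [finrank_top] at this; omega) ⟨x, hA.le x hx⟩
  obtain ⟨s, hs⟩ := h1 v v.2 hv1
  obtain ⟨t, ht⟩ := h1 w hw hxw
  obtain ⟨z, hz, h2, h3⟩ := hW.exists_perp_eq h (hA.le x hx) (hA.le _ hs) (fun h0 => hv2 (by
    obtain ⟨a, ha⟩ := Submodule.mem_span_singleton.1 h0
    change B v.1 v.1 = 0
    rw [← sub_add_cancel v.1 (s • x), ← ha, ← add_smul, B_smul_smul, hxx, mul_zero])) (σ t)
  obtain ⟨c, hc⟩ := hA.eich h hef hx hx0 hxx hz h2 hs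
  have h4 : B x (v.1 - s • x) = 0 := by rw [map_sub, map_smul, hxx, smul_zero, sub_zero]; exact hv1
  rw [h4, ← h.symm, h3, h.bar_bar, zero_smul, mul_zero, add_zero, zero_sub] at hc
  simpa using A.sub_mem ht hc

theorem le_of_not_perp (h5 : 5 ≤ finrank F V) {x b : V} (hx : x ∈ A) (hxx : B x x = 0) (hb : b ∈ A) (hbb : B b b = 0)
    (hxb : B x b ≠ 0) {w : V} (hw : w ∈ hcp B ⊤ e f) : w ∈ A := by
  have h1 := Submodule.smul_mem _ (B x w / B x b) (hA.le b hb)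
  simpa using A.add_mem (hA.perp_le h hef h5 hx hxx hb hxb (Submodule.sub_mem _ hw h1) (by
    rw [map_sub, map_smul, smul_eq_mul, div_mul_cancel₀ _ hxb, sub_self]))
    (hA.perp_le h hef h5 hb hbb hx (mt h.flip_zero hxb) h1 (by rw [map_smul, hbb, smul_zero]))

theorem mem_span (h5 : 5 ≤ finrank F V) (hW : ∃ w ∈ hcp B ⊤ e f, w ∉ A) {x b : V} (hx : x ∈ A) (hx0 : x ≠ 0)
    (hxx : B x x = 0) (hb : b ∈ A) (hbb : B b b = 0) : b ∈ Submodule.span F {x} := by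
  obtain ⟨w, hw, hwA⟩ := hW
  have h1 : ∀ x ∈ A, ∀ b ∈ A, B x x = 0 → B b b = 0 → B x b = 0 := fun x hx b hb hxx hbb => by_contra fun h0 =>
    hwA (hA.le_of_not_perp h hef h5 hx hxx hb hbb h0 hw)
  by_contra h2
  obtain ⟨z, hz, h3, h4⟩ := ((nd_top h).hcp h hef trivial trivial).exists_perp_eq h (hA.le x hx) (hA.le b hb) h2 1
  obtain ⟨s, hs⟩ := h.bar.exists_trace_eq (h.self_fixed z)
  obtain ⟨c, hc0, hc⟩ := h.bar.exists_trace_zero
  have h6 : B (z - s • b) (z - s • b) = 0 := by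
    simp only [map_sub, map_smulₛₗ, LinearMap.sub_apply, LinearMap.smul_apply, smul_eq_mul, RingHom.id_apply, hbb, h4,
      h.flip_one h4]
    linear_combination -hs
  have h7 : B (z - s • b) b = 1 := h.flip_one (by simp [h4, hbb])
  have h8 := mem_hcp.1 (Submodule.sub_mem _ hz (Submodule.smul_mem _ s (hA.le b hb)))
  obtain ⟨g, hg, ht⟩ := h.exists_tv h6 hc
  have h9 := A.sub_mem (hA.fix x hx hx0 hxx ⟨g, hg⟩ (ht.fix (h.flip_zero h8.2.1)) (ht.fix (h.flip_zero h8.2.2))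
    (ht.fix (h.flip_zero (by simp [h3, h1 x hx b hb hxx hbb]))) b hb) hb
  rw [ht, h7, mul_one, add_sub_cancel_left] at h9
  have h10 := h1 _ h9 b hb (by rw [B_smul_smul, h6, mul_zero]) hbb
  rw [LinearMap.map_smulₛₗ, LinearMap.smul_apply, h7, smul_eq_mul, mul_one, map_eq_zero] at h10
  exact hc0 h10

theorem card_iso_le (h5 : 5 ≤ finrank F V) (hW : ∃ w ∈ hcp B ⊤ e f, w ∉ A) (X : Finset V)
    (hX : ∀ x ∈ X, x ∈ A ∧ x ≠ 0 ∧ B x x = 0) : q ^ 2 * X.card + Nat.card A ≤ q ^ 2 * Nat.card A := by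
  classical
  have := h.finite
  have := h.bar.finite
  have h1 := card_filter_mem_succ_le A X fun h0 => (hX 0 h0).2.1 rfl
  rw [Finset.filter_true_of_mem fun x hx => (hX x hx).1] at h1
  have h2 : X.card + 1 ≤ q ^ 2 := by
    rcases X.eq_empty_or_nonempty with rfl | ⟨x, hx⟩
    · exact Nat.one_le_pow _ _ (by have := h.bar.two_le; omega)
    have h2 := card_filter_mem_succ_le (Submodule.span F {x}).toAddSubgroup X fun h0 => (hX 0 h0).2.1 rfl
    rw [Finset.filter_true_of_mem fun y hy => by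
      exact hA.mem_span h hef h5 hW (hX x hx).1 (hX x hx).2.1 (hX x hx).2.2 (hX y hy).1 (hX y hy).2.2] at h2
    have h3 := card_sub h (Submodule.span F {x})
    rw [finrank_span_singleton (hX x hx).2.1] at h3
    exact h2.trans_eq h3
  obtain ⟨a, ha⟩ := Nat.exists_eq_add_of_le h1
  obtain ⟨b, hb⟩ := Nat.exists_eq_add_of_le h2
  rw [ha, hb]
  nlinarith [Nat.zero_le (a * X.card), Nat.zero_le (a * b)]

end Rig

section Fam

variable (h : IsHerm B q) {e f : V} (hef : Hyp B e f) {r : ℕ} (hr : finrank F V = r + 2) (h3 : 3 ≤ r)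
  (θ : AddChar F ℂ) (hθ : ∃ t, θ t ≠ 1) {Ω : Type*} [MulAction (SUG B) Ω] [Finite Ω] {N : ℕ}
  (hN : {ω : Ω | Zs hef.left (St B ω) = Tz σ}.ncard = N)
include h hr h3 hθ hN

/-- If an annihilator contains an isotropic vector then there are many fixed points. -/
theorem le_of_iso (hle : q ^ 2 * N ≤ q ^ 2 * isoCount q r + N) {A : AddSubgroup V} (hA : A ∈ fam h hef θ Ω) {x : V}
    (hx : x ∈ A) (hx0 : x ≠ 0) (hxx : B x x = 0) : q ^ 2 * isoCount q r + N ≤ q ^ 2 * N := by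
  classical
  have := h.finite
  have := h.bar.finite
  have := Fintype.ofFinite F
  have hq := h.bar.two_le
  have hW := (nd_top h).hcp h hef trivial trivial
  have hd := finrank_hcp_top hef hr
  have hle' : ∀ A ∈ fam h hef θ Ω, ∀ x ∈ A, x ∈ hcp B ⊤ e f := fun A hA x hx => by
    obtain ⟨ω, -, rfl⟩ := (mem_fam h hef θ).1 hA
    exact hx.1
  have hwt := (wt_fam_le h hef θ hθ (Ω := Ω)).trans_eq hN
  let X := (Set.toFinite {v | v ∈ hcp B ⊤ e f ∧ v ≠ 0 ∧ B v v = 0}).toFinset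
  have hX : X.card = isoCount q r := by rw [← Set.ncard_eq_toFinset_card, ncard_iso h hW, hd]
  have hX' : ∀ {v}, v ∈ X ↔ v ∈ hcp B ⊤ e f ∧ v ≠ 0 ∧ B v v = 0 := Set.Finite.mem_toFinset _
  have htr : ∀ x ∈ X, ∀ y ∈ X, ∃ g ∈ Lev B e f, g x = y := fun x hx y hy => by
    obtain ⟨g, h1, h2, h4⟩ := exists_SUG_fix h hef (by omega) (hX'.1 hx).1 (hX'.1 hy).1 (hX'.1 hx).2.1 (hX'.1 hy).2.1
      ((hX'.1 hx).2.2.trans (hX'.1 hy).2.2.symm)
    exact ⟨g, mem_Lev_of_fix h1 h2, h4⟩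
  have hq2 : 4 ≤ q ^ 2 := Nat.pow_le_pow_left hq 2
  have hrig : ∀ A ∈ fam h hef θ Ω, Rig B e f A := fun A hA => ⟨hle' A hA, fun x hx hx0 hxx g h1 h2 h4 a ha => by
    by_contra h6
    have h7 := inv_fam h hef θ g.1 (mem_Lev_of_fix h1 h2) A hA
    have h8 := (inv_fam h hef θ (Ω := Ω)).cover X (by simp [hX']) (htr x (hX'.2 ⟨hle' A hA x hx, hx0, hxx⟩)) (m := 2)
      (Finset.one_lt_card.2 ⟨A, Finset.mem_filter.2 ⟨hA, hx⟩, g.1 • A, Finset.mem_filter.2 ⟨h7, h4 ▸ app_mem_smul.2 hx⟩,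
        fun h8 => h6 (h8 ▸ app_mem_smul.2 ha)⟩)
    have h9 := Finset.card_pos.2 ⟨A, hA⟩
    rw [hX] at h8
    obtain ⟨k, hk⟩ := Nat.exists_eq_add_of_le (show isoCount q r * 2 + 1 ≤ N by omega)
    obtain ⟨s, hs⟩ := Nat.exists_eq_add_of_le hq2
    rw [hs, hk] at hle
    nlinarith [Nat.zero_le (s * isoCount q r), Nat.zero_le (s * k)]⟩
  have h1 := card_mul_le_sum (fam h hef θ Ω) X (fun A x => x ∈ A) (fun _ => 1) 1 fun y hy => by
    obtain ⟨g, hg, rfl⟩ := htr x (hX'.2 ⟨hle' A hA x hx, hx0, hxx⟩) y hy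
    rw [Finset.sum_const, smul_eq_mul, mul_one]
    exact (Finset.card_pos.2 ⟨A, Finset.mem_filter.2 ⟨hA, hx⟩⟩).trans_le ((inv_fam h hef θ).thru_le hg x)
  have h2 : ∑ A ∈ fam h hef θ Ω, (q ^ 2 * (1 * (X.filter (· ∈ A)).card) + Nat.card A) ≤
      ∑ A ∈ fam h hef θ Ω, q ^ 2 * Nat.card A := Finset.sum_le_sum fun A hA => by
    rw [one_mul]
    refine (hrig A hA).card_iso_le h hef (by omega) ?_ _ fun x hx =>
      ⟨(Finset.mem_filter.1 hx).2, (hX'.1 (Finset.mem_filter.1 hx).1).2⟩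
    by_contra h2
    push Not at h2
    have h4 := AddSubgroup.card_le_of_le (H := (hcp B ⊤ e f).toAddSubgroup) h2
    have h5 : Nat.card A ≤ wt (fam h hef θ Ω) := Finset.single_le_sum (f := fun A : AddSubgroup V => Nat.card A)
      (fun _ _ => Nat.zero_le _) hA
    have h6 := card_sub h (hcp B ⊤ e f)
    have h7 := isoCount_bound hq h3
    rw [hd] at h6
    obtain ⟨k, hk⟩ := Nat.exists_eq_add_of_le (show q ^ (2 * r) ≤ N from h6.ge.trans (h4.trans (h5.trans hwt)))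
    obtain ⟨s, hs⟩ := Nat.exists_eq_add_of_le hq2
    rw [pow_add, hs] at h7
    rw [hs, hk] at hle
    nlinarith [Nat.zero_le (s * k)]
  simp only [one_mul] at h1 h2
  rw [Finset.sum_add_distrib, ← Finset.mul_sum, ← Finset.mul_sum] at h2
  rw [hX, mul_one] at h1
  obtain ⟨k, hk⟩ := Nat.exists_eq_add_of_le hwt
  obtain ⟨s, hs⟩ := Nat.exists_eq_add_of_le hq2
  have h4 := Nat.mul_le_mul_left (q ^ 2) h1
  unfold wt at hk
  rw [hk]
  rw [hs] at h2 h4 ⊢
  nlinarith [Nat.zero_le (s * k)]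

/-- If the annihilators are anisotropic and not all trivial then there are many fixed points. -/
theorem le_of_aniso (hA : ∀ A ∈ fam h hef θ Ω, ∀ x ∈ A, B x x = 0 → x = 0) {A : AddSubgroup V}
    (hA' : A ∈ fam h hef θ Ω) (h0 : A ≠ ⊥) : q ^ (2 * r) ≤ N + isoCount q r ∧
      (q = 2 → 4 * q ^ (2 * r) ≤ 3 * N + 4 * (isoCount q r + 1)) := by
  classical
  have := h.finite
  have := h.bar.finite
  have := Fintype.ofFinite F
  have hwt := (wt_fam_le h hef θ hθ (Ω := Ω)).trans_eq hN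
  let X := (Set.toFinite {v | v ∈ hcp B ⊤ e f ∧ B v v ≠ 0}).toFinset
  have hX := ncard_noniso h ((nd_top h).hcp h hef trivial trivial)
  rw [Set.ncard_eq_toFinset_card _ (Set.toFinite _), finrank_hcp_top hef hr] at hX
  have hX' : ∀ {v}, v ∈ X ↔ v ∈ hcp B ⊤ e f ∧ B v v ≠ 0 := Set.Finite.mem_toFinset _
  obtain ⟨⟨x, hx⟩, hx0⟩ := AddSubgroup.ne_bot_iff_exists_ne_zero.1 h0
  have htr : ∀ y ∈ X, ∃ g ∈ Lev B e f, g x = y := fun y hy => by
    obtain ⟨ω, -, rfl⟩ := (mem_fam h hef θ).1 hA'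
    exact exists_Lev_noniso h hef (by omega) hx.1 (hX'.1 hy).1 (fun h1 => hx0 (Subtype.ext (hA _ hA' x hx h1)))
      (hX'.1 hy).2
  have h1 : 0 < ((fam h hef θ Ω).filter (x ∈ ·)).card := Finset.card_pos.2 ⟨A, Finset.mem_filter.2 ⟨hA', hx⟩⟩
  refine ⟨?_, fun h2 => ?_⟩
  · have h2 := (inv_fam h hef θ (Ω := Ω)).cover X (by simp [hX']) htr h1
    have h4 := Finset.card_pos.2 ⟨A, hA'⟩
    change X.card + _ + 1 = _ at hX
    omega
  · have h4 := card_mul_le_sum (fam h hef θ Ω) X (fun A x => x ∈ A) (fun _ => 1) 1 fun y hy => by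
      obtain ⟨g, hg, rfl⟩ := htr y hy
      rw [Finset.sum_const, smul_eq_mul, mul_one]
      exact h1.trans_le ((inv_fam h hef θ).thru_le hg x)
    have h5 : ∑ A ∈ fam h hef θ Ω, 4 * (1 * (X.filter (· ∈ A)).card) ≤ ∑ A ∈ fam h hef θ Ω, 3 * Nat.card A :=
      Finset.sum_le_sum fun A hA' => by
        have h5 := card_filter_mem_succ_le A X (by simp [hX'])
        have h6 := card_le_four h h2 (hA A hA')
        omega
    simp only [one_mul] at h4 h5
    rw [← Finset.mul_sum, ← Finset.mul_sum] at h5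
    unfold wt at hwt
    change X.card + _ + 1 = _ at hX
    omega

end Fam

end CL.MinU
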