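/-
Minimal degrees of unitary groups, VI: the main theorem.
-/
import Cfsg.Agent.Known.MinDegU5
import Cfsg.Agent.Known.MinDeg0

set_option autoImplicit false
set_option linter.unusedSectionVars false

open Module CL.Uni CL.MinD
open scoped Pointwise

namespace CL.MinU

variable {F V : Type*} [Field F] {q : ℕ} {σ : F →+* F} [AddCommGroup V] [Module F V] [FiniteDimensional F V]
  {B : V →ₛₗ[σ] V →ₗ[F] F}

theorem exists_norm_one_ne (h : IsBar σ q) : ∃ a : F, a * σ a = 1 ∧ a ≠ σ a := by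
  obtain ⟨ζ, hζ⟩ := h.exists_primitiveRoot
  have h1 : ζ * σ ζ = 1 := by rw [h.norm_eq_pow, hζ.pow_eq_one]
  exact ⟨ζ, h1, fun h2 => hζ.pow_ne_one_of_pos_of_lt (l := 2) (by omega) (by have := h.two_le; omega)
    (by rw [sq, ← h1, ← h2])⟩

section Sub

variable (h : IsHerm B q) {H : Subgroup (V ≃ₗ[F] V)} (hH : H ≤ UG B)
include h

theorem mem_uCen_of_Zs {e : V} (he : B e e = 0) (hZ : Zs he H = Tz σ) : e ∈ UCen B H :=
  ⟨he, fun c g hc hg => by
    obtain ⟨-, g', h1, h2⟩ : c ∈ Zs he H := hZ ▸ hc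
    rwa [hg.unique h2]⟩

theorem eichIn_of_Bs {e f : V} (hef : Hyp B e f) (hZ : Zs hef.left H = Tz σ)
    (hB : ∀ w ∈ hcp B ⊤ e f, w ∈ Bs h hef.left ⊤ f H) {w : V} (hw : B e w = 0) : EichIn B H e w := by
  have h1 := mem_uCen_of_Zs h _ hZ
  have h2 := hef.proj_mem (U := ⊤) (x := w) trivial trivial trivial
  rw [hw, zero_smul, sub_zero] at h2
  obtain ⟨-, c, hc, g, hg, h3⟩ := hB _ h2
  simpa using h.eichIn_add h1 (mem_hcp.1 h2).2.1 (by rw [map_smul, hef.left, smul_zero])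
    (h.eichIn_of_mem h1 (mem_hcp.1 h2).2.1 hc h3 hg) (h.eichIn_smul_self h1 (B f w))

include hH

theorem mem_Bs_of_eich {e f w : V} (hef : Hyp B e f) (hw : w ∈ hcp B ⊤ e f) {c : F} {g : V ≃ₗ[F] V} (hg : g ∈ H)
    (h1 : IsEich B e w c g) : w ∈ Bs h hef.left ⊤ f H := by
  refine ⟨hw, c, ?_, g, hg, h1⟩
  have h2 := hH hg f f
  have h3 := mem_hcp.1 hw
  rw [eich_app_right h hef h3.2.2 h1] at h2
  simp only [map_add, map_sub, map_smulₛₗ, LinearMap.add_apply, LinearMap.sub_apply, LinearMap.smul_apply,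
    smul_eq_mul, RingHom.id_apply, hef.left, hef.right, hef.eq, hef.eq', h3.2.1, h3.2.2, h.flip_zero h3.2.1,
    h.flip_zero h3.2.2] at h2
  linear_combination -h2

theorem SUG_le_of_fix (h4 : 4 ≤ finrank F V) (hd : ∀ e f (hef : Hyp B e f), Bs h hef.left ⊤ f H = ⊥ ∨
      Zs hef.left H = Tz σ ∧ ∀ w ∈ hcp B ⊤ e f, w ∈ Bs h hef.left ⊤ f H) {e f : V} (hef : Hyp B e f)
    (hZ : Zs hef.left H = Tz σ) (hB : ∀ w ∈ hcp B ⊤ e f, w ∈ Bs h hef.left ⊤ f H) : SUG B ≤ H := by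
  have key : ∀ u ∈ hcp B ⊤ e f, ∀ u' ∈ hcp B ⊤ e f, ∀ huu : Hyp B u u',
      Zs huu.left H = Tz σ ∧ ∀ w ∈ hcp B ⊤ u u', w ∈ Bs h huu.left ⊤ u' H := fun u hu u' hu' huu => by
    refine (hd u u' huu).resolve_left fun h0 => ?_
    obtain ⟨g, hg, h1⟩ := h.exists_eich hef.left (mem_hcp.1 hu).2.1 (c := 0) (by simp [huu.left])
    have h2 := mem_Bs_of_eich h hH huu (w := -e) (c := 0) (Submodule.neg_mem _ (mem_hcp.2
      ⟨trivial, h.flip_zero (mem_hcp.1 hu).2.1, h.flip_zero (mem_hcp.1 hu').2.1⟩))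
      (eichIn_of_Bs h hef hZ hB (mem_hcp.1 hu).2.1 0 g (by simp [huu.left]) h1) fun x => by rw [h1]; simp; module
    rw [h0, AddSubgroup.mem_bot, neg_eq_zero] at h2
    exact hef.ne_zero h2
  obtain ⟨u, hu, u', hu', huu⟩ := ((nd_top h).hcp h hef trivial trivial).exists_pair h (by
    have := finrank_hcp (U := ⊤) hef trivial trivial; rw [finrank_top] at this; omega)
  obtain ⟨h1, h2⟩ := key u hu u' hu' huu
  exact h.SUG_le_of_eich (by omega) hH (mem_uCen_of_Zs h _ h1) (fun w hw => eichIn_of_Bs h huu h1 h2 hw)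
    (mem_uCen_of_Zs h _ (key u' hu' u hu huu.symm).1) (by rw [huu.eq]; exact one_ne_zero)

theorem false_of_reg (h5 : 5 ≤ finrank F V) (hd : ∀ e f (hef : Hyp B e f), Zs hef.left H = ⊥ ∧ Bs h hef.left ⊤ f H = ⊥)
    {e f : V} (hef : Hyp B e f) (htr : ∀ g : SUG B, ∃ k : QE h hef.left ⊤ f, k.1.1 * g.1 ∈ H) : False := by
  have hW := (nd_top h).hcp h hef trivial trivial
  have hd1 := finrank_hcp (U := ⊤) hef trivial trivial
  rw [finrank_top] at hd1
  obtain ⟨u, hu, u', hu', huu⟩ := hW.exists_pair h (by omega)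
  have hW' := hW.hcp h huu hu hu'
  have hd2 := finrank_hcp huu hu hu'
  obtain ⟨c₀, hc0, hc₀⟩ := h.bar.exists_trace_zero
  obtain ⟨t, htS, ht⟩ := h.exists_tv huu.left hc₀
  obtain ⟨⟨k, w, hw, c, hc, hk⟩, hkt⟩ := htr ⟨t, htS⟩
  obtain ⟨-, hue, huf⟩ := mem_hcp.1 hu
  obtain ⟨-, hue', huf'⟩ := mem_hcp.1 hu'
  have coc : ∀ g : SUG B, g.1 e = e → g.1 f = f → ∀ μ : F, μ * σ μ = 1 → g.1 u = μ • u →
      ∃ a : F, g.1 w = w + a • u := fun g hge hgf μ hμ hgu => by
    obtain ⟨⟨k', w', hw', c', hc', hk'⟩, hkg⟩ := htr g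
    have h1 := ht.conj (SUG_le_UG g.2)
    rw [hgu, isTv_smul, hμ, mul_one] at h1
    have h2 := hk.conj (SUG_le_UG g.2)
    have h3 := hk'.conj (SUG_le_UG htS)
    rw [hge] at h2
    rw [ht.fix (h.flip_zero hue)] at h3
    have h4 : g.1 w ∈ hcp B ⊤ e f := app_mem_hcp (SUG_le_UG g.2) one_ne_zero one_ne_zero (by simpa using hge)
      (by simpa using hgf) hw trivial
    have h6 : t w' ∈ hcp B ⊤ e f := by rw [ht]; exact Submodule.add_mem _ hw' (Submodule.smul_mem _ _ hu)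
    have h7 := Submodule.add_mem _ hw' h4
    have h8 := Submodule.add_mem _ hw h6
    have h9 := mem_Bs_of_eich h hH hef (Submodule.add_mem _ h7 (Submodule.neg_mem _ h8)) (by
      convert H.mul_mem (H.mul_mem hkg hkt) (H.inv_mem (H.mul_mem hkt hkg)) using 1
      change _ = k'.1 * g.1 * (k.1 * t) * (k.1 * t * (k'.1 * g.1))⁻¹
      rw [show k'.1 * g.1 * (k.1 * t) * (k.1 * t * (k'.1 * g.1))⁻¹ = k'.1 * (g.1 * k.1 * g.1⁻¹) *
        (g.1 * t * g.1⁻¹) * t⁻¹ * (k.1 * (t * k'.1 * t⁻¹))⁻¹ by group, h1.unique ht, mul_inv_cancel_right])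
      ((hk'.mul h2 hef.left (h.flip_zero (mem_hcp.1 hw').2.1) (mem_hcp.1 h4).2.1).mul
        ((hk.mul h3 hef.left (h.flip_zero (mem_hcp.1 hw).2.1) (mem_hcp.1 h6).2.1).inv hef.left
          (h.flip_zero (mem_hcp.1 h8).2.1) (mem_hcp.1 h8).2.1) hef.left (h.flip_zero (mem_hcp.1 h7).2.1)
          (mem_hcp.1 (Submodule.neg_mem _ h8)).2.1)
    rw [(hd e f hef).2, AddSubgroup.mem_bot, ht] at h9
    exact ⟨c₀ * B u w', by linear_combination (norm := module) h9⟩
  have hy : ∀ y ∈ hcp B (hcp B ⊤ e f) u u', B y y ≠ 0 → B u w = 0 ∧ B y w = 0 := fun y hy hyy => by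
    obtain ⟨h1, hyu, hyu'⟩ := mem_hcp.1 hy
    obtain ⟨-, hye, hyf⟩ := mem_hcp.1 h1
    constructor
    · obtain ⟨d, -, g, hg⟩ := exists_eich_SUG h huu.left hyu
      obtain ⟨a, ha⟩ := coc g (hg.fix (h.flip_zero hue) (h.flip_zero hye)) (hg.fix (h.flip_zero huf) (h.flip_zero hyf))
        1 (by simp) (by rw [one_smul]; exact hg.fix huu.left (h.flip_zero hyu))
      have h2 := congrArg (B y) ha
      rw [hg] at h2
      simpa [h.flip_zero hyu, hyy] using h2
    · obtain ⟨μ, hμ, hμ'⟩ := exists_norm_one_ne h.bar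
      have hμ0 := left_ne_zero_of_mul_eq_one hμ
      obtain ⟨g, h2, -, h3, h4⟩ := exists_torus h huu hyu hyu' hyy hμ0
      obtain ⟨a, ha⟩ := coc g (h4 e (h.flip_zero hue) (h.flip_zero hue') (h.flip_zero hye))
        (h4 f (h.flip_zero huf) (h.flip_zero huf') (h.flip_zero hyf)) μ hμ h2
      have h6 := SUG_le_UG g.2 y w
      rw [h3, ha, LinearMap.map_smulₛₗ, LinearMap.smul_apply, map_add, map_smul, h.flip_zero hyu, smul_zero, add_zero,
        smul_eq_mul, map_div₀, h.bar_bar] at h6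
      by_contra h7
      rw [mul_eq_right₀ h7, div_eq_one_iff_eq ((map_ne_zero σ).2 hμ0)] at h6
      exact hμ' h6
  obtain ⟨β, rfl⟩ : ∃ β : F, w = β • u := by
    obtain ⟨y, h1, h2⟩ := h.exists_mem_self_eq (hW'.disjoint h) (fun h0 => by rw [h0, finrank_bot] at hd2; omega)
      (map_one σ)
    have h3 := huu.proj_mem hu hu' hw
    rw [(hy y h1 (by rw [h2]; exact one_ne_zero)).1, zero_smul, sub_zero] at h3
    have h4 : ∀ y ∈ hcp B (hcp B ⊤ e f) u u', B y y ≠ 0 → B y (w - B u' w • u) = 0 := fun y h1 h2 => by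
      simp [(hy y h1 h2).2, h.flip_zero (mem_hcp.1 h1).2.1]
    refine ⟨B u' w, sub_eq_zero.1 (by_contra fun h0 => ?_)⟩
    obtain ⟨v, hv, h6⟩ := hW'.exists_hyp h h3 h0 (by_contra fun h6 => h6 (h4 _ h3 h6))
    obtain ⟨s, hs⟩ := h.bar.exists_trace_one
    have h7 := h4 _ (Submodule.add_mem _ hv (Submodule.smul_mem _ s h3)) (by
      simp only [map_add, map_smulₛₗ, LinearMap.add_apply, LinearMap.smul_apply, smul_eq_mul, RingHom.id_apply,
        h6.left, h6.right, h6.eq, h6.eq']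
      rw [show 0 + σ s * 1 + s * (1 + σ s * 0) = s + σ s by ring, hs]; exact one_ne_zero)
    rw [map_add, LinearMap.add_apply, LinearMap.map_smulₛₗ, LinearMap.smul_apply, h6.left, h6.eq'] at h7
    simp at h7
  rw [B_smul_smul, huu.left, mul_zero] at hc
  obtain ⟨μ, hμ⟩ := h.bar.exists_norm_eq (a := β * σ β / (c₀ * σ c₀) + c / c₀) (by
    rw [map_add, map_div₀, map_div₀, h.bar.norm_fixed, h.bar.norm_fixed, hc₀, eq_neg_of_add_eq_zero_right hc,
      neg_div_neg_eq])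
  obtain ⟨l, hl⟩ : ∃ l, l = μ - σ β / c₀ := ⟨_, rfl⟩
  have hl' : σ l = σ μ + β / c₀ := by rw [hl, map_sub, map_div₀, h.bar_bar, hc₀, div_neg, sub_neg_eq_add]
  have hx : Hyp B (u + l • e) u' := by
    have h1 : B (u + l • e) u' = 1 := by simp [huu.eq, hue']
    exact ⟨by simp [huu.left, hue, h.flip_zero hue, hef.left], huu.right, h1, h.flip_one h1⟩
  have h1 : IsEich B (u + l • e) ((-c₀ * μ) • e) (-c₀) (k.1 * t) := fun x => by
    rw [LinearEquiv.mul_apply, ht, hk]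
    simp only [map_add, map_smulₛₗ, LinearMap.add_apply, LinearMap.smul_apply, smul_eq_mul, RingHom.id_apply, hue,
      huu.left, map_mul, map_neg, hc₀, hl']
    rw [hc₀] at hμ
    rw [hl]
    match_scalars
    · ring
    · field_simp; ring
    · field_simp at hμ ⊢; linear_combination B e x * hμ
  have h2 := mem_Bs_of_eich h hH hx (Submodule.smul_mem _ _ (mem_hcp.2 ⟨trivial, by simp [h.flip_zero hue, hef.left],
    h.flip_zero hue'⟩)) hkt h1
  rw [(hd _ _ hx).2, AddSubgroup.mem_bot] at h2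
  rw [h2, isEich_zero, neg_neg] at h1
  have h3 : c₀ ∈ Zs hx.left H := ⟨hc₀, _, hkt, h1⟩
  rw [(hd _ _ hx).1] at h3
  exact hc0 h3

end Sub

theorem finite_SUG (h : IsHerm B q) : Finite (SUG B) := by
  have := h.finite
  exact Finite.of_injective (fun g : SUG B => (g.1 : V → V)) fun g g' e => Subtype.ext (DFunLike.coe_injective e)

theorem smul_span_singleton (g : SUG B) (x : V) : g • Submodule.span F {x} = Submodule.span F {g.1 x} :=
  (Submodule.smul_span g.1 {x}).trans (by rw [Set.smul_set_singleton]; rfl)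

theorem exists_SUG_app_eq (h : IsHerm B q) (h3 : 3 ≤ finrank F V) {x y : V} (hx : x ≠ 0) (hy : y ≠ 0)
    (hxy : B x x = B y y) : ∃ g : SUG B, g.1 x = y := by
  obtain ⟨v, h1, h2⟩ := h.exists_perp_self_ne_zero h3 y
  obtain ⟨g, hg, h4⟩ := h.exists_mem_SUG_family (fun _ : Unit => x) (fun _ => y)
    (linearIndependent_unique_iff.2 hx) (linearIndependent_unique_iff.2 hy) (fun _ _ => hxy) h2 fun _ => h.flip_zero h1
  exact ⟨⟨g, hg⟩, h4 ()⟩

theorem center_le_stabilizer (h : IsHerm B q) (h2 : 2 ≤ finrank F V) {v : V} (hv : v ≠ 0) :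
    Subgroup.center (SUG B) ≤ MulAction.stabilizer (SUG B) (Submodule.span F {v}) := fun g hg => by
  obtain ⟨a, ha⟩ := (h.mem_center_SUG h2 g).1 hg
  rw [MulAction.mem_stabilizer_iff, smul_span_singleton, ha]
  refine Submodule.span_singleton_smul_eq (Ne.isUnit fun h0 => hv ?_) _
  rw [← g.1.map_eq_zero_iff, ha, h0, zero_smul]

/-- The stabiliser of a point: its index. -/
theorem index_point (h : IsHerm B q) (h3 : 3 ≤ finrank F V) {v : V} (hv : v ≠ 0) :
    (MulAction.stabilizer (SUG B) (Submodule.span F {v})).index * {c : F | B (c • v) (c • v) = B v v ∧ c ≠ 0}.ncard =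
      {x | B x x = B v v ∧ x ≠ 0}.ncard := by
  classical
  have := h.finite
  have := finite_SUG h
  rw [MulAction.index_stabilizer]
  have h1 := (Set.toFinite (MulAction.orbit (SUG B) (Submodule.span F {v})))
  rw [Set.ncard_eq_toFinset_card _ h1, Set.ncard_eq_toFinset_card _ (Set.toFinite {x | B x x = B v v ∧ x ≠ 0}),
    Finset.card_eq_sum_card_fiberwise (f := fun x => Submodule.span F {x}) (t := h1.toFinset) fun x hx => ?_,
    ← smul_eq_mul, ← Finset.sum_const]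
  · refine Finset.sum_congr rfl fun U hU => ?_
    obtain ⟨g, rfl⟩ := h1.mem_toFinset.1 hU
    have h0 : g.1 v ≠ 0 := g.1.map_ne_zero_iff.2 hv
    rw [← Set.ncard_coe_finset, ← Set.ncard_image_of_injective _ (smul_left_injective F h0)]
    congr 1
    ext x
    simp only [Set.mem_image, Set.mem_ofPred_eq, Finset.coe_filter, Set.Finite.mem_toFinset, smul_span_singleton]
    constructor
    · rintro ⟨c, ⟨h2, h3⟩, rfl⟩
      exact ⟨⟨by rw [← map_smul, SUG_le_UG g.2, h2], smul_ne_zero h3 h0⟩,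
        Submodule.span_singleton_smul_eq (Ne.isUnit h3) _⟩
    · rintro ⟨⟨h2, h3⟩, h4⟩
      obtain ⟨c, rfl⟩ := Submodule.mem_span_singleton.1 (h4 ▸ Submodule.mem_span_singleton_self x)
      exact ⟨c, ⟨by rwa [← map_smul, SUG_le_UG g.2] at h2, by rintro rfl; exact h3 (zero_smul _ _)⟩, rfl⟩
  · obtain ⟨h2, h4⟩ := (Set.toFinite _).mem_toFinset.1 hx
    obtain ⟨g, rfl⟩ := exists_SUG_app_eq h h3 hv h4 h2.symm
    exact h1.mem_toFinset.2 ⟨g, smul_span_singleton _ _⟩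

theorem index_iso (h : IsHerm B q) (h3 : 3 ≤ finrank F V) {v : V} (hv : v ≠ 0) (hvv : B v v = 0) :
    (q ^ 2 - 1) * (MulAction.stabilizer (SUG B) (Submodule.span F {v})).index = isoCount q (finrank F V) := by
  have := h.bar.finite
  have h1 := index_point h h3 hv
  rw [show {c : F | B (c • v) (c • v) = B v v ∧ c ≠ 0} = Set.univ \ {0} by ext c; simp [hvv],
    Set.ncard_sdiff_singleton_of_mem (Set.mem_univ _), Set.ncard_univ, h.bar.card, hvv] at h1
  rw [mul_comm, h1, ← h.card_isotropic]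
  exact Nat.card_congr (Equiv.subtypeEquivRight fun _ => and_comm)

theorem index_noniso (h : IsHerm B q) (h3 : 3 ≤ finrank F V) {v : V} (hv : B v v ≠ 0) :
    (q + 1) * (MulAction.stabilizer (SUG B) (Submodule.span F {v})).index = normCount q (finrank F V) := by
  have h1 := index_point h h3 (v := v) (by rintro rfl; simp at hv)
  have h2 : {c : F | B (c • v) (c • v) = B v v ∧ c ≠ 0}.ncard = q + 1 := by
    rw [← h.bar.card_norm_one]
    refine Nat.card_congr (Equiv.subtypeEquivRight fun c => ?_)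
    rw [Set.mem_ofPred_eq, B_smul_smul, mul_eq_right₀ hv, mul_comm]
    exact and_iff_left_of_imp left_ne_zero_of_mul_eq_one
  rw [mul_comm, ← h2, h1, ← h.card_self_eq hv (h.self_fixed v)]
  exact Nat.card_congr (Equiv.subtypeEquivRight fun x => and_iff_left_of_imp fun h4 => by
    rintro rfl; exact hv (by simpa using h4.symm))

/-- The lower bound for the index of a proper subgroup of `SU(V)`, `dim V ≥ 5`. -/
theorem le_index (h : IsHerm B q) {r M : ℕ} (hr : finrank F V = r + 2) (h3 : 3 ≤ r)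
    (M1 : (q ^ 2 - 1) * M ≤ isoCount q (r + 2)) (MN : M + isoCount q r ≤ q ^ (2 * r + 1) + q ^ (2 * r) ∨
      q = 2 ∧ 3 * M + 4 * (isoCount q r + 1) ≤ 3 * q ^ (2 * r + 1) + 4 * q ^ (2 * r))
    (H : Subgroup (SUG B)) (hH : H ≠ ⊤) : M ≤ H.index := by
  have := finite_SUG h
  have := h.bar.finite
  have hq := h.bar.two_le
  by_contra hM
  rw [not_le] at hM
  have hΩ : ∀ ω : SUG B ⧸ H, ¬ SUG B ≤ St B ω := fun ω h0 => stabilizer_ne_top_quot hH ω
    (eq_top_iff.2 fun g _ => coe_mem_St.1 (h0 g.2))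
  have hU : ∀ ω : SUG B ⧸ H, St B ω ≤ UG B := fun ω => (St_le ω).trans SUG_le_UG
  obtain ⟨s, hs⟩ := Nat.exists_eq_add_of_le' (show 1 ≤ q ^ 2 from Nat.one_le_pow _ _ (by omega))
  have hs0 : 0 < s := by have := Nat.pow_le_pow_left hq 2; omega
  have hiso : isoCount q (r + 2) = (s + 1) * isoCount q r + s + s * (q ^ (2 * r) * q) := by
    obtain ⟨k, rfl⟩ := Nat.exists_eq_add_of_le' (show 1 ≤ r by omega)
    have h1 := isoCount_add_two (show 1 ≤ q by omega) k
    rw [show 2 * k + 5 = 2 * (k + 1) + 1 + 2 by ring, show 2 * k + 3 = 2 * (k + 1) + 1 by ring, 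
      pow_add q (2 * (k + 1) + 1) 2, pow_succ q (2 * (k + 1)), hs] at h1
    change isoCount q (k + 3) = _
    linarith
  have hb := isoCount_bound hq h3
  rw [pow_add, hs] at hb
  rw [hs, Nat.add_sub_cancel, hiso] at M1
  rw [pow_succ q (2 * r)] at MN
  have hN : Nat.card (SUG B ⧸ H) < (q + 1) * q ^ (2 * r) := hM.trans_le (Nat.le_of_mul_le_mul_left (by linarith) hs0)
  have key : ∀ e f (hef : Hyp B e f), (∃ ω : SUG B ⧸ H, Zs hef.left (St B ω) ≠ Tz σ) ∧ ∀ ω : SUG B ⧸ H,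
      Zs hef.left (St B ω) = Tz σ → ∀ w ∈ hcp B ⊤ e f, w ∈ Bs h hef.left ⊤ f (St B ω) := fun e f hef => by
    have h1 : ∃ ω : SUG B ⧸ H, Zs hef.left (St B ω) ≠ Tz σ := by
      by_contra h1
      push Not at h1
      refine hΩ ((1 : SUG B) : SUG B ⧸ H) (h.SUG_le_of_uCen (by omega) fun v hv => ?_)
      rcases eq_or_ne v 0 with rfl | hv0
      · exact zero_mem_uCen
      obtain ⟨g, rfl⟩ := exists_SUG_app_eq h (by omega) hef.ne_zero hv0 (hef.left.trans hv.symm)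
      refine h.mem_uCen_of hv fun c t hc ht _ => ?_
      have h2 := conj_mem_St g _ _ ((mem_uCen_of_Zs h _ (h1 (g⁻¹ • ((1 : SUG B) : SUG B ⧸ H)))).2 c _ hc
        (by simpa using ht.conj (SUG_le_UG g⁻¹.2)))
      rw [smul_inv_smul] at h2
      simpa [mul_assoc] using h2
    refine ⟨h1, fun ω hZ w hw => ?_⟩
    obtain ⟨ω₀, h0⟩ := h1
    obtain ⟨θ, hθ⟩ := exists_addChar_ne F
    obtain ⟨N, hN'⟩ : ∃ N, {ω : SUG B ⧸ H | Zs hef.left (St B ω) = Tz σ}.ncard = N := ⟨_, rfl⟩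
    have h2 := (orbit_eq_of_reg h hef hr h3 hN h0).2
    have h4 : N + q ^ (2 * r) * q = H.index := by
      rw [← hN', ← pow_succ, ← h2]; exact Set.ncard_add_ncard_compl _
    have hA := (mem_fam h hef θ).2 ⟨ω, hZ, rfl⟩
    refine mem_Bs_of_An_eq_bot h hef θ hθ (by_contra fun h5 => ?_) hw
    have h6 := Nat.mul_le_mul_left s (show N + q ^ (2 * r) * q + 1 ≤ M by omega)
    suffices hA' : ∀ A ∈ fam h hef θ (SUG B ⧸ H), ∀ x ∈ A, B x x = 0 → x = 0 by
      obtain ⟨h7, h8⟩ := le_of_aniso h hef hr h3 θ hθ hN' hA' hA h5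
      rcases MN with h9 | ⟨h9, h10⟩
      · omega
      · have := h8 h9; omega
    refine fun A hA x hx hxx => by_contra fun hx0 => ?_
    have h7 := le_of_iso h hef hr h3 θ hθ hN' (by rw [hs]; linarith) hA hx hx0 hxx
    have h8 := index_iso h (by omega) hef.ne_zero hef.left
    have h9 := CL.MinDeg.index_dvd_ncard_mul_index H (MulAction.stabilizer (SUG B) (Submodule.span F {e}))
      {ω | Zs hef.left (St B ω) ≠ Tz σ} fun g hg ω hω h9 => hω (by
        rw [MulAction.mem_stabilizer_iff, smul_span_singleton] at hg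
        obtain ⟨a, ha⟩ := Submodule.mem_span_singleton.1 (hg ▸ Submodule.mem_span_singleton_self (g.1 e))
        have ha0 : a ≠ 0 := by rintro rfl; exact g.1.map_ne_zero_iff.2 hef.ne_zero (by rw [← ha, zero_smul])
        simpa using Zs_smul_eq_Tz h hef (g := g⁻¹) (inv_ne_zero ha0) (inv_app_of_app ha0 ha.symm) h9)
    rw [hs] at h7
    rw [hs, Nat.add_sub_cancel, hr, hiso] at h8
    have h10 : (MulAction.stabilizer (SUG B) (Submodule.span F {e})).index = H.index + 1 :=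
      le_antisymm (Nat.le_of_mul_le_mul_left (by rw [← h4]; linarith) hs0)
        (Nat.le_of_mul_le_mul_left (by rw [← h4]; linarith) hs0)
    rw [h2, h10, mul_add, mul_one, Nat.dvd_add_right (dvd_mul_left _ _), pow_succ] at h9
    have h11 := Nat.le_of_dvd (by positivity) h9
    have h12 := (Set.ncard_pos (Set.toFinite _)).2 ⟨ω, show ω ∈ {ω : SUG B ⧸ H | Zs hef.left (St B ω) = Tz σ} from hZ⟩
    omega
  have hreg : ∀ e f (hef : Hyp B e f) (ω : SUG B ⧸ H), Zs hef.left (St B ω) ≠ Tz σ := fun e f hef ω hZ =>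
    hΩ ω (SUG_le_of_fix h (hU ω) (by omega) (fun u u' huu => (em _).symm.imp (Bs_eq_bot h huu hr h3 hN)
      fun h1 => ⟨h1, (key u u' huu).2 ω h1⟩) hef hZ ((key e f hef).2 ω hZ))
  obtain ⟨e, -, f, -, hef⟩ := (nd_top h).exists_pair h (by rw [finrank_top]; omega)
  refine false_of_reg h (hU ((1 : SUG B) : SUG B ⧸ H)) (by omega) (fun u u' huu => ⟨Zs_eq_bot h huu hr h3 hN
    (hreg _ _ huu _), Bs_eq_bot h huu hr h3 hN (hreg _ _ huu _)⟩) hef fun g => ?_
  obtain ⟨k, hk⟩ : ((1 : SUG B) : SUG B ⧸ H) ∈ MulAction.orbit (QE h hef.left ⊤ f) (g • ((1 : SUG B) : SUG B ⧸ H)) := by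
    exact (orbit_eq_of_reg h hef hr h3 hN (hreg _ _ hef _)).1.ge (hreg _ _ hef _)
  exact ⟨k, (coe_mem_St (g := k.1 * g)).2 (by rw [mul_smul]; exact hk)⟩

/-- Transfer to the projective group of the statements. -/
theorem minDeg_psu [Fintype F] (hF : Fintype.card F = q ^ 2) {n M : ℕ}
    (h1 : ∀ H : Subgroup (SUG (stdB (bar hF) (Fin n))), H ≠ ⊤ → M ≤ H.index)
    (h2 : ∃ H : Subgroup (SUG (stdB (bar hF) (Fin n))), Subgroup.center _ ≤ H ∧ H.index = M) :
    (∀ H : Subgroup (Cfsg.PSU n F q), H ≠ ⊤ → M ≤ H.index) ∧ ∃ H : Subgroup (Cfsg.PSU n F q), H.index = M := by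
  have := finite_SUG (isHerm_stdB (isBar_bar hF) (Fin n))
  let φ := (centerQuotCongr (suEquiv (isBar_bar hF) n)).symm
  let π : SUG (stdB (bar hF) (Fin n)) →* Cfsg.PSU n F q := φ.toMonoidHom.comp (QuotientGroup.mk' (Subgroup.center _))
  have hπ : Function.Surjective π := φ.surjective.comp (QuotientGroup.mk'_surjective _)
  refine ⟨le_index_of_action π hπ h1, ?_⟩
  obtain ⟨H, h3, rfl⟩ := h2
  exact exists_index_of_ker_le π hπ H fun g hg => h3 ((QuotientGroup.eq_one_iff g).1 (φ.map_eq_one_iff.1 hg))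

/-- The case where the isotropic points give the minimal degree. -/
theorem minDeg_psu_iso [Fintype F] (hF : Fintype.card F = q ^ 2) {r : ℕ} (h3 : 3 ≤ r)
    (MN : ∀ M, (q ^ 2 - 1) * M = isoCount q (r + 2) → M + isoCount q r ≤ q ^ (2 * r + 1) + q ^ (2 * r) ∨
      q = 2 ∧ 3 * M + 4 * (isoCount q r + 1) ≤ 3 * q ^ (2 * r + 1) + 4 * q ^ (2 * r)) :
    (∀ H : Subgroup (Cfsg.PSU (r + 2) F q), H ≠ ⊤ → isoCount q (r + 2) / (q ^ 2 - 1) ≤ H.index) ∧
      ∃ H : Subgroup (Cfsg.PSU (r + 2) F q), H.index = isoCount q (r + 2) / (q ^ 2 - 1) := by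
  have h := isHerm_stdB (isBar_bar hF) (Fin (r + 2))
  have hr : finrank F (Fin (r + 2) → F) = r + 2 := finrank_fin_fun F
  obtain ⟨v, hv, hvv⟩ := h.exists_isotropic (by omega)
  have h1 := index_iso h (by omega) hv hvv
  rw [hr] at h1
  rw [← h1, Nat.mul_div_cancel_left _ (by have := Nat.pow_le_pow_left h.bar.two_le 2; omega)]
  exact minDeg_psu hF (le_index h hr h3 h1.le (MN _ h1)) ⟨_, center_le_stabilizer h (by omega) hv, rfl⟩

theorem add_isoCount_le {q r M : ℕ} (hq : 3 ≤ q) (h3 : 3 ≤ r) (hM : (q ^ 2 - 1) * M = isoCount q (r + 2)) :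
    M + isoCount q r ≤ q ^ (2 * r + 1) + q ^ (2 * r) := by
  obtain ⟨k, rfl⟩ := Nat.exists_eq_add_of_le' h3
  have h1 := isoCount_add_two (show 1 ≤ q by omega) (k + 2)
  have h2 := mul_isoCount (show 1 ≤ q by omega) (k + 3)
  have h4 : 1 ≤ q ^ 2 := Nat.one_le_pow _ _ (by omega)
  rw [show k + 2 + 3 = k + 3 + 2 from rfl, ← hM] at h1
  zify [h4] at h1 ⊢
  obtain ⟨P, hP⟩ : ∃ P : ℤ, P = (q : ℤ) ^ k := ⟨_, rfl⟩
  obtain ⟨I, hI⟩ : ∃ I : ℤ, I = isoCount q (k + 3) := ⟨_, rfl⟩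
  have h5 : 1 ≤ P := hP ▸ one_le_pow₀ (by omega)
  have h6 : (3 : ℤ) ≤ q := by omega
  have h7 : 0 ≤ I := by rw [hI]; positivity
  simp only [mul_add, two_mul, pow_add, ← hP, ← hI] at h1 h2 ⊢
  have h8 : q * (I + 1) ≤ (q ^ 6 + q ^ 4) * (P * P) := by
    have h8 : (q : ℤ) ^ 4 * P ≤ q ^ 4 * (P * P) := by gcongr; nlinarith
    have h9 : (0 : ℤ) ≤ q ^ 3 * P := by positivity
    have h10 : (q : ℤ) ^ 3 * P ≤ q ^ 4 * P := by gcongr <;> omega
    rcases neg_one_pow_eq_or ℤ k with h | h <;> rw [h] at h2 <;> linarith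
  have h9 : (2 * q ^ 2 - 1) * (q ^ 6 + q ^ 4) * (P * P) ≤ q * (q ^ 2 - 1) * q ^ 6 * (P * P) := by
    refine mul_le_mul_of_nonneg_right ?_ (mul_self_nonneg P)
    have : (0 : ℤ) ≤ q ^ 4 * (q ^ 3 * (q - 3) * (q + 1) + q ^ 2 * (2 * q - 1) + 1) := by
      have : (0 : ℤ) ≤ q - 3 := by omega
      have : (0 : ℤ) ≤ 2 * q - 1 := by omega
      positivity
    linarith
  have h10 := mul_le_mul_of_nonneg_left h8 (show (0 : ℤ) ≤ 2 * q ^ 2 - 1 by nlinarith)
  refine le_of_mul_le_mul_left (a := (q : ℤ) * (q ^ 2 - 1)) ?_ (mul_pos (by omega) (by nlinarith))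
  have h11 : (0 : ℤ) ≤ q ^ 3 := by positivity
  linarith [congrArg ((q : ℤ) * ·) h1]

end CL.MinU
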