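/-
The minimal degree of `PSU(3,5)`.
-/
import Cfsg.Agent.Known.MinDegU6
import Cfsg.Agent.Known.MinDegU35A

set_option autoImplicit false
set_option linter.unusedSectionVars false

open Module CL.Uni CL.MinD
open scoped Pointwise

namespace CL.MinU

variable {F V : Type*} [Field F] {q : ℕ} {σ : F →+* F} [AddCommGroup V] [Module F V] [FiniteDimensional F V]
  {B : V →ₛₗ[σ] V →ₗ[F] F}

theorem exists_Zs_ne (h : IsHerm B q) (h3 : 3 ≤ finrank F V) (h32 : ¬ (finrank F V = 3 ∧ q = 2))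
    {H : Subgroup (SUG B)} (hH : H ≠ ⊤) {e f : V} (hef : Hyp B e f) :
    ∃ ω : SUG B ⧸ H, Zs hef.left (St B ω) ≠ Tz σ := by
  have := finite_SUG h
  by_contra h1
  push Not at h1
  refine stabilizer_ne_top_quot hH ((1 : SUG B) : SUG B ⧸ H) (eq_top_iff.2 fun g _ => coe_mem_St.1
    (h.SUG_le_of_uCen h32 (fun v hv => ?_) g.2))
  rcases eq_or_ne v 0 with rfl | hv0
  · exact zero_mem_uCen
  obtain ⟨g, rfl⟩ := exists_SUG_app_eq h h3 hef.ne_zero hv0 (hef.left.trans hv.symm)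
  refine h.mem_uCen_of hv fun c t hc ht _ => ?_
  have h2 := conj_mem_St g _ _ ((mem_uCen_of_Zs h _ (h1 (g⁻¹ • ((1 : SUG B) : SUG B ⧸ H)))).2 c _ hc
    (by simpa using ht.conj (SUG_le_UG g⁻¹.2)))
  rw [smul_inv_smul] at h2
  simpa [mul_assoc] using h2

theorem fifty_le_index (h : IsHerm B 5) (hr : finrank F V = 1 + 2) (H : Subgroup (SUG B)) (hH : H ≠ ⊤) :
    50 ≤ H.index := by
  have := finite_SUG h
  have := h.bar.finite
  have := h.finite
  obtain ⟨e, -, f, -, hef⟩ := (nd_top h).exists_pair h (by rw [finrank_top]; omega)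
  have hd := finrank_hcp_top hef hr
  have h1 : ∀ ω : SUG B ⧸ H, Zs hef.left (St B ω) ≠ Tz σ → Zs hef.left (St B ω) = ⊥ := fun ω hω => by
    have h1 := AddSubgroup.card_dvd_of_le (Zs_le (H := St B ω) hef.left)
    rw [card_Tz h.bar, Nat.dvd_prime (by norm_num)] at h1
    exact AddSubgroup.card_eq_one.1 (h1.resolve_right fun h2 =>
      hω (AddSubgroup.eq_of_le_of_card_ge (Zs_le _) (by rw [h2, card_Tz h.bar])))
  have h2 : ∀ ω : SUG B ⧸ H, Zs hef.left (St B ω) ≠ Tz σ → (MulAction.orbit (QE h hef.left ⊤ f) ω).ncard *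
      Nat.card (Bs h hef.left ⊤ f (St B ω)) = 125 := fun ω hω => by
    have h2 := ncard_orbit_QE h hef ⊤ ω
    rwa [h1 ω hω, hd, AddSubgroup.card_bot, mul_one] at h2
  have h3 : ∀ ω : SUG B ⧸ H, Zs hef.left (St B ω) ≠ Tz σ → 25 ≤ (MulAction.orbit (QE h hef.left ⊤ f) ω).ncard :=
    fun ω hω => by nlinarith [h2 ω hω, card_Bs_le h hef hr hω]
  obtain ⟨ω, hω⟩ := exists_Zs_ne h (by omega) (by omega) hH hef
  by_cases h0 : Bs h hef.left ⊤ f (St B ω) = ⊥
  · have h4 := h2 ω hω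
    rw [h0, AddSubgroup.card_bot, mul_one] at h4
    exact le_trans (by omega) (Set.ncard_le_card (MulAction.orbit (QE h hef.left ⊤ f) ω))
  obtain ⟨⟨w, hw⟩, hw0⟩ := AddSubgroup.ne_bot_iff_exists_ne_zero.1 h0
  have hw1 : w ≠ 0 := fun h0 => hw0 (Subtype.ext h0)
  have hww : B w w ≠ 0 := fun h5 => by
    obtain ⟨v, hv, h6⟩ := ((nd_top h).hcp h hef trivial trivial).exists_hyp h hw.1 hw1 h5
    have := finrank_hcp h6 hw.1 hv
    omega
  obtain ⟨a, ha⟩ := IsCyclic.exists_ofOrder_eq_natCard (α := Fˣ)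
  rw [h.bar.card_units] at ha
  have ha' : σ a ≠ 0 := (map_ne_zero σ).2 a.ne_zero
  obtain ⟨g, h4, h5, h6, -⟩ := exists_torus h hef (mem_hcp.1 hw.1).2.1 (mem_hcp.1 hw.1).2.2 hww a.ne_zero
  have h7 : Zs hef.left (St B (g • ω)) ≠ Tz σ := fun h7 => hω (by
    simpa using Zs_smul_eq_Tz h hef (g := g⁻¹) (inv_ne_zero a.ne_zero) (inv_app_of_app a.ne_zero h4) h7)
  refine (two_mul_ncard_le (Set.toFinite Set.univ) (Set.subset_univ _) (Set.subset_univ _) (fun h8 => ?_) (h3 ω hω)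
    (h3 _ h7)).trans_eq (Set.ncard_univ _)
  have h9 := (mem_Bs_smul_iff h hef.left a.ne_zero (inv_ne_zero ha') h4 h5 (fun _ => Iff.rfl) ω w).2 hw
  rw [(orbit_subset_fib h hef ω h8).2] at h9
  have h10 := comm_mem_Zs h _ hw h9
  rw [h1 ω hω, AddSubgroup.mem_bot, h6, smul_smul, map_smul, smul_eq_mul, map_mul, h.self_fixed, ← sub_mul,
    mul_eq_zero_iff_right hww, map_mul, map_div₀, h.bar_bar, sub_eq_zero] at h10
  refine pow_ne_one_of_lt_orderOf (x := a) (n := 12) (by norm_num) (by omega) (Units.ext ?_)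
  field_simp at h10
  rw [h.bar.apply] at h10
  exact mul_right_cancel₀ (pow_ne_zero 3 a.ne_zero) (by push_cast; linear_combination h10)

open CL.PG CL.Std in
theorem exists_index_fifty [Fintype F] (hF : Fintype.card F = 25) : ∃ H : Subgroup (Cfsg.PSU 3 F 5), H.index = 50 := by
  have c := CL.MinU35.xctx U35.c1 (faithful_eF _) fun _ _ => trivial
  have h1 := CL.MinU35.xKle c
  rw [subW_ext (CL.MinU35.xlen U35.c1) _ (l := [[0], [2]]) (by decide)] at h1
  obtain ⟨φ⟩ := U35.iso hF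
  have h2 := Subgroup.card_mul_index ((subW (ext U35.gs1 CL.MinU35.xws) [[12], [14]]).subgroupOf
    (subW U35.gs1 [[0], [2]]))
  rw [Nat.card_congr (Subgroup.subgroupOfEquivOfLe h1).toEquiv, CL.MinU35.xK_card c, U35.card,
    ← Subgroup.index_map_equiv _ φ] at h2
  exact ⟨_, Nat.eq_of_mul_eq_mul_left (show 0 < 2520 by norm_num) h2⟩

end CL.MinU
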