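/-
Minimal degrees of unitary groups, VII: dimension four, the family of images of the point stabilisers.
-/
import Cfsg.Agent.Known.MinDegU35B

set_option autoImplicit false
set_option linter.unusedSectionVars false

open Module CL.Uni CL.MinD
open scoped Pointwise

namespace CL.MinU

variable {F V : Type*} [Field F] {q : ℕ} {σ : F →+* F} [AddCommGroup V] [Module F V] [FiniteDimensional F V]
  {B : V →ₛₗ[σ] V →ₗ[F] F}

theorem hyp_of_ne (h : IsHerm B q) {x y : V} (hx : B x x = 0) (hy : B y y = 0) (hxy : B x y ≠ 0) :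
    Hyp B x ((B x y)⁻¹ • y) := by
  have h1 : B x ((B x y)⁻¹ • y) = 1 := by rw [map_smul, smul_eq_mul, inv_mul_cancel₀ hxy]
  exact ⟨hx, by rw [B_smul_smul, hy, mul_zero], h1, h.flip_one h1⟩

theorem B_neg_of_iso (h : IsHerm B q) {X : AddSubgroup V} (hX : ∀ x ∈ X, B x x = 0) {x y : V} (hx : x ∈ X)
    (hy : y ∈ X) : σ (B x y) = -B x y := by
  have h1 := hX _ (X.add_mem hx hy)
  simp only [map_add, LinearMap.add_apply, hX x hx, hX y hy] at h1
  rw [h.symm]; linear_combination h1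

/-- Two coordinates on a subgroup consisting of isotropic vectors. -/
def iot (h : IsHerm B q) {X : AddSubgroup V} (hX : ∀ x ∈ X, B x x = 0) {x y : V} (hx : x ∈ X) (hy : y ∈ X) :
    X →+ Tz σ × Tz σ :=
  AddMonoidHom.mk' (fun z => (⟨B x z, B_neg_of_iso h hX hx z.2⟩, ⟨B y z, B_neg_of_iso h hX hy z.2⟩)) fun _ _ =>
    Prod.ext (Subtype.ext (map_add _ _ _)) (Subtype.ext (map_add _ _ _))

/-- An alternating pairing. -/
noncomputable def altPair (θ : AddChar F ℂ) (hθ : θ 1 ≠ 1) {κ : F} (h0 : κ ≠ 0) (hκ : σ κ = κ) :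
    Pairing (Tz σ × Tz σ) (Tz σ × Tz σ) where
  χ a b := θ (κ * (a.1 * b.2 - a.2 * b.1))
  add_left a a' b := by rw [← AddChar.map_add_eq_mul]; congr 1; push_cast [Prod.fst_add, Prod.snd_add]; ring
  add_right a b b' := by rw [← AddChar.map_add_eq_mul]; congr 1; push_cast [Prod.fst_add, Prod.snd_add]; ring
  zero_left b := by simp
  zero_right b := by simp
  nd_left a ha := by
    have key : ∀ c : Tz σ, (∀ d : Tz σ, θ (κ * c * d) = 1) → c = 0 := fun c hc => by_contra fun h1 => hθ (by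
      have h2 := hc ⟨(κ * c)⁻¹, by rw [mem_Tz, map_inv₀, map_mul, hκ, mem_Tz.1 c.2, mul_neg, inv_neg]⟩
      rwa [mul_inv_cancel₀ (mul_ne_zero h0 (by simpa using h1))] at h2)
    exact Prod.ext (key _ fun d => by simpa [mul_assoc] using ha (0, d)) (key _ fun d => by
      simpa [mul_assoc] using ha (-d, 0))
  nd_right a ha := by
    have key : ∀ c : Tz σ, (∀ d : Tz σ, θ (κ * c * d) = 1) → c = 0 := fun c hc => by_contra fun h1 => hθ (by
      have h2 := hc ⟨(κ * c)⁻¹, by rw [mem_Tz, map_inv₀, map_mul, hκ, mem_Tz.1 c.2, mul_neg, inv_neg]⟩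
      rwa [mul_inv_cancel₀ (mul_ne_zero h0 (by simpa using h1))] at h2)
    exact Prod.ext (key _ fun d => by simpa [mul_assoc, mul_comm (d : F)] using ha (0, -d)) (key _ fun d => by
      simpa [mul_assoc, mul_comm (d : F)] using ha (d, 0))

section Four

variable (h : IsHerm B q) {e f : V} (hef : Hyp B e f) (hr : finrank F V = 2 + 2)
include h hef hr

theorem coord {u u' z : V} (huu : Hyp B u u') (hu : u ∈ hcp B ⊤ e f) (hu' : u' ∈ hcp B ⊤ e f) (hz : z ∈ hcp B ⊤ e f) :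
    z = B u' z • u + B u z • u' := by
  have h1 := finrank_hcp huu hu hu'
  rw [finrank_hcp_top hef hr, Nat.add_eq_right, Submodule.finrank_eq_zero] at h1
  have h2 := huu.proj_mem hu hu' hz
  rwa [h1, Submodule.mem_bot, sub_sub, sub_eq_zero] at h2

theorem eq_smul_of_perp {x z : V} (hx : x ∈ hcp B ⊤ e f) (hx0 : x ≠ 0) (hxx : B x x = 0) (hz : z ∈ hcp B ⊤ e f)
    (hxz : B x z = 0) : ∃ a : F, z = a • x := by
  obtain ⟨y, hy, h1⟩ := ((nd_top h).hcp h hef trivial trivial).exists_hyp h hx hx0 hxx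
  exact ⟨_, by simpa [hxz] using coord h hef hr h1 hx hy hz⟩

theorem exists_fix_noniso {x y : V} (hx : x ∈ hcp B ⊤ e f) (hy : y ∈ hcp B ⊤ e f) (hy0 : B y y ≠ 0)
    (hxy : B x x = B y y) : ∃ g : SUG B, g.1 e = e ∧ g.1 f = f ∧ g.1 x = y := by
  have hli : ∀ z ∈ hcp B ⊤ e f, B z z ≠ 0 → LinearIndependent F ![e, f, z] := fun z hz hz0 => by
    rw [Fintype.linearIndependent_iff]
    intro c hc
    simp only [Fin.sum_univ_three, Matrix.cons_val_zero, Matrix.cons_val_one, Matrix.cons_val] at hc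
    have h1 := congrArg (B e) hc
    have h2 := congrArg (B f) hc
    simp only [map_add, map_smul, hef.left, hef.right, hef.eq, hef.eq', (mem_hcp.1 hz).2.1, (mem_hcp.1 hz).2.2,
      smul_eq_mul, mul_zero, mul_one, add_zero, zero_add, map_zero] at h1 h2
    rw [h1, h2, zero_smul, zero_smul, zero_add, zero_add, smul_eq_zero_iff_left (by rintro rfl; simp at hz0)] at hc
    intro i; fin_cases i <;> assumption
  obtain ⟨u, hu, u', hu', huu⟩ := ((nd_top h).hcp h hef trivial trivial).exists_pair h (finrank_hcp_top hef hr).ge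
  have h1 := congrArg (B y) (coord h hef hr huu hu hu' hy)
  have h2 := mem_hcp.1 (Submodule.sub_mem _ (Submodule.smul_mem _ (B y u') hu) (Submodule.smul_mem _ (B y u) hu'))
  obtain ⟨g, hg, h3⟩ := h.exists_mem_SUG_family _ _ (hli x hx (hxy ▸ hy0)) (hli y hy hy0) (fun i j => by
    fin_cases i <;> fin_cases j <;> simp [(mem_hcp.1 hx).2.1, (mem_hcp.1 hx).2.2, (mem_hcp.1 hy).2.1,
      (mem_hcp.1 hy).2.2, h.flip_zero (mem_hcp.1 hx).2.1, h.flip_zero (mem_hcp.1 hx).2.2,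
      h.flip_zero (mem_hcp.1 hy).2.1, h.flip_zero (mem_hcp.1 hy).2.2, hxy]) (v := B y u' • u - B y u • u') (by
      simp only [map_add, map_sub, map_smulₛₗ, LinearMap.sub_apply, LinearMap.smul_apply, smul_eq_mul,
        RingHom.id_apply, huu.left, huu.right, huu.eq, huu.eq', h.symm] at h1 ⊢
      exact fun h4 => hy0 (by linear_combination h1 - h4)) fun i => by
    fin_cases i
    · exact h.flip_zero h2.2.1
    · exact h.flip_zero h2.2.2
    · exact h.flip_zero (by simp [mul_comm])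
  exact ⟨⟨g, hg⟩, h3 0, h3 1, h3 2⟩

theorem exists_fix_iso {x y : V} (hx : x ∈ hcp B ⊤ e f) (hy : y ∈ hcp B ⊤ e f) (hx0 : x ≠ 0) (hy0 : y ≠ 0)
    (hxx : B x x = 0) (hyy : B y y = 0) : ∃ g : SUG B, g.1 e = e ∧ g.1 f = f ∧ ∃ b : F, b ≠ 0 ∧ g.1 x = b • y := by
  by_cases hxy : B y x = 0
  · obtain ⟨a, rfl⟩ := eq_smul_of_perp h hef hr hy hy0 hyy hx hxy
    exact ⟨1, rfl, rfl, a, left_ne_zero_of_smul hx0, rfl⟩
  have h0 : B x y ≠ 0 := mt h.flip_zero hxy
  have h1 := hyp_of_ne h hxx hyy h0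
  obtain ⟨s, hs0, hs⟩ := h.bar.exists_trace_zero
  obtain ⟨g, hg, h2, -, h3⟩ := h.exists_weyl hxx h1.right h1.eq hs0 hs
  have h4 := mem_hcp.1 (Submodule.smul_mem _ (B x y)⁻¹ hy)
  exact ⟨⟨g, h.TG_le_SUG hg⟩, h3 e (h.flip_zero (mem_hcp.1 hx).2.1) (h.flip_zero h4.2.1),
    h3 f (h.flip_zero (mem_hcp.1 hx).2.2) (h.flip_zero h4.2.2), -s⁻¹ * (B x y)⁻¹, by simp [hs0, h0],
    by rw [mul_smul]; exact h2⟩

theorem exists_scale (h2 : (2 : F) = 0) {x : V} (hx : x ∈ hcp B ⊤ e f) (hx0 : x ≠ 0) (hxx : B x x = 0) {b : F}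
    (hb : b ≠ 0) : ∃ g : SUG B, ∃ a : F, a * σ a = 1 ∧ g.1 e = a • e ∧ g.1 f = (σ a)⁻¹ • f ∧ σ a • g.1 x = b • x := by
  have := h.bar.finite
  have hinj : Function.Injective fun x : F => x ^ 2 := fun x y hxy => by
    have : (x - y) ^ 2 = 0 := by linear_combination hxy + (y ^ 2 - x * y) * h2
    exact sub_eq_zero.1 (pow_eq_zero_iff two_ne_zero |>.1 this)
  have hb' : σ b ≠ 0 := (map_ne_zero σ).2 hb
  obtain ⟨a, ha⟩ := Finite.surjective_of_injective (hinj.comp hinj) (σ b / b)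
  change (a ^ 2) ^ 2 = _ at ha
  have h1 : a * σ a = 1 := hinj (hinj (by
    have h1 := congrArg σ ha
    simp only [map_pow, map_div₀, h.bar_bar] at h1
    simp only [mul_pow, ha, h1]; field_simp))
  have ha0 := left_ne_zero_of_mul_eq_one h1
  obtain ⟨y, hy, h3⟩ := ((nd_top h).hcp h hef trivial trivial).exists_hyp h hx hx0 hxx
  obtain ⟨g, hg, h4, h5, h6, h7⟩ := h.exists_diag hef.left hef.right hef.eq ha0
  obtain ⟨k, hk, h8, -, h9, h10⟩ := h.exists_diag hxx h3.right h3.eq (mul_ne_zero ha0 hb)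
  refine ⟨⟨g * k, mem_SUG.2 ⟨(UG B).mul_mem hg hk, ?_⟩⟩, a, h1, ?_, ?_, ?_⟩
  · rw [map_mul, h7, h10, map_mul, eq_inv_of_mul_eq_one_right h1]
    field_simp at ha ⊢
    linear_combination ha
  · change g (k e) = _
    rw [h9 e (h.flip_zero (mem_hcp.1 hx).2.1) (h.flip_zero (mem_hcp.1 hy).2.1), h4]
  · change g (k f) = _
    rw [h9 f (h.flip_zero (mem_hcp.1 hx).2.2) (h.flip_zero (mem_hcp.1 hy).2.2), h5]
  · change σ a • g (k x) = _
    rw [h8, map_smul, h6 x (mem_hcp.1 hx).2.1 (mem_hcp.1 hx).2.2, smul_smul, ← mul_assoc, mul_comm _ a, h1, one_mul]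

theorem exists_move_noniso {x y : V} (hx : x ∈ hcp B ⊤ e f) (hy : y ∈ hcp B ⊤ e f) (hx0 : B x x ≠ 0)
    (hy0 : B y y ≠ 0) : ∃ g : SUG B, ∃ a : F, a ≠ 0 ∧ g.1 e = a • e ∧ g.1 f = (σ a)⁻¹ • f ∧ σ a • g.1 x = y := by
  obtain ⟨a, ha⟩ := h.bar.exists_norm_eq (a := B y y / B x x) (by rw [map_div₀, h.self_fixed, h.self_fixed])
  have ha0 : a ≠ 0 := by rintro rfl; exact div_ne_zero hy0 hx0 (by simpa using ha.symm)
  obtain ⟨g, h1, h2⟩ := exists_torus' h (by omega) hef ha0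
  have h3 := app_mem_hcp (SUG_le_UG g.2) ha0 (inv_ne_zero ((map_ne_zero σ).2 ha0)) h1 h2 hx trivial
  obtain ⟨k, h4, h6, h7⟩ := exists_fix_noniso h hef hr (Submodule.smul_mem _ (σ a) h3) hy hy0 (by
    rw [B_smul_smul, SUG_le_UG g.2, h.bar_bar, ha, div_mul_cancel₀ _ hx0])
  refine ⟨k * g, a, ha0, ?_, ?_, (map_smul k.1 _ _).symm.trans h7⟩
  · change k.1 (g.1 e) = _; rw [h1, map_smul, h4]
  · change k.1 (g.1 f) = _; rw [h2, map_smul, h6]

theorem iot_injective {X : AddSubgroup V} (hW : ∀ x ∈ X, x ∈ hcp B ⊤ e f) (hX : ∀ x ∈ X, B x x = 0) {x y : V}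
    (hx : x ∈ X) (hy : y ∈ X) (hxy : B x y ≠ 0) : Function.Injective (iot h hX hx hy) := by
  refine (injective_iff_map_eq_zero _).2 fun z hz => Subtype.ext ?_
  have h1 : B x z = 0 := congrArg (fun p : Tz σ × Tz σ => (p.1 : F)) hz
  have h2 : B y z = 0 := congrArg (fun p : Tz σ × Tz σ => (p.2 : F)) hz
  simpa [h1, h2] using coord h hef hr (hyp_of_ne h (hX x hx) (hX y hy) hxy) (hW x hx)
    (Submodule.smul_mem _ _ (hW y hy)) (hW z z.2)

variable {Ω : Type*} [MulAction (SUG B) Ω] [Finite Ω]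

theorem card_Bs_le_of_odd (h2 : (2 : F) ≠ 0) {ω : Ω} (hZ : Zs hef.left (St B ω) ≠ Tz σ)
    (hX : ∀ x ∈ Bs h hef.left ⊤ f (St B ω), B x x = 0) {x y : V} (hx : x ∈ Bs h hef.left ⊤ f (St B ω))
    (hy : y ∈ Bs h hef.left ⊤ f (St B ω)) (hxy : B x y ≠ 0) : Nat.card (Bs h hef.left ⊤ f (St B ω)) ≤ q := by
  have := h.bar.finite
  obtain ⟨θ, hθ⟩ := exists_addChar_one F
  obtain ⟨c, hc⟩ := AddSubgroup.ne_bot_iff_exists_ne_zero.1 (mt (tzPair σ θ hθ).ann_eq_bot_iff.1 fun h0 =>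
    hZ (le_antisymm (Zs_le _) (AddSubgroup.addSubgroupOf_eq_top.1 h0)))
  have hβ := B_neg_of_iso h hX hx hy
  let P := altPair θ hθ (κ := 2 * c.1 / B x y) (div_ne_zero (mul_ne_zero h2 (by simpa using hc)) hxy)
    (by rw [map_div₀, map_mul, map_ofNat, mem_Tz.1 c.1.2, hβ, mul_neg, neg_div_neg_eq])
  have h1 := P.card_mul_card_ann (iot h hX hx hy).range
  have h3 : (iot h hX hx hy).range ≤ P.ann (iot h hX hx hy).range := by
    rintro _ ⟨z, rfl⟩ _ ⟨w, rfl⟩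
    have h3 := c.2 ⟨_, (comm_mem_Zs h _ z.2 w.2).1⟩ (comm_mem_Zs h _ z.2 w.2)
    have h4 := congrArg (B · w.1) (coord h hef hr (hyp_of_ne h (hX x hx) (hX y hy) hxy) hx.1
      (Submodule.smul_mem _ _ hy.1) z.2.1)
    simp only [map_add, map_smulₛₗ, LinearMap.add_apply, LinearMap.smul_apply, smul_eq_mul, map_mul, map_inv₀,
      map_neg, hβ, B_neg_of_iso h hX hx z.2, B_neg_of_iso h hX hy z.2] at h4
    change θ (c.1 * (B z w - σ (B z w))) = 1 at h3
    change θ (2 * c.1 / B x y * (B x z * B y w - B y z * B x w)) = 1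
    rw [← h3, B_neg_of_iso h hX z.2 w.2, h4]
    congr 1; field_simp; ring
  have h4 := AddSubgroup.card_le_of_le h3
  rw [Nat.card_prod, card_Tz h.bar] at h1
  rw [Nat.card_congr (AddMonoidHom.ofInjective (iot_injective h hef hr (fun _ => Bs_le h _) hX hx hy hxy)).toEquiv]
  nlinarith

end Four

end CL.MinU
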