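/-
Minimal degrees of unitary groups, VIII: dimension four, points not fixed by the transvections with a given centre.
-/
import Cfsg.Agent.Known.MinDegU7

set_option autoImplicit false
set_option linter.unusedSectionVars false

open Module CL.Uni CL.MinD
open scoped Pointwise

namespace CL.MinU

variable {F V : Type*} [Field F] {q : ℕ} {σ : F →+* F} [AddCommGroup V] [Module F V] [FiniteDimensional F V]
  {B : V →ₛₗ[σ] V →ₗ[F] F}

theorem ncard_add_le_of_cover {E : Type*} [AddCommGroup E] [Finite E] (𝒜 : Finset (AddSubgroup E))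
    (φ : AddSubgroup E → AddSubgroup E) {k : ℕ} (hφ : ∀ X ∈ 𝒜, Nat.card (φ X) ≤ k) {Y : Set E} (h0 : (0 : E) ∉ Y)
    (hY : ∀ y ∈ Y, ∃ X ∈ 𝒜, y ∈ φ X) : Y.ncard + 𝒜.card ≤ 𝒜.card * k := by
  classical
  have h1 := card_mul_add_le_sum (𝒜.image φ) (Set.toFinite Y).toFinset (by simpa using h0) 1 fun y hy => by
    obtain ⟨X, hX, h1⟩ := hY y ((Set.toFinite Y).mem_toFinset.1 hy)
    exact Finset.card_pos.2 ⟨_, Finset.mem_filter.2 ⟨Finset.mem_image_of_mem _ hX, h1⟩⟩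
  have h2 := Finset.sum_le_card_nsmul (𝒜.image φ) (fun A => Nat.card A) k fun A hA => by
    obtain ⟨X, hX, rfl⟩ := Finset.mem_image.1 hA; exact hφ X hX
  rw [← Set.ncard_eq_toFinset_card] at h1
  obtain ⟨a, ha⟩ := Nat.exists_eq_add_of_le (Finset.card_image_le (s := 𝒜) (f := φ))
  rcases 𝒜.eq_empty_or_nonempty with rfl | ⟨X, hX⟩
  · simpa using h1
  · rw [ha]
    nlinarith [Nat.mul_le_mul_left a ((Nat.card_pos (α := φ X)).trans_le (hφ X hX)), smul_eq_mul (𝒜.image φ).card k]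

section Four

variable (h : IsHerm B q) {e f : V} (hef : Hyp B e f) (Ω : Type*) [MulAction (SUG B) Ω] [Finite Ω]

/-- The images of the stabilisers of the points with given group of transvections. -/
noncomputable def bfam (Z : AddSubgroup F) : Finset (AddSubgroup V) :=
  (Set.toFinite ((fun ω : Ω => Bs h hef.left ⊤ f (St B ω)) '' {ω | Zs hef.left (St B ω) = Z})).toFinset

variable {Ω}

theorem mem_bfam {Z : AddSubgroup F} {X : AddSubgroup V} :
    X ∈ bfam h hef Ω Z ↔ ∃ ω : Ω, Zs hef.left (St B ω) = Z ∧ Bs h hef.left ⊤ f (St B ω) = X := Set.Finite.mem_toFinset _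

theorem exists_mem_bfam {ω : Ω} {x : V} (hx : x ∈ Bs h hef.left ⊤ f (St B ω)) {g : SUG B} {a : F} (ha : a * σ a = 1)
    (he : g.1 e = a • e) (hf : g.1 f = (σ a)⁻¹ • f) : ∃ X ∈ bfam h hef Ω (Zs hef.left (St B ω)), σ a • g.1 x ∈ X :=
  ⟨_, (mem_bfam h hef).2 ⟨g • ω, Zs_smul_of_norm _ he ha ω h.bar, rfl⟩, (mem_Bs_smul_iff h _
    (left_ne_zero_of_mul_eq_one ha) (inv_ne_zero (right_ne_zero_of_mul_eq_one ha)) he hf (fun _ => Iff.rfl) ω x).2 hx⟩

theorem exists_mem_bfam' {ω : Ω} {x : V} (hx : x ∈ Bs h hef.left ⊤ f (St B ω)) {g : SUG B} (he : g.1 e = e)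
    (hf : g.1 f = f) : ∃ X ∈ bfam h hef Ω (Zs hef.left (St B ω)), g.1 x ∈ X := by
  simpa using exists_mem_bfam h hef hx (g := g) (a := 1) (by simp) (by simpa using he) (by simpa using hf)

variable (hr : finrank F V = 2 + 2)
include h hef hr

theorem card_le_of_mem_bfam {Z : AddSubgroup F} (hZ : Z ≠ Tz σ) {X : AddSubgroup V} (hX : X ∈ bfam h hef Ω Z) :
    Nat.card X ≤ q ^ 2 := by
  obtain ⟨ω, rfl, rfl⟩ := (mem_bfam h hef).1 hX
  exact card_Bs_le h hef hr hZ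

theorem ncard_orbit_four (ω : Ω) : (MulAction.orbit (QE h hef.left ⊤ f) ω).ncard *
    (Nat.card (Bs h hef.left ⊤ f (St B ω)) * Nat.card (Zs hef.left (St B ω))) = q ^ 5 := by
  rw [ncard_orbit_QE h hef, finrank_hcp_top hef hr]

theorem le_ncard_orbit_four {ω : Ω} (hZ : Zs hef.left (St B ω) ≠ Tz σ) :
    q ^ 3 ≤ (MulAction.orbit (QE h hef.left ⊤ f) ω).ncard * Nat.card (Zs hef.left (St B ω)) := by
  refine Nat.le_of_mul_le_mul_left (c := q ^ 2) ?_ (by have := h.bar.two_le; positivity)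
  rw [← pow_add, ← ncard_orbit_four h hef hr ω]
  nlinarith [Nat.mul_le_mul_left ((MulAction.orbit (QE h hef.left ⊤ f) ω).ncard * Nat.card (Zs hef.left (St B ω)))
    (card_Bs_le h hef hr hZ)]

theorem bfam_mul_le {ω : Ω} (hZ : Zs hef.left (St B ω) ≠ Tz σ) :
    (bfam h hef Ω (Zs hef.left (St B ω))).card * q ^ 3 + {ω' : Ω | Zs hef.left (St B ω') = Zs hef.left (St B ω) ∧
      Bs h hef.left ⊤ f (St B ω') = Bs h hef.left ⊤ f (St B ω)}.ncard * Nat.card (Zs hef.left (St B ω)) ≤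
    {ω' : Ω | Zs hef.left (St B ω') = Zs hef.left (St B ω)}.ncard * Nat.card (Zs hef.left (St B ω)) + q ^ 3 := by
  classical
  have h1 := Nat.mul_le_mul_right (Nat.card (Zs hef.left (St B ω))) (sum_ncard_fib_le (Set.toFinite
    {ω' : Ω | Zs hef.left (St B ω') = Zs hef.left (St B ω)}) (fun ω' => Bs h hef.left ⊤ f (St B ω'))
    (bfam h hef Ω (Zs hef.left (St B ω))))
  have h2 := (mem_bfam h hef).2 ⟨ω, rfl, rfl⟩
  rw [Finset.sum_mul, ← Finset.add_sum_erase _ _ h2] at h1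
  have h3 := Finset.card_nsmul_le_sum ((bfam h hef Ω (Zs hef.left (St B ω))).erase (Bs h hef.left ⊤ f (St B ω)))
    (fun X => {ω' ∈ {ω' : Ω | Zs hef.left (St B ω') = Zs hef.left (St B ω)} | Bs h hef.left ⊤ f (St B ω') = X}.ncard *
      Nat.card (Zs hef.left (St B ω))) (q ^ 3) fun X hX => by
      obtain ⟨ω', h3, rfl⟩ := (mem_bfam h hef).1 (Finset.mem_of_mem_erase hX)
      rw [← h3] at hZ ⊢
      exact (le_ncard_orbit_four h hef hr hZ).trans (Nat.mul_le_mul_right _ (Set.ncard_le_ncard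
        (orbit_subset_fib h hef ω') (Set.toFinite _)))
  rw [← Finset.card_erase_add_one h2, add_mul, one_mul]
  rw [smul_eq_mul] at h3
  change _ + _ ≤ _ at h1
  simp only [Set.mem_ofPred_eq] at h1 h3
  omega

theorem bfam_mul_le' {ω : Ω} (hZ : Zs hef.left (St B ω) ≠ Tz σ) : (bfam h hef Ω (Zs hef.left (St B ω))).card * q ^ 3 ≤
    {ω' : Ω | Zs hef.left (St B ω') = Zs hef.left (St B ω)}.ncard * Nat.card (Zs hef.left (St B ω)) := by
  have h1 := bfam_mul_le h hef hr hZ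
  have h2 := (le_ncard_orbit_four h hef hr hZ).trans (Nat.mul_le_mul_right _ (Set.ncard_le_ncard
    (orbit_subset_fib h hef ω) (Set.toFinite _)))
  omega

theorem ncard_iso_two :
    {v | v ∈ hcp B ⊤ e f ∧ v ≠ 0 ∧ B v v = 0}.ncard + (q + 1) = (q + 1) * q ^ 2 := by
  rw [ncard_iso h ((nd_top h).hcp h hef trivial trivial), finrank_hcp_top hef hr]
  have h1 := isoCount_int (q := q) (by have := h.bar.two_le; omega) 1
  zify
  rw [h1]; ring

theorem exists_iso_mem {ω : Ω} {x y : V} (hx : x ∈ Bs h hef.left ⊤ f (St B ω)) (hx0 : x ≠ 0) (hxx : B x x = 0)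
    (h2 : (2 : F) = 0) (hy : y ∈ hcp B ⊤ e f) (hy0 : y ≠ 0) (hyy : B y y = 0) :
    ∃ X ∈ bfam h hef Ω (Zs hef.left (St B ω)), y ∈ X := by
  obtain ⟨g, h1, h3, b, hb, h4⟩ := exists_fix_iso h hef hr hx.1 hy hx0 hy0 hxx hyy
  obtain ⟨k, a, h5, h6, h7, h8⟩ := exists_scale h hef hr h2 hy hy0 hyy (inv_ne_zero hb)
  have h9 := exists_mem_bfam h hef hx (g := k * g) h5 (show k.1 (g.1 e) = _ by rw [h1, h6])
    (show k.1 (g.1 f) = _ by rw [h3, h7])
  rwa [show (k * g).1 x = k.1 (g.1 x) from rfl, h4, map_smul, smul_comm, h8, smul_inv_smul₀ hb] at h9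

theorem succ_le_card_bfam {ω : Ω} (hZ : Zs hef.left (St B ω) ≠ Tz σ) (h0 : Bs h hef.left ⊤ f (St B ω) ≠ ⊥)
    (hX : ∀ x ∈ Bs h hef.left ⊤ f (St B ω), B x x = 0) : q + 1 ≤ (bfam h hef Ω (Zs hef.left (St B ω))).card ∨
      (2 : F) ≠ 0 ∧ ∃ x ∈ Bs h hef.left ⊤ f (St B ω), ∃ y ∈ Bs h hef.left ⊤ f (St B ω), B x y ≠ 0 := by
  classical
  have := h.finite
  have := h.bar.finite
  have := Fintype.ofFinite F
  obtain ⟨⟨x, hx⟩, hx0⟩ := AddSubgroup.ne_bot_iff_exists_ne_zero.1 h0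
  have hx1 : x ≠ 0 := fun h0 => hx0 (Subtype.ext h0)
  suffices ∀ φ : AddSubgroup V → AddSubgroup V, (∀ X ∈ bfam h hef Ω (Zs hef.left (St B ω)), Nat.card (φ X) ≤ q ^ 2) →
      (∀ y ∈ {v | v ∈ hcp B ⊤ e f ∧ v ≠ 0 ∧ B v v = 0}, ∃ X ∈ bfam h hef Ω (Zs hef.left (St B ω)), y ∈ φ X) →
      q + 1 ≤ (bfam h hef Ω (Zs hef.left (St B ω))).card by
    by_cases h1 : ∃ y ∈ Bs h hef.left ⊤ f (St B ω), B x y ≠ 0
    · by_cases h2 : (2 : F) = 0
      · exact Or.inl (this id (fun X => card_le_of_mem_bfam h hef hr hZ) fun y hy =>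
          exists_iso_mem h hef hr hx hx1 (hX x hx) h2 hy.1 hy.2.1 hy.2.2)
      · exact Or.inr ⟨h2, x, hx, h1⟩
    push Not at h1
    refine Or.inl (this (fun X => if IsLine F X then (Submodule.span F (X : Set V)).toAddSubgroup else ⊥)
      (fun X _ => ?_) fun y hy => ?_)
    · split_ifs with h2
      · obtain ⟨z, hz⟩ := h2
        rw [← h.bar.fintype_card]
        exact IsLine.card_le ⟨z, fun a ha => Submodule.span_le.2 hz ha⟩
      · rw [AddSubgroup.card_bot]; exact Nat.one_le_pow _ _ (by have := h.bar.two_le; omega)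
    · obtain ⟨g, h2, h3, b, hb, h4⟩ := exists_fix_iso h hef hr hx.1 hy.1 hx1 hy.2.1 (hX x hx) hy.2.2
      have h5 := Bs_smul_of_fix h hef.left (U := ⊤) h2 h3 (fun _ => Iff.rfl) ω
      refine ⟨_, (mem_bfam h hef).2 ⟨g • ω, Zs_smul_of_norm _ (h2.trans (one_smul F e).symm) (by simp) ω h.bar, h5⟩, ?_⟩
      have h6 : IsLine F (g • Bs h hef.left ⊤ f (St B ω)) := IsLine.smul ⟨x, fun a ha => by
        obtain ⟨c, rfl⟩ := eq_smul_of_perp h hef hr hx.1 hx1 (hX x hx) ha.1 (h1 a ha)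
        exact Submodule.smul_mem _ _ (Submodule.mem_span_singleton_self x)⟩ g.1
      rw [if_pos h6]
      exact (Submodule.smul_mem_iff _ hb).1 (h4 ▸ Submodule.subset_span (app_mem_smul_iff.2 hx))
  intro φ h1 h2
  have h3 := ncard_add_le_of_cover _ φ h1 (by simp) h2
  have h4 := ncard_iso_two h hef hr
  obtain ⟨s, hs⟩ := Nat.exists_eq_add_of_le' (show 2 ≤ q ^ 2 by nlinarith [h.bar.two_le])
  rw [hs] at h3 h4
  exact Nat.le_of_mul_le_mul_right (c := s + 1) (by linarith) (by omega)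

theorem le_ncard_fib_four {ω : Ω} (hZ : Zs hef.left (St B ω) ≠ Tz σ) :
    q ^ 4 ≤ {ω' : Ω | Zs hef.left (St B ω') = Zs hef.left (St B ω)}.ncard * Nat.card (Zs hef.left (St B ω)) := by
  have := h.finite
  have hq := h.bar.two_le
  by_cases h1 : Nat.card (Bs h hef.left ⊤ f (St B ω)) ≤ q
  · have h2 := Nat.mul_le_mul_right (Nat.card (Zs hef.left (St B ω))) (Set.ncard_le_ncard
      (fun x hx => (orbit_subset_fib h hef ω hx).1 : MulAction.orbit (QE h hef.left ⊤ f) ω ⊆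
        {ω' : Ω | Zs hef.left (St B ω') = Zs hef.left (St B ω)}) (Set.toFinite _))
    refine Nat.le_of_mul_le_mul_left (c := q) ?_ (by omega)
    rw [← pow_succ', ← ncard_orbit_four h hef hr ω, mul_left_comm]
    exact Nat.mul_le_mul h1 h2
  refine le_trans ?_ (bfam_mul_le' h hef hr hZ)
  rw [pow_succ']
  refine Nat.mul_le_mul_right _ ?_
  by_cases h2 : ∀ x ∈ Bs h hef.left ⊤ f (St B ω), B x x = 0
  · rcases succ_le_card_bfam h hef hr hZ (fun h0 => h1 (by rw [h0, AddSubgroup.card_bot]; omega)) h2 with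
      h3 | ⟨h3, x, hx, y, hy, hxy⟩
    · omega
    · exact (h1 (card_Bs_le_of_odd h hef hr h3 hZ h2 hx hy hxy)).elim
  push Not at h2
  obtain ⟨x, hx, hxx⟩ := h2
  have h3 := ncard_add_le_of_cover _ id (fun X => card_le_of_mem_bfam h hef hr hZ)
    (Y := {y | y ∈ hcp B ⊤ e f ∧ B y y = B x x}) (fun h0 => hxx (by simpa using h0.2.symm)) fun y hy => by
      obtain ⟨g, h3, h4, rfl⟩ := exists_fix_noniso h hef hr hx.1 hy.1 (hy.2 ▸ hxx) hy.2.symm
      exact exists_mem_bfam' h hef hx h3 h4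
  have h4 := (h.restrict (((nd_top h).hcp h hef trivial trivial).disjoint h)).card_self_eq hxx (h.self_fixed x)
  rw [finrank_hcp_top hef hr, normCount, if_pos (by decide)] at h4
  have h5 : {y | y ∈ hcp B ⊤ e f ∧ B y y = B x x}.ncard = q ^ (2 - 1) * (q ^ 2 - 1) := by
    rw [← h4]
    exact Nat.card_congr ⟨fun v => ⟨⟨v.1, v.2.1⟩, v.2.2⟩, fun v => ⟨v.1.1, v.1.2, v.2⟩, fun _ => rfl, fun _ => rfl⟩
  obtain ⟨s, hs⟩ := Nat.exists_eq_add_of_le' (show 2 ≤ q ^ 2 by nlinarith)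
  rw [h5, hs, pow_one, show s + 2 - 1 = s + 1 from rfl] at h3
  exact Nat.le_of_mul_le_mul_right (c := s + 1) (by linarith) (by omega)

variable (hN : Nat.card Ω < (q + 1) * (q ^ 3 + 1))
include hN

theorem Zs_eq_bot_four {ω : Ω} (hZ : Zs hef.left (St B ω) ≠ Tz σ) : Zs hef.left (St B ω) = ⊥ := by
  classical
  have := h.bar.finite
  have := Fintype.ofFinite Ω
  have := Fintype.ofFinite (Tz σ)
  have hq := h.bar.two_le
  by_contra h0
  obtain ⟨θ, hθ⟩ := exists_addChar_one F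
  let D : Ω → AddSubgroup (Tz σ) := fun ω => (tzPair σ θ hθ).ann ((Zs hef.left (St B ω)).addSubgroupOf (Tz σ))
  have hD : ∀ ω, Nat.card (Zs hef.left (St B ω)) * Nat.card (D ω) = q := fun ω => by
    have h6 := (tzPair σ θ hθ).card_mul_card_ann ((Zs hef.left (St B ω)).addSubgroupOf (Tz σ))
    rwa [card_Tz h.bar, Nat.card_congr (AddSubgroup.addSubgroupOfEquivOfLe (Zs_le hef.left)).toEquiv] at h6
  have hD' : ∀ ω, D ω = ⊥ ↔ Zs hef.left (St B ω) = Tz σ := fun ω => (tzPair σ θ hθ).ann_eq_bot_iff.trans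
    (AddSubgroup.addSubgroupOf_eq_top.trans ⟨le_antisymm (Zs_le _), fun h => h.ge⟩)
  let 𝒟 := (Finset.univ.filter fun ω : Ω => Zs hef.left (St B ω) ≠ Tz σ ∧ Zs hef.left (St B ω) ≠ ⊥).image D
  have h1 := card_mul_add_le_sum 𝒟 (Finset.univ.erase 0) (by simp) 1 fun c hc => by
    have hc := (Finset.mem_erase.1 hc).1
    obtain ⟨c₀, hc₀⟩ := AddSubgroup.ne_bot_iff_exists_ne_zero.1 (mt (hD' ω).1 hZ)
    have h1 : (c₀.1 : F) ≠ 0 := by simpa using hc₀
    have h2 : (c : F) ≠ 0 := by simpa using hc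
    obtain ⟨a, ha⟩ := h.bar.exists_norm_eq (a := c / c₀.1) (by rw [map_div₀, mem_Tz.1 c.2, mem_Tz.1 c₀.1.2, neg_div_neg_eq])
    have ha0 : a ≠ 0 := by rintro rfl; exact div_ne_zero h2 h1 (by simpa using ha.symm)
    obtain ⟨g, hg, -⟩ := exists_torus' h (by omega) hef ha0
    have h4 : c ∈ D (g⁻¹ • ω) := fun z hz => by
      have h5 := mul_mem_Zs_smul hef.left hg h.bar hz
      rw [smul_inv_smul, ha] at h5
      have h6 : θ (c₀.1 * (z * (c / c₀.1))) = 1 := c₀.2 ⟨_, h5.1⟩ h5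
      rwa [show (c₀.1 : F) * (z * (c / c₀.1)) = c * z by field_simp] at h6
    refine Finset.card_pos.2 ⟨_, Finset.mem_filter.2 ⟨Finset.mem_image_of_mem _ (Finset.mem_filter.2 ⟨Finset.mem_univ _,
      fun h5 => hc (by rw [(hD' _).2 h5] at h4; exact h4), fun h5 => h0 (eq_bot_iff.2 fun z hz => ?_)⟩), h4⟩⟩
    have h6 := mul_mem_Zs_smul hef.left (k := g⁻¹) (inv_app_of_app ha0 hg) h.bar hz
    rw [h5, AddSubgroup.mem_bot] at h6
    simpa [ha0] using h6
  have h2 : ∑ A ∈ 𝒟, 2 * Nat.card A ≤ 𝒟.card • q := Finset.sum_le_card_nsmul _ _ _ fun A hA => by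
    obtain ⟨ω', hω', rfl⟩ := Finset.mem_image.1 hA
    rw [← hD ω']
    exact Nat.mul_le_mul_right _ ((AddSubgroup.one_lt_card_iff_ne_bot _).2 (Finset.mem_filter.1 hω').2.2)
  have h4 := sum_le_ncard (Set.toFinite (Set.univ : Set Ω)) D 𝒟 (fun A => Nat.card A * q ^ 3) fun A hA => by
    obtain ⟨ω', hω', rfl⟩ := Finset.mem_image.1 hA
    refine le_trans ?_ (Set.ncard_le_ncard (s := {z : Ω | Zs hef.left (St B z) = Zs hef.left (St B ω')})
      (fun z hz => ⟨trivial, by simp only [D]; rw [hz]⟩) (Set.toFinite _))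
    refine Nat.le_of_mul_le_mul_right (c := Nat.card (Zs hef.left (St B ω'))) (le_trans (le_of_eq ?_)
      (le_ncard_fib_four h hef hr (Finset.mem_filter.1 hω').2.1)) Nat.card_pos
    rw [pow_succ q 3, mul_right_comm, mul_comm (Nat.card (D ω')), hD, mul_comm]
  rw [← Finset.sum_mul, Set.ncard_univ] at h4
  rw [Finset.card_erase_of_mem (Finset.mem_univ _), Finset.card_univ, ← Nat.card_eq_fintype_card, card_Tz h.bar] at h1
  rw [← Finset.mul_sum, smul_eq_mul] at h2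
  have h5 : 3 ≤ 𝒟.card := by
    by_contra h5
    have h6 : 𝒟.card = 0 ∨ 𝒟.card = 1 ∨ 𝒟.card = 2 := by omega
    rcases h6 with h6 | h6 | h6 <;> rw [h6] at h1 h2 <;> omega
  have h6 := Nat.mul_le_mul_right (q ^ 3) (show q + 2 ≤ ∑ A ∈ 𝒟, Nat.card A by omega)
  nlinarith [Nat.pow_lt_pow_right (show 1 < q by omega) (show 1 < 3 by omega)]

variable {ω : Ω} (hZ : Zs hef.left (St B ω) = ⊥)
include hZ

omit hr hN in
theorem Zs_ne_Tz : Zs hef.left (St B ω) ≠ Tz σ := fun h1 => by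
  have h2 := card_Tz h.bar
  have := h.bar.two_le
  rw [← h1, hZ, AddSubgroup.card_bot] at h2
  omega

omit hr hN in
theorem B_real {x y : V} (hx : x ∈ Bs h hef.left ⊤ f (St B ω)) (hy : y ∈ Bs h hef.left ⊤ f (St B ω)) :
    σ (B x y) = B x y := by
  have h1 := comm_mem_Zs h _ hx hy
  rw [hZ, AddSubgroup.mem_bot, sub_eq_zero] at h1
  exact h1.symm

theorem card_bfam_le : (bfam h hef Ω ⊥).card ≤ q + 1 := by
  have h1 := bfam_mul_le' h hef hr (Zs_ne_Tz h hef hZ)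
  rw [hZ, AddSubgroup.card_bot, mul_one] at h1
  have h2 := Nat.pow_lt_pow_right h.bar.two_le (show 1 < 3 by omega)
  exact Nat.le_of_lt_succ (Nat.lt_of_mul_lt_mul_right (a := q ^ 3) (by nlinarith [h1.trans (Set.ncard_le_card _)]))

theorem iso_of_mem_Bs {x : V} (hx : x ∈ Bs h hef.left ⊤ f (St B ω)) : B x x = 0 := by
  have := h.finite
  have hq := h.bar.two_le
  by_contra hxx
  have h1 : ∀ y ∈ {v | v ∈ hcp B ⊤ e f ∧ B v v ≠ 0}, ∃ X ∈ bfam h hef Ω ⊥, y ∈ id X := fun y hy => by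
    obtain ⟨g, a, ha, h1, h2, rfl⟩ := exists_move_noniso h hef hr hx.1 hy.1 hxx hy.2
    exact ⟨_, (mem_bfam h hef).2 ⟨g • ω, Zs_eq_bot_four h hef hr hN fun h3 => Zs_ne_Tz h hef hZ (by
      simpa using Zs_smul_eq_Tz h hef (g := g⁻¹) (inv_ne_zero ha) (inv_app_of_app ha h1) h3), rfl⟩,
      (mem_Bs_smul_iff h _ ha (inv_ne_zero ((map_ne_zero σ).2 ha)) h1 h2 (fun _ => Iff.rfl) ω x).2 hx⟩
  have h2 : ∀ X ∈ bfam h hef Ω ⊥, Nat.card (id X : AddSubgroup V) ≤ q ^ 2 := fun X =>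
    card_le_of_mem_bfam h hef hr (hZ ▸ Zs_ne_Tz h hef hZ)
  have h3 := ncard_add_le_of_cover _ id h2 (by simp) h1
  have h4 := ncard_noniso h ((nd_top h).hcp h hef trivial trivial)
  rw [← finrank_hcp_top hef hr, ← ncard_iso h ((nd_top h).hcp h hef trivial trivial), finrank_hcp_top hef hr] at h4
  have h5 := ncard_iso_two h hef hr
  have h6 := card_bfam_le h hef hr hN hZ
  obtain rfl : q = 2 := by
    by_contra h7
    obtain ⟨s, hs⟩ := Nat.exists_eq_add_of_le' (show 1 ≤ q ^ 2 by nlinarith)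
    rw [mul_comm 2, pow_mul, sq (q ^ 2), hs] at h4
    rw [hs] at h3 h5
    have h8 := Nat.mul_le_mul_left s h6
    have h9 := Nat.mul_le_mul_left s (show 2 * (q + 1) + 1 ≤ s + 1 by rw [← hs]; nlinarith [show 3 ≤ q by omega])
    nlinarith
  have h7 : (2 : F) = 0 := by simpa using h.bar.cast_q
  by_cases h8 : ∃ ω' : Ω, Zs hef.left (St B ω') = ⊥ ∧ ∃ z ∈ Bs h hef.left ⊤ f (St B ω'), z ≠ 0 ∧ B z z = 0
  · obtain ⟨ω', h8, z, hz, hz0, hzz⟩ := h8
    have h9 := ncard_add_le_of_cover _ id h2 (Y := {v | v ∈ hcp B ⊤ e f ∧ B v v ≠ 0} ∪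
      {v | v ∈ hcp B ⊤ e f ∧ v ≠ 0 ∧ B v v = 0}) (by simp) fun y hy => hy.elim (h1 y) fun hy =>
        h8 ▸ exists_iso_mem h hef hr hz hz0 hzz h7 hy.1 hy.2.1 hy.2.2
    rw [Set.ncard_union_eq (Set.disjoint_left.2 fun v h1 h2 => h1.2 h2.2.2)] at h9
    omega
  push Not at h8
  have h9 := ncard_add_le_of_cover _ id (k := 2) (fun X hX => by
    obtain ⟨ω', h9, rfl⟩ := (mem_bfam h hef).1 hX
    have h10 : ∀ z ∈ Bs h hef.left ⊤ f (St B ω'), z ≠ 0 → B z z = 1 := fun z hz hz0 => by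
      simpa using (h.bar.fixed_iff (h8 ω' h9 z hz hz0)).1 (h.self_fixed z)
    by_cases h11 : Bs h hef.left ⊤ f (St B ω') = ⊥
    · rw [h11]; exact AddSubgroup.card_bot.trans_le (by omega)
    obtain ⟨⟨a, ha⟩, ha0⟩ := AddSubgroup.ne_bot_iff_exists_ne_zero.1 h11
    refine (Set.ncard_le_ncard (t := {0, a}) (fun b hb => by_contra fun h12 => ?_)).trans (Set.ncard_insert_le _ _) |>.trans
      (by rw [Set.ncard_singleton])
    rw [Set.mem_insert_iff, not_or] at h12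
    refine h8 ω' h9 _ (AddSubgroup.sub_mem _ hb ha) (sub_ne_zero.2 h12.2) ?_
    have h13 := B_real h hef h9 hb ha
    simp only [map_sub, LinearMap.sub_apply, h10 a ha fun h0 => ha0 (Subtype.ext h0), h10 b hb h12.1, h.symm] at h13 ⊢
    linear_combination (1 - B b a) * h7 - h13) (by simp) h1
  omega

theorem succ_le_card_bfam_bot : q + 1 ≤ (bfam h hef Ω ⊥).card := by
  refine hZ ▸ (succ_le_card_bfam h hef hr (Zs_ne_Tz h hef hZ) (fun h0 => ?_) fun x =>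
    iso_of_mem_Bs h hef hr hN hZ).resolve_right ?_
  · have h1 := ncard_orbit_four h hef hr ω
    rw [h0, hZ, AddSubgroup.card_bot, AddSubgroup.card_bot, mul_one, mul_one] at h1
    have h2 := h1.ge.trans (Set.ncard_le_card _)
    have h3 := h.bar.two_le
    have h4 : q * 2 ^ 2 ≤ q * q ^ 2 := by gcongr
    have h5 : 2 * q ^ 4 ≤ q * q ^ 4 := by gcongr
    have h6 : 2 * q ^ 3 ≤ q * q ^ 3 := by gcongr
    linarith
  · rintro ⟨h2, x, hx, y, hy, hxy⟩
    refine mul_ne_zero h2 hxy ?_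
    linear_combination B_neg_of_iso h (fun x => iso_of_mem_Bs h hef hr hN hZ) hx hy - B_real h hef hZ hx hy

theorem le_ncard_reg : (q + 1) * q ^ 3 ≤ {ω' : Ω | Zs hef.left (St B ω') = ⊥}.ncard := by
  have h1 := bfam_mul_le' h hef hr (Zs_ne_Tz h hef hZ)
  rw [hZ, AddSubgroup.card_bot, mul_one] at h1
  exact (Nat.mul_le_mul_right _ (succ_le_card_bfam_bot h hef hr hN hZ)).trans h1

theorem ncard_fib_lt : {ω' : Ω | Zs hef.left (St B ω') = Zs hef.left (St B ω) ∧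
    Bs h hef.left ⊤ f (St B ω') = Bs h hef.left ⊤ f (St B ω)}.ncard < 2 * q ^ 3 := by
  have h1 := bfam_mul_le h hef hr (Zs_ne_Tz h hef hZ)
  have h2 := Set.ncard_le_card {ω' : Ω | Zs hef.left (St B ω') = Zs hef.left (St B ω)}
  have h3 := Nat.mul_le_mul_right (q ^ 3) (hZ ▸ succ_le_card_bfam_bot h hef hr hN hZ)
  rw [show Nat.card (Zs hef.left (St B ω)) = 1 by rw [hZ, AddSubgroup.card_bot]] at h1
  nlinarith [Nat.pow_lt_pow_right h.bar.two_le (show 1 < 3 by omega)]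

theorem card_Bs_four : Nat.card (Bs h hef.left ⊤ f (St B ω)) = q ^ 2 := by
  have h1 := ncard_orbit_four h hef hr ω
  have h2 := (Set.ncard_le_ncard (orbit_subset_fib h hef ω) (Set.toFinite _)).trans_lt (ncard_fib_lt h hef hr hN hZ)
  rw [hZ, AddSubgroup.card_bot, mul_one] at h1
  refine (card_Bs_le h hef hr (Zs_ne_Tz h hef hZ)).eq_of_not_lt fun h3 => ?_
  obtain ⟨p, k, hp, -, -, rfl⟩ := h.bar.exists_prime_pow
  obtain ⟨i, -, hi⟩ := (Nat.dvd_prime_pow hp).1 (Dvd.intro_left _ (h1.trans (pow_mul p k 5).symm))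
  have h4 : 2 * p ^ i ≤ (p ^ k) ^ 2 := by
    rw [hi, ← pow_mul] at h3
    rw [← pow_mul]
    exact (Nat.mul_le_mul_right _ hp.two_le).trans (pow_succ' p i ▸ Nat.pow_le_pow_right hp.pos
      ((Nat.pow_lt_pow_iff_right hp.one_lt).1 h3))
  rw [hi] at h1
  nlinarith [Nat.mul_le_mul_left ((p ^ k) ^ 3) h4, Nat.mul_lt_mul_of_lt_of_le h2 (le_refl (p ^ i)) (pow_pos hp.pos i)]

theorem mem_orbit_of_Bs_eq {ω' : Ω} (hZ' : Zs hef.left (St B ω') = ⊥)
    (h1 : Bs h hef.left ⊤ f (St B ω') = Bs h hef.left ⊤ f (St B ω)) : ω' ∈ MulAction.orbit (QE h hef.left ⊤ f) ω := by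
  by_contra h2
  have h3 : ∀ ω : Ω, Zs hef.left (St B ω) = ⊥ → q ^ 3 ≤ (MulAction.orbit (QE h hef.left ⊤ f) ω).ncard := fun ω hω => by
    have h3 := le_ncard_orbit_four h hef hr (Zs_ne_Tz h hef hω)
    rwa [hω, AddSubgroup.card_bot, mul_one] at h3
  exact (ncard_fib_lt h hef hr hN hZ).not_ge (two_mul_ncard_le (Set.toFinite _) (orbit_subset_fib h hef ω)
    (fun x hx => ⟨(orbit_subset_fib h hef ω' hx).1.trans (hZ'.trans hZ.symm), (orbit_subset_fib h hef ω' hx).2.trans h1⟩)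
    h2 (h3 ω hZ) (h3 ω' hZ'))

end Four

end CL.MinU
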