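/-
Minimal degrees of unitary groups, IX: dimension four, the main theorem.
-/
import Cfsg.Agent.Known.MinDegU8

set_option autoImplicit false
set_option linter.unusedSectionVars false

open Module CL.Uni CL.MinD
open scoped Pointwise

namespace CL.MinU

variable {F V : Type*} [Field F] {q : ℕ} {σ : F →+* F} [AddCommGroup V] [Module F V] [FiniteDimensional F V]
  {B : V →ₛₗ[σ] V →ₗ[F] F}

/-- The elements of the unipotent radical of the stabiliser of an isotropic line. -/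
def IsE (B : V →ₛₗ[σ] V →ₗ[F] F) (e x : V) (m : F × F × F) (g : V ≃ₗ[F] V) : Prop :=
  ∀ v, g v = v + (m.1 * B e v + m.2.1 * B x v) • e + (-σ m.2.1 * B e v + m.2.2 * B x v) • x

theorem eich_trace (h : IsHerm B q) {e f w : V} (hef : Hyp B e f) (hw : w ∈ hcp B ⊤ e f) {c : F} {g : V ≃ₗ[F] V}
    (hg : g ∈ UG B) (h1 : IsEich B e w c g) : c + σ c = B w w := by
  have h4 := hg f f
  have h5 := mem_hcp.1 hw
  rw [eich_app_right h hef h5.2.2 h1] at h4
  simp only [map_add, map_sub, map_smulₛₗ, LinearMap.add_apply, LinearMap.sub_apply, LinearMap.smul_apply,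
    smul_eq_mul, RingHom.id_apply, hef.left, hef.right, hef.eq, hef.eq', h5.2.1, h5.2.2, h.flip_zero h5.2.1,
    h.flip_zero h5.2.2] at h4
  linear_combination -h4

theorem eich_param_unique (h : IsHerm B q) {H : Subgroup (V ≃ₗ[F] V)} {e w : V} (he : B e e = 0) (hZ : Zs he H = ⊥)
    (hw : B e w = 0) {c c' : F} {g g' : V ≃ₗ[F] V} (hg : g ∈ H) (hg' : g' ∈ H) (h1 : IsEich B e w c g)
    (h2 : IsEich B e w c' g') (hc : σ (c - c') = -(c - c')) : c = c' := by
  have h3 := h2.mul (h1.inv he (h.flip_zero hw) hw) he (h.flip_zero hw) (by rw [map_neg, hw, neg_zero])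
  rw [add_neg_cancel, isEich_zero] at h3
  have h4 : c - c' ∈ Zs he H := ⟨hc, _, H.mul_mem hg' (H.inv_mem hg), by convert h3 using 1; rw [map_neg]; ring⟩
  rwa [hZ, AddSubgroup.mem_bot, sub_eq_zero] at h4

section Line

variable (h : IsHerm B q) {e f x : V} (hef : Hyp B e f) (hx : x ∈ hcp B ⊤ e f) (hxx : B x x = 0)
include h hef hx hxx

theorem IsE.mul {m m' : F × F × F} {g g' : V ≃ₗ[F] V} (h1 : IsE B e x m g) (h2 : IsE B e x m' g') :
    IsE B e x (m + m') (g * g') := fun v => by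
  rw [LinearEquiv.mul_apply, h1, h2]
  simp only [map_add, map_smul, hef.left, hxx, (mem_hcp.1 hx).2.1, h.flip_zero (mem_hcp.1 hx).2.1, smul_zero, add_zero,
    Prod.fst_add, Prod.snd_add]
  module

omit hef hx hxx in
theorem isE_of_eich {a c : F} {g : V ≃ₗ[F] V} (h1 : IsEich B e (a • x) c g) : IsE B e x (-c, -σ a, 0) g := fun v => by
  rw [h1]
  simp only [map_smulₛₗ, LinearMap.smul_apply, smul_eq_mul, map_neg, h.bar_bar]
  module

theorem hyp_add_smul (l : F) : Hyp B (e + l • x) f ∧ x ∈ hcp B ⊤ (e + l • x) f := by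
  obtain ⟨-, h1, h2⟩ := mem_hcp.1 hx
  have h3 : B (e + l • x) f = 1 := by simp [hef.eq, h.flip_zero h2]
  exact ⟨⟨by simp [hef.left, h1, h.flip_zero h1, hxx], hef.right, h3, h.flip_one h3⟩,
    mem_hcp.2 ⟨trivial, by simp [h1, hxx], h2⟩⟩

omit hef hx hxx in
theorem IsE.eich {m : F × F × F} {g : V ≃ₗ[F] V} (h1 : IsE B e x m g) (hm : σ m.1 = -m.1) {l : F}
    (hl : m.1 * (l * σ l) - m.2.1 * l + σ (m.2.1 * l) + m.2.2 = 0) :
    IsEich B (e + l • x) ((-m.1 * l - σ m.2.1) • x) (-m.1) g := fun v => by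
  rw [h1]
  simp only [map_add, map_smulₛₗ, LinearMap.add_apply, LinearMap.smul_apply, smul_eq_mul, map_sub, map_mul, map_neg,
    h.bar_bar, hm] at hl ⊢
  match_scalars
  · ring
  · ring
  · linear_combination B x v * hl

theorem ncard_lt_of_line {H : Subgroup (V ≃ₗ[F] V)} (hH : H ≤ UG B) (hx0 : x ≠ 0)
    (hZ : ∀ r s (hrs : Hyp B r s), Zs hrs.left H = ⊥) {κ : ℕ}
    (hκ : ∀ e' (he' : Hyp B e' f), {ρ : F | ρ • x ∈ Bs h he'.left ⊤ f H}.ncard ≤ κ)
    (hG : ∀ γ, σ γ = -γ → ∃ α β, σ α = -α ∧ ∃ g ∈ H, IsE B e x (α, β, γ) g) :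
    {ρ : F | ρ • x ∈ Bs h hef.left ⊤ f H}.ncard < κ := by
  classical
  have := h.bar.finite
  have := Fintype.ofFinite F
  have hq := h.bar.two_le
  let K : Set (F × F × F) := {m | σ m.1 = -m.1 ∧ σ m.2.2 = -m.2.2 ∧ ∃ g ∈ H, IsE B e x m g}
  have h0 : (0 : F × F × F) ∈ K := ⟨by simp, by simp, 1, H.one_mem, fun v => by simp⟩
  have h1 : {ρ : F | ρ • x ∈ Bs h hef.left ⊤ f H}.ncard * q ≤ K.ncard := by
    choose! α β h1 using hG
    have h2 : ∀ ρ : F, ρ • x ∈ Bs h hef.left ⊤ f H → ∃ c, σ c = -c ∧ ∃ g ∈ H, IsEich B e (ρ • x) c g := by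
      rintro ρ ⟨-, c, hc, h2⟩
      exact ⟨c, by rw [B_smul_smul, hxx, mul_zero] at hc; linear_combination hc, h2⟩
    choose! c h2 using h2
    refine ((congrArg (_ * ·) (card_Tz h.bar).symm).trans
      (Set.ncard_prod (t := (Tz σ : Set F))).symm).trans_le (Set.ncard_le_ncard_of_injOn
      (fun p => (-c p.1, -σ p.1, 0) + (α p.2, β p.2, p.2)) (fun p hp => ?_) fun p _ p' _ hp => ?_)
    · obtain ⟨h3, g, hg, h4⟩ := h1 p.2 hp.2
      obtain ⟨h5, g', hg', h6⟩ := h2 p.1 hp.1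
      exact ⟨by simp [h3, h5, add_comm], by simpa using mem_Tz.1 hp.2, _, H.mul_mem hg' hg,
        (isE_of_eich h h6).mul h hef hx hxx h4⟩
    · simp only [Prod.mk_add_mk, zero_add, Prod.mk.injEq] at hp
      exact Prod.ext (σ.injective (by rw [hp.2.2] at hp; simpa using hp.2.1)) hp.2.2
  have h2 : ∀ l : F, Set.InjOn (fun m : F × F × F => -m.1 * l - σ m.2.1)
      {m ∈ K | m.1 * (l * σ l) - m.2.1 * l + σ (m.2.1 * l) + m.2.2 = 0} := by
    rintro l ⟨α, β, γ⟩ ⟨⟨h2, -, g, hg, h3⟩, h4⟩ ⟨α', β', γ'⟩ ⟨⟨h5, -, g', hg', h6⟩, h7⟩ h8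
    have h9 := hyp_add_smul h hef hx hxx l
    have h10 := h3.eich h h2 h4
    simp only at h2 h4 h5 h7 h8 h10
    rw [h8] at h10
    obtain rfl : α = α' := neg_injective (eich_param_unique h _ (hZ _ _ h9.1) (by
      rw [map_smul, (mem_hcp.1 h9.2).2.1, smul_zero]) hg hg' h10 (h6.eich h h5 h7) (by simp [h2, h5]; ring))
    obtain rfl : β = β' := σ.injective (sub_right_injective h8)
    rw [add_left_cancel (h4.trans h7.symm)]
  have h3 := card_mul_le_sum (Finset.univ : Finset F) ((Set.toFinite K).toFinset.erase 0)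
    (fun l m => m.1 * (l * σ l) - m.2.1 * l + σ (m.2.1 * l) + m.2.2 = 0) (fun _ => 1) q fun ⟨α, β, γ⟩ hm => by
      obtain ⟨hm0, hm⟩ := Finset.mem_erase.1 hm
      have hK := (Set.toFinite K).mem_toFinset.1 hm
      obtain ⟨h3, h4, g, hg, h5⟩ := (Set.toFinite K).mem_toFinset.1 hm
      simp only at h3 h4
      rw [Finset.sum_const, smul_eq_mul, mul_one, ← Set.ncard_coe_finset]
      by_cases hα : α = 0
      · subst hα
        have hβ : β ≠ 0 := by
          rintro rfl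
          obtain ⟨y, -, h6⟩ := (nd_top h).exists_hyp h trivial hx0 hxx
          have h7 : γ ∈ Zs h6.left H := ⟨h4, g, hg, fun v => by simpa using h5 v⟩
          rw [hZ _ _ h6, AddSubgroup.mem_bot] at h7
          exact hm0 (by rw [h7]; rfl)
        obtain ⟨t, ht⟩ := h.bar.exists_sub_bar_eq h4
        refine h.bar.card_fixed.ge.trans (Set.ncard_le_ncard_of_injOn (s := {x | σ x = x}) (fun r => (t + r) / β)
          (fun r hr => ?_) fun r _ r' _ hr => add_left_cancel ((div_left_inj' hβ).1 hr))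
        rw [Finset.coe_filter, Set.mem_ofPred_eq, mul_div_cancel₀ _ hβ, map_add, show σ r = r from hr]
        exact ⟨Finset.mem_univ _, by linear_combination -ht⟩
      have h6 : β * σ β / (α * σ α) - γ / α ≠ 0 := fun h6 => hm0 (h2 (-σ β / α) ⟨hK, by
        simp only [map_mul, map_div₀, map_neg, h.bar_bar, h3] at h6 ⊢
        field_simp at h6 ⊢
        linear_combination -h6⟩ ⟨h0, by simp⟩ (by simp only; field_simp; simp))
      refine (Nat.le_succ q).trans ((h.bar.card_norm_eq h6 (by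
        rw [map_sub, map_div₀, map_div₀, h.bar.norm_fixed, h.bar.norm_fixed, h3, h4, neg_div_neg_eq])).ge.trans
        (Set.ncard_le_ncard_of_injOn (s := {x | x * σ x = _}) (fun μ => μ - σ β / α) (fun μ hμ => ?_)
          fun r _ r' _ hr => sub_left_injective hr))
      rw [Finset.coe_filter, Set.mem_ofPred_eq] at *
      refine ⟨Finset.mem_univ _, ?_⟩
      simp only [map_mul, map_div₀, map_sub, h.bar_bar, h3] at hμ ⊢
      field_simp at hμ ⊢
      linear_combination hμ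
  have h4 := Finset.sum_le_card_nsmul (Finset.univ : Finset F) (fun l => 1 * (((Set.toFinite K).toFinset.erase 0).filter
    fun m => m.1 * (l * σ l) - m.2.1 * l + σ (m.2.1 * l) + m.2.2 = 0).card + 1) κ fun l _ => by
      have h4 := hyp_add_smul h hef hx hxx l
      refine le_trans ?_ ((Set.ncard_le_ncard_of_injOn _ (fun m hm => ?_) (h2 l)).trans (hκ _ h4.1))
      · rw [one_mul, ← Finset.card_insert_of_notMem (a := 0) (by simp), ← Set.ncard_coe_finset]
        refine Set.ncard_le_ncard (fun m hm => ?_) (Set.toFinite _)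
        rcases Finset.mem_insert.1 hm with rfl | hm
        · exact ⟨h0, by simp⟩
        · exact ⟨(Set.toFinite K).mem_toFinset.1 (Finset.mem_of_mem_erase (Finset.mem_filter.1 hm).1),
            (Finset.mem_filter.1 hm).2⟩
      · obtain ⟨⟨h5, -, g, hg, h6⟩, h7⟩ := hm
        exact mem_Bs_of_eich h hH h4.1 (Submodule.smul_mem _ _ h4.2) hg (h6.eich h h5 h7)
  rw [Finset.sum_add_distrib, Finset.sum_const, Finset.card_univ, h.bar.fintype_card, smul_eq_mul, smul_eq_mul] at h4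
  rw [Set.ncard_eq_toFinset_card K, ← Finset.card_erase_add_one ((Set.toFinite K).mem_toFinset.2 h0)] at h1
  by_contra h5
  nlinarith [Nat.mul_le_mul_right q h1, Nat.mul_le_mul_right (q * q) (not_lt.1 h5)]

end Line

section Four

variable (h : IsHerm B q) (hr : finrank F V = 2 + 2) {Ω : Type*} [MulAction (SUG B) Ω] [Finite Ω]
  (hN : Nat.card Ω < (q + 1) * (q ^ 3 + 1))
include h hr hN

theorem exists_isE {e f x : V} (hef : Hyp B e f) (hx : x ∈ hcp B ⊤ e f) (hx0 : x ≠ 0) (hxx : B x x = 0)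
    (hZ : ∀ ω : Ω, Zs hef.left (St B ω) = ⊥) {ω : Ω}
    (h1 : ∀ γ, σ γ = -γ → ∀ z ∈ Bs h hef.left ⊤ f (St B ω), z + (γ * B x z) • x ∈ Bs h hef.left ⊤ f (St B ω))
    (h2 : ∀ β, (∀ ρ, ρ • x ∈ Bs h hef.left ⊤ f (St B ω) → σ (ρ * β) = ρ * β) →
      ∃ v ∈ Bs h hef.left ⊤ f (St B ω), B v x = β) {γ : F} (hγ : σ γ = -γ) :
    ∃ α β, σ α = -α ∧ ∃ g ∈ St B ω, IsE B e x (α, β, γ) g := by
  have := h.bar.finite
  have := Fintype.ofFinite F
  obtain ⟨-, hxe, hxf⟩ := mem_hcp.1 hx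
  obtain ⟨t, htS, ht⟩ := h.exists_tv hxx hγ
  have h3 : t e = e := ht.fix (h.flip_zero hxe)
  have h4 := Bs_smul_of_fix h hef.left (U := ⊤) (k := ⟨t, htS⟩) h3 (ht.fix (h.flip_zero hxf)) (fun _ => Iff.rfl) ω
  obtain ⟨⟨k, w, hw, c, hc, hk⟩, h5⟩ := mem_orbit_of_Bs_eq h hef hr hN (hZ ((⟨t, htS⟩ : SUG B) • ω)) (hZ ω)
    (h4.trans (smul_eq_of_app_mem (g := t) fun z hz => ht z ▸ h1 γ hγ z hz)).symm
  have h6 : k.1 * t ∈ St B ω := (coe_mem_St (g := k * ⟨t, htS⟩)).2 (by rw [mul_smul]; exact h5)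
  obtain ⟨v, hv, h7⟩ := h2 (B w x) fun ρ ⟨_, d, _, m, hm, h7⟩ => by
    have h8 := h7.conj (SUG_le_UG (St_le ω h6))
    have h9 : B e (ρ • x) = 0 := by rw [map_smul, hxe, smul_zero]
    rw [LinearEquiv.mul_apply, LinearEquiv.mul_apply, h3, eich_app_left h hef.left (mem_hcp.1 hw).2.1 hk,
      ht.fix (by rw [map_smul, hxx, smul_zero]), hk, h9, zero_smul, add_zero, mul_zero, add_zero, sub_eq_add_neg,
      ← neg_smul, isEich_add_smul, map_smul, smul_eq_mul] at h8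
    have h10 := eich_param_unique h _ (hZ ω) h9 hm ((St B ω).mul_mem ((St B ω).mul_mem h6 hm) ((St B ω).inv_mem h6))
      h7 h8 (by simp only [map_sub, map_add, map_neg, h.bar_bar]; ring)
    rw [map_neg] at h10
    linear_combination h10
  obtain ⟨h8, d, -, m, hm, h9⟩ := AddSubgroup.neg_mem _ hv
  have h10 := h9.mul hk hef.left (h.flip_zero (mem_hcp.1 h8).2.1) (mem_hcp.1 hw).2.1
  obtain ⟨a, ha⟩ := eq_smul_of_perp h hef hr hx hx0 hxx (Submodule.add_mem _ h8 hw) (h.flip_zero (by simp [h7]))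
  rw [ha] at h10
  have h11 := eich_trace h hef (Submodule.smul_mem _ a hx) ((UG B).mul_mem (SUG_le_UG (St_le ω hm)) (SUG_le_UG k.2)) h10
  rw [B_smul_smul, hxx, mul_zero] at h11
  refine ⟨-(d + c + B (-v) w), -σ a, by rw [map_neg]; linear_combination -h11, _, (St B ω).mul_mem hm h6, ?_⟩
  simpa [mul_assoc] using (isE_of_eich h h10).mul h hef hx hxx (m' := (0, 0, γ)) (g' := t) fun v => by simpa using ht v

theorem false_of_forall_Zs [Nonempty Ω] (hZ : ∀ e f (hef : Hyp B e f) (ω : Ω), Zs hef.left (St B ω) = ⊥) : False := by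
  have := h.bar.finite
  have := h.finite
  have hU : ∀ ω : Ω, St B ω ≤ UG B := fun ω => (St_le ω).trans SUG_le_UG
  by_cases h1 : ∃ e f, ∃ hef : Hyp B e f, ∃ ω : Ω, ∃ x, x ≠ 0 ∧ ∀ ρ : F, ρ • x ∈ Bs h hef.left ⊤ f (St B ω)
  · obtain ⟨e, f, hef, ω, x, hx0, hx⟩ := h1
    have h1 : x ∈ Bs h hef.left ⊤ f (St B ω) := by simpa using hx 1
    have hxx := iso_of_mem_Bs h hef hr hN (hZ e f hef ω) h1
    have h2 := ncard_lt_of_line h hef h1.1 hxx (hU ω) hx0 (fun r s hrs => hZ r s hrs ω) (fun _ _ => Set.ncard_le_card _)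
      fun γ => exists_isE h hr hN hef h1.1 hx0 hxx (hZ e f hef) (fun γ _ z hz => AddSubgroup.add_mem _ hz (hx _))
        fun β hβ => ⟨0, AddSubgroup.zero_mem _, by_contra fun h0 => by
          obtain ⟨t, ht⟩ := h.bar.exists_ne
          have h2 := hβ (t / β) (hx _)
          rw [div_mul_cancel₀ _ (by simpa [eq_comm] using h0)] at h2
          exact ht h2⟩
    exact h2.not_ge ((Set.ncard_univ F).ge.trans (Set.ncard_le_ncard fun ρ _ => hx ρ))
  have key : ∀ e f (hef : Hyp B e f) (ω : Ω), ∃ x ∈ Bs h hef.left ⊤ f (St B ω), ∃ y ∈ Bs h hef.left ⊤ f (St B ω),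
      B x y ≠ 0 := fun e f hef ω => by
    by_contra h2
    push Not at h2
    have h3 := card_Bs_four h hef hr hN (hZ e f hef ω)
    obtain ⟨⟨x, hx⟩, hx0⟩ := AddSubgroup.ne_bot_iff_exists_ne_zero.1 ((AddSubgroup.one_lt_card_iff_ne_bot _).1
      (h3 ▸ Nat.one_lt_pow two_ne_zero h.bar.two_le))
    have hx1 : x ≠ 0 := fun h0 => hx0 (Subtype.ext h0)
    have h4 := card_sub h (Submodule.span F {x})
    rw [finrank_span_singleton hx1] at h4
    have h5 := AddSubgroup.eq_of_le_of_card_ge (H := Bs h hef.left ⊤ f (St B ω))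
      (K := (Submodule.span F {x}).toAddSubgroup) (fun z hz => by
        obtain ⟨a, rfl⟩ := eq_smul_of_perp h hef hr hx.1 hx1 (h2 x hx x hx) hz.1 (h2 x hx z hz)
        exact Submodule.smul_mem _ _ (Submodule.mem_span_singleton_self x)) (h4.trans h3.symm).le
    exact h1 ⟨e, f, hef, ω, x, hx1, fun ρ => h5.ge (Submodule.smul_mem _ _ (Submodule.mem_span_singleton_self x))⟩
  obtain ⟨e, -, f, -, hef⟩ := (nd_top h).exists_pair h (by rw [finrank_top]; omega)
  obtain ⟨ω⟩ := ‹Nonempty Ω›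
  obtain ⟨x, hx, y, hy, hxy⟩ := key e f hef ω
  have hX := fun z => iso_of_mem_Bs h hef hr hN (hZ e f hef ω) (x := z)
  have hx0 : x ≠ 0 := by rintro rfl; simp at hxy
  have hs := (Nat.bijective_iff_injective_and_card _).2 ⟨iot_injective h hef hr (fun _ => Bs_le h _) hX hx hy hxy, by
    rw [card_Bs_four h hef hr hN (hZ e f hef ω), Nat.card_prod, card_Tz h.bar, sq]⟩
  have h2 : ∀ r : F, σ r = r → r • x ∈ Bs h hef.left ⊤ f (St B ω) := fun r hr' => by
    obtain ⟨z, hz⟩ := hs.2 (0, ⟨r * B y x, by rw [mem_Tz, map_mul, hr', B_neg_of_iso h hX hy hx, mul_neg]⟩)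
    obtain ⟨a, ha⟩ := eq_smul_of_perp h hef hr hx.1 hx0 (hX x hx) z.2.1 (congrArg (fun p : Tz σ × Tz σ => (p.1 : F)) hz)
    have h2 : B y z = r * B y x := congrArg (fun p : Tz σ × Tz σ => (p.2 : F)) hz
    rw [ha, map_smul, smul_eq_mul, mul_left_inj' (mt h.flip_zero hxy)] at h2
    rw [← h2, ← ha]; exact z.2
  refine (ncard_lt_of_line h hef hx.1 (hX x hx) (hU ω) hx0 (fun r s hrs => hZ r s hrs ω) (κ := q) (fun e' he' => ?_)
    fun γ => exists_isE h hr hN hef hx.1 hx0 (hX x hx) (hZ e f hef) (fun γ hγ z hz => AddSubgroup.add_mem _ hz (h2 _ (by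
      rw [map_mul, hγ, B_neg_of_iso h hX hx hz, neg_mul_neg]))) fun β hβ => ?_).not_ge
    (h.bar.card_fixed.ge.trans (Set.ncard_le_ncard (s := {x | σ x = x}) h2))
  · by_cases h3 : ∃ ρ : F, ρ ≠ 0 ∧ ρ • x ∈ Bs h he'.left ⊤ f (St B ω)
    swap
    · push Not at h3
      exact (Set.ncard_le_ncard (t := {0}) fun ρ hρ => by_contra fun h4 => h3 ρ h4 hρ).trans
        (by have := h.bar.two_le; rw [Set.ncard_singleton]; omega)
    obtain ⟨ρ, hρ0, hρ⟩ := h3
    obtain ⟨u, hu, h4⟩ : ∃ u ∈ Bs h he'.left ⊤ f (St B ω), B u x ≠ 0 := by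
      obtain ⟨u, hu, u', hu', h4⟩ := key e' f he' ω
      have hX' := fun z => iso_of_mem_Bs h he' hr hN (hZ e' f he' ω) (x := z)
      by_contra h5
      push Not at h5
      exact smul_ne_zero hρ0 hx0 (congrArg Subtype.val ((injective_iff_map_eq_zero _).1 (iot_injective h he' hr
        (fun _ => Bs_le h _) hX' hu hu' h4) ⟨_, hρ⟩ (Prod.ext (Subtype.ext (by simp [iot, h5 u hu]))
          (Subtype.ext (by simp [iot, h5 u' hu'])))))
    refine (Set.ncard_le_ncard_of_injOn (t := {x | σ x = x}) (fun s => s / ρ) (fun s hs => ?_)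
      fun _ _ _ _ h5 => (div_left_inj' hρ0).1 h5).trans h.bar.card_fixed.le
    have h5 := B_real h he' (hZ e' f he' ω) hu hρ
    have h6 := B_real h he' (hZ e' f he' ω) hu hs
    rw [map_smul, smul_eq_mul] at h5 h6
    rw [Set.mem_ofPred_eq, ← mul_div_mul_right s ρ h4, map_div₀, h5, h6]
  · have h3 := hβ 1 (by simpa using hx)
    have h4 : (2 : F) = 0 := (mul_eq_zero_iff_right hxy).1 (by
      linear_combination B_neg_of_iso h hX hx hy - B_real h hef (hZ e f hef ω) hx hy)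
    rw [one_mul] at h3
    obtain ⟨z, hz⟩ := hs.2 (⟨β, by rw [mem_Tz, h3]; linear_combination β * h4⟩, 0)
    exact ⟨z, z.2, by rw [← h.symm, show B x z = β from congrArg (fun p : Tz σ × Tz σ => (p.1 : F)) hz, h3]⟩

theorem mem_Bs_of_Zs_eq {e f : V} (hef : Hyp B e f) (hq : {ω : Ω | Zs hef.left (St B ω) = Tz σ}.ncard ≤ q) {ω : Ω}
    (hZ : Zs hef.left (St B ω) = Tz σ) {w : V} (hw : w ∈ hcp B ⊤ e f) : w ∈ Bs h hef.left ⊤ f (St B ω) := by
  classical
  have := h.bar.finite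
  have := Fintype.ofFinite F
  have := Fintype.ofFinite (Tz σ)
  obtain ⟨θ, hθ⟩ := exists_addChar_ne F
  refine mem_Bs_of_An_eq_bot h hef θ hθ (by_contra fun h0 => ?_) hw
  obtain ⟨⟨x, hx⟩, hx0⟩ := AddSubgroup.ne_bot_iff_exists_ne_zero.1 h0
  have hx1 : x ≠ 0 := fun h0 => hx0 (Subtype.ext h0)
  obtain ⟨u, hu, huu, hux⟩ : ∃ u ∈ hcp B ⊤ e f, B u u = 0 ∧ B u x ≠ 0 := by
    obtain ⟨u, hu, u', hu', huu⟩ := ((nd_top h).hcp h hef trivial trivial).exists_pair h (finrank_hcp_top hef hr).ge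
    by_contra h1
    push Not at h1
    exact hx1 (by simpa [h1 u hu huu.left, h1 u' hu' huu.right] using coord h hef hr huu hu hu' hx.1)
  have h1 : ∀ y ∈ Finset.univ.image fun c : Tz σ => x + (c * B u x) • u, ∃ g ∈ Lev B e f, g x = y := fun y hy => by
    obtain ⟨c, -, rfl⟩ := Finset.mem_image.1 hy
    obtain ⟨t, ht, h1⟩ := h.exists_tv huu c.2
    exact ⟨t, mem_Lev_of_fix (g := ⟨t, ht⟩) (h1.fix (h.flip_zero (mem_hcp.1 hu).2.1))
      (h1.fix (h.flip_zero (mem_hcp.1 hu).2.2)), h1 x⟩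
  have hA := (mem_fam h hef θ).2 ⟨ω, hZ, rfl⟩
  have h2 := (inv_fam h hef θ (Ω := Ω)).cover _ (fun h2 => by
    obtain ⟨g, -, hg⟩ := h1 0 h2
    exact hx1 (g.map_eq_zero_iff.1 hg)) h1 (m := 1) (Finset.card_pos.2 ⟨_, Finset.mem_filter.2 ⟨hA, hx⟩⟩)
  rw [Finset.card_image_of_injective _ fun c d hcd => Subtype.ext (mul_right_cancel₀ hux (smul_left_injective F
    (by rintro rfl; simp at hux) (add_left_cancel hcd))), Finset.card_univ, ← Nat.card_eq_fintype_card,
    card_Tz h.bar] at h2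
  have h3 := wt_fam_le h hef θ hθ (Ω := Ω)
  have h4 := Finset.card_pos.2 ⟨_, hA⟩
  omega

end Four

/-- The lower bound for the index of a proper subgroup of `SU(V)`, `dim V = 4`. -/
theorem le_index_four (h : IsHerm B q) (hr : finrank F V = 2 + 2) (H : Subgroup (SUG B)) (hH : H ≠ ⊤) :
    (q + 1) * (q ^ 3 + 1) ≤ H.index := by
  have := finite_SUG h
  have hq := h.bar.two_le
  by_contra hN
  replace hN : Nat.card (SUG B ⧸ H) < (q + 1) * (q ^ 3 + 1) := not_le.1 hN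
  have h1 : ∀ e f (hef : Hyp B e f), {ω : SUG B ⧸ H | Zs hef.left (St B ω) = Tz σ}.ncard + (q + 1) * q ^ 3 ≤ H.index :=
    fun e f hef => by
      obtain ⟨ω, hω⟩ := exists_Zs_ne h (by omega) (by omega) hH hef
      refine le_trans (Nat.add_le_add_left ((le_ncard_reg h hef hr hN (Zs_eq_bot_four h hef hr hN hω)).trans
        (Set.ncard_le_ncard (fun ω' hω' => Zs_ne_Tz h hef hω'))) _) (Set.ncard_add_ncard_compl _).le
  have h2 : ∀ e f (hef : Hyp B e f), {ω : SUG B ⧸ H | Zs hef.left (St B ω) = Tz σ}.ncard ≤ q := fun e f hef => by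
    have := h1 e f hef
    change H.index < _ at hN
    nlinarith
  refine false_of_forall_Zs h hr hN fun e f hef ω => Zs_eq_bot_four h hef hr hN fun hZ => ?_
  obtain ⟨u, hu, u', huu, h3⟩ : ∃ u ∈ hcp B ⊤ e f, ∃ u', ∃ huu : Hyp B u u', Zs huu.left (St B ω) = ⊥ := by
    obtain ⟨u, hu, u', hu', huu⟩ := ((nd_top h).hcp h hef trivial trivial).exists_pair h (finrank_hcp_top hef hr).ge
    by_cases h3 : Zs huu.left (St B ω) = Tz σ
    · refine ⟨u', hu', u, huu.symm, Zs_eq_bot_four h huu.symm hr hN fun h4 => stabilizer_ne_top_quot hH ω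
        (eq_top_iff.2 fun g _ => coe_mem_St.1 (h.SUG_le_of_eich (by omega) ((St_le ω).trans SUG_le_UG)
          (mem_uCen_of_Zs h _ h3) (fun w hw => eichIn_of_Bs h huu h3 (fun _ => mem_Bs_of_Zs_eq h hr hN huu (h2 _ _ huu) h3)
            hw) (mem_uCen_of_Zs h _ h4) (by rw [huu.eq]; exact one_ne_zero) g.2))⟩
    · exact ⟨u, hu, u', huu, Zs_eq_bot_four h huu hr hN h3⟩
  choose t ht h4 using fun c : Tz σ => h.exists_tv huu.left c.2
  have h5 := Set.ncard_le_ncard_of_injOn (s := Set.univ) (t := {ω : SUG B ⧸ H | Zs hef.left (St B ω) = Tz σ})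
    (fun c => (⟨t c, ht c⟩ : SUG B) • ω) (fun c _ => Zs_smul_eq_Tz h hef one_ne_zero (by
      rw [one_smul]; exact (h4 c).fix (h.flip_zero (mem_hcp.1 hu).2.1)) hZ) fun c _ d _ hcd => by
      have h5 : -d.1 + c.1 ∈ Zs huu.left (St B ω) := ⟨(-d + c).2, _, (coe_mem_St (g := (⟨t d, ht d⟩ : SUG B)⁻¹ *
        ⟨t c, ht c⟩)).2 (by rw [mul_smul, inv_smul_eq_iff]; exact hcd), ((h4 d).inv huu.left).mul (h4 c) huu.left⟩
      rw [h3, AddSubgroup.mem_bot, neg_add_eq_zero] at h5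
      exact Subtype.ext h5.symm
  rw [Set.ncard_univ, card_Tz h.bar] at h5
  have h6 := CL.MinDeg.index_dvd_ncard_mul_index H (MulAction.stabilizer (SUG B) (Submodule.span F {e}))
    {ω | Zs hef.left (St B ω) = Tz σ} fun g hg ω hω => by
      rw [MulAction.mem_stabilizer_iff, smul_span_singleton] at hg
      obtain ⟨a, ha⟩ := Submodule.mem_span_singleton.1 (hg ▸ Submodule.mem_span_singleton_self (g.1 e))
      exact Zs_smul_eq_Tz h hef (by rintro rfl; exact g.1.map_ne_zero_iff.2 hef.ne_zero (by rw [← ha, zero_smul]))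
        ha.symm hω
  have h7 := index_iso h (by omega) hef.ne_zero hef.left
  have h8 : (MulAction.stabilizer (SUG B) (Submodule.span F {e})).index = (q ^ 2 + 1) * (q ^ 3 + 1) := by
    have h8 : 1 < q ^ 2 := Nat.one_lt_pow two_ne_zero hq
    refine Nat.eq_of_mul_eq_mul_left (Nat.sub_pos_of_lt h8) (h7.trans ?_)
    zify [h8.le]
    rw [hr, isoCount_int (by omega) 3]; ring
  have h9 := h1 e f hef
  rw [le_antisymm (h2 e f hef) h5] at h6 h9
  have h10 : H.index = q * (q ^ 3 + q ^ 2 + 1) := by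
    change H.index < _ at hN
    exact le_antisymm (by nlinarith) (by nlinarith)
  rw [h10, h8, Nat.mul_dvd_mul_iff_left (by omega)] at h6
  obtain ⟨s, rfl⟩ := Nat.exists_eq_add_of_le' (show 1 ≤ q by omega)
  have h11 := (Nat.dvd_add_right h6).1 (Dvd.intro_left ((s + 1) ^ 2 + 1) (show _ = _ + ((s + 1) ^ 4 + (s + 1) ^ 2) by ring))
  have h12 := Nat.le_of_dvd (by positivity) ((Nat.dvd_add_right h11).1
    (Dvd.intro_left (s + 1) (show _ = _ + ((s + 1) ^ 2 * s + (s + 1)) by ring)))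
  nlinarith [Nat.zero_le (s ^ 2), Nat.zero_le (s ^ 3)]

end CL.MinU
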