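/-
The Mathieu groups as input for the generated libraries.
-/
import Cfsg.Agent.Known.PcM24
import Cfsg.Agent.Known.PcGen

set_option autoImplicit false

namespace CL.Pc
open Cfsg CL.Spor

theorem mask_lt {m c : ℕ} (hm : m < 2 ^ 64) (hc : m.testBit c = true) : c < 64 := by
  by_contra hh
  rw [Nat.testBit_lt_two_pow (hm.trans_le (Nat.pow_le_pow_right (by norm_num) (by omega)))] at hc
  exact absurd hc (by simp)

/-- A test for the letters of a mask. -/
noncomputable def allM (m : ℕ) (f : ℕ → Bool) : Bool := decide (m < 2 ^ 64) && allBelow (fun c => !m.testBit c || f c) 64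

theorem allM_spec {m : ℕ} {f : ℕ → Bool} (h : allM m f = true) {c : ℕ} (hc : m.testBit c = true) : f c = true := by
  simp only [allM, Bool.and_eq_true, decide_eq_true_eq, allBelow_iff, Bool.or_eq_true, Bool.not_eq_true'] at h
  exact (h.2 c (mask_lt h.1 hc)).resolve_left (by simp [hc])

/-- The packed form of a table on 24 points. -/
noncomputable def pack24 (T : ℕ → ℕ) : ℕ :=
  Nat.rec (motive := fun _ => ℕ) 0 (fun i r => Nat.add r (Nat.shiftLeft (T i) (Nat.mul 5 i))) 24

theorem m24_input {H : Subgroup (Equiv.Perm GolayPt)} (test : ℕ → Bool)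
    (ht : ∀ P (g : M24), CL.Spor.Rep P g → test P = true → (g : Equiv.Perm GolayPt) ∈ H) {A : ℕ → ℕ → ℕ} {m n : ℕ}
    (hn : Nat.card H = n) (h : allM m (fun c => force (pack24 (A c)) fun P =>
      inM24 P && test P && allBelow (fun i => Nat.beq (A c i) (pf P i)) 24) = true) : Input H gPt 24 A m n := by
  refine ⟨inferInstance, gPt_inj, fun c hc => ?_, hn.le⟩
  have := allM_spec h hc
  simp only [force_eq, Bool.and_eq_true, allBelow_iff] at this
  obtain ⟨g, hg⟩ := exists_rep_of_inM24 this.1.1
  exact ⟨⟨g, ht _ g hg this.1.2⟩, fun i hi => by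
    rw [Nat.eq_of_beq_eq_true (this.2 i hi)]; exact ⟨hg.pf_lt hi, hg.smul_gPt hi⟩⟩

end CL.Pc
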