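/-
The Schur multiplier of the orthogonal groups of minus type.
-/
import Cfsg.Agent.Known.PqOrth
import Cfsg.Agent.Known.PqInd
import Cfsg.Agent.Known.StbSpin
import Cfsg.Agent.Cls.OrthNeg
import Cfsg.Agent.Cls.OrthPlane

set_option autoImplicit false

universe u

namespace CL.Pq

open Cfsg CL.TwS CL.Uni CL.Chev.SL2 CL.Schur
open scoped commutatorElement

theorem hasSM_of_bound {G Γ : Type u} [Group G] [Group Γ] [Finite G] {ρ : Γ →* G} (hρ : IsStemExtension ρ)
    (hG : Group.IsPerfect G) (hb : ∀ (Δ : Type u) [Group Δ] [Finite Δ] (τ : Δ →* G), IsStemExtension τ →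
      Nat.card τ.ker ≤ Nat.card ρ.ker) (hc : IsCyclic ((Subgroup.center G).comap ρ)) :
    HasCyclicSchurMultiplier (G ⧸ Subgroup.center G) (Nat.card ρ.ker * Nat.card (Subgroup.center G)) := by
  have := finite_of_stem hρ
  have hΓ := perfect_of_stem hρ hG
  have h1 : HasCyclicSchurMultiplier Γ 1 := trivial_of_forall_stem fun Δ _ _ τ hτ => by
    have h2 := perfect_of_stem hτ hΓ
    have h3 := isStem_of_perfect h2 (σ := ρ.comp τ) (hρ.1.comp hτ.1) (comp_ker_le_center h2 hτ.2.1 hρ.2.1)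
    have h4 := hb Δ _ h3
    have h5 := card_eq_card_ker_mul h3.1
    rw [card_eq_card_ker_mul hτ.1, card_eq_card_ker_mul hρ.1, ← mul_assoc, mul_left_inj' Nat.card_pos.ne'] at h5
    rw [← h5] at h4
    exact Subgroup.card_le_one_iff_eq_bot _ |>.1 (Nat.le_of_mul_le_mul_right (h4.trans (one_mul _).ge) Nat.card_pos)
  let σ := (QuotientGroup.mk' (Subgroup.center G)).comp ρ
  have h2 : σ.ker = (Subgroup.center G).comap ρ := by rw [← MonoidHom.comap_ker, QuotientGroup.ker_mk']
  have h3 : σ.ker = Subgroup.center Γ := le_antisymm (comp_ker_le_center hΓ hρ.2.1 (QuotientGroup.ker_mk' _).le)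
    fun z hz => h2.ge (Subgroup.mem_center_iff.2 fun g => by
      obtain ⟨y, rfl⟩ := hρ.1 g
      rw [← map_mul, ← map_mul, Subgroup.mem_center_iff.1 hz y])
  have h4 : Function.Surjective σ := (QuotientGroup.mk'_surjective _).comp hρ.1
  refine HasSM.congr_left (CL.Chev.hasSM_quotient_of_trivial h1 hΓ (h3 ▸ h2 ▸ hc) ?_)
    ((QuotientGroup.quotientMulEquivOfEq h3.symm).trans (QuotientGroup.quotientKerEquivOfSurjective σ h4))
  have h5 := card_eq_card_ker_mul h4
  rw [card_eq_card_ker_mul hρ.1, (Subgroup.center G).card_eq_card_quotient_mul_card_subgroup, mul_comm (Nat.card (_ ⧸ _)),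
    ← mul_assoc, mul_left_inj' Nat.card_pos.ne'] at h5
  rw [← h3, h5]

namespace Sp

variable {K V G L : Type*} [Field K] [AddCommGroup V] [Module K V] [Group G] (S : Sp (RingHom.id K) V G) [Field L]
  [Algebra K L] (c : L →+* L) (N : L → K) (ι : L →ₗ[K] V)

/-- The anisotropic part is a quadratic extension with its norm form. -/
structure Mi : Prop where
  uniq : ∀ {v c d}, S.adm v c → S.adm v d → c = d
  tot : ∀ v, ∃ c, S.adm v c
  cc : ∀ z, c (c z) = z
  ne : ∃ z, c z ≠ z
  hN : ∀ z, algebraMap K L (N z) = z * c z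
  hB : ∀ z w, algebraMap K L (S.B (ι z) (ι w)) = z * c w + c z * w
  adm : ∀ z, S.adm (ι z) (N z)
  mem : ∀ z, ι z ∈ S.W S.m
  surj : ∀ a ∈ S.W S.m, ∃ z, ι z = a
  inj : Function.Injective ι

variable {S c N ι}

namespace Mi

variable (M : S.Mi c N ι) {j : ℕ}
include M

theorem exists_rel (hj : j < S.m) : ∃ x y : L → G, Rel x y ∧ (∀ t, S.Ei (S.e j) (ι t) (N t) (x t)) ∧
    (∀ t, S.Ei (S.f j) (ι (-c t)) (N t) (y t)) ∧ (∀ t ≠ 0, S.Sw j (nn x y t)) ∧
    ∀ t ≠ 0, S.ρ (hh x y t) (S.e j) = N t • S.e j ∧ S.ρ (hh x y t) (S.f j) = (N t)⁻¹ • S.f j ∧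
      ∀ z, S.ρ (hh x y t) (ι z) = ι (t * z / c t) := by
  have inj := (algebraMap K L).injective
  have he : ∀ z, S.B (S.e j) (ι z) = 0 := fun z => (M.mem z j hj).1
  have hf : ∀ z, S.B (S.f j) (ι z) = 0 := fun z => (M.mem z j hj).2
  have he' := fun z => S.flip (he z)
  have hf' := fun z => S.flip (hf z)
  have hN : ∀ t, N (-c t) = N t := fun t => inj (by simp [M.hN, M.cc, mul_comm])
  choose x hx using fun t => S.ex (S.adm_e j) (he t) (M.adm t)
  choose y hy using fun t => S.ex (S.adm_f j) (hf (-c t)) (hN t ▸ M.adm (-c t))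
  have hc : ∀ {t}, t ≠ 0 → c t ≠ 0 := (map_ne_zero c).2
  have h0 : ∀ {t}, t ≠ 0 → N t ≠ 0 := fun {t} ht e => by simpa [e, ht] using M.hN t
  have n1 : ∀ t ≠ 0, S.ρ (nn x y t) (S.e j) = -(N t)⁻¹ • S.f j := fun t ht => by
    have a1 : N (-t⁻¹) = (N t)⁻¹ := inj (by simp [M.hN, mul_comm])
    have a2 : S.B (ι t) (ι (c t)⁻¹) = 2 := inj (by simp [M.hB, M.cc, ht, map_ofNat, one_add_one_eq_two])
    have a3 : ι (c t)⁻¹ = (N t)⁻¹ • ι t := by
      rw [← map_smul, Algebra.smul_def, map_inv₀ (algebraMap K L), M.hN]; congr 1; field_simp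
    simp only [nn, mul_app, hx t (S.e j), hy _ (S.e j), S.ee, he', S.fe hj, a1, map_neg, map_inv₀, neg_neg, map_sub, map_add,
      map_smul, hx t (S.f j), hx t (ι _), he, hf', S.ef hj, a2]
    rw [a3]
    match_scalars <;> field_simp [h0 ht] <;> ring
  have n2 : ∀ t ≠ 0, ∀ z, S.ρ (nn x y t) (ι z) = ι (-(t * c z / c t)) := fun t ht z => by
    have a1 : N (-t⁻¹) = (N t)⁻¹ := inj (by simp [M.hN, mul_comm])
    have a2 : S.B (ι (c t)⁻¹) (ι z) = S.B (ι t) (ι z) * (N t)⁻¹ := inj (by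
      simp only [M.hB, map_mul, map_inv₀, M.hN, M.cc]; field_simp [hc ht])
    have a3 : ι (-(t * c z / c t)) = ι z - S.B (ι t) (ι z) • ι (c t)⁻¹ := by
      rw [← map_smul, Algebra.smul_def, M.hB, ← map_sub]; congr 1; field_simp [hc ht]; ring
    have a4 : S.B (ι t) (ι (c t)⁻¹) = 2 := inj (by simp [M.hB, M.cc, ht, map_ofNat, one_add_one_eq_two])
    simp only [nn, mul_app, hx t (S.e j), hy _ (S.e j), S.ee, he', S.fe hj, a1, map_neg, map_inv₀, neg_neg, map_sub, map_add,
      map_smul, hx t (S.f j), hx t (ι _), hy _ (ι _), he, hf, hf', S.ef hj, a2, a3, a4]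
    module
  have n3 : ∀ t ≠ 0, S.ρ (nn x y t) (S.f j) = -N t • S.e j := fun t ht => by
    have a1 : N (-t⁻¹) = (N t)⁻¹ := inj (by simp [M.hN, mul_comm])
    have a2 : S.B (ι (c t)⁻¹) (ι t) = 2 := inj (by simp [M.hB, M.cc, ht, map_ofNat, one_add_one_eq_two])
    have a3 : ι (c t)⁻¹ = (N t)⁻¹ • ι t := by
      rw [← map_smul, Algebra.smul_def, map_inv₀ (algebraMap K L), M.hN]; congr 1; field_simp
    have a4 : S.B (ι t) (ι t) = 2 * N t := inj (by simp [M.hB, M.hN, map_ofNat]; ring)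
    simp only [nn, mul_app, hx t (S.e j), hy _ (S.e j), S.ee, S.ff, he', S.fe hj, a1, map_neg, map_inv₀, neg_neg, map_sub,
      map_add, map_smul, hx t (S.f j), hy _ (S.f j), hx t (ι _), hy _ (ι _), he, hf, hf', S.ef hj, a2]
    simp only [a3, map_smul, a4, LinearMap.smul_apply, smul_eq_mul, he', mul_zero, add_zero, zero_add]
    have h2 := h0 ht
    match_scalars <;> field_simp <;> ring
  have h1 : N (-1) = 1 := inj (by simp [M.hN])
  refine ⟨x, y, ⟨fun s t => ?_, fun s t => ?_, fun t ht u => ?_⟩, hx, hy, fun t ht => ⟨⟨_, by simpa using h0 ht, n1 t ht⟩,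
    ⟨_, by simpa using h0 ht, n3 t ht⟩, fun l hl e => ?_⟩, fun t ht => ?_⟩
  · have := Ei.mul (hx s) (hx t) (S.ee _ _) (he s) (he t)
    rw [← map_add] at this
    exact Ei.unique (M.uniq (M.adm _) (map_add ι s t ▸ S.adm_add (M.adm s) (M.adm t)) ▸ hx _) this
  · have := Ei.mul (hy s) (hy t) (S.ff _ _) (hf _) (hf _)
    rw [← map_add, ← neg_add, ← map_add] at this
    have h2 := S.adm_add (M.adm (-c s)) (M.adm (-c t))
    rw [← map_add, ← neg_add, ← map_add, hN, hN] at h2
    exact Ei.unique (hy _) (M.uniq h2 (hN _ ▸ M.adm (-c (s + t))) ▸ this)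
  · have := Ei.conj (hx u) (nn x y t)
    rw [n1 t ht, n2 t ht, ei_smul] at this
    refine this.unique ?_
    have h2 : S.Ei _ _ _ _ := hy (-(t⁻¹ ^ 2 * u))
    convert h2 using 1
    · rw [← map_smul, Algebra.smul_def]; congr 1
      simp only [RingHom.id_apply, map_neg, map_inv₀, M.hN, map_mul, map_pow]; field_simp
    · exact inj (by simp only [RingHom.id_apply, map_neg, map_inv₀, M.hN, map_mul, map_pow]; field_simp)
  · have a1 := fun z => S.flip (M.mem z l hl).1
    have a2 := fun z => S.flip (M.mem z l hl).2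
    simp only [nn, mul_app, Ei.fix (hx _) (S.ee _ _) (a1 _), Ei.fix (hx _) (S.ef_ne e.symm) (a2 _),
      Ei.fix (hy _) (S.fe_ne e.symm) (a1 _), Ei.fix (hy _) (S.ff _ _) (a2 _), and_self]
  · simp only [hh, mul_app, n1 _ ht, n2 _ ht, n3 _ ht, n1 (-1), n2 (-1), n3 (-1), h1, ne_eq, neg_eq_zero, one_ne_zero,
      not_false_eq_true, map_smul, smul_smul]
    simp [M.cc, neg_div, div_neg]

theorem card_ker_le [Finite G] [Finite K] [Finite L] {E : Type*} [Group E] [Finite E] {π : E →* G}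
    (hπ : IsStemExtension π) {p : ℕ} (hp : p.Prime) (hp' : (p : K) = 0) (h3 : 3 ≤ S.m) (hQ : S.Q 0 ⊔ S.Q' 0 = ⊤) {r : ℕ}
    (hr : ¬ p ∣ r) (h : Nat.card G ∣ (∏ k ∈ Finset.range S.m, Nat.card (S.Q k)) * r) :
    Nat.card π.ker ≤ Nat.card {t : L // t ^ 2 = 1} := by
  have inj := (algebraMap K L).injective
  obtain ⟨j, hj⟩ : ∃ j, j + 1 = S.m := ⟨S.m - 1, by omega⟩
  have hj' : j < S.m := by omega
  obtain ⟨x, y, R, hx, hy, h1, h2⟩ := M.exists_rel hj'
  obtain ⟨w, hw⟩ := M.ne
  have hw' := sub_ne_zero.2 hw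
  have hw'' := sub_ne_zero.2 hw.symm
  obtain ⟨s, h4, h5⟩ : ∃ s, c s ≠ s ∧ c s ≠ -s := by
    by_cases e : c w = -w
    · refine ⟨w + 1, by simpa using hw, fun e' => hw ?_⟩
      rw [map_add, map_one, e] at e'
      linear_combination e - w * e'
    · exact ⟨w, hw, e⟩
  have h6 : s ≠ 0 := by rintro rfl; simp at h4
  have h7 := (map_ne_zero c).2 h6
  have h8 : s / c s ≠ 0 := div_ne_zero h6 h7
  have h9 : N (s / c s) = 1 := inj (by simp only [M.hN, map_div₀, M.cc, map_one]; field_simp)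
  obtain ⟨g, hg⟩ := hπ.1 (hh x y (s / c s))
  obtain ⟨a1, a2, a3⟩ := h2 _ h8
  have a4 : s / c s / c (s / c s) - 1 ≠ 0 := fun e => by
    rw [map_div₀, M.cc] at e
    field_simp at e
    rcases sq_eq_sq_iff_eq_or_eq_neg.1 (show c s ^ 2 = s ^ 2 by linear_combination -e) with e | e
    exacts [h4 e, h5 e]
  have a5 : ∀ z, S.ρ (π g) (ι z) - ι z = ι ((s / c s / c (s / c s) - 1) * z) := fun z => by
    rw [hg, a3, ← map_sub]; congr 1; ring
  have O : S.Or π g (ι 1) (ι w) (ι (w / (w - c w))) (ι (-(w - c w)⁻¹)) := by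
    refine ⟨hπ.1, hπ.2.1, M.uniq, M.tot, mem_Fix.2 fun l hl => ?_, fun a ha => ?_, fun a ha e => ?_, fun a ha => ?_, M.mem _,
      M.mem _, M.mem _, M.mem _, inj ?_, inj ?_, inj ?_, inj ?_, h3⟩
    · by_cases e : l = j
      · simp [e, hg, a1, a2, h9]
      · simp [hg, hh, mul_app, (h1 _ h8).2.2 l hl e, (h1 (-1) (by simp)).2.2 l hl e]
    · obtain ⟨z, rfl⟩ := M.surj a ha
      rw [hg, a3]; exact M.mem _
    · obtain ⟨z, rfl⟩ := M.surj a ha
      have := a5 z
      rw [e, sub_self, eq_comm, map_eq_zero_iff _ M.inj, mul_eq_zero_iff_left a4] at this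
      rw [this, map_zero]
    · obtain ⟨z, rfl⟩ := M.surj a ha
      exact ⟨_, M.mem _, by rw [a5, mul_inv_cancel_left₀ a4]⟩
    all_goals simp only [M.hB, map_one, map_zero, map_div₀, map_sub, map_neg, map_inv₀, M.cc]; field_simp; ring
  choose! L hL using fun k (hk : k < S.m) => O.exists_kAt_Q hk
  have C := cop_of_kAt hπ hp (fun k hk => (hL k hk).1) (fun k hk => (hL k hk).2) hr h
  obtain ⟨T, w, D, hT⟩ := exists_dec_of_rel C hp' hj R
    (fun g => ⟨fun ⟨v, hv, _, d, b1, b2⟩ => by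
      obtain ⟨z, rfl⟩ := M.surj v (hj ▸ hv)
      exact ⟨z, Ei.unique (hx z) (M.uniq b1 (M.adm z) ▸ b2)⟩, by
      rintro ⟨t, rfl⟩; exact ⟨_, hj ▸ M.mem t, (M.mem t j hj').1, _, M.adm t, hx t⟩⟩)
    (fun g => ⟨fun ⟨v, hv, _, d, b1, b2⟩ => by
      obtain ⟨z, rfl⟩ := M.surj v (hj ▸ hv)
      have b3 := hy (-c z)
      rw [map_neg c, M.cc, neg_neg, inj (a₁ := N (-c z)) (a₂ := N z) (by simp [M.hN, M.cc, mul_comm])] at b3
      exact ⟨_, Ei.unique b3 (M.uniq b1 (M.adm z) ▸ b2)⟩, by
      rintro ⟨t, rfl⟩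
      exact ⟨_, hj ▸ M.mem _, (M.mem _ j hj').2, _, inj (a₁ := N (-c t)) (a₂ := N t) (by simp [M.hN, M.cc, mul_comm]) ▸
        M.adm _, hy t⟩⟩) h1
  rw [inf_eq_right.2 (D.ker_le C hp' hj (EE_eq_top C hp' hπ.2.2 (by omega) hQ))] at hT
  refine hT.trans (Nat.card_le_card_of_injective (fun t => ⟨t.1, ?_⟩) fun a b e => Subtype.ext (congrArg (·.1) e))
  obtain ⟨t, ht, e⟩ := t
  obtain ⟨b1, -, b2⟩ := h2 t ht
  have b3 := congrArg (S.B (S.f j)) b1
  have b4 := M.hN t
  have b5 := b2 1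
  simp only [e, map_one, LinearEquiv.coe_one, id, S.fe hj', map_smul, smul_eq_mul, mul_one] at b3 b5
  rw [M.inj.eq_iff, eq_div_iff ((map_ne_zero c).2 ht), one_mul] at b5
  rw [← b3, map_one, b5] at b4
  exact (sq t).trans b4.symm

end Mi

end Sp

section Spin

open CL.Cls CL.Chev QuadraticMap Module CliffordAlgebra

variable {F V : Type u} [Field F] [AddCommGroup V] [Module F V] {Q : QuadraticForm F V}

variable (Q) in
/-- The spin group. -/
def Spin : Subgroup (SpG Q) where
  carrier := {g | involute g.1.1.val = g.1.1.val ∧ reverse g.1.1.val * g.1.1.val = 1 ∧ g.1.2 ∈ commutator (OG Q)}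
  one_mem' := ⟨map_one _, by simp, one_mem _⟩
  mul_mem' {a b} ha hb := ⟨by simp [ha.1, hb.1], by
    simp only [Subgroup.coe_mul, Prod.fst_mul, Units.val_mul, reverse.map_mul]
    rw [mul_assoc, ← mul_assoc (reverse a.1.1.val), ha.2.1, one_mul, hb.2.1], mul_mem ha.2.2 hb.2.2⟩
  inv_mem' {a} ha := ⟨(Units.inv_eq_of_mul_eq_one_right (by rw [← ha.1, ← map_mul]; simp)).symm, by
    have := Units.inv_eq_of_mul_eq_one_left ha.2.1
    simp only [Subgroup.coe_inv, Prod.fst_inv]
    rw [this, reverse_reverse, ← this, Units.mul_inv], inv_mem ha.2.2⟩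

/-- The covering map of the spin group. -/
def spinMap (Q : QuadraticForm F V) : Spin Q →* commutator (OG Q) :=
  ((MonoidHom.snd _ _).comp ((SpG Q).subtype.comp (Spin Q).subtype)).codRestrict _ fun g => g.2.2.2

theorem prod_sq (l : List V) (h : l.Pairwise fun u v => polar Q u v = 0) (hl : ∀ v ∈ l, Q v ≠ 0) :
    (l.map (ι Q)).prod * (l.map (ι Q)).prod = algebraMap F _ ((-1) ^ l.length.choose 2 * (l.map Q).prod) := by
  induction l with
  | nil => simp
  | cons v l ih =>
    rw [List.pairwise_cons] at h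
    have h1 := cliff_prod_conj l (fun u hu => hl u (by simp [hu])) v
    rw [prod_refl_app_of_polar l fun u hu => (polar_comm _ _ _).trans (h.1 u hu), involute_prod_map_ι] at h1
    simp only [List.map_cons, List.prod_cons, List.length_cons, Nat.choose_succ_succ, Nat.choose_one_right]
    nth_rw 1 [h1]
    rw [mul_assoc, ← mul_assoc (ι Q v), ι_sq_scalar, ← Algebra.smul_def, mul_smul_comm, smul_mul_assoc,
      ih h.2 fun u hu => hl u (by simp [hu]), smul_smul, Algebra.smul_def, ← map_mul]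
    congr 1; ring

variable [Finite F] [FiniteDimensional F V] (hQ : (polarBilin Q).Nondegenerate) (h2 : (2 : F) ≠ 0)
include hQ h2

theorem exists_spin (l : List V) (hl : ∀ v ∈ l, Q v ≠ 0) (he : Even l.length) {s : F} (hs : s * s * (l.map Q).prod = 1) :
    ∃ g : Spin Q, g.1.1.1.val = s • (l.map (ι Q)).prod ∧ g.1.1.2 = (l.map (refl Q)).prod := by
  have h1 : reverse (s • (l.map (ι Q)).prod) * s • (l.map (ι Q)).prod = 1 := by
    rw [map_smul, smul_mul_smul_comm, cliff_reverse_mul, Algebra.smul_def, ← map_mul, hs, map_one]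
  have h3 : s • (l.map (ι Q)).prod * reverse (s • (l.map (ι Q)).prod) = 1 := by
    have := cliff_reverse_mul (Q := Q) l.reverse
    rw [List.map_reverse, List.map_reverse, ← reverse_prod_map_ι, reverse_reverse, List.prod_reverse] at this
    rw [map_smul, smul_mul_smul_comm, this, Algebra.smul_def, ← map_mul, hs, map_one]
  have h4 : involute (l.map (ι Q)).prod = (l.map (ι Q)).prod := by rw [involute_prod_map_ι, he.neg_one_pow, one_smul]
  exact ⟨⟨⟨(⟨_, _, h3, h1⟩, (l.map (refl Q)).prod), fun v => by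
    rw [smul_mul_assoc, mul_smul_comm, cliff_prod_conj l hl, h4]⟩, by simp [h4], h1,
    (prod_refl_mem_commutator_iff hQ (.inl (exists_ne_zero_ne_one_of_two_ne_zero h2)) l hl).2
      ⟨he, s⁻¹, by rw [← mul_inv, eq_inv_of_mul_eq_one_right hs]⟩⟩, rfl, rfl⟩

theorem hasSM_spin (h5 : 5 ≤ finrank F V) {u v w : V} (hu : Q u = 1) (hv : Q v = 1) (hw : Q w = 1) (h1 : polar Q u v = 0)
    (h3 : polar Q u w = 0) (h4 : polar Q v w = 0) (h6 : negOG Q ∈ commutator (OG Q) → Odd ((finrank F V).choose 2))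
    (hb : ∀ (Δ : Type u) [Group Δ] [Finite Δ] (τ : Δ →* commutator (OG Q)), IsStemExtension τ → Nat.card τ.ker ≤ 2) :
    HasCyclicSchurMultiplier (commutator (OG Q) ⧸ Subgroup.center (commutator (OG Q)))
      (2 * Nat.card (Subgroup.center (commutator (OG Q)))) := by
  have := invertibleOfNonzero h2
  have hF := Or.inl (b := finrank F V ≠ 4) (exists_ne_zero_ne_one_of_two_ne_zero h2)
  have : Finite V := Module.finite_of_finite F
  have : Finite (V ≃ₗ[F] V) := DFunLike.finite _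
  have ext : ∀ {a b : Spin Q}, a.1.1.1.val = b.1.1.1.val → a.1.1.2 = b.1.1.2 → a = b := fun h h' =>
    Subtype.ext (SpG.ext' h h')
  obtain ⟨z, z1, z2⟩ := exists_spin hQ h2 [] (by simp) (by simp) (s := -1) (by simp)
  simp only [List.map_nil, List.prod_nil, neg_smul, one_smul] at z1 z2
  have hz : z ≠ 1 := fun e => h2 ((algebraMap F (CliffordAlgebra Q)).injective (by
    rw [e] at z1
    rw [map_ofNat, map_zero, ← one_add_one_eq_two]; exact eq_neg_iff_add_eq_zero.1 z1))
  have hk : ∀ g ∈ (spinMap Q).ker, g = 1 ∨ g = z := fun g hg => by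
    have e : g.1.1.2 = 1 := congrArg Subtype.val hg
    obtain ⟨c, hc⟩ := cliff_scalar_of_twisted_comm hQ (x := g.1.1.1.val) fun w => by rw [g.2.1, g.1.2 w, e]; rfl
    have h7 := g.2.2.1
    rw [hc, reverse.commutes, ← map_mul, ← map_one (algebraMap F _), (algebraMap F _).injective.eq_iff,
      mul_self_eq_one_iff] at h7
    exact h7.imp (fun h => ext (by simp [hc, h]) e) fun h => ext (by simp [hc, h, z1]) (e.trans z2.symm)
  have hρ : IsStemExtension (spinMap Q) := by
    refine ⟨fun g => ?_, fun g hg => ?_, fun g hg => ?_⟩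
    · obtain ⟨l, hl, e⟩ := exists_list_refl hQ hF g.1
      obtain ⟨h7, s, h8⟩ := (prod_refl_mem_commutator_iff hQ hF l hl).1 (e ▸ g.2)
      have h9 : s ≠ 0 := fun e => List.prod_ne_zero (l := l.map Q) (by simpa using hl) (by rw [h8, e, mul_zero])
      obtain ⟨x, -, h⟩ := exists_spin hQ h2 l hl h7 (s := s⁻¹) (by rw [h8]; field_simp)
      exact ⟨x, Subtype.ext (h.trans e)⟩
    · rcases hk g hg with rfl | rfl
      exacts [one_mem _, Subgroup.mem_center_iff.2 fun x => ext (by simp [z1]) (by simp [z2])]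
    rcases hk g hg with rfl | rfl
    · exact one_mem _
    obtain ⟨x, x1, x2⟩ := exists_spin hQ h2 [u, v] (by simp [hu, hv]) (by simp) (s := 1) (by simp [hu, hv])
    obtain ⟨y, y1, y2⟩ := exists_spin hQ h2 [v, w] (by simp [hw, hv]) (by simp) (s := 1) (by simp [hw, hv])
    have a : ∀ {u v}, polar Q u v = 0 → ∀ c, ι Q v * (ι Q u * c) = -(ι Q u * (ι Q v * c)) := fun {u v} h c => by
      rw [← mul_assoc, ι_mul_ι' v u, polar_comm, h]; simp [mul_assoc]
    have a' : ∀ {u v}, polar Q u v = 0 → refl Q v * refl Q u = refl Q u * refl Q v := fun {u v} h => by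
      rw [← mul_inv_eq_iff_eq_mul, refl_conj, refl_app_of_polar ((polar_comm _ _ _).trans h)]
    rw [show g = ⁅x, y⁆ from eq_mul_inv_of_mul_eq (eq_mul_inv_of_mul_eq (ext ?_ ?_))]
    · exact Subgroup.commutator_mem_commutator trivial trivial
    · have a1 := a h4 1
      simp only [mul_one] at a1
      simp [x1, y1, z1, mul_assoc, a h3, a h1, a1]
    · simp only [Subgroup.coe_mul, Prod.snd_mul, x2, y2, z2, List.map_cons, List.prod_cons, List.map_nil, List.prod_nil,
        mul_one, one_mul, mul_assoc]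
      rw [← mul_assoc (refl Q w), a' h3, mul_assoc, a' h4, ← mul_assoc, a' h1, mul_assoc]
  have := finite_of_stem hρ
  have h7 : Nat.card (spinMap Q).ker = 2 := (hb _ _ hρ).antisymm (Finite.one_lt_card_iff_nontrivial.2
    ⟨⟨⟨z, Subtype.ext z2⟩, 1, fun e => hz (congrArg Subtype.val e)⟩⟩)
  refine h7 ▸ hasSM_of_bound hρ (isPerfect_commutator_OG hQ h5) (h7 ▸ hb) ?_
  by_cases h8 : negOG Q ∈ commutator (OG Q)
  · obtain ⟨b, b1, b2⟩ := exists_orth_basis hQ h2
    have hl : ∀ v ∈ List.ofFn b, Q v ≠ 0 := fun w hw => by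
      obtain ⟨j, rfl⟩ := List.mem_ofFn.1 hw
      exact b2 j
    have e := negOG_eq_prod_refl b b1 b2
    obtain ⟨a1, s, a2⟩ := (prod_refl_mem_commutator_iff hQ hF _ hl).1 (e ▸ h8)
    have a3 : s ≠ 0 := fun e => List.prod_ne_zero (l := (List.ofFn b).map Q) (by simpa using b2) (by rw [a2, e, mul_zero])
    obtain ⟨x, x1, x2⟩ := exists_spin hQ h2 _ hl a1 (s := s⁻¹) (by rw [a2]; field_simp)
    have a4 : x * x = z := ext (by
      simp only [Subgroup.coe_mul, Prod.fst_mul, Units.val_mul, x1, z1, smul_mul_smul_comm]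
      rw [prod_sq _ (List.pairwise_ofFn.2 fun i j hij => b1 i j hij.ne) hl, List.length_ofFn, (h6 h8).neg_one_pow, a2,
        Algebra.smul_def, ← map_mul, show s⁻¹ * s⁻¹ * (-1 * (s * s)) = -1 by field_simp, map_neg, map_one])
      (by simp only [Subgroup.coe_mul, Prod.snd_mul, x2, z2, e, negOG_mul_self])
    have a5 : ∀ g ∈ (spinMap Q).ker, g ∈ Subgroup.zpowers x := fun g hg => by
      rcases hk g hg with rfl | rfl
      exacts [one_mem _, a4 ▸ mul_mem (Subgroup.mem_zpowers x) (Subgroup.mem_zpowers x)]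
    refine (Subgroup.isCyclic_iff_exists_zpowers_eq_top _).2 ⟨x, le_antisymm ((Subgroup.zpowers_le_of_mem
      ((mem_center_commutator_iff hQ h5 _).2 (.inr (x2.trans e))))) fun g hg => ?_⟩
    rcases (mem_center_commutator_iff hQ h5 _).1 hg with h | h
    · exact a5 g (Subtype.ext h)
    · simpa using mul_mem (a5 (g * x⁻¹) (by
        rw [MonoidHom.mem_ker, map_mul, map_inv, mul_inv_eq_one]; exact Subtype.ext (h.trans (x2.trans e).symm)))
        (Subgroup.mem_zpowers x)
  · rw [center_commutator_eq_bot hQ h5 (.inr h8), MonoidHom.comap_bot]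
    exact isCyclic_of_prime_card h7

end Spin

section Inst

open CL.Cls CL.Chev QuadraticMap Module CliffordAlgebra

variable {F : Type u} [Field F] [Fintype F] {m : ℕ} {a b : F}

/-- The standard frame. -/
def fr (F : Type u) [Field F] (m : ℕ) (s : Fin m → Fin m ⊕ Fin m) (i : ℕ) : (Fin m ⊕ Fin m) ⊕ Fin 2 → F :=
  if h : i < m then Pi.single (.inl (s ⟨i, h⟩)) 1 else 0

omit [Fintype F] in
theorem polar_fr_inl {i : ℕ} (v : (Fin m ⊕ Fin m) ⊕ Fin 2 → F) :
    polar (qfMinus m F a b) (fr F m .inl i) v = if h : i < m then v (.inl (.inr ⟨i, h⟩)) else 0 := by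
  unfold fr; split_ifs <;> simp [polar_qfMinus, Pi.single_apply]

omit [Fintype F] in
theorem polar_fr_inr {i : ℕ} (v : (Fin m ⊕ Fin m) ⊕ Fin 2 → F) :
    polar (qfMinus m F a b) (fr F m .inr i) v = if h : i < m then v (.inl (.inl ⟨i, h⟩)) else 0 := by
  unfold fr; split_ifs <;> simp [polar_qfMinus, Pi.single_apply]

variable (hab : ∀ z₁ z₂ : F, z₁ ^ 2 + a * z₁ * z₂ + b * z₂ ^ 2 = 0 → z₁ = 0 ∧ z₂ = 0) (hm : 3 ≤ m)

omit [Fintype F] in
include hm in
theorem five_le : 5 ≤ finrank F ((Fin m ⊕ Fin m) ⊕ Fin 2 → F) := by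
  simp only [finrank_fintype_fun_eq_card, Fintype.card_sum, Fintype.card_fin]; omega

/-- The orthogonal group of minus type as a group of isometries. -/
noncomputable def spO : Sp (RingHom.id F) ((Fin m ⊕ Fin m) ⊕ Fin 2 → F) (commutator (OG (qfMinus m F a b))) where
  B := polarBilin (qfMinus m F a b)
  adm v c := qfMinus m F a b v = c
  ρ := (OG _).subtype.comp (commutator _).subtype
  inj := (OG _).subtype_injective.comp (commutator _).subtype_injective
  σσ _ := rfl
  symm := polar_comm _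
  adm_zero := map_zero _
  adm_add := by rintro v _ w _ rfl rfl; exact QuadraticMap.map_add _ v w
  adm_smul := by rintro v _ t rfl; rw [QuadraticMap.map_smul, smul_eq_mul, mul_comm]; rfl
  adm_σ h := h
  adm_tr := by rintro v _ rfl; simp [two_mul]
  mem_UG g := OG.polar_app g.1
  adm_map g _ _ h := (OG.map_app g.1 _).trans h
  ex := by
    rintro e v _ he hv rfl
    refine ⟨⟨eich _ e (-v), eich_mem_commutator (nondeg_qfMinus a b hab) (five_le hm) _ _⟩, fun x => ?_⟩
    refine (eich_app he (by simpa using hv) x).trans ?_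
    simp only [polar_neg_left, QuadraticMap.map_neg, polarBilin_apply_apply]; module
  m := m
  e := fr F m .inl
  f := fr F m .inr
  adm_e i := by unfold fr; split_ifs <;> simp [qfMinus_apply, Pi.single_apply]
  adm_f i := by unfold fr; split_ifs <;> simp [qfMinus_apply, Pi.single_apply]
  ee i j := by rw [polarBilin_apply_apply, polar_fr_inl]; unfold fr; split_ifs <;> simp
  ff i j := by rw [polarBilin_apply_apply, polar_fr_inr]; unfold fr; split_ifs <;> simp
  ef_ne h := by rw [polarBilin_apply_apply, polar_fr_inl]; unfold fr; split_ifs <;> simp [h]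
  ef h := by rw [polarBilin_apply_apply, polar_fr_inl]; unfold fr; simp [h]

open Classical in
include hab hm in
theorem card_ker_le_omega {E : Type*} [Group E] [Finite E] {π : E →* commutator (OG (qfMinus m F a b))}
    (hπ : IsStemExtension π) : Nat.card π.ker ≤ if (2 : F) = 0 then 1 else 2 := by
  have := fact_QAlg hab
  have := finite_QAlg a b
  have := Finite.of_surjective π hπ.1
  have hQ := nondeg_qfMinus (m := m) a b hab
  let S := spO hab hm
  let ι : QAlg F a b →ₗ[F] ((Fin m ⊕ Fin m) ⊕ Fin 2 → F) :=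
    { toFun z := Sum.elim 0 ![z.re, z.im]
      map_add' _ _ := by ext (_ | i); simp; fin_cases i <;> simp
      map_smul' _ _ := by ext (_ | i); simp; fin_cases i <;> simp }
  have M : S.Mi (starRingEnd _) QuadraticAlgebra.norm ι := by
    refine ⟨fun h h' => h.symm.trans h', fun v => ⟨_, rfl⟩, star_star, ⟨⟨0, 1⟩, fun h => ?_⟩,
      QuadraticAlgebra.algebraMap_norm_eq_mul_star, fun z w => ?_, fun z => ?_, fun z l hl => ?_, fun v hv => ⟨⟨v (.inr 0),
        v (.inr 1)⟩, ?_⟩, fun z w h => QuadraticAlgebra.ext (congrFun h (.inr 0)) (congrFun h (.inr 1))⟩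
    · have h1 := congrArg QuadraticAlgebra.re h
      have h2 := congrArg QuadraticAlgebra.im h
      simp only [starRingEnd_apply, QuadraticAlgebra.re_star, QuadraticAlgebra.im_star] at h1 h2
      exact disc_ne_zero_of_anisotropic a b hab (by linear_combination a * h1 + 2 * b * h2)
    · rw [starRingEnd_apply, starRingEnd_apply, ← polar_nrmForm', polar_nrmForm]
      simp [S, spO, polar_qfMinus, ι]
    · simp [S, spO, qfMinus_apply, ι, ← nrmForm_apply, nrmForm_apply']
    · simp [S, spO, polar_fr_inl, polar_fr_inr, ι]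
    · ext ((i | i) | i)
      · simpa [S, spO, polar_fr_inr, ι] using (hv i i.2).2.symm
      · simpa [S, spO, polar_fr_inl, ι] using (hv i i.2).1.symm
      · fin_cases i <;> rfl
  obtain ⟨p, hp⟩ := CharP.exists F
  obtain ⟨n, hp', hn⟩ := FiniteField.card F p
  have key : ∀ {e f} (he : S.adm e 0) {H : Subgroup (commutator (OG (qfMinus m F a b)))}, S.adm f 0 → S.B f e = 1 →
      (∀ v, S.B e v = 0 → S.B f v = 0 → v ∈ S.W 1) → S.Qg e he (S.W 1) ≤ H → ∀ v, eich _ e v ∈ H.map (commutator _).subtype :=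
    fun {e f} he H hf h1 h2 h3 v => by
      by_cases h : polar (qfMinus m F a b) e v = 0
      · have h4 : S.B e (-(v + -S.B f v • e)) = 0 := by simp [S.self_of_adm he, show S.B e v = 0 from h]
        refine ⟨⟨_, eich_mem_commutator hQ (five_le hm) e v⟩, h3 ⟨_, h2 _ h4 (by simp [h1]), h4, _, rfl, fun x => ?_⟩, rfl⟩
        refine (congrArg (·.1 x) (eich_add_smul he h (-S.B f v)).symm).trans ((eich_app he (neg_eq_zero.1 ((map_neg (S.B e) _).symm.trans h4)) x).trans ?_)
        simp only [S, spO, polar_neg_left, QuadraticMap.map_neg, polarBilin_apply_apply]; module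
      · rw [eich_of_not fun h' => h h'.2]; exact one_mem _
  refine (M.card_ker_le hπ hp' (CharP.cast_eq_zero F p) hm (eq_top_iff.2 fun g _ => ?_)
    (r := (Fintype.card F ^ (m + 1) + 1) * ∏ i ∈ Finset.range m, (Fintype.card F ^ (2 * (i + 1)) - 1)) ?_ ?_).trans ?_
  · obtain ⟨g', h, e⟩ := commutator_le_of_pair hQ ((five_le hm).trans' (by omega)) ⟨S.adm_e 0, S.adm_f 0, S.ef (by omega : 0 < m)⟩
      (key (S.adm_e 0) (S.adm_f 0) (S.fe (by omega : 0 < m)) (fun v h h' l hl => Nat.lt_one_iff.1 hl ▸ ⟨h, h'⟩) le_sup_left)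
      (key (S.adm_f 0) (S.adm_e 0) (S.ef (by omega : 0 < m)) (fun v h h' l hl => Nat.lt_one_iff.1 hl ▸ ⟨h', h⟩) le_sup_right) g.2
    exact Subtype.ext e ▸ h
  · have h1 : ∀ k, p ∣ Fintype.card F ^ (k + 1) := fun k => hn ▸ dvd_pow (dvd_pow_self p n.ne_zero) k.succ_ne_zero
    rw [hp'.dvd_mul, hp'.prime.dvd_finsetProd_iff, Nat.dvd_add_right (h1 m), not_or, not_exists]
    exact ⟨hp'.not_dvd_one, fun i h => hp'.not_dvd_one ((Nat.dvd_sub_iff_right (Nat.one_le_pow _ _ Fintype.card_pos)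
      (h1 (2 * i + 1))).1 h.2)⟩
  · have h1 : ∏ k ∈ Finset.range m, Nat.card (S.Q k) = Fintype.card F ^ ((m + 1) * m) := by
      rw [Finset.prod_congr rfl (g := fun k => Fintype.card F ^ (2 * (m - 1 - k + 1))) fun k hk => ?_,
        Finset.prod_range_reflect (fun k => Fintype.card F ^ (2 * (k + 1))), Finset.prod_pow_eq_pow_sum]
      · congr 1
        generalize m = k
        induction k with
        | zero => rfl
        | succ m ih => rw [Finset.sum_range_succ, ih]; ring
      have h2 := Finset.mem_range.1 hk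
      have h3 := Sp.card_W (S := S) h2
      rw [Sp.card_Q (S := S) (r := 1) h2 fun v => Nat.card_eq_one_iff_exists.2
        ⟨⟨_, rfl⟩, fun c => Subtype.ext (Eq.symm c.2)⟩, mul_one]
      simp only [Nat.card_eq_fintype_card, Fintype.card_fun, Fintype.card_sum, Fintype.card_fin] at h3 ⊢
      refine Nat.eq_of_mul_eq_mul_right (Nat.pow_pos Fintype.card_pos) (h3.trans ?_)
      rw [← pow_add]; congr 1; omega
    have h2 : 2 ∣ (commutator (OG (qfMinus m F a b))).index := by
      have := five_le (F := F) hm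
      by_cases h : (2 : F) = 0
      · rw [index_commutator_OG_even hQ h (.inr (by omega)) (by omega)]
      · rw [index_commutator_OG_odd hQ h (by omega)]; decide
    refine Nat.dvd_of_mul_dvd_mul_left two_pos ((mul_dvd_mul_right h2 _).trans ?_)
    rw [Subgroup.index_mul_card, card_OG_qfMinus m a b hab, show S.m = m from rfl, h1]
    simp only [mul_assoc, dvd_rfl]
  · split_ifs with h
    · refine Finite.card_le_one_iff_subsingleton.2 ⟨fun s t => Subtype.ext ?_⟩
      have h1 : (2 : QAlg F a b) = 0 := by rw [← map_ofNat (algebraMap F _), h, map_zero]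
      exact sub_eq_zero.1 (pow_eq_zero_iff two_ne_zero |>.1 (by linear_combination s.2 + t.2 + (1 - s * t) * h1))
    · refine (Nat.card_le_card_of_surjective (fun s : Bool => ⟨if s then 1 else -1, by split_ifs <;> simp⟩) ?_).trans (by simp)
      rintro ⟨t, ht⟩
      rcases sq_eq_one_iff.1 ht with rfl | rfl
      exacts [⟨true, rfl⟩, ⟨false, rfl⟩]

include hab hm in
theorem hasSM_pomega_minus :
    HasCyclicSchurMultiplier (POmega F (qfMinus m F a b)) (Nat.gcd 4 (Fintype.card F ^ (m + 1) + 1)) := by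
  have hQ := nondeg_qfMinus (m := m) a b hab
  have h5 := five_le (F := F) hm
  have : Finite (((Fin m ⊕ Fin m) ⊕ Fin 2 → F) ≃ₗ[F] ((Fin m ⊕ Fin m) ⊕ Fin 2 → F)) := DFunLike.finite _
  refine HasSM.congr_left ?_ (pomegaEquiv _).symm
  by_cases h2 : (2 : F) = 0
  · have he : Fintype.card F ^ (m + 1) % 2 = 0 := by rw [pow_succ, Nat.mul_mod, even_card_of_two_eq_zero h2]; simp
    have := hasSM_of_bound isStem_id (isPerfect_commutator_OG hQ h5) (fun Δ _ _ τ hτ => by
      simpa [h2] using card_ker_le_omega hab hm hτ) (by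
        rw [center_commutator_eq_bot hQ h5 (.inl h2), Subgroup.comap_id]; infer_instance)
    convert this using 1
    simp [gcd_four_of_odd (show (Fintype.card F ^ (m + 1) + 1) % 2 = 1 by omega), center_commutator_eq_bot hQ h5 (.inl h2)]
  let S := spO hab hm
  have h3 : ∀ i < m, qfMinus m F a b (S.e i + S.f i) = 1 := fun i hi => by
    exact (S.adm_add (S.adm_e i) (S.adm_f i)).trans (by simp [S.ef hi])
  have h4 : ∀ i j, i ≠ j → S.B (S.e i + S.f i) (S.e j + S.f j) = 0 := fun i j h => by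
    simp [S.ee, S.ff, S.ef_ne h, S.fe_ne h]
  have := hasSM_spin hQ h2 h5 (h3 0 (by omega)) (h3 1 (by omega)) (h3 2 (by omega)) (h4 _ _ (by simp)) (h4 _ _ (by simp))
    (h4 _ _ (by simp)) (fun h => ?_) fun Δ _ _ τ hτ => by simpa [h2] using card_ker_le_omega hab hm hτ
  · convert this using 1
    rcases pow_card_mod_four h2 (m + 1) with h | h
    · rw [center_commutator_eq_bot hQ h5 (.inr fun h => by have := (negOG_mem_commutator_qfMinus h2 _ a b hab).1 h; omega),
        Nat.gcd_rec, show (Fintype.card F ^ (m + 1) + 1) % 4 = 2 by omega]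
      simp
    · rw [card_center_commutator_of_mem hQ h5 h2 ((negOG_mem_commutator_qfMinus h2 _ a b hab).2 h)]
      exact Nat.gcd_eq_left (by omega)
  rw [negOG_mem_commutator_qfMinus h2 _ a b hab] at h
  have h6 := odd_card_of_two_ne_zero h2
  obtain ⟨k, rfl⟩ : Even m := by_contra fun e => by
    rcases (by omega : Fintype.card F % 4 = 1 ∨ Fintype.card F % 4 = 3) with h' | h'
    · simp [pow_mod_four_of_one h'] at h
    · simp [pow_mod_four_of_three h', Nat.even_add_one, e] at h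
  simp only [finrank_fintype_fun_eq_card, Fintype.card_sum, Fintype.card_fin, Nat.choose_two_right]
  rw [show k + k + (k + k) + 2 = 2 * (2 * k + 1) by ring, mul_assoc, Nat.mul_div_cancel_left _ two_pos]
  exact (odd_two_mul_add_one k).mul ⟨2 * k, by omega⟩

end Inst

end CL.Pq
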