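/-
Abstract Shintani descent: elementary identities for an automorphism `σ` of a group.
-/
import Cfsg.Agent.Base

set_option autoImplicit false

namespace CL.Known

section Shintani

variable {X : Type*} [Group X]

theorem shin_mem_iff (τ : MulAut X) (g : X) :
    g ∈ (MulEquiv.toMonoidHom τ).eqLocus (MonoidHom.id X) ↔ τ g = g := Iff.rfl

theorem shin_pow_apply_comm (σ : MulAut X) (e : ℕ) (a : X) : (σ ^ e) (σ a) = σ ((σ ^ e) a) := by
  rw [← MulAut.mul_apply, ← MulAut.mul_apply, ← pow_succ, ← pow_succ']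

theorem shin_pow_fix (σ : MulAut X) (e : ℕ) (h : X) (hh : σ h = h) : (σ ^ e) h = h := by
  induction e with
  | zero => simp
  | succ n ih => rw [pow_succ, MulAut.mul_apply, hh, ih]

/-- The telescoping norm. -/
theorem shin_norm (σ : MulAut X) (a : X) (d : ℕ) :
    ((List.range d).map (fun i => (σ ^ i) (a * (σ a)⁻¹))).prod = a * ((σ ^ d) a)⁻¹ := by
  induction d with
  | zero => simp
  | succ n ih =>
    rw [List.range_succ, List.map_append, List.prod_append, ih]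
    simp only [List.map_cons, List.map_nil, List.prod_cons, List.prod_nil, mul_one, map_mul,
      map_inv]
    rw [pow_succ, MulAut.mul_apply]
    group

/-- The Shintani image is fixed by `σ`. -/
theorem shin_image_fix (σ : MulAut X) (e : ℕ) (a : X)
    (hg : (σ ^ e) (a * (σ a)⁻¹) = a * (σ a)⁻¹) :
    σ (((σ ^ e) a)⁻¹ * a) = ((σ ^ e) a)⁻¹ * a := by
  rw [map_mul, map_inv, shin_pow_apply_comm] at hg
  rw [map_mul, map_inv]
  have : (σ ((σ ^ e) a))⁻¹ = ((σ ^ e) a)⁻¹ * (a * (σ a)⁻¹) := by rw [← hg]; group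
  rw [this]; group

theorem shin_pow_mem (σ : MulAut X) (Y : Subgroup X) (hY : ∀ y : X, y ∈ Y ↔ σ y ∈ Y) (e : ℕ)
    (y : X) : y ∈ Y ↔ (σ ^ e) y ∈ Y := by
  induction e with
  | zero => simp
  | succ n ih => rw [pow_succ', MulAut.mul_apply, ← hY, ih]

/-- If `w⁻¹ σ w ∈ Y` then `w⁻¹ σ^e w ∈ Y`. -/
theorem shin_pow_coset (σ : MulAut X) (Y : Subgroup X) (hY : ∀ y : X, y ∈ Y ↔ σ y ∈ Y) (e : ℕ)
    (w : X) (hw : w⁻¹ * σ w ∈ Y) : w⁻¹ * (σ ^ e) w ∈ Y := by
  induction e with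
  | zero => simp
  | succ n ih =>
    have h1 : σ (w⁻¹ * (σ ^ n) w) ∈ Y := (hY _).1 ih
    have : w⁻¹ * (σ ^ (n + 1)) w = (w⁻¹ * σ w) * σ (w⁻¹ * (σ ^ n) w) := by
      rw [pow_succ', MulAut.mul_apply, map_mul, map_inv]; group
    rw [this]; exact Y.mul_mem hw h1

/-- Lang's property on `Y` gives fixed representatives of stable cosets. -/
theorem shin_fixed_rep (τ : MulAut X) (Y : Subgroup X)
    (hYL : ∀ y ∈ Y, ∃ a ∈ Y, y = a * (τ a)⁻¹) (w : X) (hw : w⁻¹ * τ w ∈ Y) :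
    ∃ y ∈ Y, τ (w * y) = w * y := by
  obtain ⟨c, hc, hcw⟩ := hYL _ hw
  refine ⟨c, hc, ?_⟩
  rw [map_mul]
  have : τ w = w * (c * (τ c)⁻¹) := by rw [← hcw]; group
  rw [this]; group

/-- Counting a relation whose fibres over the first coordinate are torsors. -/
theorem shin_card_rel {A B C : Type*} (R : A → B → Prop) (act : B → C → B)
    (hne : ∀ a, ∃ b, R a b) (hact : ∀ a b c, R a b → R a (act b c))
    (hinj : ∀ b c c', act b c = act b c' → c = c')
    (hsurj : ∀ a b b', R a b → R a b' → ∃ c, act b c = b') :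
    Nat.card {p : A × B // R p.1 p.2} = Nat.card A * Nat.card C := by
  choose f hf using hne
  rw [← Nat.card_prod]
  symm
  refine Nat.card_congr (Equiv.ofBijective
    (fun p : A × C => (⟨(p.1, act (f p.1) p.2), hact _ _ _ (hf _)⟩ : {p : A × B // R p.1 p.2})) ⟨?_, ?_⟩)
  · rintro ⟨a, c⟩ ⟨a', c'⟩ h
    simp only [Subtype.mk.injEq, Prod.mk.injEq] at h
    obtain ⟨rfl, h⟩ := h
    rw [hinj _ _ _ h]
  · rintro ⟨⟨a, b⟩, hab⟩
    obtain ⟨c, hc⟩ := hsurj a (f a) b (hf a) hab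
    exact ⟨(a, c), by simp [hc]⟩

end Shintani

end CL.Known
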