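/-
The alternating sum of chain counts in a finite graded order is the Möbius function (noncommutative Jacobi–Trudi
recursion), and the fixed points on flags of `GL_n`.
-/
import Cfsg.Agent.Known.FlagGL

set_option autoImplicit false

namespace CL.StV

open Finset Equiv Matrix CL.Flag

section JT

variable {A : Type*} [Ring A] (h : ℕ → A)

/-- Entries of the Jacobi–Trudi matrix with shifted first column. -/
def ent (a i j : ℕ) : A := if j = 0 then h (a + i) else if j ≤ 1 + i then h (1 + i - j) else 0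

/-- The row-ordered determinant. -/
def E (n a : ℕ) : A := ∑ κ : Perm (Fin n), ((Perm.sign κ : ℤˣ) : ℤ) • (List.ofFn fun i : Fin n => ent h a i (κ i)).prod

theorem E_zero (a : ℕ) : E h 0 a = 1 := by simp [E]

theorem ent_succ (a i j : ℕ) : ent h a (i + 1) (j + 1) = ent h 1 i j := by
  unfold ent
  rw [if_neg (by omega)]
  split_ifs with h1 h2 h3 <;> first | omega | rfl | (congr 1; omega)

theorem E_succ (n a : ℕ) : E h (n + 1) a = h a * E h n 1 + ∑ p : Fin n, ∑ σ : Perm (Fin n),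
    (-((Perm.sign σ : ℤˣ) : ℤ)) • (ent h a 0 (p + 1) *
      (List.ofFn fun i : Fin n => ent h a (i + 1) (swap 0 p.succ (σ i).succ : Fin (n + 1))).prod) := by
  rw [E, ← Perm.decomposeFin.symm.sum_comp, Fintype.sum_prod_type, Fin.sum_univ_succ, E, mul_sum]
  congr 1
  · refine sum_congr rfl fun σ _ => ?_
    have h0 : ent h a 0 0 = h a := by simp [ent]
    simp [List.ofFn_succ, Perm.decomposeFin.symm_sign, ent_succ, h0, -zsmul_eq_mul]
  · refine sum_congr rfl fun p _ => sum_congr rfl fun σ _ => ?_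
    simp [List.ofFn_succ, Perm.decomposeFin.symm_sign, Fin.succ_ne_zero]

variable {h}

theorem E_rec (h0 : h 0 = 1) (n a : ℕ) : E h (n + 2) a = h a * E h (n + 1) 1 - E h (n + 1) (a + 1) := by
  rw [E_succ, Fin.sum_univ_succ, sum_eq_zero (s := univ) (f := fun p : Fin n => ∑ σ : Perm (Fin (n + 1)), _)
    fun p _ => sum_eq_zero fun σ _ => by simp [ent], add_zero, sub_eq_add_neg, E, E, ← sum_neg_distrib]
  congr 1
  refine sum_congr rfl fun σ _ => ?_
  have h1 : ent h a 0 (((0 : Fin (n + 1)) : ℕ) + 1) = 1 := by simp [ent, h0]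
  rw [h1, one_mul, neg_smul]
  congr 4
  funext i
  rcases eq_or_ne (σ i) 0 with e | e
  · rw [e, swap_apply_right]
    simp [ent, add_assoc, add_comm 1]
  · rw [swap_apply_of_ne_of_ne (Fin.succ_ne_zero _) fun e' => e (Fin.succ_injective _ e'), Fin.val_succ, ent_succ]
    have : (σ i).val ≠ 0 := fun e' => e (Fin.ext e')
    simp [ent, this]

theorem E_sum (h0 : h 0 = 1) (n : ℕ) : ∀ a, E h (n + 1) a = ∑ k ∈ range (n + 1), (-1) ^ k * h (a + k) * E h (n - k) 1 := by
  induction n with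
  | zero => intro a; simp [E_succ]
  | succ n ih =>
    intro a
    rw [E_rec h0, ih (a + 1), sum_range_succ' _ (n + 1), sub_eq_add_neg, add_comm, ← sum_neg_distrib]
    congr 1
    · refine sum_congr rfl fun k _ => ?_
      rw [Nat.add_sub_add_right, pow_succ, add_assoc, add_comm 1 k]
      simp
    · simp

theorem E_eq (n : ℕ) : E h n 1 = ∑ κ : Perm (Fin n), if ∀ i, (κ i).val ≤ 1 + i.val then
    ((Perm.sign κ : ℤˣ) : ℤ) • (List.ofFn fun i : Fin n => h (1 + i.val - κ i)).prod else 0 := by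
  refine sum_congr rfl fun κ _ => ?_
  split_ifs with hκ
  · congr 3
    funext i
    unfold ent
    split_ifs with h1 h2
    · rw [h1, Nat.sub_zero]
    · rfl
    · exact absurd (hκ i) h2
  · obtain ⟨i, hi⟩ := not_forall.1 hκ
    rw [List.prod_eq_zero ((List.mem_ofFn' _ _).2 ⟨i, ?_⟩), smul_zero]
    simp only [ent]
    rw [if_neg (by omega), if_neg hi]

end JT

section Chain

variable {L : Type*} [PartialOrder L] [Fintype L] (d : L → ℕ)

open scoped Classical in
/-- The incidence matrix of rank difference `k`. -/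
noncomputable def H (k : ℕ) : Matrix L L ℂ := of fun U W => if U ≤ W ∧ d W = d U + k then 1 else 0

theorem ps_zero {n : ℕ} (μ : Fin (n + 1) → ℕ) : ps μ 0 = μ 0 := by
  simp [ps, sum_filter]

theorem ps_succ {n : ℕ} (μ : Fin (n + 1) → ℕ) (k : Fin n) : ps μ k.succ = μ 0 + ps (fun i => μ i.succ) k := by
  simp [ps, sum_filter, Fin.sum_univ_succ]

open scoped Classical in
theorem card_chain [DecidableEq L] (n : ℕ) : ∀ (μ : Fin n → ℕ) (U : L),
    (#{W : Fin n → L | (∀ k, U ≤ W k) ∧ Monotone W ∧ ∀ k, d (W k) = d U + ps μ k} : ℂ) =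
      ((List.ofFn fun i => H d (μ i)).prod *ᵥ 1) U := by
  induction n with
  | zero => intro μ U; simp [Subsingleton.monotone]
  | succ n ih =>
    intro μ U
    rw [List.ofFn_succ, List.prod_cons, ← mulVec_mulVec, mulVec, dotProduct, card_filter, Nat.cast_sum,
      ← (Fin.consEquiv fun _ => L).sum_comp, Fintype.sum_prod_type]
    refine sum_congr rfl fun T _ => ?_
    rw [← ih, card_filter, Nat.cast_sum, mul_sum]
    refine sum_congr rfl fun W _ => ?_
    have key : ((∀ k, U ≤ (Fin.cons T W : Fin (n + 1) → L) k) ∧ Monotone (Fin.cons T W : Fin (n + 1) → L) ∧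
        ∀ k, d ((Fin.cons T W : Fin (n + 1) → L) k) = d U + ps μ k) ↔ (U ≤ T ∧ d T = d U + μ 0) ∧
          (∀ k, T ≤ W k) ∧ Monotone W ∧ ∀ k, d (W k) = d T + ps (fun i => μ i.succ) k := by
      simp only [Fin.forall_fin_succ, Fin.cons_zero, Fin.cons_succ, ps_zero, ps_succ]
      refine ⟨fun ⟨h1, h2, h3, h4⟩ => ⟨⟨h1.1, h3⟩, fun k => h2 (Fin.zero_le k.succ),
        fun i j e => h2 (Fin.succ_le_succ_iff.2 e), fun k => by rw [h4, h3, add_assoc]⟩,
        fun ⟨h1, h2, h3, h4⟩ => ⟨⟨h1.1, fun k => h1.1.trans (h2 k)⟩, fun i j e => ?_, h1.2, fun k => by rw [h4, h1.2, add_assoc]⟩⟩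
      rcases Fin.eq_zero_or_eq_succ j with rfl | ⟨j, rfl⟩
      · rw [Fin.le_zero_iff.1 e]
      rcases Fin.eq_zero_or_eq_succ i with rfl | ⟨i, rfl⟩
      · exact h2 j
      · exact h3 (Fin.succ_le_succ_iff.1 e)
    have e : (Fin.consEquiv fun _ => L) (T, W) = (Fin.cons T W : Fin (n + 1) → L) := rfl
    simp only [e, key, H, of_apply, ite_and (U ≤ T ∧ _)]
    split_ifs <;> simp

variable {d} (hd : StrictMono d) [DecidableEq L]
include hd

omit [Fintype L] in
theorem H_zero : H d 0 = 1 := by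
  classical
  ext U W
  rw [H, of_apply, one_apply]
  exact if_congr ⟨fun h => h.1.eq_or_lt.resolve_right fun e => (hd e).ne' h.2, fun h => h ▸ ⟨le_rfl, rfl⟩⟩ rfl rfl

open scoped Classical in
theorem sum_E [OrderTop L] (U : L) :
    ∑ W with U ≤ W, (-1) ^ (d ⊤ - d W) * (E (H d) (d ⊤ - d W) 1 *ᵥ 1) W = if U = ⊤ then (1 : ℂ) else 0 := by
  split_ifs with hU
  · subst hU
    simp [filter_eq', E_zero]
  obtain ⟨m, hm⟩ := Nat.exists_eq_add_of_lt (hd (lt_top_iff_ne_top.2 hU))
  rw [← add_sum_erase _ _ (mem_filter.2 ⟨mem_univ U, le_rfl⟩), show d ⊤ - d U = m + 1 by omega, E_sum (H_zero hd),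
    sum_mulVec, Finset.sum_apply, add_eq_zero_iff_eq_neg, ← sum_neg_distrib]
  have h1 : ∀ k, (((-1) ^ k * H d (1 + k) * E (H d) (m - k) 1) *ᵥ 1) U =
      ∑ W, if U ≤ W ∧ d W = d U + (1 + k) then (-1 : ℂ) ^ k * (E (H d) (m - k) 1 *ᵥ 1) W else 0 := fun k => by
    have : (-1 : Matrix L L ℂ) ^ k = (-1 : ℂ) ^ k • (1 : Matrix L L ℂ) := by
      rcases k.even_or_odd with e | e <;> simp [e.neg_one_pow]
    rw [this, smul_mul_assoc, one_mul, smul_mul_assoc, smul_mulVec, ← mulVec_mulVec, Pi.smul_apply, mulVec, dotProduct,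
      smul_sum]
    simp [H]
  simp_rw [h1]
  rw [sum_comm, mul_sum, ← filter_ne', filter_filter, sum_filter]
  refine sum_congr rfl fun W _ => ?_
  split_ifs with hW
  · have h2 := hd (hW.1.lt_of_ne' hW.2)
    have h3 := hd.monotone (le_top (a := W))
    obtain ⟨k, hk⟩ := Nat.exists_eq_add_of_lt h2
    rw [sum_eq_single k (fun j _ e => if_neg fun e' => e (by omega)) (fun e => absurd (mem_range.2 (by omega)) e),
      if_pos ⟨hW.1, by omega⟩, show d ⊤ - d W = m - k by omega, show m + 1 = m - k + k + 1 by omega]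
    have : ((-1 : ℂ)) ^ k * (-1) ^ k = 1 := by rw [← mul_pow]; simp
    linear_combination (-((-1) ^ (m - k) * (E (H d) (m - k) 1 *ᵥ 1) W)) * this
  · rw [sum_eq_zero fun k _ => if_neg fun e => hW ⟨e.1, by rintro rfl; omega⟩, mul_zero]

open scoped Classical in
theorem moebius_eq [BoundedOrder L] {φ : L → ℂ} (hφ : ∀ W, ∑ U with U ≤ W, φ U = if W = ⊥ then 1 else 0) :
    φ ⊤ = (-1) ^ (d ⊤ - d ⊥) * (E (H d) (d ⊤ - d ⊥) 1 *ᵥ 1) ⊥ := by
  have h1 : ∑ U, φ U * (if U = ⊤ then (1 : ℂ) else 0) = φ ⊤ := by simp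
  rw [← h1]
  simp_rw [← sum_E hd, sum_filter, mul_sum]
  rw [sum_comm]
  simp_rw [mul_ite, mul_zero, ← sum_filter, ← sum_mul, hφ]
  simp

end Chain

section Flag

open Cfsg CL.Chev.GLB Module

variable {n : ℕ} {F : Type*} [Field F] (b : Fin n → Fin n)

/-- The translate of the standard flag. -/
noncomputable def fl (g : GL (Fin n) F) (k : Fin n) : Submodule F (Fin n → F) := (std F b k).map (toLin' g.val)

theorem fl_mul (g h : GL (Fin n) F) (k : Fin n) : fl b (g * h) k = (fl b h k).map (toLin' g.val) := by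
  rw [fl, fl, Units.val_mul, toLin'_mul, Submodule.map_comp]

theorem toLin_inj (g : GL (Fin n) F) : Function.Injective (toLin' g.val) :=
  Function.LeftInverse.injective (g := toLin' g⁻¹.val) fun v => by
    rw [← LinearMap.comp_apply, ← toLin'_mul, Units.inv_mul, toLin'_one, LinearMap.id_apply]

theorem finrank_map (g : GL (Fin n) F) (W : Submodule F (Fin n → F)) : finrank F (W.map (toLin' g.val)) = finrank F W :=
  (Submodule.equivMapOfInjective _ (toLin_inj g) W).finrank_eq.symm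

theorem mem_par_iff {g : GL (Fin n) F} : g ∈ par F b ↔ ∀ k, fl b g k = std F b k := by
  refine ⟨fun h k => Submodule.eq_of_le_of_finrank_eq ?_ (finrank_map g _), fun h => mem_par.2 fun i j e => ?_⟩
  · rintro _ ⟨v, hv, rfl⟩
    refine mem_std.2 fun i hi => (sum_eq_zero fun j _ => ?_ : ∑ j, g.val i j * v j = 0)
    rcases le_or_gt (b j) k with e | e
    · rw [mem_par.1 h i j (e.trans_lt hi), zero_mul]
    · rw [mem_std.1 hv j e, mul_zero]
  · have h1 : toLin' g.val (Pi.single j 1) ∈ fl b g (b j) :=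
      ⟨_, mem_std.2 fun k hk => Pi.single_eq_of_ne (by rintro rfl; exact lt_irrefl _ hk) _, rfl⟩
    simpa using mem_std.1 ((h _).le h1) i e

theorem fl_eq_iff {g h : GL (Fin n) F} : fl b g = fl b h ↔ g⁻¹ * h ∈ par F b := by
  rw [mem_par_iff, funext_iff]
  refine forall_congr' fun k => ?_
  rw [← (Submodule.map_injective_of_injective (toLin_inj g)).eq_iff (a := fl b (g⁻¹ * h) k), ← fl_mul, mul_inv_cancel_left,
    eq_comm]
  rfl

variable {b} [Fintype F]

theorem exists_fl (hb : Monotone b) {W : Fin n → Submodule F (Fin n → F)} (hW : Monotone W)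
    (hd : ∀ k, finrank F (W k) = ps (cnt b) k) : ∃ g, fl b g = W := by
  have h1 := card_li (hW.comp hb)
  have h2 : Nat.card {s : Fin n → Fin n → F // LinearIndependent F s ∧ ∀ j, s j ∈ (W ∘ b) j} ≠ 0 := by
    rw [h1]
    refine prod_ne_zero_iff.2 fun j _ => Nat.sub_ne_zero_of_lt ?_
    rw [Function.comp, Module.natCard_eq_pow_finrank (K := F) (V := W _), hd]
    exact Nat.pow_lt_pow_right Finite.one_lt_card (lt_ps hb j)
  obtain ⟨⟨s, hs, hs'⟩⟩ := (Nat.card_ne_zero.1 h2).1
  obtain ⟨g, hg⟩ := (equiv_GL_linearindependent n).surjective ⟨s, hs⟩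
  obtain rfl : g.val.col = s := congrArg Subtype.val hg
  refine ⟨g, funext fun k => Submodule.eq_of_le_of_finrank_eq ?_ (by rw [fl, finrank_map, finrank_std, hd])⟩
  rintro _ ⟨v, hv, rfl⟩
  have : toLin' g.val v = ∑ j, v j • g.val.col j := by
    ext i
    simp [mulVec, dotProduct, mul_comm]
  rw [this]
  refine Submodule.sum_mem _ fun j _ => ?_
  rcases le_or_gt (b j) k with e | e
  · exact Submodule.smul_mem _ _ (hW e (hs' j))
  · rw [mem_std.1 hv j e, zero_smul]
    exact zero_mem _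

theorem fpc_eq (hb : Monotone b) (x : GL (Fin n) F) : fixedPointCharacter (par F b) x =
    Nat.card {W : Fin n → Submodule F (Fin n → F) // Monotone W ∧ (∀ k, finrank F (W k) = ps (cnt b) k) ∧
      ∀ k, (W k).map (toLin' x.val) ≤ W k} := by
  have h1 : ∀ g : GL (Fin n) F, (g : GL (Fin n) F ⧸ par F b) ∈ MulAction.fixedBy _ x ↔ fl b (x * g) = fl b g := fun g => by
    rw [MulAction.mem_fixedBy, MulAction.Quotient.smul_coe, smul_eq_mul, QuotientGroup.eq, fl_eq_iff]
  refine congrArg _ (Nat.card_congr (Equiv.ofBijective (fun c => ⟨fl b c.1.out, fun i j e => Submodule.map_mono (std_mono e),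
    fun k => by rw [fl, finrank_map, finrank_std], fun k => by
      rw [← fl_mul, (h1 _).1 (by rw [QuotientGroup.out_eq']; exact c.2)]⟩) ⟨fun c c' e => Subtype.ext ?_, fun W => ?_⟩))
  · rw [← QuotientGroup.out_eq' c.1, ← QuotientGroup.out_eq' c'.1, QuotientGroup.eq, ← fl_eq_iff]
    exact congrArg Subtype.val e
  · obtain ⟨W, hW, hd, hx⟩ := W
    obtain ⟨g, rfl⟩ := exists_fl hb hW hd
    refine ⟨⟨g, (h1 g).2 (funext fun k => ?_)⟩, Subtype.ext ?_⟩
    · rw [fl_mul]
      exact Submodule.eq_of_le_of_finrank_eq (hx k) (finrank_map _ _)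
    · exact (fl_eq_iff b).2 (QuotientGroup.eq.1 (QuotientGroup.out_eq' _))

end Flag

end CL.StV
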