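/-
Finite semisimple `F[X]`-modules: characteristic polynomial, homomorphisms to simple modules, and the Möbius function
of the lattice of submodules (Weisner's theorem).
-/
import Cfsg.Agent.Base
import Mathlib.LinearAlgebra.Semisimple
import Mathlib.LinearAlgebra.Charpoly.ToMatrix
import Mathlib.LinearAlgebra.Charpoly.BaseChange
import Mathlib.RingTheory.AdjoinRoot
import Mathlib.FieldTheory.Finiteness
import Mathlib.Analysis.Complex.Basic
import Mathlib.Algebra.Polynomial.FieldDivision
import Mathlib.RingTheory.UniqueFactorizationDomain.NormalizedFactors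

set_option autoImplicit false

namespace CL.StV

open Polynomial Finset Module UniqueFactorizationMonoid

universe u

variable (F : Type*) [Field F]

section Chi

variable (M : Type*) [AddCommGroup M] [Module F M] [Module F[X] M] [IsScalarTower F F[X] M] [Module.Finite F M]
  {N : Type*} [AddCommGroup N] [Module F N] [Module F[X] N] [IsScalarTower F F[X] N] [Module.Finite F N]

instance finSub (U : Submodule F[X] M) : Module.Finite F U :=
  Module.Finite.of_injective (U.subtype.restrictScalars F) U.injective_subtype

/-- The characteristic polynomial of `X` on the module. -/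
noncomputable def chi : F[X] := LinearMap.charpoly (Algebra.lsmul F F M (X : F[X]))

theorem chi_monic : (chi F M).Monic := LinearMap.charpoly_monic _

theorem chi_natDegree : (chi F M).natDegree = finrank F M := LinearMap.charpoly_natDegree _

variable {M}

theorem chi_smul (m : M) : chi F M • m = 0 := by
  have h := LinearMap.aeval_self_charpoly (Algebra.lsmul F F M (X : F[X]))
  rw [aeval_algHom_apply, aeval_X_left_apply] at h
  exact LinearMap.congr_fun h m

variable {F}

theorem chi_congr (e : M ≃ₗ[F[X]] N) : chi F M = chi F N := by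
  rw [chi, ← (e.restrictScalars F).charpoly_conj]
  refine congrArg _ (LinearMap.ext fun x => ?_)
  simp [LinearEquiv.conj_apply]

theorem chi_prod : chi F (M × N) = chi F M * chi F N := by
  rw [chi, chi, chi, ← LinearMap.charpoly_prodMap]
  rfl

theorem chi_compl {U A : Submodule F[X] M} (h : IsCompl U A) : chi F M = chi F U * chi F A := by
  rw [← chi_prod, chi_congr (Submodule.prodEquivOfIsCompl U A h)]

theorem simple_quot [IsSimpleModule F[X] M] :
    Irreducible (chi F M) ∧ Nonempty (M ≃ₗ[F[X]] F[X] ⧸ Ideal.span {chi F M}) := by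
  classical
  obtain ⟨I, hI, ⟨e⟩⟩ := isSimpleModule_iff_quot_maximal.mp ‹_›
  have h1 : chi F M ∈ I := by
    have h := congrArg e (chi_smul F (e.symm 1))
    rw [map_smul, e.apply_symm_apply, map_zero, ← (Ideal.Quotient.mk I).map_one, ← Ideal.Quotient.mk_eq_mk,
      ← Submodule.Quotient.mk_smul, Submodule.Quotient.mk_eq_zero, smul_eq_mul, mul_one] at h
    exact h
  obtain ⟨g, rfl⟩ := (IsPrincipalIdealRing.principal I).principal
  have hg : g ≠ 0 := by
    rintro rfl
    exact (chi_monic F M).ne_zero (by simpa using h1)
  have h2 : Ideal.span {g} = Ideal.span {normalize g} := Ideal.span_singleton_eq_span_singleton.2 (associated_normalize g)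
  have h3 : chi F M = normalize g := by
    refine eq_of_monic_of_dvd_of_natDegree_le (monic_normalize hg) (chi_monic F M)
      (normalize_dvd_iff.2 (Ideal.mem_span_singleton.1 h1)) (le_of_eq ?_)
    rw [chi_natDegree, (e.restrictScalars F).finrank_eq, ← finrank_quotient_span_eq_natDegree, ← h2]
  rw [h3, ← h2]
  exact ⟨(associated_normalize g).irreducible
    ((Ideal.span_singleton_prime hg).1 hI.isPrime).irreducible, ⟨e⟩⟩

variable [Fintype F]

theorem card_hom_simple [DecidableEq F] [IsSimpleModule F[X] M] [IsSimpleModule F[X] N] :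
    Nat.card (M →ₗ[F[X]] N) = if chi F N = chi F M then Fintype.card F ^ (chi F N).natDegree else 1 := by
  split_ifs with h
  · obtain ⟨-, ⟨e⟩⟩ := simple_quot (F := F) (M := M)
    rw [chi_natDegree, ← Nat.card_eq_fintype_card, ← Module.natCard_eq_pow_finrank]
    refine Nat.card_congr (Equiv.ofBijective (fun φ => φ (e.symm 1)) ⟨fun φ ψ hφ => ?_, fun a => ?_⟩)
    · refine LinearMap.ext fun m => ?_
      obtain ⟨r, hr⟩ := Ideal.Quotient.mk_surjective (e m)
      have : m = r • e.symm 1 := by
        rw [← map_smul, LinearEquiv.eq_symm_apply, ← hr, ← (Ideal.Quotient.mk _).map_one, ← Ideal.Quotient.mk_eq_mk,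
          ← Ideal.Quotient.mk_eq_mk, ← Submodule.Quotient.mk_smul, smul_eq_mul, mul_one]
      rw [this, map_smul, map_smul]
      exact congrArg _ hφ
    · refine ⟨(Submodule.liftQ _ (LinearMap.toSpanSingleton F[X] N a) ?_) ∘ₗ e.toLinearMap, ?_⟩
      · rw [Ideal.span, Submodule.span_le, Set.singleton_subset_iff]
        simpa [← h] using chi_smul F a
      · simp only [LinearMap.comp_apply, LinearEquiv.coe_coe, LinearEquiv.apply_symm_apply]
        rw [← (Ideal.Quotient.mk _).map_one, ← Ideal.Quotient.mk_eq_mk, Submodule.liftQ_apply]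
        simp
  · rw [Nat.card_eq_one_iff_unique]
    refine ⟨⟨fun φ ψ => ?_⟩, ⟨0⟩⟩
    have key : ∀ φ : M →ₗ[F[X]] N, φ = 0 := fun φ =>
      φ.bijective_or_eq_zero.resolve_left fun hφ => h (chi_congr (LinearEquiv.ofBijective φ hφ)).symm
    rw [key φ, key ψ]

end Chi

theorem nf_mul {F : Type*} [Field F] [DecidableEq F] {g f : F[X]} (hg : g ≠ 0) (hf : f.Monic) (hi : Irreducible f) :
    normalizedFactors (g * f) = f ::ₘ normalizedFactors g := by
  rw [normalizedFactors_mul hg hf.ne_zero, normalizedFactors_irreducible hi, hf.normalize_eq_self, add_comm,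
    Multiset.singleton_add]

theorem card_hom {F : Type*} [Field F] [Fintype F] [DecidableEq F]
    {N : Type*} [AddCommGroup N] [Module F N] [Module F[X] N] [IsScalarTower F F[X] N] [Module.Finite F N]
    [IsSimpleModule F[X] N] (n : ℕ) : ∀ (M : Type u) [AddCommGroup M] [Module F M] [Module F[X] M]
      [IsScalarTower F F[X] M] [Module.Finite F M] [IsSemisimpleModule F[X] M], finrank F M = n →
      Nat.card (M →ₗ[F[X]] N) =
        Fintype.card F ^ ((chi F N).natDegree * (normalizedFactors (chi F M)).count (chi F N)) := by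
  induction n using Nat.strong_induction_on with | _ n ih =>
  intro M _ _ _ _ _ _ hM
  rcases subsingleton_or_nontrivial M with h | h
  · have h1 : chi F M = 1 := (chi_monic F M).natDegree_eq_zero.1 (by rw [chi_natDegree, finrank_zero_of_subsingleton])
    rw [h1, normalizedFactors_one, Multiset.count_zero, mul_zero, pow_zero, Nat.card_unique]
  obtain ⟨S, hS⟩ := IsSemisimpleModule.exists_simple_submodule F[X] M
  obtain ⟨U, hU⟩ := exists_isCompl S
  have h1 := chi_compl hU.symm
  have h2 := (simple_quot (F := F) (M := S)).1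
  have h3 : finrank F U < n := by
    have := congrArg natDegree h1
    rw [(chi_monic F U).natDegree_mul (chi_monic F S), chi_natDegree, chi_natDegree F U, hM] at this
    have := h2.natDegree_pos
    omega
  rw [← Nat.card_congr (LinearMap.ofIsComplProdEquiv hU.symm).toEquiv, Nat.card_prod, ih _ h3 U rfl, card_hom_simple,
    h1, nf_mul (chi_monic F U).ne_zero (chi_monic F S) h2, Multiset.count_cons]
  split_ifs <;> ring

section Moebius

variable {F} [DecidableEq F]

/-- The closed formula, as a function of the multiset of irreducible factors. -/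
noncomputable def psi (q : ℂ) (s : Multiset F[X]) : ℂ :=
  ∏ f ∈ s.toFinset, (-1 : ℂ) ^ ((f.natDegree - 1) * s.count f) * q ^ (f.natDegree * s.count f * (s.count f - 1) / 2)

theorem half_succ (d c : ℕ) : d * (c + 1) * (c + 1 - 1) / 2 = d * c + d * c * (c - 1) / 2 := by
  rcases c with _ | c
  · simp
  rw [Nat.add_sub_cancel, Nat.add_sub_cancel, add_comm (d * (c + 1)), ← Nat.add_mul_div_left _ _ two_pos]
  congr 1
  ring

theorem psi_cons (q : ℂ) (f : F[X]) (s : Multiset F[X]) :
    psi q (f ::ₘ s) = (-1) ^ (f.natDegree - 1) * q ^ (f.natDegree * s.count f) * psi q s := by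
  have h : psi q s = ∏ g ∈ insert f s.toFinset,
      (-1 : ℂ) ^ ((g.natDegree - 1) * s.count g) * q ^ (g.natDegree * s.count g * (s.count g - 1) / 2) := by
    rw [psi, prod_insert_of_eq_one_if_notMem]
    intro h
    rw [Multiset.count_eq_zero_of_notMem (by simpa using h)]
    simp
  rw [h, psi, Multiset.toFinset_cons, ← mul_prod_erase _ _ (mem_insert_self f _), ← mul_prod_erase _ _ (mem_insert_self f _),
    Multiset.count_cons_self, half_succ, prod_congr rfl fun g hg => by rw [Multiset.count_cons_of_ne (ne_of_mem_erase hg)]]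
  ring

variable (F) [Fintype F] (M : Type u) [AddCommGroup M] [Module F M] [Module F[X] M] [IsScalarTower F F[X] M]
  [Module.Finite F M]

/-- The Möbius function. -/
noncomputable def phi : ℂ := (-1) ^ finrank F M * psi (Fintype.card F) (normalizedFactors (chi F M))

variable {F M}

theorem phi_eq {N : Type u} [AddCommGroup N] [Module F N] [Module F[X] N] [IsScalarTower F F[X] N] [Module.Finite F N]
    (h : chi F M = chi F N) : phi F M = phi F N := by
  rw [phi, phi, ← chi_natDegree, ← chi_natDegree, h]

variable [IsSemisimpleModule F[X] M] [Fintype (Submodule F[X] M)]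

open scoped Classical in
theorem sum_top (A : Submodule F[X] M) [IsSimpleModule F[X] A] : ∑ U with U ⊔ A = ⊤, phi F U = 0 := by
  obtain ⟨V, hV⟩ := exists_isCompl A
  have hA : IsAtom A := isSimpleModule_iff_isAtom.1 ‹_›
  have h1 : univ.filter (fun U => U ⊔ A = ⊤) = insert ⊤ (univ.filter fun U => IsCompl A U) := by
    ext U
    simp only [mem_filter, mem_univ, true_and, mem_insert]
    refine ⟨fun h => ?_, ?_⟩
    · by_cases h2 : A ≤ U
      · exact Or.inl (by rwa [sup_eq_left.2 h2] at h)
      · exact Or.inr ⟨hA.not_le_iff_disjoint.1 h2, codisjoint_iff.2 (by rwa [sup_comm])⟩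
    · rintro (rfl | h)
      · exact top_sup_eq _
      · exact h.symm.sup_eq_top
  have h2 : #(univ.filter fun U => IsCompl A U) = Nat.card (V →ₗ[F[X]] A) := by
    rw [← Fintype.card_subtype, ← Nat.card_eq_fintype_card, Nat.card_congr A.isComplEquivProj]
    refine Nat.card_congr (Equiv.ofBijective (fun φ => φ.1.domRestrict V) ⟨fun φ ψ h => Subtype.ext ?_, fun φ => ?_⟩)
    · exact (LinearMap.ofIsComplProdEquiv hV).symm.injective (Prod.ext (LinearMap.ext fun x => (φ.2 x).trans (ψ.2 x).symm) h)
    · exact ⟨⟨LinearMap.ofIsCompl hV LinearMap.id φ, fun x => LinearMap.ofIsCompl_apply_left hV x⟩,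
        LinearMap.ext fun x => LinearMap.ofIsCompl_apply_right hV x⟩
  have h3 := chi_compl hV.symm
  have h4 := (simple_quot (F := F) (M := A)).1
  rw [h1, sum_insert (by simpa using fun h : IsCompl A ⊤ => hA.1 (by simpa using h.disjoint)),
    sum_congr rfl (g := fun _ => phi F V) fun U hU => phi_eq (mul_right_cancel₀ (chi_monic F A).ne_zero
      ((chi_compl (mem_filter.1 hU).2.symm).symm.trans h3)), sum_const, h2, card_hom _ V rfl,
    phi_eq (chi_congr Submodule.topEquiv), phi, phi, ← chi_natDegree, ← chi_natDegree, h3,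
    nf_mul (chi_monic F V).ne_zero (chi_monic F A) h4, psi_cons, (chi_monic F V).natDegree_mul (chi_monic F A)]
  obtain ⟨d, hd⟩ := Nat.exists_eq_succ_of_ne_zero h4.natDegree_pos.ne'
  rw [hd, Nat.succ_sub_one, nsmul_eq_mul, Nat.cast_pow]
  have : ((-1 : ℂ)) ^ d * (-1) ^ d = 1 := by rw [← mul_pow]; simp
  rw [Nat.succ_eq_add_one, pow_add, pow_succ]
  linear_combination (-((-1) ^ (chi F V).natDegree * (Fintype.card F : ℂ) ^ ((d + 1) *
    (normalizedFactors (chi F V)).count (chi F A)) * psi (Fintype.card F) (normalizedFactors (chi F V)))) * this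

open scoped Classical in
theorem sum_sup {A W : Submodule F[X] M} [IsSimpleModule F[X] A] (h : A ≤ W) : ∑ U with U ⊔ A = W, phi F U = 0 := by
  have : Finite (Submodule F[X] W) := .of_injective _ (Submodule.map_injective_of_injective W.injective_subtype)
  have := Fintype.ofFinite (Submodule F[X] W)
  have : IsSimpleModule F[X] (A.comap W.subtype) := IsSimpleModule.congr (Submodule.comapSubtypeEquivOfLe h)
  rw [← sum_top (A.comap W.subtype)]
  symm
  have hA : (A.comap W.subtype).map W.subtype = A := by rw [Submodule.map_comap_subtype, inf_eq_right.2 h]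
  refine sum_nbij (fun U => U.map W.subtype) (fun U hU => ?_)
    (Submodule.map_injective_of_injective W.injective_subtype).injOn (fun U hU => ?_)
    fun U _ => phi_eq (chi_congr (Submodule.equivMapOfInjective _ W.injective_subtype U))
  · rw [mem_filter] at hU ⊢
    refine ⟨mem_univ _, ?_⟩
    conv_lhs => rw [← hA, ← Submodule.map_sup, hU.2, Submodule.map_subtype_top]
  · have h2 : U ⊔ A = W := by simpa using hU
    have hU' : (U.comap W.subtype).map W.subtype = U := by
      rw [Submodule.map_comap_subtype, inf_eq_right.2 (h2 ▸ le_sup_left)]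
    refine ⟨U.comap W.subtype, ?_, hU'⟩
    simp only [coe_filter, mem_univ, true_and, Set.mem_ofPred_eq]
    apply Submodule.map_injective_of_injective W.injective_subtype
    rw [Submodule.map_sup, hA, hU', h2, Submodule.map_subtype_top]

open scoped Classical in
/-- The defining recursion of the Möbius function. -/
theorem sum_le (W : Submodule F[X] M) : ∑ U with U ≤ W, phi F U = if W = ⊥ then 1 else 0 := by
  split_ifs with h
  · subst h
    have h1 : chi F (⊥ : Submodule F[X] M) = 1 :=
      (chi_monic F _).natDegree_eq_zero.1 (by rw [chi_natDegree, finrank_zero_of_subsingleton])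
    simp [filter_eq', phi, h1, psi, finrank_zero_of_subsingleton]
  obtain ⟨A, hA, hW⟩ := (eq_bot_or_exists_atom_le W).resolve_left h
  have := isSimpleModule_iff_isAtom.2 hA
  rw [← sum_fiberwise_of_maps_to (t := univ.filter fun T => A ≤ T ∧ T ≤ W) (g := fun U => U ⊔ A)
    fun U hU => mem_filter.2 ⟨mem_univ _, le_sup_right, sup_le (mem_filter.1 hU).2 hW⟩]
  refine sum_eq_zero fun T hT => ?_
  rw [← sum_sup (mem_filter.1 hT).2.1, filter_filter]
  exact sum_congr (filter_congr fun U _ => and_iff_right_of_imp fun e => (e ▸ le_sup_left).trans (mem_filter.1 hT).2.2) fun _ _ => rfl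

end Moebius

end CL.StV
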