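/-
Values of the Steinberg character of `GL_n(q)` at semisimple elements.
-/
import Cfsg.Agent.Known.StValMod
import Cfsg.Agent.Known.StValFlag
import Mathlib.Data.SetLike.Fintype

set_option autoImplicit false

namespace CL.StV

open Cfsg Finset Equiv Matrix CL.Flag Polynomial Module UniqueFactorizationMonoid

variable {n : ℕ} {F : Type*} [Field F] [Fintype F] (x : GL (Fin n) F)

omit [Fintype F] in
theorem card_inv (c : Fin n → ℕ) :
    Nat.card {W : Fin n → Submodule F (Fin n → F) // Monotone W ∧ (∀ k, finrank F (W k) = c k) ∧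
      ∀ k, (W k).map (toLin' x.val) ≤ W k} =
    Nat.card {W : Fin n → Submodule F[X] (AEval' (toLin' x.val)) // (∀ k, ⊥ ≤ W k) ∧ Monotone W ∧
      ∀ k, finrank F (W k) = c k} := by
  have h1 : ∀ {p : Submodule F (Fin n → F)}, p.map (toLin' x.val) ≤ p ↔
      p ∈ (Algebra.lsmul F F (Fin n → F) (toLin' x.val)).invtSubmodule := Submodule.map_le_iff_le_comap
  let e := AEval.mapSubmodule F (Fin n → F) (toLin' x.val)
  refine Nat.card_congr
    { toFun := fun W => ⟨fun k => e ⟨W.1 k, h1.1 (W.2.2.2 k)⟩, fun _ => bot_le, fun i j h => e.monotone (W.2.1 h),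
        fun k => (AEval.equiv_mapSubmodule _ _ _).finrank_eq.symm.trans (W.2.2.1 k)⟩
      invFun := fun W => ⟨fun k => (e.symm (W.1 k)).1, fun i j h => e.symm.monotone (W.2.2.1 h), fun k => ?_,
        fun k => h1.2 (e.symm (W.1 k)).2⟩
      left_inv := fun W => Subtype.ext (funext fun k => congrArg Subtype.val (e.symm_apply_apply _))
      right_inv := fun W => Subtype.ext (funext fun k => e.apply_symm_apply _) }
  have := (AEval.equiv_mapSubmodule _ _ (e.symm (W.1 k)).2).finrank_eq
  rw [this, ← W.2.2.2 k]
  exact congrArg (fun U : Submodule F[X] (AEval' (toLin' x.val)) => finrank F U) (e.apply_symm_apply _)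

theorem steinberg_value [DecidableEq F] (hx : Module.End.IsSemisimple (toLin' x.val)) :
    unipotentCharacterGL n F (fun _ => 1) x = psi (Fintype.card F) (normalizedFactors x.val.charpoly) := by
  classical
  have : IsSemisimpleModule F[X] (AEval' (toLin' x.val)) := hx
  have : Finite (AEval' (toLin' x.val)) := .of_equiv _ (AEval'.of (toLin' x.val)).toEquiv
  have := Fintype.ofFinite (Submodule F[X] (AEval' (toLin' x.val)))
  have hd : StrictMono fun U : Submodule F[X] (AEval' (toLin' x.val)) => finrank F U := fun U W h =>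
    Submodule.finrank_lt_finrank_of_lt (s := U.restrictScalars F) (t := W.restrictScalars F)
      ((Submodule.restrictScalarsEmbedding F _ _).lt_iff_lt.2 h)
  have h0 : finrank F (⊥ : Submodule F[X] (AEval' (toLin' x.val))) = 0 := finrank_zero_of_subsingleton
  have h1 : chi F (⊤ : Submodule F[X] (AEval' (toLin' x.val))) = x.val.charpoly := by
    rw [chi_congr Submodule.topEquiv, ← charpoly_toLin', ← (AEval'.of (toLin' x.val)).charpoly_conj, chi]
    refine congrArg _ (LinearMap.ext fun v => ?_)
    obtain ⟨v, rfl⟩ := (AEval'.of (toLin' x.val)).surjective v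
    simpa [LinearEquiv.conj_apply] using AEval'.X_smul_of (toLin' x.val) v
  have h2 : finrank F (⊤ : Submodule F[X] (AEval' (toLin' x.val))) = n := by
    rw [← chi_natDegree F (⊤ : Submodule F[X] (AEval' (toLin' x.val))), h1, charpoly_natDegree_eq_dim, Fintype.card_fin]
  have h3 := moebius_eq hd (φ := fun U => phi F U) fun W => by convert sum_le W
  simp only [h0, h2, phi, h1, Nat.sub_zero] at h3
  rw [mul_left_cancel₀ (pow_ne_zero _ (neg_ne_zero.2 one_ne_zero)) h3, E_eq, sum_mulVec, Finset.sum_apply]
  refine sum_congr rfl fun κ _ => ?_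
  split_ifs with hκ
  · have h4 := sum_sub (ν := fun _ : Fin n => 1) (by simp) hκ
    rw [parabolicGL_eq h4, fpc_eq (lab_mono h4), cnt_lab, card_inv, smul_mulVec, Pi.smul_apply, ← card_chain _ n fun i => 1 + i.val - κ i, zsmul_eq_mul,
      Nat.card_eq_fintype_card, Fintype.card_subtype]
    simp only [h0, zero_add]
  · simp

omit [Fintype F] in
theorem semisimple_of_coprime (p : ℕ) [Fact p.Prime] [CharP F p] (hx : (orderOf x).Coprime p) :
    Module.End.IsSemisimple (toLin' x.val) := by
  refine Module.End.isSemisimple_of_squarefree_aeval_eq_zero (p := X ^ orderOf x - 1)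
    (X_pow_sub_one_separable_iff.2 fun h => ?_).squarefree ?_
  · exact (Fact.out : p.Prime).one_lt.ne' (Nat.Coprime.eq_one_of_dvd hx.symm ((CharP.cast_eq_zero_iff F p _).1 h))
  · rw [map_sub, map_pow, aeval_X, map_one, ← toLin'_pow, ← Units.val_pow_eq_pow_val, pow_orderOf_eq_one, Units.val_one,
      toLin'_one, sub_eq_zero]
    rfl

end CL.StV
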