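/-
The Schur multiplier of `³D₄(q)` is trivial.
-/
import Cfsg.Agent.Known.TwSD4b
import Cfsg.Agent.Fgs.SchurCover

set_option autoImplicit false

namespace CL.Chev

open Cfsg CL.TwS CL.Cox RS
open scoped commutatorElement

namespace StSys

variable {Φ : Type} {R : RS (Fin 4) Φ} {F : Type*} [Field F] {G : Type*} [Group G] {S : StSys R F G}

namespace GAut.IsD4

variable {A : S.GAut} {θ : F ≃+* F} (h : A.IsD4 θ) [Finite Φ] {K : Subgroup G} (C : A.Ctx K) (D : A.TwData jD4 K)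
  {E : Type*} [Group E] {π : E →* G} [Finite F] (hθ : ∀ t, θ t = t ^ 2) (hF : Nat.card F = 2 ^ 3)
  (hπ : π.ker ≤ Subgroup.center E) (hK : K ≤ π.range)
include h D C hθ hF hπ hK

theorem split_two : ∃ Y, KAt π Y (S.U ⊓ K) := by
  have h2 : (2 : F) = 0 := by
    have := map_neg θ 1
    rw [hθ, map_one] at this; linear_combination this
  obtain ⟨n1, n2⟩ := h.n_mem D
  have hU := h.faithful.uFaithful
  have fl := fun k => h.flat C _ (h.pos_rt k)
  obtain ⟨X, hX⟩ : ∃ X : Fin 6 → Subgroup G, ∀ k, X k = S.XK K (C.orb (rtD4 R k)) := ⟨_, fun _ => rfl⟩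
  have xr : ∀ k, X k ≤ π.range := fun k => hX k ▸ inf_le_right.trans hK
  have two : ∀ k ∈ ([1, 4, 5] : List (Fin 6)), S.x (rtD4 R k) 1 ∈ X k ∧ ∀ g ∈ X k, g = 1 ∨ g = S.x (rtD4 R k) 1 :=
    fun k hk => by
    obtain ⟨i, e⟩ := A.map_x_two C.faithful h2 (rtD4 R k)
    simp only [h.ρ_rt C hk, h.φ_eq, hθ] at e
    rw [hX, C.orb_eq_of_fix (h.ρ_rt C hk)]
    refine ⟨⟨S.x_mem_X _ _, C.fixU _ (S.x_mem_XS (h.pos_rt k) _) (by rw [e, one_pow])⟩, fun g hg => ?_⟩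
    obtain ⟨t, rfl⟩ := S.mem_X.1 hg.1
    have := hU.x_injective _ ((e t).symm.trans (C.fix _ hg.2))
    rcases mul_eq_zero.1 (by linear_combination this : t * (t - 1) = 0) with e | e
    exacts [.inl (by rw [e, S.x_zero]), .inr (by rw [sub_eq_zero.1 e])]
  obtain ⟨b, hb⟩ := xr 1 (two 1 (by decide)).1
  obtain ⟨c, hc⟩ := xr 4 (two 4 (by decide)).1
  have hz : π ⁅b, c⁆ = S.x (rtD4 R 5) 1 := by
    rw [map_commutatorElement, hb, hc, hU.comm_A2 (SimplyLaced.noG2 h.len_eq) h.refl_rt.1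
      ((R.pair_comm_of_len (h.len_eq _ _)).trans h.refl_rt.1), h.refl_rt.2]
    congr 1
    rcases S.η_sign (rtD4 R 1) (rtD4 R 4) with e | e <;> rw [e] <;> push_cast <;> [ring; linear_combination -h2]
  have ls := fun i j => h.kill_ls C (π := π) one_lt_two hθ hF (i := i) (j := j)
  have lc : ∀ i ∈ ([1, 4, 5] : List (Fin 6)), ∀ j ∈ ([0, 2, 3] : List (Fin 6)),
      (∀ u ∈ ov piD4 (vD4 i), ∀ v ∈ ov piD4 (vD4 j), 0 ≤ bil cD4 u v) → OK π ⊥ (X i) (X j) := fun i hi j hj e => by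
    rw [hX, hX]; exact Ctx.lc_of_kill' hπ hK (fl i).1 (fl j).1 (h.not_comb C e) (ls i j hi hj)
  have l5 : ∀ i, OK π ⊥ (X i) (X 5) := fun i => by
    by_cases hi : i ∈ ([0, 2, 3] : List (Fin 6))
    · exact (lc 5 (by decide) i hi (by clear lc; revert i; decide +kernel)).symm
    obtain ⟨x, hx, y, hy, e⟩ := h.exists_comm_two C D h2
    obtain ⟨x, rfl⟩ := hK hx.2
    obtain ⟨y, rfl⟩ := hK hy.2
    refine lc_of_gen hπ (s := {S.x (rtD4 R 5) 1}) (fun g hg => ?_) ?_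
    · rcases (two 5 (by decide)).2 g hg with rfl | rfl
      exacts [one_mem _, Subgroup.subset_closure rfl]
    rintro _ rfl
    have := (by decide +kernel : ∀ i ∉ ([0, 2, 3] : List (Fin 6)), ∀ j ∈ ([2, 3] : List (Fin 6)),
      ∀ u ∈ ov piD4 (vD4 i), ∀ v ∈ ov piD4 (vD4 j), 0 ≤ bil cD4 u v) i hi
    exact ⟨x, y, e, fun g hg => commute_commutator hπ (h.commute C (this 2 (by decide)) (hX i ▸ hg).1 hx.1)
      (h.commute C (this 3 (by decide)) (hX i ▸ hg).1 hy.1)⟩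
  have ht : ∀ m, S.Uht m ⊓ K ≤ ⨆ (i) (_ : m ≤ R.ht (rtD4 R i)), X i := fun m => by
    simpa only [hX] using C.XK_ht_le (h.sl.ht_ρ C) (h.flat C) _ h.pos_rt (h.cov C) (h.inj C) m
  have k5 : KAt π (Subgroup.zpowers ⁅b, c⁆) (X 5) := by
    refine kAt_zpowers ?_ (by simp [hz, hU.x_eq_one_iff]) (hz ▸ (two 5 (by decide)).1) (hz ▸ (two 5 (by decide)).2)
    have e1 := (l5 1).commute (hb ▸ (two 1 (by decide)).1) (hz ▸ (two 5 (by decide)).1)
    have e2 := comm_of_ker hπ (z := b * b) (by rw [map_mul, hb, ← S.x_add, one_add_one_eq_two, h2, S.x_zero]) c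
    calc ⁅b, c⁆ * ⁅b, c⁆ = b * ⁅b, c⁆ * b⁻¹ * ⁅b, c⁆ := by rw [e1.eq, mul_inv_cancel_right]
      _ = b * b * c * (b * b)⁻¹ * c⁻¹ := by simp only [commutatorElement_def]; group
      _ = 1 := by rw [← e2]; group
  have nU : Nrm π (S.Uht 1 ⊓ K) (Subgroup.zpowers ⁅b, c⁆) := nrm_of_ok
    ((OK.of_le_iSup hπ ((ht 1).trans (iSup_mono fun i => iSup_le fun _ => le_rfl)) xr (fun _ => nrm_bot) l5).mono bot_le le_rfl
      le_rfl) k5
  have xu : ∀ i, X i ≤ S.Uht (R.ht (rtD4 R i)) ⊓ K := fun i => hX i ▸ C.XK_le_Uht (h.sl.ht_ρ C) (h.pos_rt i)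
  have xu' : ∀ i, X i ≤ S.Uht 1 ⊓ K := fun i => (xu i).trans (inf_le_inf_right _ (S.Uht_anti ((R.pos_iff_ht _).1 (h.pos_rt i))))
  have nH : Nrm π (S.HK K) (Subgroup.zpowers ⁅b, c⁆) := fun g hg a ha => by
    have : ∀ k ∈ ([1, 4, 5] : List (Fin 6)), Commute (π g) (S.x (rtD4 R k) 1) := fun k hk =>
      mul_inv_eq_iff_eq_mul.1 (((two k hk).2 _ (hX k ▸ conj_XK hg (hX k ▸ (two k hk).1))).resolve_left
        (by simp [hU.x_eq_one_iff]))
    obtain ⟨k, rfl⟩ := ha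
    rw [((commute_commutator hπ (hb ▸ this 1 (by decide)) (hc ▸ this 4 (by decide))).zpow_right k).eq, mul_inv_cancel_right]
    exact ⟨k, rfl⟩
  have o14 : OK π (Subgroup.zpowers ⁅b, c⁆) (X 1) (X 4) :=
    ok_of_two hπ (hb ▸ (two 1 (by decide)).2) (hc ▸ (two 4 (by decide)).2) (Subgroup.mem_zpowers _)
  obtain ⟨⟨⟨L0, p0⟩, ⟨L2, p2⟩, L3, p3⟩, l3⟩ := h.p_short C one_lt_two hθ hF D hπ hK
  have o23 : OK π (Subgroup.zpowers ⁅b, c⁆) (X 2) (X 3) := fun a y ha hy => by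
    have W : ∀ (P : Fin 6 → Prop) Y, (∀ i, P i → OK π (Subgroup.zpowers ⁅b, c⁆) (X i) Y) →
        OK π (Subgroup.zpowers ⁅b, c⁆) (⨆ (i) (_ : P i), X i) Y := fun P Y e =>
      OK.of_le_iSup hπ (iSup_subtype' (p := P) (f := fun i _ => X i)).le (fun i => xr i.1) (fun i => nU.mono (xu' i.1))
        fun i => e i.1 i.2
    have w3 : OK π (Subgroup.zpowers ⁅b, c⁆) (⨆ (i) (_ : i ≠ 0 ∧ i ≠ 2), X i) (X 3) := W _ _ fun i hi => by
      refine OK.mono ?_ bot_le le_rfl le_rfl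
      by_cases e : i = 3
      · rwa [e, hX]
      · exact lc i (by revert i; decide) 3 (by decide) (by revert i; decide +kernel)
    have w4 : OK π (Subgroup.zpowers ⁅b, c⁆) (⨆ (i) (_ : i ≠ 0), X i) (⨆ (i) (_ : 4 ≤ R.ht (rtD4 R i)), X i) :=
      W _ _ fun i hi => (W _ _ fun j hj => by
        rw [h.ht_rt] at hj
        obtain rfl | rfl : j = 4 ∨ j = 5 := by revert j; decide
        swap
        · exact (l5 i).symm.mono bot_le le_rfl le_rfl
        obtain rfl | rfl | rfl | hi : i = 1 ∨ i = 4 ∨ i = 5 ∨ i ∈ ([2, 3] : List (Fin 6)) := by revert i; decide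
        exacts [o14.symm, ok_of_two hπ (hc ▸ (two 4 (by decide)).2) (hc ▸ (two 4 (by decide)).2) (by simp),
          (l5 4).mono bot_le le_rfl le_rfl, (lc 4 (by decide) i (by revert i; decide) (by revert i; decide +kernel)).mono
            bot_le le_rfl le_rfl]).symm
    obtain ⟨n, hn⟩ := hK n1
    have g0 : π (n⁻¹ * a * n) ∈ X 0 := by
      rw [hX, ← C.preimage_orb n1 (S.wprod_mem_NW _), conj_XK_iff n1 (S.induces_wprod _)]
      simpa only [hn, mul_assoc, map_mul, map_inv, mul_inv_cancel_left, mul_inv_cancel, mul_one] using hX 2 ▸ ha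
    have g1 : π (⁅b, n⁻¹ * a * n⁆ * a⁻¹) ∈ ⨆ (i) (_ : 3 ≤ R.ht (rtD4 R i)), X i := by
      obtain ⟨l, -, a2, a3⟩ := exists_prodL' (S := S) (fl 0).1 (fl 0).closed
      obtain ⟨t, e⟩ := a3 _ (hX 0 ▸ g0).1
      have := hU.comm_mul_mem h.len_eq (i := 1) (l := l) (fun r hr => ⟨(fl 0).1 r ((a2 r).1 hr), by
        have := (h.sl.mem_orb_iff C).1 ((a2 r).1 hr)
        rw [pair_eq_bil h.cartan h.len_eq, R.root_simple]
        rw [h.root_rt] at this
        exact (by decide +kernel : ∀ v ∈ ov piD4 (vD4 0), bil cD4 (Pi.single 1 1) v = -1) _ this⟩) t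
      rw [← e, ← wprod_singleton S.nS, ← hn] at this
      refine ht 3 ⟨by simpa [hb, mul_assoc, rtD4] using this, ?_⟩
      have := (xu' 1 (hb ▸ (two 1 (by decide)).1)).2
      have := (xu' 0 g0).2
      have := (xu' 2 ha).2
      rw [map_mul, map_commutatorElement, commutatorElement_def, map_inv]
      exact K.mul_mem (K.mul_mem (K.mul_mem (K.mul_mem ‹_› ‹_›) (K.inv_mem ‹_›)) (K.inv_mem ‹_›)) (K.inv_mem ‹_›)
    generalize n⁻¹ * a * n = g at g0 g1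
    have g2 : π ⁅y⁻¹, g⁆ ∈ ⨆ (i) (_ : 4 ≤ R.ht (rtD4 R i)), X i := by
      have a1 := xu 3 (inv_mem hy)
      have a2 := xu' 0 g0
      rw [h.ht_rt] at a1
      rw [map_commutatorElement, map_inv]
      exact ht 4 ⟨S.commutator_Uht_le 3 1 (Subgroup.commutator_mem_commutator a1.1 a2.1),
        K.mul_mem (K.mul_mem (K.mul_mem a1.2 a2.2) (K.inv_mem a1.2)) (K.inv_mem a2.2)⟩
    have g3 : π (b⁻¹ * (⁅b, g⁆ * a⁻¹)) ∈ ⨆ (i) (_ : i ≠ 0 ∧ i ≠ 2), X i := by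
      rw [map_mul, map_inv]
      refine mul_mem (inv_mem (le_iSup₂_of_le (f := fun i (_ : i ≠ 0 ∧ i ≠ 2) => X i) 1 (by decide) le_rfl
        (hb ▸ (two 1 (by decide)).1))) ((biSup_mono fun i hi => ?_ : _ ≤ ⨆ (i) (_ : i ≠ 0 ∧ i ≠ 2), X i) g1)
      rw [h.ht_rt] at hi; revert i; decide
    have g4 : π (b⁻¹ * (⁅b, g⁆ * a⁻¹) * a) ∈ ⨆ (i) (_ : i ≠ 0), X i := by
      rw [map_mul]
      exact mul_mem ((biSup_mono fun i hi => hi.1 : _ ≤ ⨆ (i) (_ : i ≠ 0), X i) g3)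
        (le_iSup₂_of_le (f := fun i (_ : i ≠ 0) => X i) 2 (by decide) le_rfl ha)
    have g5 := (lc 1 (by decide) 3 (by decide) (by decide +kernel)).commute (hb ▸ (two 1 (by decide)).1) hy
    have := nU.inv ((iSup₂_le fun i _ => xu' i) g3) (mul_mem (inv_mem (nU y (xu' 3 hy) _ (w4 _ _ g4 g2)))
      (inv_mem (w3 _ _ g3 hy)))
    convert this using 1
    simp only [commutatorElement_def, mul_inv_rev, inv_inv, mul_assoc, inv_mul_cancel_left, mul_inv_cancel_left,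
      inv_mul_cancel, mul_one, mul_right_inj]
    rw [← mul_assoc b, g5.eq]
    group
  obtain ⟨n, hn⟩ := hK n1
  have p4 := Ctx.conj_lift (hn ▸ n1) (hn ▸ S.induces_wprod [1]) ⟨hX 5 ▸ k5, nH⟩
  have o03 := Ctx.conj_ok (hn ▸ n1) (hn ▸ S.induces_wprod [1]) (hX 2 ▸ hX 3 ▸ o23)
  have e3 := C.preimage_orb n1 (S.wprod_mem_NW _) (rtD4 R 3)
  rw [R.root_inj (a₁ := wprod R.sperm [1] (rtD4 R 3)) (a₂ := rtD4 R 3)
    (by rw [root_wprod h.cartan, h.root_rt]; decide +kernel)] at e3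
  rw [e3, show _ ⁻¹' C.orb (rtD4 R 2) = C.orb (rtD4 R 0) from C.preimage_orb n1 (S.wprod_mem_NW _) _] at o03
  rw [show _ ⁻¹' C.orb (rtD4 R 5) = C.orb (rtD4 R 4) from C.preimage_orb n1 (S.wprod_mem_NW _) _] at p4
  obtain ⟨L1, p1⟩ : C.P π (rtD4 R 1) := Ctx.P.of_conj hK n2 (S.wprod_mem_NW _) ⟨_, p4⟩
  have k02 : TwS.Kill π (S.HK K) (S.XK K (C.orb (rtD4 R 0))) (S.XK K (C.orb (rtD4 R 2))) := by
    obtain ⟨t, ht⟩ := exists_pow_ne_one (F := F) (n := 6) (by omega) (by omega)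
    have e7 : ∀ t : Fˣ, t ^ 7 = 1 := fun t => by simpa [Nat.card_units, hF] using pow_card_eq_one' (x := t)
    have e : ∀ t : Fˣ, (R.chi Fˣ (rtD4 R 0) (tD4 θ t 1) : F) = t ^ 2 ∧ (R.chi Fˣ (rtD4 R 2) (tD4 θ t 1) : F) = t ^ 2 :=
      fun t => by
        have := congrArg Units.val (e7 t)
        simp only [h.chi_rt, tD4, Units.val_pow_eq_pow_val, Units.val_one] at this ⊢
        simp [hθ]; field_simp; linear_combination -this
    have h0 : (1 + t : F) ≠ 0 := fun e => ht (Units.ext (by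
      simp [show (t : F) = 1 by linear_combination e - h2]))
    refine C.kill_two_orb hπ (fl 0) (fl 2) (h.τ_tD4 t (map_one _)) (h.τ_tD4 (Units.mk0 _ h0) (map_one _)) (v := t ^ 2)
      (fun e => ht (Units.ext ?_)) (e t).1 (e t).2 ((e _).1.trans ?_) ((e _).2.trans ?_)
    · push_cast; linear_combination (t ^ 2 + 1 : F) * e - h2
    all_goals simp; linear_combination (t + t ^ 2 : F) * h2
  refine C.exists_kAt_rep' (h.sl.ht_ρ C) (h.flat C) _ h.pos_rt (h.cov C) (h.inj C) hπ hK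
    ![L0, L1, L2, L3, _, Subgroup.zpowers ⁅b, c⁆] (fun i => by fin_cases i; exacts [p0, p1, p2, p3, p4, ⟨hX 5 ▸ k5, nH⟩])
    fun i j hij => ?_
  wlog hlt : i < j generalizing i j
  · exact (this j i hij.symm (hij.lt_or_gt.resolve_left hlt)).imp (Or.imp OK.symm fun ⟨k, a1, a2, a4⟩ => ⟨k, a2, a1, a4.symm⟩)
      TwS.Kill.symm
  simp only [h.ht_rt]
  fin_cases i <;> fin_cases j <;> first
    | exact absurd hlt (by decide)
    | exact .inr (ls _ _ (by decide) (by decide))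
    | exact .inr (ls _ _ (by decide) (by decide)).symm
    | skip
  · exact .inr k02
  · exact .inl (.inr ⟨4, by decide, by decide, o03⟩)
  · exact .inl (.inr ⟨5, by decide, by decide, hX 1 ▸ hX 4 ▸ o14⟩)
  · exact .inl (.inl (hX 1 ▸ hX 5 ▸ l5 1))
  · exact .inl (.inr ⟨5, by decide, by decide, hX 2 ▸ hX 3 ▸ o23⟩)
  · exact .inl (.inl (hX 4 ▸ hX 5 ▸ l5 4))

end GAut.IsD4

theorem IsTwD4.schur [Finite Φ] {K : Subgroup G} [Finite K] {q : ℕ} (h : S.IsTwD4 K q) : HasCyclicSchurMultiplier K 1 := by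
  refine CL.Schur.trivial_of_forall_stem fun Γ _ _ τ hτ => ?_
  obtain ⟨A, θ, h1, h2, D⟩ := h.ex'
  have := h.finite
  have hq := h.one_lt
  have C := D.ctx h.faithful h.le h1.hMul (h1.torus_mem D)
  have hU := h1.faithful.uFaithful
  obtain ⟨p0, p1, p2, p3⟩ := h1.π_eq ▸ piD4_apply
  have := D.card_ker_mul_le h.faithful h.le hτ h1.hMul (c := ![q - 1, q ^ 3 - 1]) (by
    obtain rfl | h3 : q = 2 ∨ 2 < q := by omega
    exacts [h1.split_two C D h2 h.card (GAut.TwData.ker_le h.le hτ) (GAut.TwData.le_range h.le hτ),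
      h1.split_big C hq h2 h.card D (GAut.TwData.ker_le h.le hτ) (GAut.TwData.le_range h.le hτ) h3]) fun k => .inl (by
    fin_cases k
    · have := A.sl2Node_single hU p1
      simp only [h1.φ_eq, h2, card_fixed hq.le h.card] at this
      exact this
    · exact h.card ▸ A.sl2Node_triple hU (h1.ca 0 2) (h1.ca 0 3) (h1.ca 2 3) p0 p2 p3
        fun t => by simp only [h1.φ_eq, h1.cube])
  obtain ⟨r, rfl⟩ := Nat.exists_eq_add_of_lt hq
  rw [h.card_H, Fin.prod_univ_two] at this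
  refine (Subgroup.card_le_one_iff_eq_bot _).1 (Nat.le_of_mul_le_mul_right (this.trans_eq ?_)
    (by simp only [show 1 + r + 1 - 1 = r + 1 by omega]; positivity))
  change (_ - 1) * (_ - 1) = _
  rw [show (1 + r + 1) ^ 3 - 1 = (r + 1) * ((1 + r + 1) ^ 2 + (1 + r + 1) + 1) from Nat.sub_eq_of_eq_add (by ring),
    show 1 + r + 1 - 1 = r + 1 by omega]
  ring

end StSys

end CL.Chev
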