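/-
The Suzuki node of `²F₄(q)`: cyclic Sylow subgroups for the odd primes.
-/
import Cfsg.Agent.Chev.Fold
import Cfsg.Agent.Chev.SzSinger
import Cfsg.Agent.Cls.OChev2
import Cfsg.Agent.Cls.OrthOddEven
import Cfsg.Agent.Known.TwSNode
import Cfsg.Agent.Chev.TwF4

set_option autoImplicit false

namespace CL.Chev

open Cfsg Cfsg.Lie Cert CL.Cls

theorem isCyclic_of_not_dvd_index {L : Type*} [Group L] [Finite L] {T : Subgroup L} [IsCyclic T] {r : ℕ} [hr : Fact r.Prime]
    (h : ¬ r ∣ T.index) {P : Subgroup L} (hP : IsPGroup r P) : IsCyclic P := by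
  obtain ⟨S⟩ : Nonempty (Sylow r T) := inferInstance
  obtain ⟨P', hP'⟩ := hP.exists_le_sylow
  let S' : Sylow r L := (S.isPGroup'.map T.subtype).toSylow (by
    rw [Subgroup.index_map_subtype]; exact hr.out.not_dvd_mul S.not_dvd_index h)
  have : IsCyclic S' := Subgroup.isCyclic_of_le (Subgroup.map_subtype_le _)
  have : IsCyclic P' := isCyclic_of_surjective _ (Sylow.equiv S' P').surjective
  exact Subgroup.isCyclic_of_le hP'

variable {F : Type*} [Field F] [Finite F] {G : Type*} [Group G] {r : ℕ} [hr : Fact r.Prime] (h2 : r ≠ 2)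
  (hq : r ∣ Nat.card F ^ 2 + 1)

include h2 hq in
theorem isCyclic_of_matrix (ρ : G →* Matrix (Fin 4) (Fin 4) F) (hρ : Function.Injective ρ) {P : Subgroup G}
    (hP : IsPGroup r P) : IsCyclic P := by
  have : Finite G := Finite.of_injective ρ hρ
  rcases subsingleton_or_nontrivial P with h | h
  · infer_instance
  have := hP.center_nontrivial
  obtain ⟨z, hz⟩ := exists_prime_orderOf_dvd_card' (G := Subgroup.center P) r
    ((hP.to_subgroup _).card_eq_or_dvd.resolve_left Finite.one_lt_card.ne')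
  rw [← Subgroup.orderOf_coe, ← Subgroup.orderOf_coe] at hz
  have := Sz.isCyclic_centralizer_of_prime ρ hρ (hz ▸ hr.out) (hz ▸ h2) (hz ▸ hq)
  exact Subgroup.isCyclic_of_le fun g hg => Subgroup.mem_centralizer_singleton_iff.2
    (congrArg Subtype.val (Subgroup.mem_center_iff.1 z.2 ⟨g, hg⟩))

include h2 hq in
theorem isCyclic_B2 [CharP F 2] (hF : ∃ a : F, a ≠ 0 ∧ a ≠ 1) {P : Subgroup (chevB2.group F)} (hP : IsPGroup r P) :
    IsCyclic P := by
  obtain ⟨-, e, -⟩ := exists_equiv_b2 hF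
  obtain ⟨e₁⟩ := nonempty_OG_qfOdd_equiv_sp (m := 2) (F := F)
  let ρ : commutator (OG (qfOdd 2 F)) →* Matrix (Fin 4) (Fin 4) F :=
    (Matrix.reindexAlgEquiv F F (finSumFinEquiv (m := 2) (n := 2))).toMonoidHom.comp
      ((Submonoid.subtype _).comp (e₁.toMonoidHom.comp (Subgroup.subtype _)))
  have hρ : Function.Injective ρ := (Matrix.reindexAlgEquiv F F (finSumFinEquiv (m := 2) (n := 2))).injective.comp
    (Subtype.val_injective.comp (e₁.injective.comp Subtype.val_injective))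
  have := Finite.of_injective ρ hρ
  have hψ : Function.Surjective (e.symm.toMonoidHom.comp (QuotientGroup.mk' _)) :=
    e.symm.surjective.comp (QuotientGroup.mk'_surjective _)
  obtain ⟨P', hP'⟩ := hP.exists_le_sylow
  obtain ⟨S, rfl⟩ := Sylow.mapSurjective_surjective hψ r P'
  have := isCyclic_of_matrix h2 hq ρ hρ S.isPGroup'
  have : IsCyclic (Sylow.mapSurjective hψ S) := isCyclic_of_surjective _ (MonoidHom.subgroupMap_surjective _ S.1)
  exact Subgroup.isCyclic_of_le hP'

/-- The properties of the Levi subgroup of type `B₂` that are used. -/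
def StSys.LeviB2 {Φ : Type} {R : RS (Fin 4) Φ} (S : StSys R F G) : Prop :=
  ∃ M : Subgroup G, (∀ j ∈ jF4 1, ∀ t, S.x (R.simple j) t ∈ M ∧ S.x (R.neg (R.simple j)) t ∈ M) ∧
    (∀ g ∈ M, (∀ j ∈ jF4 1, ∀ t, Commute g (S.x (R.simple j) t) ∧ Commute g (S.x (R.neg (R.simple j)) t)) → g = 1) ∧
    ∀ r, r.Prime → r ≠ 2 → r ∣ Nat.card F ^ 2 + 1 → ∀ P ≤ M, IsPGroup r P → IsCyclic P

def orbB2 : Fin chevB2.rank → List (Fin chevF4.rank) := (![[1], [2]] : Fin 2 → List (Fin 4))

theorem leviB2 [CharP F 2] (hF : ∃ a : F, a ≠ 0 ∧ a ≠ 1) : StSys.LeviB2 (R := realF4.R) (realF4.S F) := by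
  have h := realB2.full F
  obtain ⟨f, f1, f2, f3⟩ := tabF4.exists_fold tabB2 realF4 realB2
    (O := fun r => [[17], [19], [20], [22], [25], [27], [28], [30]].getD r [])
    (p := fun a => [17, 19, 20, 22, 25, 27, 28, 30].idxOf a) (ε := fun _ => 1) (by decide +kernel) (fun _ => .inl rfl) orbB2
    (by decide +kernel) F ((injective_iff_map_eq_one _).2 fun a ha => by
      have := pow_eq_one_of_matPow (e := 2) (A := CL.Cox.cB2) (P := !![2, 2; 1, 2]) (matrix_ext_of_all (by decide +kernel))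
        ((h.hMul.torus_eq_one_iff h.faithful.uFaithful h.adjoint (realB2.cartanM_eq.trans
          (matrix_ext_of_all (n := 2) (by decide +kernel))) a).1 ha)
      refine funext fun i => Units.ext ?_
      have : (a i : F) ^ 2 = 1 := congrArg Units.val (congrFun this i)
      exact (sq_eq_one_iff.1 this).elim id fun e => e.trans (CharTwo.neg_eq 1))
  let g := (chevF4.group F).subtype.comp f
  have g1 : Function.Injective g := Subtype.val_injective.comp f1
  have e : ∀ i t, ∃ j ∈ jF4 1, g ((realB2.Sg F).x (realB2.R.simple i) t) = (realF4.S F).x (realF4.R.simple j) t ∧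
      g ((realB2.Sg F).x (realB2.R.neg (realB2.R.simple i)) t) = (realF4.S F).x (realF4.R.neg (realF4.R.simple j)) t :=
    fun i t => by
      simp only [g, MonoidHom.comp_apply, f2, f3]
      fin_cases i
      exacts [⟨1, .inl rfl, mul_one _, mul_one _⟩, ⟨2, .inr rfl, mul_one _, mul_one _⟩]
  refine ⟨g.range, ?_, ?_, fun r hr h2 hq P hP hP' => ?_⟩
  · rintro j (rfl | rfl) t
    exacts [⟨⟨_, (congrArg Subtype.val (f2 ⟨0, by decide⟩ t)).trans (mul_one _)⟩,
      ⟨_, (congrArg Subtype.val (f3 ⟨0, by decide⟩ t)).trans (mul_one _)⟩⟩,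
      ⟨⟨_, (congrArg Subtype.val (f2 ⟨1, by decide⟩ t)).trans (mul_one _)⟩,
      ⟨_, (congrArg Subtype.val (f3 ⟨1, by decide⟩ t)).trans (mul_one _)⟩⟩]
  · rintro _ ⟨y, rfl⟩ hy
    have : ⊤ ≤ Subgroup.centralizer {y} := by
      rw [← h.top, StSys.grp_eq_XS_simple, StSys.XS_le_iff]
      rintro _ ⟨i, rfl | rfl⟩ t <;> obtain ⟨j, hj, e1, e2⟩ := e i t <;>
        refine Subgroup.mem_centralizer_singleton_iff.2 (g1 ?_) <;> rw [map_mul, map_mul]
      exacts [e1 ▸ (hy j hj t).1.symm.eq, e2 ▸ (hy j hj t).2.symm.eq]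
    rw [show y = 1 from (realB2.center_eq_bot F).le (Subgroup.mem_center_iff.2 fun x =>
      Subgroup.mem_centralizer_singleton_iff.1 (this trivial)), map_one]
  · have : Fact r.Prime := ⟨hr⟩
    have := isCyclic_B2 h2 hq hF (hP'.comap_of_injective g g1)
    exact isCyclic_of_surjective (g.subgroupComap P) fun x =>
      let ⟨y, hy⟩ := hP x.2; ⟨⟨y, by simp [hy]⟩, Subtype.ext hy⟩

theorem StSys.IsTwF4.node {Φ : Type} [Finite Φ] {R : RS (Fin 4) Φ} {S : StSys R F G} {K : Subgroup G} [Finite K] {q : ℕ}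
    (h : S.IsTwF4 K q) (hB : S.LeviB2) {A : S.res.GAut} {θ : F ≃+* F} {c d : Φ} (h1 : A.IsF4 θ c d)
    (D : A.TwData jF4 (K.subgroupOf S.grp)) : Nat.card ((D.Q h.faithful h.le).T (D.eS h.faithful h.le 1)) ≤ q - 1 ∧
      ∀ r, r.Prime → r.Coprime (Nat.card (S.U ⊓ K : Subgroup G)) →
        ∀ P ≤ (D.Q h.faithful h.le).L (D.eS h.faithful h.le 1), IsPGroup r P → IsCyclic P := by
  obtain ⟨M, m1, m2, m3⟩ := hB
  have hM : S.res.XS (R.PhiJ (jF4 1)) ≤ M.subgroupOf S.grp := S.res.XS_PhiJ_le' (fun j hj t => (m1 j hj t).1) fun j hj t => (m1 j hj t).2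
  have hL : (D.Q h.faithful h.le).L (D.eS h.faithful h.le 1) ≤ M.subgroupOf K := sup_le
    (fun u hu => hM (S.res.XS_mono (fun _ h => h.2) ((D.mem_Q_Un h.faithful h.le 1).1 hu)))
    fun u hu => hM (S.res.XS_mono (fun _ h => h.2) ((D.mem_Q_Vs h.faithful h.le 1).1 hu))
  choose a ha ha' using fun t : (D.Q h.faithful h.le).T (D.eS h.faithful h.le 1) => h1.exists_torus
    (g := Subgroup.inclusion h.le t) (mem_res_H.2 (D.Q_H h.faithful h.le ▸ t.2.1).1) (D.fix _ t.1.2)
  let φ : (D.Q h.faithful h.le).T (D.eS h.faithful h.le 1) →* Fˣ := MonoidHom.mk' (fun t => R.chi Fˣ (R.simple 2) (a t))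
    fun s t => by rw [← map_mul, h1.torus_injective (a₂ := a s * a t) ((ha' _).trans (by rw [map_mul, ha', ha']; rfl))]
  have hφ : Function.Injective φ := (injective_iff_map_eq_one _).2 fun t ht => by
    have e2 : R.chi Fˣ (R.simple 2) (a t) = 1 := ht
    have e1 : R.chi Fˣ (R.simple 1) (a t) = 1 := by
      have := congrArg A.σ (h1.hMul.conj_torus (a t) (R.simple 2) 1)
      rw [map_mul, map_mul, map_inv, A.map_torus, ha, e2, h1.suzP.σb, h1.suzP.σb, h1.hMul.conj_torus] at this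
      simpa using h1.faithful.uFaithful.x_injective _ this
    refine Subtype.ext (Subtype.ext (m2 _ (hL t.2.2) fun j hj u => ?_))
    have e : R.chi Fˣ (R.simple j) (a t) = 1 := by rcases hj with rfl | rfl <;> assumption
    have b1 := h1.hMul.conj_torus (a t) (R.simple j) u
    have b2 := h1.hMul.conj_torus (a t) (R.neg (R.simple j)) u
    rw [show R.chi Fˣ (R.neg _) _ = (R.chi Fˣ (R.simple j) (a t))⁻¹ by simp [R.chi_apply], e, inv_one] at b2
    rw [e] at b1
    rw [ha', Units.val_one, one_mul, mul_inv_eq_iff_eq_mul] at b1 b2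
    exact ⟨congrArg Subtype.val b1, congrArg Subtype.val b2⟩
  refine ⟨(Nat.card_le_card_of_injective φ hφ).trans_eq (by rw [Nat.card_units, h.card]), fun r hr hc P hP hP' => ?_⟩
  have : Fact r.Prime := ⟨hr⟩
  rw [h.card_U, Nat.coprime_pow_right_iff (by omega)] at hc
  by_cases hq : r ∣ q ^ 2 + 1
  · have := m3 r hr (by rintro rfl; exact Nat.not_even_iff_odd.2 (Nat.coprime_two_left.1 hc) h.even) (h.card ▸ hq)
      (P.map K.subtype) (Subgroup.map_le_iff_le_comap.2 (hP.trans hL)) (hP'.map _)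
    exact isCyclic_of_surjective _ (P.equivMapOfInjective _ K.subtype_injective).symm.surjective
  have := isCyclic_of_injective φ hφ
  have e := SharpBN.card_L (D.eS h.faithful h.le 1)
  have e' : Nat.card ((D.Q h.faithful h.le).Un (D.eS h.faithful h.le 1)) = q ^ 2 := by
    have := D.cellIdx_gen h.faithful h.le 1
    rw [BN.gen_def, SharpBN.cellIdx_mk, h1.fixCard_eq, h.card] at this
    exact this
  have hT : (D.Q h.faithful h.le).T (D.eS h.faithful h.le 1) ≤ _ := inf_le_right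
  have := isCyclic_of_surjective _ (Subgroup.subgroupOfEquivOfLe hT).symm.surjective
  rw [e', ← Nat.card_congr (Subgroup.subgroupOfEquivOfLe hT).toEquiv, ← Subgroup.index_mul_card,
    mul_left_inj' Nat.card_pos.ne'] at e
  have : IsCyclic (P.subgroupOf _) := isCyclic_of_not_dvd_index (e ▸ hr.not_dvd_mul (hr.coprime_iff_not_dvd.1 (hc.pow_right 2)) hq)
    (hP'.comap_of_injective _ (Subgroup.subtype_injective _))
  exact isCyclic_of_surjective _ (Subgroup.subgroupOfEquivOfLe hP).surjective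

end CL.Chev
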