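/-
The Schur multiplier of `²F₄(q)`, `q ≥ 8`, is trivial.
-/
import Cfsg.Agent.Known.TwSF4
import Cfsg.Agent.Known.TwSF4Node
import Cfsg.Agent.Fgs.SchurCover

set_option autoImplicit false

namespace CL.Chev

open Cfsg CL.TwS CL.Cox RS
open scoped commutatorElement

theorem comm_mul_mul {G : Type*} [Group G] {a a' b b' w : G} (h1 : Commute a w) (h2 : Commute a' w) (h3 : Commute a b')
    (h4 : Commute a' b) (h5 : Commute a ⁅a', b'⁆) (h6 : Commute b ⁅a', b'⁆) : ⁅a * a', b * b' * w⁆ = ⁅a', b'⁆ * ⁅a, b⁆ :=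
  calc ⁅a * a', b * b' * w⁆ = a * (a' * b) * b' * (w * (a * a')⁻¹) * w⁻¹ * b'⁻¹ * b⁻¹ := by
        simp only [commutatorElement_def]; group
    _ = a * b * a' * b' * a'⁻¹ * (a⁻¹ * b'⁻¹) * b⁻¹ := by rw [← (h1.mul_left h2).inv_left.eq, h4.eq]; group
    _ = a * b * ⁅a', b'⁆ * a⁻¹ * b⁻¹ := by rw [h3.inv_inv.eq, commutatorElement_def]; group
    _ = _ := by rw [(h5.mul_left h6).eq, commutatorElement_def a]; group

namespace StSys

theorem GAut.Ctx.chi_ρ {ι Φ : Type} [Fintype ι] [DecidableEq ι] {R : RS ι Φ} {F : Type*} [Field F] {G : Type*} [Group G]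
    {S : StSys R F G} [Finite Φ] {A : S.GAut} {K : Subgroup G} (C : A.Ctx K) (s : Φ) :
    ∃ ψ : F ≃+* F, ∀ c, A.τ c = c → (R.chi Fˣ (C.ρ s) c : F) = ψ (R.chi Fˣ s c) := by
  obtain ⟨ε, i, hε, h1, -⟩ := A.exists_map_ρ C.faithful s
  refine ⟨A.φ i, fun c hc => ?_⟩
  have := congrArg A.σ (C.hMul.conj_torus c s 1)
  rw [map_mul, map_mul, map_inv, A.map_torus, hc, h1, h1, C.hMul.conj_torus] at this
  have := C.faithful.uFaithful.x_injective _ this
  rcases hε with rfl | rfl <;> simpa using this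

variable {Φ : Type} {R : RS (Fin 4) Φ} {F : Type*} [Field F] {G : Type*} [Group G] {S : StSys R F G}

namespace GAut.IsF4

variable {A : S.GAut} {θ : F ≃+* F} {c d : Φ} (h : A.IsF4 θ c d) [Finite Φ] {K : Subgroup G} (C : A.Ctx K)
  (D : A.TwData jF4 K) {e : Φ} (he : R.root e = ![1, 3, 2, 1])
include h he

theorem flat_e : R.Flat (C.orb e) := by
  have pe : R.Pos e := by rw [RS.Pos, he, Pi.le_def]; decide
  have h1 : ∀ r ∈ C.orb e, 7 ≤ R.ht r := fun r hr => by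
    rw [h.mem_orb_iff C pe, he] at hr
    exact (by decide +kernel : ∀ v ∈ [![1, 3, 2, 1], rhoF4 ![1, 3, 2, 1]], (7 : ℤ) ≤ ∑ i, v i) _ hr
  refine ⟨fun _ => C.pos_of_mem_orb pe, fun r hr s hs k hk => ?_⟩
  have h2 := hk.ht_add_le (C.pos_of_mem_orb pe hr) (C.pos_of_mem_orb pe hs)
  have h3 : R.ht k ≤ 11 := (by decide +kernel : ∀ v ∈ posF4, ∑ i, v i ≤ 11) _
    (root_mem_F4 h.cartan (hk.pos (C.pos_of_mem_orb pe hr) (C.pos_of_mem_orb pe hs)))
  have := h1 r hr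
  have := h1 s hs
  omega

include D in
theorem exists_comm {z : G} (hz : z ∈ S.XK K (C.orb e)) : ∃ x ∈ S.XK K (clF4 R 4), ∃ y ∈ S.XK K (clF4 R 7), z = ⁅x, y⁆ := by
  have ha : R.root (wprod R.sperm [2, 3, 1, 2, 1] (R.simple 0)) = ![1, 2, 2, 1] :=
    (root_wprod_simple h.cartan _ _).trans (by decide +kernel)
  generalize wprod R.sperm [2, 3, 1, 2, 1] (R.simple 0) = a at ha
  have pa : R.Pos a := by rw [RS.Pos, ha, Pi.le_def]; decide
  have pe : R.Pos e := by rw [RS.Pos, he, Pi.le_def]; decide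
  have pa' := ((A.isSym C.faithful).pos a).2 pa
  have pe' := ((A.isSym C.faithful).pos e).2 pe
  have ha' : R.root (C.ρ a) = ![2, 4, 2, 1] := by rw [h.root_ρ C pa, ha]; decide +kernel
  have he' : R.root (C.ρ e) = ![2, 4, 3, 1] := by rw [h.root_ρ C pe, he]; decide +kernel
  have ne : C.ρ e ≠ e := fun e => absurd (he'.symm.trans (e.symm ▸ he)) (by decide)
  have hy : S.x (R.simple 1) 1 * S.x (R.simple 2) 1 * S.x c 1 ∈ S.XP {1, 2} ∧
      A.σ (S.x (R.simple 1) 1 * S.x (R.simple 2) 1 * S.x c 1) = S.x (R.simple 1) 1 * S.x (R.simple 2) 1 * S.x c 1 := by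
    simpa [suzW, -map_mul] using h.fix_suz_iff.2 ⟨1, 0, rfl⟩
  have key : ∀ u u', ⁅S.x a u * S.x (C.ρ a) u', S.x (R.simple 1) 1 * S.x (R.simple 2) 1 * S.x c 1⁆ =
      S.x (C.ρ e) u' * S.x e u := fun u u' => by
    have e1 := h.comm_x (r := a) (s := R.simple 1) (k := e) (by rw [ha, R.root_simple]; decide +kernel)
      (by rw [ha, R.root_simple]; decide +kernel) (by rw [he, ha, R.root_simple]; decide +kernel) u
    have e2 := h.comm_x (r := C.ρ a) (s := R.simple 2) (k := C.ρ e) (by rw [ha', R.root_simple]; decide +kernel)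
      (by rw [ha', R.root_simple]; decide +kernel) (by rw [he', ha', R.root_simple]; decide +kernel) u'
    rw [comm_mul_mul, e1, e2] <;> (try rw [e2]) <;> apply h.commute_x <;>
      simp only [ha, ha', he', h.root_c, R.root_simple] <;> decide +kernel
  obtain ⟨t, rfl⟩ := S.exists_prodL (h.flat_e C he).1 (h.flat_e C he).closed (l := [C.ρ e, e]) (by simpa using ne)
    (fun r => by simp only [h.mem_orb_iff C pe, ← h.root_ρ C pe, List.mem_cons, R.root_inj.eq_iff]; tauto) hz.1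
  simp only [prodL_cons, prodL_nil, mul_one, ← key] at hz ⊢
  obtain ⟨i, e1⟩ := A.map_x_two C.faithful h.suzP.two a
  obtain ⟨j, e2⟩ := A.map_x_two C.faithful h.suzP.two (C.ρ a)
  have c1 := fun t u => h.commute_x (r := C.ρ a) (s := a) (by rw [ha, ha']; decide +kernel) t u
  rw [R.root_inj (a₁ := A.ρ _ (C.ρ a)) (a₂ := a) (by rw [h.root_ρ C pa', ha', ha]; decide +kernel)] at e2
  have e3 := C.fix _ hz.2
  rw [map_commutatorElement, hy.2, map_mul, e1, e2, (c1 _ _).eq, key, key] at e3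
  obtain ⟨e4, e5⟩ := C.faithful.uFaithful.x_mul_inj ne pe' pe e3
  have m : ∀ i r t, R.Pos r → clsF4 (R.root r) = i → S.x r t ∈ S.XS (clF4 R i) := fun i r t a b => S.x_mem_XS (.intro a b) t
  refine ⟨_, ⟨mul_mem (m _ _ _ pa ?_) (m _ _ _ pa' ?_), C.fixU _ (mul_mem (S.x_mem_XS pa _) (S.x_mem_XS pa' _))
    (by rw [map_mul, e1, e2, (c1 _ _).eq, e4, e5])⟩, _, ⟨mul_mem (mul_mem (m _ _ _ (R.pos_simple _) ?_)
      (m _ _ _ (R.pos_simple _) ?_)) (m _ _ _ ((h.roots c).1 (by simp)).1 ?_), hy.elim (D.fixU 1 _)⟩, rfl⟩ <;>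
    simp only [h.root_c, R.root_simple, ha, ha'] <;> decide +kernel

variable {E : Type*} [Group E] {π : E →* G} [Finite F] (hF : 4 < Nat.card F) (hπ : π.ker ≤ Subgroup.center E)
  (hK : K ≤ π.range)
include hF C

omit he in
theorem kill {i j : Fin 8} (hij : i ≠ j) : TwS.Kill π (S.HK K) (S.XK K (clF4 R i)) (S.XK K (clF4 R j)) :=
  let ⟨_, h1, h2, h3⟩ := h.exists_sep (by omega) i
  C.kill_of_chi (fun _ h => h.1) (closed_clF4 h.cartan j) h1 h2 (h3 j hij.symm)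

include D hπ hK

theorem lc_five : OK π ⊥ (S.XK K (clF4 R 5)) (S.XK K (C.orb e)) := by
  have l46 : OK π ⊥ (S.XK K (clF4 R 4)) (S.XK K (clF4 R 6)) := TwS.lc_of_kill hπ (inf_le_right.trans hK)
    (inf_le_right.trans hK) (inf_le_right.trans hK) (fun x hx y hy => commute_XS_of (fun r hr s hs => h.commute_x
      ((by decide +kernel : ∀ v ∈ posF4, ∀ w ∈ posF4, clsF4 v = 4 → clsF4 w = 6 → 0 ≤ bil sF4 v w) _
        (root_mem_F4 h.cartan hr.1) _ (root_mem_F4 h.cartan hs.1) hr.2 hs.2)) hx.1 hy.1) (h.kill C hF (by decide))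
  refine lc_of_gen hπ (fun y hy => Subgroup.subset_closure hy) fun z hz => ?_
  obtain ⟨x, hx, y, hy, rfl⟩ := h.exists_comm C D he hz
  obtain ⟨a, rfl⟩ := hK hx.2
  obtain ⟨b, rfl⟩ := hK hy.2
  refine ⟨a, b, rfl, fun g hg => commute_commutator' hπ (commute_XS (fun _ h => h.1) (fun _ h => h.1)
    (fun r hr s hs k hk => ?_) hg.1 hx.1) (l46.commute hx ?_)⟩
  · have := comb_F4 h.cartan hr hs hk
    grind
  rw [map_commutatorElement, map_inv]
  refine comm_mem_XK (fun _ h => h.1) (fun _ h => h.1) (fun _ h => h.1) (fun k r s hr hs hk => ?_)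
    (fun k r s hr hs hk => ?_) (fun r hr s hs k hk => ?_) (inv_mem hy) hg <;>
    have := comb_F4 h.cartan hr hs hk <;> exact ⟨this.1, by grind⟩

theorem p_five : ∃ L, TwS.KAt π L (S.XK K (clF4 R 5)) ∧ Nrm π (S.HK K) L := by
  have ha : R.root (wprod R.sperm [2, 1] (R.simple 0)) = ![1, 1, 1, 0] :=
    (root_wprod_simple h.cartan _ _).trans (by decide +kernel)
  generalize wprod R.sperm [2, 1] (R.simple 0) = a at ha
  have pa : R.Pos a := by rw [RS.Pos, ha, Pi.le_def]; decide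
  have pe : R.Pos e := by rw [RS.Pos, he, Pi.le_def]; decide
  obtain ⟨-, N, hN, nH⟩ := C.p_of_surj hπ hK hF (h.flat_e C he) (h.exists_chi (i := 0) pe (by rw [he]; decide +kernel))
  have i1 : C.orb e ⊆ clF4 R 5 := fun r hr => ⟨C.pos_of_mem_orb pe hr, by
    rw [h.mem_orb_iff C pe, he] at hr
    exact (by decide +kernel : ∀ v ∈ [![1, 3, 2, 1], rhoF4 ![1, 3, 2, 1]], clsF4 v = 5) _ hr⟩
  have i2 : ∀ r ∈ clF4 R 5, ∀ s ∈ clF4 R 5, ∀ k, R.Comb k r s → k ∈ C.orb e := fun r hr s hs k hk => by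
    have h1 := closed_clF4 h.cartan 5 hr hs hk
    rw [h.mem_orb_iff C pe, he]
    exact (by decide +kernel : ∀ u ∈ posF4, clsF4 u = 5 → ∀ v ∈ posF4, clsF4 v = 5 → ∀ w ∈ posF4, clsF4 w = 5 →
      ∑ i, u i + ∑ i, v i ≤ ∑ i, w i → w ∈ [![1, 3, 2, 1], rhoF4 ![1, 3, 2, 1]]) _ (root_mem_F4 h.cartan hr.1) hr.2 _
      (root_mem_F4 h.cartan hs.1) hs.2 _ (root_mem_F4 h.cartan h1.1) h1.2 (hk.ht_add_le hr.1 hs.1)
  have cong : ∀ {c0 c1 c2}, A.τ c0 = c0 → A.τ c1 = c1 → A.τ c2 = c2 →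
      (R.chi Fˣ a c0 : F) + R.chi Fˣ a c1 = R.chi Fˣ a c2 → ∀ x ∈ S.XK K (clF4 R 5),
      C.hMul.torus c0 * x * (C.hMul.torus c0)⁻¹ * (C.hMul.torus c1 * x * (C.hMul.torus c1)⁻¹) *
        (C.hMul.torus c2 * x * (C.hMul.torus c2)⁻¹)⁻¹ ∈ S.XK K (C.orb e) := fun h0 h1 h2 e x hx => by
    refine ⟨?_, K.mul_mem (K.mul_mem (conj_XK (C.torus_mem h0) hx).2 (conj_XK (C.torus_mem h1) hx).2)
      (K.inv_mem (conj_XK (C.torus_mem h2) hx).2)⟩
    obtain ⟨l, -, a2, a3⟩ := exists_prodL' (S := S) (fun _ h => h.1) (closed_clF4 h.cartan 5)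
    obtain ⟨t, rfl⟩ := a3 x hx.1
    simp only [C.hMul.conj_torus_prodL]
    refine prodL_congr_mod (fun _ h => h.1) i1 i2 (fun r => (a2 r).1) fun r hr => ?_
    have := (by decide +kernel : ∀ v ∈ posF4, clsF4 v = 5 → v ∈ [![1, 3, 2, 1], rhoF4 ![1, 3, 2, 1]] ∨
      v = ![1, 1, 1, 0] ∨ v = rhoF4 ![1, 1, 1, 0]) _ (root_mem_F4 h.cartan hr.1) hr.2
    rw [← he, ← h.mem_orb_iff C pe, ← ha, ← h.root_ρ C pa, R.root_inj.eq_iff, R.root_inj.eq_iff] at this
    refine this.imp_right ?_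
    obtain ⟨ψ, hψ⟩ := C.chi_ρ a
    rintro (rfl | rfl)
    · rw [← add_mul, e]
    · rw [← add_mul, hψ _ h0, hψ _ h1, hψ _ h2, ← map_add, e]
  obtain ⟨v, hv⟩ := exists_pow_ne_one (F := F) (n := 3) (by omega) (by omega)
  have v0 := v.mul_inv
  have v1 : (1 - v : F) ≠ 0 := fun e => hv (Units.ext (by simp [← sub_eq_zero.1 e]))
  have v2 : (v + ↑v⁻¹ : F) ≠ 0 := fun e => v1 (pow_eq_zero_iff two_ne_zero |>.1
    (by linear_combination (v : F) * e - v0 - (v : F) * h.suzP.two))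
  have v3 : (1 - (v + ↑v⁻¹) : F) ≠ 0 := fun e => hv (Units.ext (by
    rw [Units.val_pow_eq_pow_val, Units.val_one]
    linear_combination (1 - v : F) * v * e + (1 - v : F) * v0 + (v ^ 2 - v : F) * h.suzP.two))
  have ex := h.exists_chi (i := 0) pa (by rw [ha]; decide +kernel)
  obtain ⟨c0, a0, b0⟩ := ex v
  obtain ⟨c1, a1, b1⟩ := ex (Units.mk0 _ v1)
  obtain ⟨c2, a2, b2⟩ := ex (Units.mk0 _ v2)
  obtain ⟨c3, a3, b3⟩ := ex (Units.mk0 _ v3)
  obtain ⟨c4, a4, -, b4⟩ := h.exists_sep (by omega) 0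
  have lc := h.lc_five C D he hF hπ hK
  obtain ⟨L, h1, h2, -⟩ := C.exists_kAt_of_chi hπ hK (fun _ h => h.1) (closed_clF4 h.cartan 5) a4 (b4 5 (by decide)) hN
    (XK_mono i1) (ok_two_mod hπ hN (XK_mono i1) (inf_le_right.trans hK) (inf_le_right.trans hK) lc nH
      (fun x hx y hy => comm_mem_XK (fun _ h => h.1) (fun _ h => h.1) (h.flat_e C he).1
        (fun k r s hr hs => i2 r hr s (i1 hs) k) (fun k r s hr hs => i2 r hr s (i1 hs) k) i2 hx hy)
      (fun _ hg _ => conj_XK hg) (C.torus_mem a0) (C.torus_mem a1) (C.torus_mem a2) (C.torus_mem a3)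
      (by simpa using cong a1 a0 (map_one _) (by simp [b0, b1]))
      (by simpa using cong a0 ((map_inv _ _).trans (congrArg _ a0)) a2 (by simp [b0, b2]))
      (by simpa using cong a3 a2 (map_one _) (by simp [b2, b3])))
    (nrm_of_ok (lc.mono bot_le le_rfl le_rfl) hN) nH
  exact ⟨L, h1, h2⟩

omit he in
theorem split : ∃ Y, TwS.KAt π Y (S.U ⊓ K) := by
  have tr : ∀ (k : Fin 2) (i j : Fin 8), (∀ v ∈ posF4, ∀ p ∈ [(i, j), (j, i)], clsF4 v = p.1 →
      (∀ l, 0 ≤ actV cF4 (wF4 k) v l) ∧ clsF4 (actV cF4 (wF4 k) v) = p.2) →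
      (∃ L, TwS.KAt π L (S.XK K (clF4 R j)) ∧ Nrm π (S.HK K) L) →
      ∃ L, TwS.KAt π L (S.XK K (clF4 R i)) ∧ Nrm π (S.HK K) L := fun k i j e ⟨L, hL⟩ => by
    obtain ⟨n, hn, hw⟩ := D.exists_n C.faithful k
    obtain ⟨g, rfl⟩ := hK hn
    exact ⟨_, preimage_clF4 h.cartan e ▸ Ctx.conj_lift hn (NW_induces hw) hL⟩
  have e0 : C.orb (R.simple 0) = clF4 R 0 := Set.ext fun r => by
    refine ⟨fun hr => ⟨C.pos_of_mem_orb (R.pos_simple 0) hr, ?_⟩, fun hr => ?_⟩ <;>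
      rw [h.mem_orb_iff C (R.pos_simple 0), R.root_simple] at *
    exacts [(by decide +kernel : ∀ v ∈ [Pi.single 0 1, rhoF4 (Pi.single 0 1)], clsF4 v = 0) _ hr,
      (by decide +kernel : ∀ v ∈ posF4, clsF4 v = 0 → v ∈ [Pi.single 0 1, rhoF4 (Pi.single 0 1)]) _
        (root_mem_F4 h.cartan hr.1) hr.2]
  have p0 := (C.p_of_surj hπ hK hF (r := R.simple 0) (e0 ▸ ⟨fun _ h => h.1, fun r hr s hs k hk => by
    have h1 := closed_clF4 h.cartan 0 hr hs hk
    have h2 := hk.ht_lt_left hr.1 hs.1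
    have h3 := (R.pos_iff_ht r).1 hr.1
    have : R.ht k = 1 := (by decide +kernel : ∀ v ∈ posF4, clsF4 v = 0 → ∑ i, v i = 1) _ (root_mem_F4 h.cartan h1.1) h1.2
    omega⟩) (h.exists_chi (i := 1) (R.pos_simple 0) (by rw [R.root_simple]; decide +kernel))).2
  rw [Ctx.P, e0] at p0
  have p5 := h.p_five C D ((root_wprod_simple h.cartan [1, 2, 3, 1, 2, 1] 0).trans (by decide +kernel)) hF hπ hK
  have p6 := tr 1 6 0 (by decide +kernel) p0
  have p2 := tr 0 2 6 (by decide +kernel) p6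
  have p1 := tr 1 1 5 (by decide +kernel) p5
  refine C.exists_kAt_ord hπ hK (fun r => clsF4 (R.root r)) _ alt_self_F4 (cls_lt_F4 h.cartan) (fun r hr => ?_)
    (fun i => ?_) fun i j hij => h.kill C hF hij.ne
  · rw [h.root_ρ C hr]
    exact (by decide +kernel : ∀ v ∈ posF4, clsF4 (rhoF4 v) = clsF4 v) _ (root_mem_F4 h.cartan hr)
  · fin_cases i
    exacts [p0, p1, p2, tr 0 3 5 (by decide +kernel) p5, tr 1 4 2 (by decide +kernel) p2, p5, p6,
      tr 0 7 1 (by decide +kernel) p1]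

end GAut.IsF4

theorem IsTwF4.schur [Finite Φ] [Finite F] {K : Subgroup G} [Finite K] {q : ℕ} (h : S.IsTwF4 K q) (hq : 4 < q)
    (hB : S.LeviB2) : HasCyclicSchurMultiplier K 1 := by
  refine CL.Schur.trivial_of_forall_stem fun Γ _ _ τ hτ => ?_
  obtain ⟨A, θ, c, d, h1, D, hT⟩ := h.ex'
  obtain ⟨p0, p1, p2, p3⟩ := h1.π_eq ▸ piF4_apply
  have := D.card_ker_mul_le h.faithful h.le hτ h1.hMul (c := ![q - 1, q - 1])
    (h1.split (D.ctx h.faithful h.le h1.hMul hT) D (h.card ▸ hq) (GAut.TwData.ker_le h.le hτ)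
      (GAut.TwData.le_range h.le hτ)) fun k => by
    fin_cases k
    · exact .inl (h.card ▸ A.sl2Node_pair h1.faithful.uFaithful (h1.ca 0 3) p0 p3 fun t => by rw [h1.φ0, h1.φ3, h1.sq'])
    · exact .inr (h.node hB h1 D)
  rw [h.card_H, Fin.prod_univ_two] at this
  exact (Subgroup.card_le_one_iff_eq_bot _).1 (Nat.le_of_mul_le_mul_right (this.trans_eq (by simp [sq]))
    (pow_pos (by omega) 2))

end StSys

end CL.Chev
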